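import Mathlib

/-!
# An automorphism of a group with central commutators

Let `P` have commutators in the central subgroup `Z`, let `g` of odd order `ϖ` normalise `P`, and put
`δ x = g x g⁻¹ x⁻¹`.  If every `δ x` commutes with its conjugate, then `δ` is nilpotent modulo `Z`.
-/

set_option autoImplicit false

open scoped commutatorElement

namespace CfsgLib.Derangements.CentralComm

variable {G : Type*} [Group G]

/-- The displacement of `x` under conjugation by `g`. -/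
def disp (g x : G) : G := g * x * g⁻¹ * x⁻¹

lemma disp_mem {P : Subgroup G} {g : G} (hg : g ∈ Subgroup.normalizer (P : Set G)) {x : G} (hx : x ∈ P) :
    disp g x ∈ P :=
  P.mul_mem ((Subgroup.mem_normalizer_iff.1 hg x).1 hx) (P.inv_mem hx)

lemma conj_disp (g x : G) : g * disp g x * g⁻¹ = disp g (g * x * g⁻¹) := by
  simp only [disp]; group

variable {P Z : Subgroup G}

lemma commute_comm (hZ : Z ≤ Subgroup.center G) {z : G} (hz : z ∈ Z) (a : G) : Commute z a :=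
  ((Subgroup.mem_center_iff.1 (hZ hz)) a).symm

section

variable (hZ : Z ≤ Subgroup.center G) (hcomm : ∀ a ∈ P, ∀ b ∈ P, ⁅a, b⁆ ∈ Z)

include hZ in
lemma comm_mul_left_of {a b c : G} (h : ⁅b, c⁆ ∈ Z) : ⁅a * b, c⁆ = ⁅a, c⁆ * ⁅b, c⁆ := by
  have e : ⁅a * b, c⁆ = a * ⁅b, c⁆ * a⁻¹ * ⁅a, c⁆ := by simp only [commutatorElement_def]; group
  rw [e, ← (commute_comm hZ h a).eq, mul_assoc ⁅b, c⁆ a, mul_inv_cancel, mul_one, (commute_comm hZ h _).eq]

include hZ in
lemma comm_mul_right_of {a b c : G} (h : ⁅a, c⁆ ∈ Z) : ⁅a, b * c⁆ = ⁅a, b⁆ * ⁅a, c⁆ := by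
  have e : ⁅a, b * c⁆ = ⁅a, b⁆ * (b * ⁅a, c⁆ * b⁻¹) := by simp only [commutatorElement_def]; group
  rw [e, ← (commute_comm hZ h b).eq, mul_assoc ⁅a, c⁆ b, mul_inv_cancel, mul_one]

include hZ in
lemma comm_center {z a : G} (hz : z ∈ Z) : ⁅z, a⁆ = 1 :=
  commutatorElement_eq_one_iff_commute.2 (commute_comm hZ hz a)

lemma comm_conj (g a b : G) : ⁅g * a * g⁻¹, g * b * g⁻¹⁆ = g * ⁅a, b⁆ * g⁻¹ := by
  simp only [commutatorElement_def]; group

include hZ hcomm in
/-- Under the hypothesis the third displacement is central. -/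
theorem disp_disp_disp_mem {g : G} (hg : g ∈ Subgroup.normalizer (P : Set G)) {ϖ : ℕ} (hodd : Odd ϖ)
    (hgϖ : g ^ ϖ = 1) (hnd : ∀ a ∈ P, (∀ b ∈ P, ⁅a, b⁆ = 1) → a ∈ Z)
    (hH : ∀ x ∈ P, ⁅disp g x, g * disp g x * g⁻¹⁆ = 1) {y : G} (hy : y ∈ P) :
    disp g (disp g (disp g y)) ∈ Z := by
  have hγ : ∀ a ∈ P, g * a * g⁻¹ ∈ P := fun a ha => (Subgroup.mem_normalizer_iff.1 hg a).1 ha
  have hd : ∀ a ∈ P, disp g a ∈ P := fun a ha => disp_mem hg ha
  have hfix : ∀ {z : G}, z ∈ Z → g * z * g⁻¹ = z := fun {z} hz => by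
    rw [← (commute_comm hZ hz g).eq, mul_inv_cancel_right]
  -- polarisation
  have hpol : ∀ x ∈ P, ∀ y ∈ P,
      ⁅disp g x, g * disp g y * g⁻¹⁆ = ⁅g * disp g x * g⁻¹, disp g y⁆ := by
    intro x hx y hy
    have hxy := hH (x * y) (P.mul_mem hx hy)
    have e : disp g (x * y) = disp g x * ⁅x, disp g y⁆ * disp g y := by
      simp only [disp, commutatorElement_def]; group
    have hz : ⁅x, disp g y⁆ ∈ Z := hcomm x hx _ (hd y hy)
    rw [e] at hxy
    set z := ⁅x, disp g y⁆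
    set a := disp g x with ha
    set b := disp g y with hb
    have e2 : g * (a * z * b) * g⁻¹ = g * a * g⁻¹ * z * (g * b * g⁻¹) := by
      have h3 := hfix hz
      calc g * (a * z * b) * g⁻¹ = g * a * g⁻¹ * (g * z * g⁻¹) * (g * b * g⁻¹) := by group
        _ = _ := by rw [h3]
    rw [e2] at hxy
    have haP : a ∈ P := hd x hx
    have hbP : b ∈ P := hd y hy
    have hzc : ∀ c : G, ⁅z, c⁆ = 1 := fun c => comm_center hZ hz
    have hzc' : ∀ c : G, ⁅c, z⁆ = 1 := fun c => by rw [← commutatorElement_inv, hzc, inv_one]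
    have h1 : ∀ c ∈ P, ⁅a * z * b, c⁆ = ⁅a, c⁆ * ⁅b, c⁆ := fun c hc => by
      rw [comm_mul_left_of hZ (hcomm b hbP c hc), comm_mul_left_of hZ (by rw [hzc]; exact Z.one_mem), hzc,
        mul_one]
    have h2 : ∀ c ∈ P, ⁅c, g * a * g⁻¹ * z * (g * b * g⁻¹)⁆ = ⁅c, g * a * g⁻¹⁆ * ⁅c, g * b * g⁻¹⁆ :=
      fun c hc => by
      rw [comm_mul_right_of hZ (hcomm c hc _ (hγ b hbP)), comm_mul_right_of hZ (by rw [hzc']; exact Z.one_mem),
        hzc', mul_one]
    have hprod : g * a * g⁻¹ * z * (g * b * g⁻¹) ∈ P := by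
      rw [← e2]
      refine hγ _ ?_
      rw [← e]
      exact hd _ (P.mul_mem hx hy)
    rw [h1 _ hprod, h2 a haP, h2 b hbP, hH x hx, hH y hy, one_mul, mul_one] at hxy
    rw [eq_inv_of_mul_eq_one_left hxy, commutatorElement_inv]
  have hinv : ∀ a ∈ P, ∀ b ∈ P, ⁅g * a * g⁻¹, g * b * g⁻¹⁆ = ⁅a, b⁆ := fun a ha b hb => by
    rw [comm_conj, hfix (hcomm a ha b hb)]
  -- `e = γ (δ δ y) * δ δ y` is fixed
  set w := disp g y with hw
  have hwP : w ∈ P := hd y hy
  set s := disp g w with hs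
  have hsP : s ∈ P := hd w hwP
  have he : (g * s * g⁻¹ * s) = g * (g * w * g⁻¹) * g⁻¹ * w⁻¹ := by rw [hs]; simp only [disp]; group
  set e := g * s * g⁻¹ * s with hedef
  have heP : e ∈ P := P.mul_mem (hγ s hsP) hsP
  have hBe : ∀ x ∈ P, ⁅disp g x, e⁆ = 1 := by
    intro x hx
    have hb : g * (g * w * g⁻¹) * g⁻¹ ∈ P := hγ _ (hγ w hwP)
    rw [he, comm_mul_right_of hZ (hcomm _ (hd x hx) _ (P.inv_mem hwP))]
    have h1 := hpol x hx (g * y * g⁻¹) (hγ y hy)
    rw [← conj_disp, ← hw, hinv _ (hd x hx) _ hwP] at h1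
    rw [h1]
    have h2 := comm_mul_right_of hZ (a := disp g x) (b := w) (c := w⁻¹) (hcomm _ (hd x hx) _ (P.inv_mem hwP))
    rw [mul_inv_cancel] at h2
    rw [← h2, commutatorElement_one_right]
  have hγi : g⁻¹ * e * g ∈ P := (Subgroup.mem_normalizer_iff''.1 hg e).1 heP
  have hf : e⁻¹ * (g⁻¹ * e * g) ∈ Z := by
    refine hnd _ (P.mul_mem (P.inv_mem heP) hγi) fun b hb => ?_
    have h1 := hBe b hb
    rw [disp, comm_mul_left_of hZ (hcomm _ (P.inv_mem hb) _ heP)] at h1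
    have h2 : ⁅g * b * g⁻¹, e⁆ = ⁅b, g⁻¹ * e * g⁆ := by
      conv_rhs => rw [← hinv b hb _ hγi]
      congr 1
      group
    rw [h2] at h1
    have h3 := comm_mul_left_of hZ (a := b) (b := b⁻¹) (c := e) (hcomm _ (P.inv_mem hb) _ heP)
    rw [mul_inv_cancel, commutatorElement_one_left] at h3
    rw [eq_inv_of_mul_eq_one_right h3.symm] at h1
    have h4 : ⁅b, e⁻¹ * (g⁻¹ * e * g)⁆ = 1 := by
      have h5 := comm_mul_right_of hZ (a := b) (b := e) (c := e⁻¹) (hcomm _ hb _ (P.inv_mem heP))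
      rw [mul_inv_cancel, commutatorElement_one_right] at h5
      rw [comm_mul_right_of hZ (hcomm _ hb _ hγi), eq_inv_of_mul_eq_one_right h5.symm,
        ← (commute_comm hZ (hcomm b hb _ hγi) _).eq]
      exact h1
    rw [← commutatorElement_inv, h4, inv_one]
  -- modulo `Z`
  have : Z.Normal := ⟨fun n hn a => by rw [← (commute_comm hZ hn a).eq, mul_inv_cancel_right]; exact hn⟩
  let π := QuotientGroup.mk' Z
  have hπ : ∀ a : G, π a = 1 ↔ a ∈ Z := fun a => QuotientGroup.eq_one_iff a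
  have hπc : ∀ a ∈ P, ∀ b ∈ P, Commute (π a) (π b) := fun a ha b hb => by
    rw [← commutatorElement_eq_one_iff_commute, ← map_commutatorElement, hπ]
    exact hcomm a ha b hb
  have hfix_e : Commute (π g) (π e) := by
    have h := (hπ _).2 hf
    simp only [map_mul, map_inv] at h
    rw [inv_mul_eq_one] at h
    calc π g * π e = π g * ((π g)⁻¹ * π e * π g) := by rw [← h]
      _ = π e * π g := by group
  have hsq : Commute (π g ^ 2) (π s) := by
    set A := π g
    set S := π s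
    have h1 : A * (A * S * A⁻¹ * S) = (A * S * A⁻¹ * S) * A := by
      simpa [hedef, A, S] using hfix_e.eq
    have h2 : A * (A * S * A⁻¹) * A⁻¹ * (A * S * A⁻¹) = A * S * A⁻¹ * S := by
      calc _ = A * (A * S * A⁻¹ * S) * A⁻¹ := by group
        _ = _ := by rw [h1]; group
    have h3 : Commute (A * (A * S * A⁻¹) * A⁻¹) (A * S * A⁻¹) := by
      simpa [A, S] using hπc _ (hγ _ (hγ s hsP)) _ (hγ s hsP)
    rw [h3.eq, mul_right_inj] at h2
    show A ^ 2 * S = S * A ^ 2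
    rw [pow_two]
    calc A * A * S = A * (A * S * A⁻¹) * A⁻¹ * (A * A) := by group
      _ = S * (A * A) := by rw [h2]
  obtain ⟨k, hk⟩ := hodd
  have hg1 : π g = ((π g ^ 2) ^ k)⁻¹ := by
    rw [eq_inv_iff_mul_eq_one, ← pow_mul, ← pow_succ', ← hk, ← map_pow, hgϖ, map_one]
  have hgs : Commute (π g) (π s) := by rw [hg1]; exact (hsq.pow_left k).inv_left
  rw [← hπ, disp, map_mul, map_mul, map_mul, map_inv, map_inv, hgs.eq, mul_inv_cancel_right, mul_inv_cancel]

include hZ in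
/-- Coprimality removes one displacement. -/
theorem disp_mem_of_disp_disp_mem {g : G} {r ϖ : ℕ} (hgϖ : g ^ ϖ = 1) (hrϖ : r.Coprime ϖ) {w : G}
    (hr : (disp g w) ^ r ∈ Z) (h : disp g (disp g w) ∈ Z) : disp g w ∈ Z := by
  have : Z.Normal := ⟨fun n hn a => by rw [← (commute_comm hZ hn a).eq, mul_inv_cancel_right]; exact hn⟩
  let π := QuotientGroup.mk' Z
  have hπ : ∀ a : G, π a = 1 ↔ a ∈ Z := fun a => QuotientGroup.eq_one_iff a
  rw [← hπ] at hr h ⊢
  rw [map_pow] at hr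
  have hd : ∀ a : G, π (disp g a) = π g * π a * (π g)⁻¹ * (π a)⁻¹ := fun a => by simp [disp]
  set D := π (disp g w) with hD
  have hgD : Commute (π g) D := by
    rw [hd, mul_inv_eq_one, mul_inv_eq_iff_eq_mul] at h
    exact h
  have hk : ∀ k : ℕ, π g ^ k * π w * (π g ^ k)⁻¹ = D ^ k * π w := by
    intro k
    induction k with
    | zero => simp
    | succ k ih =>
      calc π g ^ (k + 1) * π w * (π g ^ (k + 1))⁻¹ = π g * (π g ^ k * π w * (π g ^ k)⁻¹) * (π g)⁻¹ := by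
            rw [pow_succ']; group
        _ = π g * D ^ k * (π g)⁻¹ * (π g * π w * (π g)⁻¹) := by rw [ih]; group
        _ = D ^ k * (D * π w) := by
            rw [(hgD.pow_right k).eq, mul_inv_cancel_right, hD, hd]; group
        _ = D ^ (k + 1) * π w := by rw [pow_succ]; group
  have h1 := hk ϖ
  rw [← map_pow π g, hgϖ, map_one, inv_one, one_mul, mul_one, eq_comm, mul_eq_right] at h1
  have h2 := pow_gcd_eq_one.2 ⟨hr, h1⟩
  rwa [hrϖ, pow_one] at h2

end

end CfsgLib.Derangements.CentralComm
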