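import Mathlib
import Cfsg.Agent.Lib.Derangements.CentralCommutators

/-!
# Eigenspaces of elements normalising a group with scalar commutators
-/

set_option autoImplicit false

open Module Module.End
open scoped commutatorElement

namespace CfsgLib.Derangements.ExtraEigen

open CfsgLib.Derangements.CentralComm

variable {F : Type*} [Field F] {V : Type*} [AddCommGroup V] [Module F V] [FiniteDimensional F V]

/-- Eigenspaces of distinct eigenvalues inside a subspace add up to at most its dimension. -/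
lemma sum_finrank_inf_le {ι : Type*} (T : Module.End F V) (A : Submodule F V) (s : Finset ι) (f : ι → F)
    (hf : Set.InjOn f s) : ∑ i ∈ s, finrank F (A ⊓ eigenspace T (f i) : Submodule F V) ≤ finrank F A := by
  classical
  suffices h : ∑ i ∈ s, finrank F (A ⊓ eigenspace T (f i) : Submodule F V) =
      finrank F (⨆ i ∈ s, A ⊓ eigenspace T (f i) : Submodule F V) by
    rw [h]; exact Submodule.finrank_mono (iSup₂_le fun i _ => inf_le_left)
  induction s using Finset.induction_on with
  | empty => rw [Finset.sum_empty]; exact (Submodule.finrank_eq_zero.2 (by simp)).symm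
  | insert a s ha ih =>
    rw [Finset.coe_insert, Set.injOn_insert (by simpa using ha)] at hf
    rw [Finset.sum_insert ha, ih hf.1, Finset.iSup_insert,
      ← Submodule.finrank_sup_add_finrank_inf_eq, add_eq_left, Submodule.finrank_eq_zero, ← disjoint_iff]
    refine Disjoint.mono inf_le_right ?_ ((eigenspaces_iSupIndep T) (f a))
    refine iSup₂_le fun i hi => le_iSup₂_of_le (f := fun j (_ : j ≠ f a) => eigenspace T j) (f i) ?_ inf_le_right
    exact fun h => hf.2 ⟨i, hi, h⟩

lemma mem_eigenspace_shift {T X : Module.End F V} {ν c : F} (h : T * X = ν • (X * T)) {v : V}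
    (hv : v ∈ eigenspace T c) : X v ∈ eigenspace T (c * ν) := by
  rw [mem_eigenspace_iff] at hv ⊢
  rw [← Module.End.mul_apply, h, LinearMap.smul_apply, Module.End.mul_apply, hv, map_smul, smul_smul, mul_comm]

lemma finrank_eigen_shift {T X : Module.End F V} {ν c : F} (h : T * X = ν • (X * T))
    (hX : Function.Injective X) {A : Submodule F V} (hA : A ≤ A.comap X) :
    finrank F (A ⊓ eigenspace T c : Submodule F V) ≤ finrank F (A ⊓ eigenspace T (c * ν) : Submodule F V) := by
  rw [((Submodule.equivMapOfInjective X hX (A ⊓ eigenspace T c : Submodule F V))).finrank_eq]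
  refine Submodule.finrank_mono ?_
  rintro _ ⟨v, hv, rfl⟩
  exact ⟨hA hv.1, mem_eigenspace_shift h hv.2⟩

/-- An injective map scaling `T` by a root of unity of order `k` spreads each eigenspace `k` times. -/
lemma order_mul_finrank_le {T X : Module.End F V} {ν c : F} (h : T * X = ν • (X * T))
    (hX : Function.Injective X) (hc : c ≠ 0) {A : Submodule F V} (hA : A ≤ A.comap X) :
    orderOf ν * finrank F (A ⊓ eigenspace T c : Submodule F V) ≤ finrank F A := by
  have hle : ∀ i : ℕ, finrank F (A ⊓ eigenspace T c : Submodule F V) ≤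
      finrank F (A ⊓ eigenspace T (c * ν ^ i) : Submodule F V) := by
    intro i
    induction i with
    | zero => rw [pow_zero, mul_one]
    | succ i ih => rw [pow_succ, ← mul_assoc]; exact ih.trans (finrank_eigen_shift h hX hA)
  calc orderOf ν * finrank F (A ⊓ eigenspace T c : Submodule F V)
      = ∑ _i ∈ Finset.range (orderOf ν), finrank F (A ⊓ eigenspace T c : Submodule F V) := by simp
    _ ≤ ∑ i ∈ Finset.range (orderOf ν), finrank F (A ⊓ eigenspace T (c * ν ^ i) : Submodule F V) :=
        Finset.sum_le_sum fun i _ => hle i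
    _ ≤ _ := sum_finrank_inf_le T A _ _ fun i hi j hj hij =>
        pow_injOn_Iio_orderOf (by simpa using hi) (by simpa using hj) (mul_left_cancel₀ hc hij)

/-- The projections attached to a map of order `r`. -/
lemma le_iSup_inf_eigenspace {u : Module.End F V} {r : ℕ} {ζ : F} (hζ : IsPrimitiveRoot ζ r)
    (hrF : (r : F) ≠ 0) (hu : u ^ r = 1) {A : Submodule F V} (hA : ∀ v ∈ A, u v ∈ A) :
    finrank F A ≤ ∑ j ∈ Finset.range r, finrank F (A ⊓ eigenspace u (ζ ^ j) : Submodule F V) := by
  classical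
  have hr : 0 < r := Nat.pos_of_ne_zero fun h => hrF (by simp [h])
  have hζ0 : ζ ≠ 0 := hζ.ne_zero hr.ne'
  let S : ℕ → Submodule F V := fun j => A ⊓ eigenspace u (ζ ^ j)
  have hpowA : ∀ (k : ℕ) v, v ∈ A → (u ^ k) v ∈ A := by
    intro k
    induction k with
    | zero => intro v hv; simpa using hv
    | succ k ih => intro v hv; rw [pow_succ', Module.End.mul_apply]; exact hA _ (ih v hv)
  let p : ℕ → V → V := fun j v => (r : F)⁻¹ • ∑ k ∈ Finset.range r, (((ζ ^ j)⁻¹) ^ k) • (u ^ k) v
  have hpS : ∀ j v, v ∈ A → p j v ∈ S j := by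
    intro j v hv
    refine ⟨Submodule.smul_mem _ _ (Submodule.sum_mem _ fun k _ => Submodule.smul_mem _ _ (hpowA k v hv)), ?_⟩
    refine Submodule.smul_mem _ _ (mem_eigenspace_iff.2 ?_)
    rw [map_sum, Finset.smul_sum]
    simp only [map_smul, smul_smul, ← Module.End.mul_apply, ← pow_succ']
    have key : ∀ k, ((ζ ^ j)⁻¹) ^ k = ζ ^ j * ((ζ ^ j)⁻¹) ^ (k + 1) := fun k => by
      rw [pow_succ', ← mul_assoc, mul_inv_cancel₀ (pow_ne_zero _ hζ0), one_mul]
    rw [Finset.sum_congr rfl fun k _ => by rw [key k]]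
    set f : ℕ → V := fun k => (ζ ^ j * ((ζ ^ j)⁻¹) ^ k) • (u ^ k) v with hf
    have h0 : f r = f 0 := by
      simp only [hf, inv_pow, hu, pow_zero]
      rw [← pow_mul, mul_comm j r, pow_mul, hζ.pow_eq_one, one_pow, inv_one]
    show ∑ k ∈ Finset.range r, f (k + 1) = ∑ k ∈ Finset.range r, f k
    have h1 := Finset.sum_range_succ' f r
    rw [Finset.sum_range_succ, h0, add_left_inj] at h1
    exact h1.symm
  have hsum : ∀ v, ∑ j ∈ Finset.range r, p j v = v := by
    intro v
    simp only [p, ← Finset.smul_sum]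
    rw [Finset.sum_comm, Finset.sum_eq_single 0]
    · simp [smul_smul, ← Nat.cast_smul_eq_nsmul F, inv_mul_cancel₀ hrF]
    · intro k hk hk0
      rw [← Finset.sum_smul]
      have h1 : (ζ⁻¹) ^ k ≠ 1 :=
        hζ.inv.pow_ne_one_of_pos_of_lt hk0 (Finset.mem_range.1 hk)
      have h2 : ∑ j ∈ Finset.range r, ((ζ ^ j)⁻¹) ^ k = ∑ j ∈ Finset.range r, ((ζ⁻¹) ^ k) ^ j :=
        Finset.sum_congr rfl fun j _ => by rw [← inv_pow, ← pow_mul, ← pow_mul, mul_comm]
      rw [h2, geom_sum_eq h1, ← pow_mul, mul_comm k r, pow_mul, hζ.inv.pow_eq_one, one_pow, sub_self, zero_div,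
        zero_smul]
    · intro h; simp [hr] at h
  have hle : A ≤ (Finset.range r).sup S := by
    intro v hv
    rw [← hsum v]
    exact Submodule.sum_mem _ fun j hj => Finset.le_sup (f := S) hj (hpS j v hv)
  refine (Submodule.finrank_mono hle).trans ?_
  induction Finset.range r using Finset.induction_on with
  | empty => simp
  | insert a s ha ih =>
    rw [Finset.sup_insert, Finset.sum_insert ha]
    exact (Submodule.finrank_add_le_finrank_add_finrank _ _).trans (Nat.add_le_add_left ih _)

/-- The data: a group with scalar commutators acting absolutely irreducibly. -/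
structure Data {G : Type*} [Group G] (ρ : G →* Module.End F V) (P Z : Subgroup G) (r : ℕ) : Prop where
  prime : r.Prime
  center : Z ≤ Subgroup.center G
  scalar : ∀ z ∈ Z, ∃ s : F, ρ z = s • (1 : Module.End F V)
  mem_of_scalar : ∀ a : G, (∃ s : F, ρ a = s • (1 : Module.End F V)) → a ∈ Z
  comm : ∀ a ∈ P, ∀ b ∈ P, ⁅a, b⁆ ∈ Z ∧ ρ (⁅a, b⁆ ^ r) = 1
  pow_mem : ∀ a ∈ P, a ^ r ∈ Z
  norm : Odd r → ∀ a ∈ P, ∃ t : F, (t • ρ a) ^ r = 1
  irr : ∀ M : Module.End F V, (∀ a ∈ P, M * ρ a = ρ a * M) → ∃ s : F, M = s • (1 : Module.End F V)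

section

variable {G : Type*} [Group G] {ρ : G →* Module.End F V} {P Z : Subgroup G} {r : ℕ}

lemma rho_injective (a : G) : Function.Injective (ρ a) := by
  intro v w h
  have := congrArg (ρ a⁻¹) h
  rwa [← Module.End.mul_apply, ← Module.End.mul_apply, ← map_mul, inv_mul_cancel, map_one] at this

lemma comm_scalar (hD : Data ρ P Z r) {a b : G} (ha : a ∈ P) (hb : b ∈ P) :
    ∃ ν : F, ρ ⁅a, b⁆ = ν • (1 : Module.End F V) ∧ ρ a * ρ b = ν • (ρ b * ρ a) := by
  obtain ⟨ν, hν⟩ := hD.scalar _ (hD.comm a ha b hb).1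
  refine ⟨ν, hν, ?_⟩
  rw [← map_mul, ← map_mul, show a * b = ⁅a, b⁆ * (b * a) by simp only [commutatorElement_def]; group, map_mul,
    hν, smul_mul_assoc, one_mul]

lemma smul_one_inj [Nontrivial V] {a b : F} (h : a • (1 : Module.End F V) = b • (1 : Module.End F V)) : a = b :=
  smul_left_injective F (one_ne_zero : (1 : Module.End F V) ≠ 0) h

lemma exists_noncommuting [Nontrivial V] (hD : Data ρ P Z r) {a : G} (ha : a ∈ P) (haZ : a ∉ Z) :
    ∃ b ∈ P, ∃ ν : F, ρ a * ρ b = ν • (ρ b * ρ a) ∧ orderOf ν = r := by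
  have : ∃ b ∈ P, ρ a * ρ b ≠ ρ b * ρ a := by
    by_contra h
    push Not at h
    exact haZ (hD.mem_of_scalar a (hD.irr _ h))
  obtain ⟨b, hb, hne⟩ := this
  obtain ⟨ν, hν, hab⟩ := comm_scalar hD ha hb
  refine ⟨b, hb, ν, hab, ?_⟩
  have := Fact.mk hD.prime
  refine orderOf_eq_prime (smul_one_inj (V := V) ?_) fun h1 => hne (by rw [hab, h1, one_smul])
  rw [one_smul]
  conv_rhs => rw [← (hD.comm a ha b hb).2, map_pow, hν, _root_.smul_pow, one_pow]

/-- A non-scalar element of `P` has eigenspaces of dimension at most `n / r`. -/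
lemma finrank_eigenspace_le [Nontrivial V] (hD : Data ρ P Z r) {a : G} (ha : a ∈ P) (haZ : a ∉ Z) (c : F) :
    r * finrank F (eigenspace (ρ a) c) ≤ finrank F V := by
  rcases eq_or_ne c 0 with rfl | hc
  · rw [eigenspace_zero, LinearMap.ker_eq_bot.2 (rho_injective a), finrank_bot, mul_zero]
    exact Nat.zero_le _
  obtain ⟨b, hb, ν, hab, hν⟩ := exists_noncommuting hD ha haZ
  have h := order_mul_finrank_le hab (rho_injective b) hc (A := ⊤) le_top
  rwa [hν, top_inf_eq, finrank_top] at h

lemma dvd_finrank [Nontrivial V] (hD : Data ρ P Z r) {a : G} (ha : a ∈ P) (haZ : a ∉ Z) : r ∣ finrank F V := by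
  obtain ⟨b, hb, ν, hab, hν⟩ := exists_noncommuting hD ha haZ
  rw [← hν]
  refine orderOf_dvd_of_pow_eq_one ?_
  have hne : ∀ x : G, LinearMap.det (ρ x) ≠ 0 := fun x h0 => by
    have h := congrArg LinearMap.det (map_mul ρ x x⁻¹)
    rw [mul_inv_cancel, map_one, map_one, map_mul, h0, zero_mul] at h
    exact one_ne_zero h
  have h := congrArg LinearMap.det hab
  rw [LinearMap.det_smul, map_mul, map_mul, mul_comm (LinearMap.det (ρ b)),
    eq_comm, mul_eq_right₀ (mul_ne_zero (hne a) (hne b))] at h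
  exact h

/-- Elements with scalar displacement everywhere. -/
lemma bound_of_scalar_disp (hD : Data ρ P Z r) {g : G} {ϖ : ℕ} (hϖ : ϖ.Prime) (hord : g ^ ϖ = 1) (hgZ : g ∉ Z)
    (hs : ∀ x ∈ P, disp g x ∈ Z) {c : F} (hc : c ≠ 0) :
    ϖ * finrank F (eigenspace (ρ g) c) ≤ finrank F V := by
  rcases subsingleton_or_nontrivial V with hV | hV
  · simp [Module.finrank_zero_of_subsingleton]
  obtain ⟨x, hx, hne⟩ : ∃ x ∈ P, ρ g * ρ x ≠ ρ x * ρ g := by
    by_contra h
    push Not at h
    exact hgZ (hD.mem_of_scalar g (hD.irr _ h))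
  obtain ⟨s, hs'⟩ := hD.scalar _ (hs x hx)
  have hgx : ρ g * ρ x = s • (ρ x * ρ g) := by
    rw [← map_mul, ← map_mul, show g * x = disp g x * (x * g) by simp only [disp]; group, map_mul, hs',
      smul_mul_assoc, one_mul]
  have hk : ∀ k : ℕ, ρ g ^ k * ρ x = s ^ k • (ρ x * ρ g ^ k) := by
    intro k
    induction k with
    | zero => simp
    | succ k ih => rw [pow_succ', mul_assoc, ih, mul_smul_comm, ← mul_assoc, hgx, smul_mul_assoc, smul_smul,
        mul_assoc, ← pow_succ', pow_succ s]
  have hsϖ : s ^ ϖ = 1 := by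
    have h := hk ϖ
    rw [← map_pow, hord, map_one, one_mul, mul_one] at h
    by_contra hne'
    have : (s ^ ϖ - 1) • ρ x = 0 := by rw [sub_smul, ← h, one_smul, sub_self]
    rw [smul_eq_zero, sub_eq_zero] at this
    obtain ⟨v, hv⟩ := exists_ne (0 : V)
    exact hv (rho_injective x (by rw [this.resolve_left hne']; rfl))
  have := Fact.mk hϖ
  have hs1 : orderOf s = ϖ := orderOf_eq_prime hsϖ fun h1 => hne (by rw [hgx, h1, one_smul])
  have h := order_mul_finrank_le hgx (rho_injective x) hc (A := ⊤) le_top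
  rwa [hs1, top_inf_eq, finrank_top] at h

/-- Two translates of an eigenspace meet inside the fixed space of a displacement. -/
lemma two_mul_le_add (g : G) (x : G) {c : F} (hc : c ≠ 0) :
    2 * finrank F (eigenspace (ρ g) c) ≤ finrank F V +
      finrank F (eigenspace (ρ g) c ⊓ eigenspace (ρ (disp g x)) 1 : Submodule F V) := by
  set W := eigenspace (ρ g) c
  have hW : finrank F (W.map (ρ x) : Submodule F V) = finrank F W :=
    ((Submodule.equivMapOfInjective (ρ x) (rho_injective x) W)).finrank_eq.symm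
  have h := Submodule.finrank_sup_add_finrank_inf_eq W (W.map (ρ x))
  have hle := Submodule.finrank_le (W ⊔ W.map (ρ x))
  have hsub : finrank F (W ⊓ W.map (ρ x) : Submodule F V) ≤
      finrank F (W ⊓ eigenspace (ρ (disp g x)) 1 : Submodule F V) := by
    refine Submodule.finrank_mono ?_
    rintro v ⟨hv, w, hw, rfl⟩
    refine ⟨hv, mem_eigenspace_iff.2 ?_⟩
    have hv' : ρ g (ρ x w) = c • ρ x w := mem_eigenspace_iff.1 hv
    have hw' : ρ g w = c • w := mem_eigenspace_iff.1 hw
    have hinv : ρ g⁻¹ w = c⁻¹ • w := by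
      apply rho_injective (ρ := ρ) g
      rw [map_smul, hw', smul_smul, inv_mul_cancel₀ hc, one_smul, ← Module.End.mul_apply, ← map_mul,
        mul_inv_cancel, map_one, Module.End.one_apply]
    rw [one_smul, ← Module.End.mul_apply, ← map_mul,
      show disp g x * x = g * x * g⁻¹ by simp only [disp]; group, map_mul, map_mul, Module.End.mul_apply,
      Module.End.mul_apply, hinv, map_smul, map_smul, hv', smul_smul, inv_mul_cancel₀ hc, one_smul]
  omega

/-- The displacement kills the meeting when it does not commute with its conjugate. -/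
lemma two_mul_le_of_noncommuting (hD : Data ρ P Z r) {g : G} (hg : g ∈ Subgroup.normalizer (P : Set G)) {x : G}
    (hx : x ∈ P) (h : ⁅disp g x, g * disp g x * g⁻¹⁆ ≠ 1) (hfaith : Function.Injective ρ) {c : F} (hc : c ≠ 0) :
    2 * finrank F (eigenspace (ρ g) c) ≤ finrank F V := by
  set u := disp g x with hu
  have huP := disp_mem hg hx
  have hu'P : g * u * g⁻¹ ∈ P := (Subgroup.mem_normalizer_iff.1 hg u).1 huP
  obtain ⟨ν, hν, hab⟩ := comm_scalar hD huP hu'P
  have hν1 : ν ≠ 1 := fun h1 => h (hfaith (by rw [hν, h1, one_smul, map_one]))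
  have hbot : (eigenspace (ρ g) c ⊓ eigenspace (ρ u) 1 : Submodule F V) = ⊥ := by
    rw [Submodule.eq_bot_iff]
    rintro v ⟨hv, hv'⟩
    rw [SetLike.mem_coe, mem_eigenspace_iff] at hv hv'
    rw [one_smul] at hv'
    have hinv : ρ g⁻¹ v = c⁻¹ • v := by
      apply rho_injective (ρ := ρ) g
      rw [map_smul, hv, smul_smul, inv_mul_cancel₀ hc, one_smul, ← Module.End.mul_apply, ← map_mul,
        mul_inv_cancel, map_one, Module.End.one_apply]
    have h2 : ρ (g * u * g⁻¹) v = v := by
      rw [map_mul, map_mul, Module.End.mul_apply, Module.End.mul_apply, hinv, map_smul, hv', map_smul, hv,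
        smul_smul, inv_mul_cancel₀ hc, one_smul]
    have h3 : ρ u (ρ (g * u * g⁻¹) v) = ν • ρ (g * u * g⁻¹) (ρ u v) := by
      rw [← Module.End.mul_apply, hab]; rfl
    rw [h2, hv', h2] at h3
    by_contra hv0
    exact hν1 (smul_left_injective F hv0 (h3.symm.trans (one_smul F v).symm))
  have h2 := two_mul_le_add (ρ := ρ) g x hc
  rw [← hu, hbot, finrank_bot] at h2
  omega

lemma exists_small_disp (hD : Data ρ P Z r) {g : G} (hg : g ∈ Subgroup.normalizer (P : Set G))
    (h3 : ∀ y ∈ P, disp g (disp g (disp g y)) ∈ Z) (hns : ∃ x ∈ P, disp g x ∉ Z) :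
    ∃ x ∈ P, disp g x ∉ Z ∧ disp g (disp g x) ∈ Z := by
  obtain ⟨x, hx, hxZ⟩ := hns
  by_cases h2 : disp g (disp g x) ∈ Z
  · exact ⟨x, hx, hxZ, h2⟩
  · exact ⟨disp g x, disp_mem hg hx, h2, h3 x hx⟩

lemma triangle_injOn {r : ℕ} (hr : r.Prime) (a : ℕ) :
    ∀ k < r, ((Finset.range r).filter fun l : ℕ => ((l : ZMod r) * ((l : ZMod r) + 1 + 2 * (a : ZMod r))) = (k : ZMod r) * ((k : ZMod r) + 1 + 2 * (a : ZMod r))).card ≤ 2 := by
  intro k _
  classical
  have := Fact.mk hr
  have hsub : ((Finset.range r).filter fun l : ℕ => ((l : ZMod r) * ((l : ZMod r) + 1 + 2 * (a : ZMod r))) = (k : ZMod r) * ((k : ZMod r) + 1 + 2 * (a : ZMod r))) ⊆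
      ({(k : ZMod r), -(k : ZMod r) - 1 - 2 * a} : Finset (ZMod r)).image ZMod.val := by
    intro l hl
    rw [Finset.mem_filter, Finset.mem_range] at hl
    have h : ((l : ZMod r) - k) * ((l : ZMod r) + k + 1 + 2 * a) = 0 := by linear_combination hl.2
    rw [Finset.mem_image]
    refine ⟨(l : ZMod r), ?_, ZMod.val_natCast_of_lt hl.1⟩
    rw [Finset.mem_insert, Finset.mem_singleton]
    rcases mul_eq_zero.1 h with h | h
    · exact Or.inl (sub_eq_zero.1 h)
    · exact Or.inr (by linear_combination h)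
  exact (Finset.card_le_card hsub).trans (Finset.card_image_le.trans Finset.card_le_two)

/-- The case of a transvection-like element, `r` odd. -/
lemma bound_of_small_disp [Nontrivial V] (hD : Data ρ P Z r) (hodd : Odd r) (hfaith : Function.Injective ρ)
    {g : G} (hg : g ∈ Subgroup.normalizer (P : Set G)) {x : G} (hx : x ∈ P) (hxZ : disp g x ∉ Z)
    (hxx : disp g (disp g x) ∈ Z) {c : F} (hc : c ≠ 0) (hrF : (r : F) ≠ 0) :
    r * finrank F (eigenspace (ρ g) c) ≤ 2 * finrank F V ∨
      2 * finrank F (eigenspace (ρ g) c) ≤ finrank F V := by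
  classical
  have hr := hD.prime
  have := Fact.mk hr
  set u := disp g x with hu
  have huP : u ∈ P := disp_mem hg hx
  obtain ⟨μ, hμ⟩ := hD.scalar _ hxx
  by_cases hμ1 : μ = 1
  swap
  · right
    have hbot : (eigenspace (ρ g) c ⊓ eigenspace (ρ u) 1 : Submodule F V) = ⊥ := by
      rw [Submodule.eq_bot_iff]
      rintro v ⟨hv, hv'⟩
      rw [SetLike.mem_coe, mem_eigenspace_iff] at hv hv'
      rw [one_smul] at hv'
      have h1 : ρ (g * u) v = ρ (disp g u * (u * g)) v :=
        congrArg (fun e => ρ e v) (show g * u = disp g u * (u * g) by simp only [disp]; group)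
      rw [map_mul, map_mul, map_mul, hμ, Module.End.mul_apply, Module.End.mul_apply, Module.End.mul_apply,
        hv', hv, map_smul, hv', LinearMap.smul_apply, Module.End.one_apply, smul_smul] at h1
      by_contra hv0
      exact hμ1 (mul_eq_right₀ hc |>.1 (smul_left_injective F hv0 h1.symm))
    have h2 := two_mul_le_add (ρ := ρ) g x hc
    rw [← hu, hbot, finrank_bot] at h2
    omega
  left
  subst hμ1
  have hgu : ρ g * ρ u = ρ u * ρ g := by
    rw [← map_mul, ← map_mul, show g * u = disp g u * (u * g) by simp only [disp]; group, map_mul, hμ, one_smul,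
      one_mul]
  obtain ⟨t, ht⟩ := hD.norm hodd u huP
  set U := t • ρ u with hU
  have ht0 : t ≠ 0 := fun h0 => by
    rw [hU, h0, zero_smul, zero_pow hr.ne_zero] at ht
    exact zero_ne_one ht
  have hgU : ρ g * U = U * ρ g := by rw [hU, mul_smul_comm, smul_mul_assoc, hgu]
  have hUbd : ∀ d : F, r * finrank F (eigenspace U d) ≤ finrank F V := fun d => by
    have he : eigenspace U d = eigenspace (ρ u) (t⁻¹ * d) := by
      ext v
      rw [mem_eigenspace_iff, mem_eigenspace_iff, hU, LinearMap.smul_apply, mul_smul, eq_inv_smul_iff₀ ht0]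
    rw [he]; exact finrank_eigenspace_le hD huP hxZ _
  obtain ⟨b, hb, ν₀, -, hν₀⟩ := exists_noncommuting hD huP hxZ
  have hgx : ρ g * ρ x = t⁻¹ • (U * ρ x * ρ g) := by
    rw [hU, smul_mul_assoc, smul_mul_assoc, smul_smul, inv_mul_cancel₀ ht0, one_smul, ← map_mul, ← map_mul,
      ← map_mul]
    congr 1
    rw [hu]; simp only [disp]; group
  obtain ⟨ν, hν, hux⟩ := comm_scalar hD huP hx
  have hUx : U * ρ x = ν • (ρ x * U) := by
    rw [hU, smul_mul_assoc, hux, mul_smul_comm, smul_smul, smul_smul, mul_comm]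
  have hνr : ν ^ r = 1 := smul_one_inj (V := V) (by
    rw [one_smul]
    conv_rhs => rw [← (hD.comm u huP x hx).2, map_pow, hν, _root_.smul_pow, one_pow])
  -- `t ^ r = 1`
  have htr : t ^ r = 1 := by
    have hk : ∀ k : ℕ, (U * ρ x) ^ k = ν⁻¹ ^ (∑ i ∈ Finset.range k, i) • (U ^ k * ρ x ^ k) := by
      have hν0 : ν ≠ 0 := fun h0 => by rw [h0, zero_pow hr.ne_zero] at hνr; exact zero_ne_one hνr
      have hxU : ∀ k : ℕ, ρ x ^ k * U = ν⁻¹ ^ k • (U * ρ x ^ k) := by
        intro k
        induction k with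
        | zero => simp
        | succ k ih =>
          have h1 : ρ x * U = ν⁻¹ • (U * ρ x) := by rw [hUx, smul_smul, inv_mul_cancel₀ hν0, one_smul]
          rw [pow_succ, mul_assoc, h1, mul_smul_comm, ← mul_assoc, ih, smul_mul_assoc, smul_smul, mul_assoc,
            ← pow_succ']
      intro k
      induction k with
      | zero => simp
      | succ k ih =>
        rw [pow_succ, ih, smul_mul_assoc, mul_assoc (U ^ k), ← mul_assoc (ρ x ^ k), hxU, smul_mul_assoc,
          mul_smul_comm, smul_smul, Finset.sum_range_succ, pow_add, mul_assoc U, ← pow_succ, ← mul_assoc,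
          ← pow_succ]
    have hdvd : r ∣ ∑ i ∈ Finset.range r, i := by
      rw [Finset.sum_range_id]
      obtain ⟨m, hm⟩ := hodd
      refine ⟨m, ?_⟩
      rw [show r - 1 = m * 2 by omega, ← mul_assoc, Nat.mul_div_cancel _ two_pos]
    have h1 : (U * ρ x) ^ r = ρ x ^ r := by
      obtain ⟨m, hm⟩ := hdvd
      rw [hk, ht, hm, pow_mul, inv_pow, hνr, inv_one, one_pow, one_smul, one_mul]
    have h2 : (t⁻¹ • (U * ρ x)) ^ r = ρ x ^ r := by
      have h3 : ρ (g * x * g⁻¹) = t⁻¹ • (U * ρ x) := by
        rw [hU, smul_mul_assoc, smul_smul, inv_mul_cancel₀ ht0, one_smul, ← map_mul, hu]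
        simp [disp, mul_assoc]
      rw [← h3, ← map_pow, conj_pow, ← map_pow]
      congr 1
      rw [← (commute_comm hD.center (hD.pow_mem x hx) g).eq, mul_inv_cancel_right]
    rw [_root_.smul_pow, h1] at h2
    have h3 : ((t⁻¹) ^ r - 1) • ρ x ^ r = 0 := by rw [sub_smul, h2, one_smul, sub_self]
    rw [smul_eq_zero, sub_eq_zero, inv_pow, inv_eq_one] at h3
    refine h3.resolve_right fun h0 => ?_
    obtain ⟨v, hv⟩ := exists_ne (0 : V)
    exact hv (rho_injective (x ^ r) (by rw [map_pow, h0]; rfl))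
  set W := eigenspace (ρ g) c
  have hWU : ∀ v ∈ W, U v ∈ W := fun v hv => by
    rw [mem_eigenspace_iff] at hv ⊢
    rw [← Module.End.mul_apply, hgU, Module.End.mul_apply, hv, map_smul]
  set n := finrank F V
  by_cases hν1 : ν = 1
  · -- `x` preserves the eigenspaces of `U`
    obtain ⟨ζ, hζ⟩ : ∃ ζ : F, IsPrimitiveRoot ζ r := ⟨ν₀, hν₀ ▸ IsPrimitiveRoot.orderOf ν₀⟩
    have hW := le_iSup_inf_eigenspace hζ hrF ht hWU
    have hsmall : ∀ j ∈ Finset.range r, t⁻¹ * ζ ^ j ≠ 1 →
        r * (r * finrank F (W ⊓ eigenspace U (ζ ^ j) : Submodule F V)) ≤ n := by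
      intro j _ hj
      set Y := eigenspace U (ζ ^ j)
      have hY : Y ≤ Y.comap (ρ x) := fun v hv => by
        have := mem_eigenspace_shift hUx hv
        rwa [hν1, mul_one] at this
      have hle : ∀ d : F, finrank F (Y ⊓ eigenspace (ρ g) d : Submodule F V) ≤
          finrank F (Y ⊓ eigenspace (ρ g) (d * (t⁻¹ * ζ ^ j)) : Submodule F V) := by
        intro d
        rw [((Submodule.equivMapOfInjective (ρ x) (rho_injective x) (Y ⊓ eigenspace (ρ g) d))).finrank_eq]
        refine Submodule.finrank_mono ?_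
        rintro _ ⟨v, ⟨hv, hv'⟩, rfl⟩
        refine ⟨hY hv, ?_⟩
        rw [SetLike.mem_coe, mem_eigenspace_iff] at hv' ⊢
        have hxv : U (ρ x v) = ζ ^ j • ρ x v := mem_eigenspace_iff.1 (hY hv)
        rw [← Module.End.mul_apply, hgx, LinearMap.smul_apply, Module.End.mul_apply, Module.End.mul_apply, hv',
          map_smul, map_smul, hxv, smul_smul, smul_smul]
        congr 1; ring
      have hord : orderOf (t⁻¹ * ζ ^ j) = r := orderOf_eq_prime (by
        rw [mul_pow, inv_pow, htr, inv_one, one_mul, ← pow_mul, mul_comm, pow_mul, hζ.pow_eq_one, one_pow]) hj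
      have hi : ∀ i : ℕ, finrank F (Y ⊓ W : Submodule F V) ≤
          finrank F (Y ⊓ eigenspace (ρ g) (c * (t⁻¹ * ζ ^ j) ^ i) : Submodule F V) := by
        intro i
        induction i with
        | zero => rw [pow_zero, mul_one]
        | succ i ih => rw [pow_succ, ← mul_assoc]; exact ih.trans (hle _)
      have h1 : r * finrank F (Y ⊓ W : Submodule F V) ≤ finrank F Y := by
        calc r * finrank F (Y ⊓ W : Submodule F V) = ∑ _i ∈ Finset.range r, finrank F (Y ⊓ W : Submodule F V) := by
              simp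
          _ ≤ _ := Finset.sum_le_sum fun i _ => hi i
          _ ≤ _ := sum_finrank_inf_le (ρ g) Y (Finset.range r) _ fun i hi' k hk hik =>
              pow_injOn_Iio_orderOf (x := t⁻¹ * ζ ^ j) (by simpa [hord] using hi') (by simpa [hord] using hk)
                (mul_left_cancel₀ hc hik)
      rw [inf_comm]
      exact (Nat.mul_le_mul_left r h1).trans (hUbd _)
    have hcard : ((Finset.range r).filter fun j => ¬ t⁻¹ * ζ ^ j ≠ 1).card ≤ 1 := by
      rw [Finset.card_le_one]
      intro i hi j hj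
      simp only [Finset.mem_filter, Finset.mem_range, not_not] at hi hj
      exact hζ.pow_inj hi.1 hj.1 (mul_left_cancel₀ (inv_ne_zero ht0) (hi.2.trans hj.2.symm))
    set a := fun j => finrank F (W ⊓ eigenspace U (ζ ^ j) : Submodule F V)
    have hsum1 : r * (r * ∑ j ∈ (Finset.range r).filter (fun j => t⁻¹ * ζ ^ j ≠ 1), a j) ≤ r * n := by
      rw [Finset.mul_sum, Finset.mul_sum]
      refine (Finset.sum_le_card_nsmul _ _ n fun j hj => ?_).trans ?_
      · rw [Finset.mem_filter] at hj; exact hsmall j hj.1 hj.2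
      · rw [smul_eq_mul]
        exact Nat.mul_le_mul_right _ ((Finset.card_filter_le _ _).trans (Finset.card_range r).le)
    have hsum2 : r * ∑ j ∈ (Finset.range r).filter (fun j => ¬ t⁻¹ * ζ ^ j ≠ 1), a j ≤ n := by
      rw [Finset.mul_sum]
      refine (Finset.sum_le_card_nsmul _ _ n fun j _ => ?_).trans ?_
      · exact (Nat.mul_le_mul_left r (Submodule.finrank_mono inf_le_right)).trans (hUbd _)
      · rw [smul_eq_mul]; exact (Nat.mul_le_mul_right _ hcard).trans (one_mul n).le
    have hsum1' := Nat.le_of_mul_le_mul_left hsum1 hr.pos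
    have hW' : finrank F W ≤ ∑ j ∈ Finset.range r, a j := hW
    rw [← Finset.sum_filter_add_sum_filter_not _ (fun j => t⁻¹ * ζ ^ j ≠ 1)] at hW'
    have := Nat.mul_le_mul_left r hW'
    rw [mul_add] at this
    omega
  · -- `x` permutes the eigenspaces of `U` cyclically
    have hνord : orderOf ν = r := orderOf_eq_prime hνr hν1
    have hζ : IsPrimitiveRoot ν r := hνord ▸ IsPrimitiveRoot.orderOf ν
    obtain ⟨a, -, hta⟩ := hζ.eq_pow_of_pow_eq_one (show (t⁻¹) ^ r = 1 by rw [inv_pow, htr, inv_one])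
    have hW := le_iSup_inf_eigenspace hζ hrF ht hWU
    set Y := eigenspace U (1 : F) with hY
    have hν0 : ν ≠ 0 := hζ.ne_zero hr.ne_zero
    let e : ℕ → ℕ := fun k => ∑ i ∈ Finset.range k, (i + 1 + a)
    have hback : ∀ (k : ℕ) (d : F), finrank F (eigenspace U (ν ^ k) ⊓ eigenspace (ρ g) d : Submodule F V) ≤
        finrank F (Y ⊓ eigenspace (ρ g) (d * (ν ^ e k)⁻¹) : Submodule F V) := by
      intro k
      induction k with
      | zero => intro d; rw [show e 0 = 0 from rfl, pow_zero, inv_one, mul_one, hY]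
      | succ k ih =>
        intro d
        have hx' : ρ x * ρ x⁻¹ = 1 := by rw [← map_mul, mul_inv_cancel, map_one]
        refine le_trans ?_ ((ih (d * (ν ^ (k + 1 + a))⁻¹)).trans (le_of_eq ?_))
        · rw [((Submodule.equivMapOfInjective (ρ x⁻¹) (rho_injective x⁻¹)
            (eigenspace U (ν ^ (k + 1)) ⊓ eigenspace (ρ g) d))).finrank_eq]
          refine Submodule.finrank_mono ?_
          rintro _ ⟨v, ⟨hv, hv'⟩, rfl⟩
          rw [SetLike.mem_coe, mem_eigenspace_iff] at hv hv'
          set w := ρ x⁻¹ v with hw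
          have hxw : ρ x w = v := by rw [hw, ← Module.End.mul_apply, hx', Module.End.one_apply]
          have h1 : U w = ν ^ k • w := by
            apply rho_injective (ρ := ρ) x
            have h2 := congrArg (fun f : Module.End F V => f w) hUx
            simp only [Module.End.mul_apply, LinearMap.smul_apply, hxw, hv] at h2
            rw [pow_succ', mul_smul] at h2
            rw [map_smul, hxw]
            exact (smul_right_injective V hν0 h2).symm
          refine ⟨mem_eigenspace_iff.2 h1, mem_eigenspace_iff.2 ?_⟩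
          apply rho_injective (ρ := ρ) x
          have h3 := congrArg (fun f : Module.End F V => f w) hgx
          simp only [Module.End.mul_apply, LinearMap.smul_apply, hxw, hv'] at h3
          rw [map_smul, hxw]
          have h4 : U (ρ x (ρ g w)) = (d * t) • v := by
            rw [mul_comm, mul_smul, h3, smul_smul, mul_inv_cancel₀ ht0, one_smul]
          have h5 : U v = ν ^ (k + 1) • v := hv
          have h6 : U (ρ x (ρ g w)) = U ((d * (ν ^ (k + 1 + a))⁻¹) • v) := by
            rw [h4, map_smul, h5, smul_smul, pow_add, hta]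
            congr 1
            field_simp
          have hUinj : Function.Injective U := by
            intro v₁ v₂ h12
            have := congrArg (U ^ (r - 1)) h12
            rwa [← Module.End.mul_apply, ← Module.End.mul_apply, ← pow_succ, Nat.sub_add_cancel hr.one_le, ht]
              at this
          exact hUinj h6
        · rw [show e (k + 1) = e k + (k + 1 + a) from Finset.sum_range_succ _ _, mul_assoc d, ← mul_inv, ← pow_add,
            add_comm (k + 1 + a) (e k)]
    set E : ℕ → F := fun k => c * (ν ^ e k)⁻¹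
    set D : F → ℕ := fun d => finrank F (Y ⊓ eigenspace (ρ g) d : Submodule F V)
    have hk : ∀ k, finrank F (W ⊓ eigenspace U (ν ^ k) : Submodule F V) ≤ D (E k) := fun k => by
      rw [inf_comm]; exact hback k c
    have hfib : ∀ d ∈ (Finset.range r).image E, ((Finset.range r).filter fun k => E k = d).card ≤ 2 := by
      intro d hd
      obtain ⟨k, hk', rfl⟩ := Finset.mem_image.1 hd
      refine le_trans (Finset.card_le_card ?_) (triangle_injOn hr a k (Finset.mem_range.1 hk'))
      intro l hl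
      simp only [Finset.mem_filter, E] at hl ⊢
      refine ⟨hl.1, ?_⟩
      have h1 : ν ^ e l = ν ^ e k := inv_injective (mul_left_cancel₀ hc hl.2)
      have h2 : (e l : ZMod r) = (e k : ZMod r) := (ZMod.natCast_eq_natCast_iff' _ _ _).2
        (hζ.pow_inj (Nat.mod_lt _ hr.pos) (Nat.mod_lt _ hr.pos) (by
          rw [← hνord, pow_mod_orderOf, pow_mod_orderOf, h1]))
      have he : ∀ m : ℕ, 2 * (e m : ZMod r) = m * (m + 1 + 2 * a) := by
        intro m
        induction m with
        | zero => simp [e]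
        | succ m ih =>
          rw [show e (m + 1) = e m + (m + 1 + a) from Finset.sum_range_succ _ _]
          push_cast
          linear_combination ih
      rw [← he, ← he, h2]
    have hsum : ∑ k ∈ Finset.range r, D (E k) ≤ 2 * finrank F Y := by
      rw [Finset.sum_comp]
      calc ∑ d ∈ (Finset.range r).image E, ((Finset.range r).filter fun k => E k = d).card • D d
          ≤ ∑ d ∈ (Finset.range r).image E, 2 * D d :=
            Finset.sum_le_sum fun d hd => by rw [smul_eq_mul]; exact Nat.mul_le_mul_right _ (hfib d hd)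
        _ ≤ 2 * finrank F Y := by
            rw [← Finset.mul_sum]
            exact Nat.mul_le_mul_left 2 (sum_finrank_inf_le (ρ g) Y _ id Function.injective_id.injOn)
    have h1 := hW.trans ((Finset.sum_le_sum fun k _ => hk k).trans hsum)
    calc r * finrank F W ≤ r * (2 * finrank F Y) := Nat.mul_le_mul_left r h1
      _ = 2 * (r * finrank F Y) := by ring
      _ ≤ 2 * n := Nat.mul_le_mul_left 2 (hUbd 1)

/-- The bounds on an eigenspace. -/
theorem bounds (hD : Data ρ P Z r) (hfaith : Function.Injective ρ) (hrF : (r : F) ≠ 0) {g : G}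
    (hg : g ∈ Subgroup.normalizer (P : Set G)) {ϖ : ℕ} (hϖ : ϖ.Prime) (hord : g ^ ϖ = 1) (hgZ : g ∉ Z) (c : F) :
    (ϖ = 2 → 4 * finrank F (eigenspace (ρ g) c) ≤ 3 * finrank F V) ∧
    (ϖ = 3 → 3 * finrank F (eigenspace (ρ g) c) ≤ 2 * finrank F V) ∧
    (3 < ϖ → 2 * finrank F (eigenspace (ρ g) c) ≤ finrank F V) ∧
    (ϖ = 3 → ¬ 3 ∣ finrank F V → 2 * finrank F (eigenspace (ρ g) c) ≤ finrank F V) := by
  rcases eq_or_ne c 0 with rfl | hc
  · have : finrank F (eigenspace (ρ g) (0 : F)) = 0 := by rw [eigenspace_zero, LinearMap.ker_eq_bot.2 (rho_injective g), finrank_bot]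
    omega
  rcases subsingleton_or_nontrivial V with hV | hV
  · have : finrank F (eigenspace (ρ g) c) = 0 := by exact Module.finrank_zero_of_subsingleton
    omega
  have h2 := hϖ.two_le
  by_cases hs : ∀ x ∈ P, disp g x ∈ Z
  · have h := bound_of_scalar_disp hD hϖ hord hgZ hs hc
    have := Nat.mul_le_mul_right (finrank F (eigenspace (ρ g) c)) h2
    refine ⟨fun _ => by omega, fun h3 => by subst h3; omega, fun _ => by omega, fun _ _ => by omega⟩
  push Not at hs
  obtain ⟨x₀, hx₀, hx₀Z⟩ := hs
  have hgen : 2 * (r * finrank F (eigenspace (ρ g) c)) ≤ r * finrank F V + finrank F V := by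
    have h1 := two_mul_le_add (ρ := ρ) g x₀ hc
    have h3 : r * finrank F (eigenspace (ρ g) c ⊓ eigenspace (ρ (disp g x₀)) 1 : Submodule F V) ≤ finrank F V :=
      (Nat.mul_le_mul_left r (Submodule.finrank_mono inf_le_right)).trans
        (finrank_eigenspace_le hD (disp_mem hg hx₀) hx₀Z 1)
    have h4 := Nat.mul_le_mul_left r h1
    rw [mul_add] at h4
    rw [← mul_assoc, mul_comm 2 r, mul_assoc]
    omega
  have hr2 := hD.prime.two_le
  have h43 : 4 * finrank F (eigenspace (ρ g) c) ≤ 3 * finrank F V := by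
    have : r * (4 * finrank F (eigenspace (ρ g) c)) ≤ r * (3 * finrank F V) := by nlinarith
    exact Nat.le_of_mul_le_mul_left this (by omega)
  rcases hϖ.eq_two_or_odd' with rfl | hodd
  · exact ⟨fun _ => h43, by omega, by omega, by omega⟩
  have hϖ3 : 3 ≤ ϖ := by obtain ⟨k, hk⟩ := hodd; omega
  by_cases hH : ∀ x ∈ P, ⁅disp g x, g * disp g x * g⁻¹⁆ = 1
  swap
  · push Not at hH
    obtain ⟨x, hx, hne⟩ := hH
    have h := two_mul_le_of_noncommuting hD hg hx hne hfaith hc
    refine ⟨fun _ => h43, fun _ => by omega, fun _ => by omega, fun _ _ => by omega⟩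
  have h3 : ∀ y ∈ P, disp g (disp g (disp g y)) ∈ Z := fun y hy =>
    disp_disp_disp_mem hD.center (fun a ha b hb => (hD.comm a ha b hb).1) hg hodd hord
      (fun a ha hall => hD.mem_of_scalar a (hD.irr _ fun b hb => by
        rw [← map_mul, ← map_mul, (commutatorElement_eq_one_iff_commute.1 (hall b hb)).eq])) hH hy
  have hϖr : ϖ = r := by
    by_contra hne
    have hcop : r.Coprime ϖ := (Nat.coprime_primes hD.prime hϖ).2 (Ne.symm hne)
    have hd : ∀ a ∈ P, disp g (disp g a) ∈ Z → disp g a ∈ Z := fun a ha h =>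
      disp_mem_of_disp_disp_mem hD.center hord hcop (hD.pow_mem _ (disp_mem hg ha)) h
    exact hx₀Z (hd x₀ hx₀ (hd _ (disp_mem hg hx₀) (h3 x₀ hx₀)))
  subst hϖr
  have hdvd := dvd_finrank hD (disp_mem hg hx₀) hx₀Z
  refine ⟨fun _ => h43, fun h => ?_, fun h => ?_, fun h hnthree => absurd (h ▸ hdvd) hnthree⟩
  · subst h; omega
  · obtain ⟨x, hx, hxZ, hxx⟩ := exists_small_disp hD hg h3 ⟨x₀, hx₀, hx₀Z⟩
    rcases bound_of_small_disp hD hodd hfaith hg hx hxZ hxx hc hrF with hb | hb
    · have h5 : 5 ≤ ϖ := by obtain ⟨k, hk⟩ := hodd; omega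
      have := Nat.mul_le_mul_right (finrank F (eigenspace (ρ g) c)) h5
      omega
    · exact hb

end

end CfsgLib.Derangements.ExtraEigen
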