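import Mathlib
import Cfsg.Agent.Lib.Derangements.FixedSubspacesMain
import Cfsg.Agent.Lib.Omega.JordanBasis
import Cfsg.Agent.Lib.Omega.JordanType

/-!
# Unipotent maps and invariant complementary pairs
-/

set_option autoImplicit false

open Module Polynomial

namespace CfsgLib.Derangements.SubFix

/-- Every partition of `n` into parts at most `p` contains a partition of `m`. -/
def PartCond (p n m : ℕ) : Prop :=
  ∀ μ : Multiset ℕ, (∀ a ∈ μ, 0 < a ∧ a ≤ p) → μ.sum = n → ∃ ν : Multiset ℕ, ν ≤ μ ∧ ν.sum = m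

lemma exists_le_map {α : Type*} (f : α → ℕ) (s : Multiset α) :
    ∀ ν : Multiset ℕ, ν ≤ s.map f → ∃ t ≤ s, t.map f = ν := by
  induction s using Multiset.induction_on with
  | empty => intro ν h; exact ⟨0, le_rfl, by simp only [Multiset.map_zero, nonpos_iff_eq_zero] at h ⊢; exact h.symm⟩
  | cons a s ih =>
    intro ν h
    rw [Multiset.map_cons] at h
    by_cases ha : f a ∈ ν
    · obtain ⟨t, ht, ht'⟩ := ih (ν.erase (f a)) (Multiset.erase_le_iff_le_cons.2 h)
      exact ⟨a ::ₘ t, Multiset.cons_le_cons a ht, by rw [Multiset.map_cons, ht', Multiset.cons_erase ha]⟩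
    · obtain ⟨t, ht, ht'⟩ := ih ν ((Multiset.le_cons_of_notMem ha).1 h)
      exact ⟨t, ht.trans (Multiset.le_cons_self s a), ht'⟩

lemma partCond_two (n m : ℕ) (hm : m ≤ n) : PartCond 2 n m ↔ Odd n ∨ Even m := by
  constructor
  · intro h
    by_contra hc
    rw [not_or, Nat.not_odd_iff_even, Nat.not_even_iff_odd] at hc
    obtain ⟨ν, hν, hs⟩ := h (Multiset.replicate (n / 2) 2)
      (fun a ha => by rw [Multiset.eq_of_mem_replicate ha]; omega)
      (by rw [Multiset.sum_replicate, smul_eq_mul]; exact Nat.div_mul_cancel hc.1.two_dvd)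
    obtain ⟨k, -, rfl⟩ := Multiset.le_replicate_iff.1 hν
    rw [Multiset.sum_replicate, smul_eq_mul] at hs
    obtain ⟨t, ht⟩ := hc.2
    omega
  · intro hc μ hμ hs
    have key : ∀ ρ : Multiset ℕ, (∀ a ∈ ρ, 0 < a ∧ a ≤ 2) → ρ.sum = ρ.count 1 + 2 * ρ.count 2 := by
      intro ρ
      induction ρ using Multiset.induction_on with
      | empty => simp
      | cons a ρ ih =>
        intro h
        have ha := h a (Multiset.mem_cons_self a ρ)
        rw [Multiset.sum_cons, ih fun b hb => h b (Multiset.mem_cons_of_mem hb), Multiset.count_cons,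
          Multiset.count_cons]
        split_ifs <;> omega
    have hsum := key μ hμ
    rw [hs] at hsum
    refine ⟨Multiset.replicate (min (μ.count 2) (m / 2)) 2 +
      Multiset.replicate (m - 2 * min (μ.count 2) (m / 2)) 1, ?_, ?_⟩
    · rw [Multiset.le_iff_count]
      intro a
      rw [Multiset.count_add, Multiset.count_replicate, Multiset.count_replicate]
      by_cases h2 : 2 = a
      · subst h2
        rw [if_pos rfl, if_neg (by omega)]
        exact min_le_left _ _
      by_cases h1 : 1 = a
      · subst h1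
        rw [if_neg (by omega), if_pos rfl]
        rcases hc with ⟨t, ht⟩ | ⟨t, ht⟩ <;> omega
      · rw [if_neg h2, if_neg h1]
        exact Nat.zero_le _
    · rw [Multiset.sum_add, Multiset.sum_replicate, Multiset.sum_replicate, smul_eq_mul, smul_eq_mul]
      omega

variable {F : Type*} [Field F] {p : ℕ} [Fact p.Prime] [CharP F p]
variable {V : Type*} [AddCommGroup V] [Module F V] [FiniteDimensional F V]

omit [FiniteDimensional F V] in
lemma sub_one_pow_char (y : Module.End F V) : (y - 1) ^ p = y ^ p - 1 := by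
  have h : ((X : F[X]) - 1) ^ p = X ^ p - 1 := by rw [sub_pow_char, one_pow]
  simpa only [map_pow, map_sub, aeval_X, map_one] using congrArg (aeval y) h

omit [FiniteDimensional F V] [Fact p.Prime] [CharP F p] in
lemma inv_one_add_iff {N : Module.End F V} {A : Submodule F V} : Inv (1 + N) A ↔ A.map N ≤ A := by
  rw [← inv_iff_map]
  constructor
  · intro h x hx
    have h1 : x + N x ∈ A := h hx
    exact (A.add_mem_iff_right hx).1 h1
  · intro h x hx
    exact (A.add_mem hx (h hx) : x + N x ∈ A)

lemma elusive_of_partCond [Finite F] {m : ℕ} (hn : finrank F V ≠ 0) (hcond : PartCond p (finrank F V) m) :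
    Elusive p (fun T : Module.End F V => ∃ U W : Submodule F V, IsCompl U W ∧ finrank F U = m ∧
      Inv T U ∧ Inv T W) := by
  classical
  have hp : p.Prime := Fact.out
  intro T hdet c hT _
  have hc0 : c ≠ 0 := const_ne_zero hn hdet hT
  obtain ⟨a, ha⟩ := exists_root_of_not_dvd (F := F) hp (fun h => by
    have : Fintype F := Fintype.ofFinite F
    obtain ⟨⟨f, hf⟩, -, hcard⟩ := FiniteField.card F p
    rw [← pow_one (Nat.card F), Nat.card_eq_fintype_card, hcard] at h
    exact not_char_dvd hp (q := p ^ f) rfl hf.ne' one_ne_zero h) c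
  have ha0 : a ≠ 0 := fun h => hc0 (by rw [← ha, h, zero_pow hp.ne_zero])
  set N : Module.End F V := a⁻¹ • T - 1 with hNdef
  have hN : N ^ p = 0 := by
    rw [hNdef, sub_one_pow_char, _root_.smul_pow, hT, smul_smul, inv_pow, ha, inv_mul_cancel₀ hc0, one_smul, sub_self]
  obtain ⟨k, len, b, hlen, hNb⟩ := CfsgLib.Omega.exists_jordan_basis p (finrank F V) rfl N hN
  obtain ⟨ν, hν, hνs⟩ := hcond (Multiset.map len Finset.univ.val)
    (fun x hx => by obtain ⟨j, -, rfl⟩ := Multiset.mem_map.1 hx; exact hlen j)
    (by rw [Module.finrank_eq_card_basis b, Fintype.card_sigma]; simp [Finset.sum])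
  obtain ⟨t, ht, rfl⟩ := exists_le_map len _ ν hν
  let S : Finset (Fin k) := ⟨t, Multiset.nodup_of_le ht Finset.univ.nodup⟩
  let A : Set (Σ j : Fin k, Fin (len j)) := {x | x.1 ∈ S}
  have hinv : ∀ B : Set (Σ j : Fin k, Fin (len j)), (∀ x ∈ B, ∀ y : Σ j : Fin k, Fin (len j), y.1 = x.1 → y ∈ B) →
      Inv T (Submodule.span F (b '' B)) := by
    intro B hB
    have h1 : (Submodule.span F (b '' B)).map N ≤ Submodule.span F (b '' B) := by
      rw [Submodule.map_span, Submodule.span_le]
      rintro _ ⟨_, ⟨x, hx, rfl⟩, rfl⟩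
      rw [hNb x]
      split_ifs with h
      · exact Submodule.subset_span ⟨_, hB x hx ⟨x.1, ⟨x.2.1 + 1, h⟩⟩ rfl, rfl⟩
      · exact Submodule.zero_mem _
    have h2 : Inv (a⁻¹ • T) (Submodule.span F (b '' B)) := by
      rw [show a⁻¹ • T = 1 + N by rw [hNdef]; abel]
      exact inv_one_add_iff.2 h1
    exact (inv_smul_iff (inv_ne_zero ha0)).1 h2
  refine ⟨Submodule.span F (b '' A), Submodule.span F (b '' Aᶜ), ⟨?_, ?_⟩, ?_, hinv A ?_, hinv Aᶜ ?_⟩
  · exact b.linearIndependent.disjoint_span_image disjoint_compl_right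
  · rw [codisjoint_iff, ← Submodule.span_union, ← Set.image_union, Set.union_compl_self, Set.image_univ,
      b.span_eq]
  · have hli : LinearIndependent F (fun x : A => b x) := b.linearIndependent.comp _ Subtype.val_injective
    rw [show b '' A = Set.range (fun x : A => b x) from Set.image_eq_range _ _, finrank_span_eq_card hli,
      Fintype.card_subtype]
    have : (Finset.univ.filter fun x : Σ j : Fin k, Fin (len j) => x ∈ A) = S.sigma fun _ => Finset.univ := by
      ext x; simp [A]
    rw [this, Finset.card_sigma, ← hνs]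
    simp [S, Finset.sum]
  · intro x hx y hy
    show y.1 ∈ S
    rw [hy]; exact hx
  · intro x hx y hy h
    exact hx (show x.1 ∈ S by rw [← hy]; exact h)

lemma partCond_of_elusive {m : ℕ} (hm : m ≤ finrank F V)
    (hel : Elusive p (fun T : Module.End F V => ∃ U W : Submodule F V, IsCompl U W ∧ finrank F U = m ∧
      Inv T U ∧ Inv T W)) : PartCond p (finrank F V) m := by
  intro μ hμ hs
  obtain ⟨N, hN, hrank⟩ := CfsgLib.Omega.exists_nilpotent_of_parts (F := F) (V := V) (p := p) μ
    (fun b hb => (hμ b hb).2) hs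
  by_cases h0 : N = 0
  · have h1 : (μ.map (fun b => b - 1)).sum = 0 := by
      rw [← hrank 1]; simp [CfsgLib.Omega.rankSeq, h0]
    have hall : ∀ b ∈ μ, b = 1 := fun b hb => by
      have h2 := Multiset.single_le_sum (s := μ.map (fun b => b - 1)) (fun _ _ => Nat.zero_le _) (b - 1)
        (Multiset.mem_map_of_mem (fun b => b - 1) hb)
      have := (hμ b hb).1
      omega
    refine ⟨Multiset.replicate m 1, ?_, by simp⟩
    rw [Multiset.eq_replicate_card.2 hall] at hs ⊢
    rw [Multiset.sum_replicate, smul_eq_mul, mul_one] at hs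
    exact Multiset.le_replicate_iff.2 ⟨m, by omega, rfl⟩
  · have hne : Nontrivial V := by
      by_contra h
      rw [not_nontrivial_iff_subsingleton] at h
      exact h0 (Subsingleton.elim _ _)
    have hT : (1 + N) ^ p = (1 : F) • (1 : Module.End F V) := by
      have h := sub_one_pow_char (p := p) (1 + N)
      rw [add_sub_cancel_left, hN] at h
      rw [one_smul]
      exact (sub_eq_zero.1 h.symm)
    have hdet : LinearMap.det (1 + N) = 1 := by
      have h1 := congrArg LinearMap.det hT
      rw [map_pow, one_smul, map_one] at h1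
      refine sub_eq_zero.1 (eq_zero_of_pow_eq_zero (n := p) ?_)
      rw [sub_pow_char, h1, one_pow, sub_self]
    obtain ⟨U, W, hUW, hU, hUi, hWi⟩ := hel (1 + N) hdet 1 hT (fun a ha => h0 (by
      have ha' := hT
      rw [ha, _root_.smul_pow, one_pow] at ha'
      have h1 : a = 1 := by
        have := smul_one_left_injective (F := F) (V := V) ha'
        exact sub_eq_zero.1 (eq_zero_of_pow_eq_zero (n := p) (by rw [sub_pow_char, this, one_pow, sub_self]))
      rw [h1, one_smul] at ha
      simpa using ha))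
    rw [inv_one_add_iff] at hUi hWi
    exact ⟨CfsgLib.Omega.jordanParts N U p, CfsgLib.Omega.jordanParts_le hUW hUi hWi hrank p,
      (CfsgLib.Omega.sum_jordanParts hUi hN).trans hU⟩

end CfsgLib.Derangements.SubFix
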