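import Mathlib
import Cfsg.Agent.Lib.Derangements.FixedSubspacesMain

/-!
# Passage between matrices of determinant one and linear maps
-/

set_option autoImplicit false

open Module

namespace CfsgLib.Derangements.SubFix

variable {F : Type*} [Field F] {n r : ℕ}

/-- Elusiveness in terms of matrices. -/
theorem forall_sl_iff (P : Module.End F (Fin n → F) → Prop) :
    (∀ x : Matrix.SpecialLinearGroup (Fin n) F,
      (∃ c : F, ((x ^ r : Matrix.SpecialLinearGroup (Fin n) F) : Matrix (Fin n) (Fin n) F) =
        c • (1 : Matrix (Fin n) (Fin n) F)) →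
      (∀ c : F, (x : Matrix (Fin n) (Fin n) F) ≠ c • (1 : Matrix (Fin n) (Fin n) F)) →
      P (Matrix.toLin' (x : Matrix (Fin n) (Fin n) F))) ↔ Elusive r P := by
  constructor
  · intro h T hdet c hT hns
    have hT' : Matrix.toLin' (LinearMap.toMatrix' T) = T := Matrix.toLin'_toMatrix' T
    have hA : Matrix.det (LinearMap.toMatrix' T) = 1 := by rw [LinearMap.det_toMatrix', hdet]
    let x : Matrix.SpecialLinearGroup (Fin n) F := ⟨LinearMap.toMatrix' T, hA⟩
    have hx : (x : Matrix (Fin n) (Fin n) F) = LinearMap.toMatrix' T := rfl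
    have h1 := h x ⟨c, ?_⟩ ?_
    · simpa only [hx, hT'] using h1
    · rw [Matrix.SpecialLinearGroup.coe_pow, hx]
      show (LinearMap.toMatrixAlgEquiv' T) ^ r = c • (1 : Matrix (Fin n) (Fin n) F)
      rw [← map_pow, hT, map_smul, map_one]
    · intro a ha
      refine hns a ?_
      rw [hx] at ha
      rw [← hT', ha, map_smul,
        Matrix.toLin'_one]
      rfl
  · intro h x ⟨c, hc⟩ hns
    refine h _ ?_ c ?_ fun a ha => hns a ?_
    · rw [LinearMap.det_toLin', x.prop]
    · rw [Matrix.SpecialLinearGroup.coe_pow] at hc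
      show (Matrix.toLinAlgEquiv' (x : Matrix (Fin n) (Fin n) F)) ^ r = _
      rw [← map_pow, hc, map_smul, map_one]
    · have h1 := congrArg LinearMap.toMatrix' ha
      rw [LinearMap.toMatrix'_toLin', map_smul] at h1
      rw [h1, show (1 : Module.End F (Fin n → F)) = LinearMap.id from rfl, LinearMap.toMatrix'_id]

end CfsgLib.Derangements.SubFix
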