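import Mathlib

/-!
Orders of `q`, `q ^ 2` and `-q` modulo `r`, and the counting of blocks.
-/

set_option autoImplicit false

namespace CfsgLib.Derangements.Herm

variable {r : ℕ} [hr : Fact r.Prime] {q i b c : ℕ}

/-- The data attached to `q` and `r`. -/
structure Ord (r q i b c : ℕ) : Prop where
  two_lt : 2 < r
  not_dvd : ¬ r ∣ q
  hi : i = orderOf (q : ZMod r)
  hb : b = if Even i then i / 2 else i
  hc : c = if i % 4 = 0 then i else if i % 4 = 2 then i / 2 else 2 * i

theorem Ord.q0 (O : Ord r q i b c) : (q : ZMod r) ≠ 0 := fun h => O.not_dvd ((ZMod.natCast_eq_zero_iff q r).1 h)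

theorem Ord.i_pos (O : Ord r q i b c) : 0 < i := by
  rw [O.hi, orderOf_pos_iff, isOfFinOrder_iff_pow_eq_one]
  exact ⟨r - 1, by have := O.two_lt; omega, ZMod.pow_card_sub_one_eq_one O.q0⟩

theorem Ord.b_pos (O : Ord r q i b c) : 0 < b := by
  have := O.i_pos
  rw [O.hb]
  split_ifs with h
  · obtain ⟨k, hk⟩ := h; omega
  · omega

theorem Ord.pow_eq_one_iff (O : Ord r q i b c) (k : ℕ) : (q : ZMod r) ^ k = 1 ↔ i ∣ k := by
  rw [O.hi, orderOf_dvd_iff_pow_eq_one]

theorem Ord.order_sq (O : Ord r q i b c) : orderOf ((q : ZMod r) ^ 2) = b := by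
  rw [orderOf_pow' _ two_ne_zero, ← O.hi, O.hb]
  rcases Nat.even_or_odd i with he | ho
  · rw [if_pos he, Nat.gcd_eq_right he.two_dvd]
  · rw [if_neg (Nat.not_even_iff_odd.2 ho), Nat.Coprime.gcd_eq_one (Nat.coprime_two_right.2 ho), Nat.div_one]

theorem Ord.neg_one_ne (O : Ord r q i b c) : (-1 : ZMod r) ≠ 1 := by
  haveI : Fact (2 < r) := ⟨O.two_lt⟩
  exact ZMod.neg_one_ne_one

theorem Ord.c_eq (O : Ord r q i b c) : (i % 4 = 2 → c = b) ∧ (i % 4 ≠ 2 → c = 2 * b) := by
  rw [O.hc, O.hb]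
  constructor
  · intro h
    rw [if_neg (by omega), if_pos h, if_pos (Nat.even_iff.2 (by omega))]
  · intro h
    rcases Nat.even_or_odd i with he | ho
    · rw [if_pos he]; rw [Nat.even_iff] at he
      rw [if_pos (by omega)]; omega
    · rw [if_neg (Nat.not_even_iff_odd.2 ho)]; rw [Nat.odd_iff] at ho
      rw [if_neg (by omega), if_neg h]

theorem Ord.c_dvd (O : Ord r q i b c) {k : ℕ} (h : (-(q : ZMod r)) ^ k = 1) : c ∣ k := by
  have h2 : i ∣ 2 * k := (O.pow_eq_one_iff _).1 (by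
    rw [pow_mul, ← neg_sq, ← pow_mul, mul_comm, pow_mul, h, one_pow])
  rcases Nat.even_or_odd k with hk | hk
  · rw [hk.neg_pow, O.pow_eq_one_iff] at h
    rw [O.hc]
    split_ifs with h4 h4'
    · exact h
    · exact (Nat.div_dvd_of_dvd (show 2 ∣ i by omega)).trans h
    · exact Nat.Coprime.mul_dvd_of_dvd_of_dvd (Nat.coprime_two_left.2 (Nat.odd_iff.2 (by omega))) hk.two_dvd h
  · rw [hk.neg_pow] at h
    have hne : ¬ i ∣ k := fun hd => O.neg_one_ne (by rw [(O.pow_eq_one_iff k).2 hd] at h; exact h)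
    obtain ⟨l, hl⟩ := h2
    rw [O.hc]
    split_ifs with h4 h4'
    · exfalso
      obtain ⟨a, rfl⟩ : 4 ∣ i := by omega
      obtain ⟨e, rfl⟩ := hk
      have : 2 * (2 * e + 1) = 4 * (a * l) := by rw [hl]; ring
      omega
    · obtain ⟨a, rfl⟩ : 2 ∣ i := by omega
      rw [Nat.mul_div_cancel_left a two_pos]
      exact ⟨l, by rw [mul_assoc] at hl; omega⟩
    · exfalso
      exact hne ((Nat.coprime_two_right.2 (Nat.odd_iff.2 (by omega))).dvd_of_dvd_mul_left ⟨l, hl⟩)

theorem Ord.self_dual_iff (O : Ord r q i b c) :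
    (∃ k : ℕ, -(q : ZMod r) = ((q : ZMod r) ^ 2) ^ k) ↔ i % 4 = 2 := by
  constructor
  · rintro ⟨k, hk⟩
    rcases Nat.eq_zero_or_pos k with rfl | hk0
    · rw [pow_zero] at hk
      have h1 : ¬ i ∣ 1 := fun hd => O.neg_one_ne (by
        have e := (O.pow_eq_one_iff 1).2 hd
        rw [pow_one] at e
        rw [e] at hk
        exact hk)
      have h2 : i ∣ 2 := (O.pow_eq_one_iff 2).1 (by rw [← neg_sq, hk, one_pow])
      rcases (Nat.dvd_prime Nat.prime_two).1 h2 with rfl | rfl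
      · exact absurd dvd_rfl h1
      · rfl
    · have h1 : (q : ZMod r) ^ (2 * k - 1) = -1 := by
        refine mul_right_cancel₀ O.q0 ?_
        rw [← pow_succ, Nat.sub_add_cancel (by omega), pow_mul, ← hk]; ring
      have hne : ¬ i ∣ 2 * k - 1 := fun hd => O.neg_one_ne (by rw [← h1, (O.pow_eq_one_iff _).2 hd])
      obtain ⟨l, hl⟩ : i ∣ 2 * (2 * k - 1) := (O.pow_eq_one_iff _).1 (by
        rw [mul_comm 2 (2 * k - 1), pow_mul, h1, neg_one_sq])
      rcases Nat.even_or_odd i with ⟨a, rfl⟩ | ho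
      · rcases Nat.even_or_odd a with ⟨a', rfl⟩ | ⟨a', rfl⟩
        · exfalso
          have : 2 * (2 * k - 1) = 4 * (a' * l) := by rw [hl]; ring
          omega
        · omega
      · exact absurd ((Nat.coprime_two_right.2 ho).dvd_of_dvd_mul_left ⟨l, hl⟩) hne
  · intro h
    obtain ⟨a, rfl⟩ : ∃ a, i = 2 * (2 * a + 1) := ⟨(i - 2) / 4, by omega⟩
    have h1 : (q : ZMod r) ^ (2 * a + 1) = -1 := by
      have h2 : ((q : ZMod r) ^ (2 * a + 1)) * ((q : ZMod r) ^ (2 * a + 1)) = 1 := by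
        rw [← pow_add, O.pow_eq_one_iff]; exact ⟨1, by ring⟩
      refine (mul_self_eq_one_iff.1 h2).resolve_left fun hc => ?_
      have := Nat.le_of_dvd (by omega) ((O.pow_eq_one_iff _).1 hc)
      omega
    refine ⟨a + 1, ?_⟩
    rw [← pow_mul, show 2 * (a + 1) = (2 * a + 1) + 1 by ring, pow_succ _ (2 * a + 1), h1, neg_one_mul]

/-- Only for `i = 2` does `r` divide `q + 1`. -/
theorem Ord.dvd_succ_iff (O : Ord r q i b c) : r ∣ q + 1 ↔ i = 2 := by
  rw [← ZMod.natCast_eq_zero_iff, Nat.cast_add, Nat.cast_one, add_eq_zero_iff_eq_neg]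
  constructor
  · intro h
    have h1 : ¬ i ∣ 1 := fun hd => O.neg_one_ne (by rw [← h, ← (O.pow_eq_one_iff 1).2 hd, pow_one])
    rcases (Nat.dvd_prime Nat.prime_two).1 ((O.pow_eq_one_iff 2).1 (by rw [h, neg_one_sq])) with e | e
    · exact absurd (e ▸ dvd_rfl) h1
    · exact e
  · rintro rfl
    refine (mul_self_eq_one_iff.1 (by rw [← pow_two, O.pow_eq_one_iff])).resolve_left fun hc => ?_
    have := Nat.le_of_dvd one_pos ((O.pow_eq_one_iff 1).1 (by rw [hc, pow_one]))
    omega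

/-- Blocks `s`, of dimension `b` and self-dual, at most `(s + 1 - t) / 2` pairs of them. -/
theorem herm_room_self {n m b t : ℕ} (hb : 0 < b) (ht : 1 ≤ t) (hmn : 2 * m ≤ n) (hex : ¬ 2 * m ≤ n % b) :
    (∀ s, 1 ≤ s → b * s ≤ n → ∃ j ≤ (s + 1 - t) / 2, b * j ≤ m ∧ 2 * m + b * s ≤ 2 * (b * j) + n) ↔
      b ≤ m ∧ 2 * (m % b) ≤ n % b ∧ t + 2 * (m / b) ≤ n / b := by
  have hn := Nat.div_add_mod n b
  have hm := Nat.div_add_mod m b
  have hnm := Nat.mod_lt n hb
  have hmm := Nat.mod_lt m hb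
  constructor
  · intro H
    have hN : 1 ≤ n / b := Nat.pos_of_ne_zero fun e => by rw [e, Nat.mul_zero] at hn; omega
    obtain ⟨j, hjJ, hj, hle⟩ := H (n / b) hN (by omega)
    have hjA : j ≤ m / b := (Nat.le_div_iff_mul_le hb).2 (by rwa [mul_comm])
    have hj' : j = m / b := by
      by_contra hne
      have h1 : b * (j + 1) ≤ b * (m / b) := Nat.mul_le_mul_left b (by omega)
      rw [mul_add, mul_one] at h1
      omega
    subst hj'
    have hA : 1 ≤ m / b := Nat.pos_of_ne_zero fun e => by rw [e, Nat.mul_zero] at hm hle; omega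
    refine ⟨?_, by omega, ?_⟩
    · have := Nat.le_mul_of_pos_right b hA
      omega
    · by_contra hlt
      have hts : t + 2 * (m / b) = n / b + 1 := by omega
      have hsub : b * (n / b - 1) + b = b * (n / b) := by
        conv_lhs => rhs; rw [← mul_one b]
        rw [← mul_add, Nat.sub_add_cancel hN]
      obtain ⟨k, hkJ, hk, hkle⟩ := H (n / b - 1) (by omega) (by omega)
      have h2 : b * (k + 1) ≤ b * (m / b) := Nat.mul_le_mul_left _ (by omega)
      rw [mul_add, mul_one] at h2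
      omega
  · rintro ⟨hbm, hle, hN⟩ s hs hsn
    have hsN : s ≤ n / b := (Nat.le_div_iff_mul_le hb).2 (by rwa [mul_comm])
    rcases Nat.lt_or_ge ((s + 1 - t) / 2) (m / b) with hlt | hge
    · set J := (s + 1 - t) / 2 with hJ
      refine ⟨J, le_rfl, ?_, ?_⟩
      · have h1 := Nat.mul_le_mul_left b hlt.le
        omega
      · have hst : 2 * (m / b) + s ≤ 2 * J + n / b := by omega
        have h1 := Nat.mul_le_mul_left b hst
        rw [mul_add, mul_add, mul_left_comm b 2, mul_left_comm b 2] at h1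
        omega
    · have h1 : b * s ≤ b * (n / b) := Nat.mul_le_mul_left b hsN
      exact ⟨m / b, hge, by omega, by omega⟩

/-- Blocks `s` in dual pairs of dimension `2 b`. -/
theorem herm_room_pair {n m b : ℕ} (hb : 0 < b) (hmn : 2 * m ≤ n) (hex : ¬ 2 * m ≤ n % (2 * b)) :
    (∀ s, 1 ≤ s → 2 * (b * s) ≤ n → ∃ j ≤ s, b * j ≤ m ∧ 2 * m + 2 * (b * s) ≤ 2 * (b * j) + n) ↔
      b ≤ m ∧ 2 * (m % b) ≤ n % (2 * b) := by
  have hn := Nat.div_add_mod n (2 * b)
  have hm := Nat.div_add_mod m b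
  have hnm := Nat.mod_lt n (show 2 * b > 0 by omega)
  have hmm := Nat.mod_lt m hb
  rw [mul_assoc] at hn
  constructor
  · intro H
    have hN : 1 ≤ n / (2 * b) := Nat.pos_of_ne_zero fun e => by
      rw [e, Nat.mul_zero, Nat.mul_zero] at hn
      omega
    obtain ⟨j, -, hj, hle⟩ := H (n / (2 * b)) hN (by omega)
    have hjA : j ≤ m / b := (Nat.le_div_iff_mul_le hb).2 (by rwa [mul_comm])
    have hj' : j = m / b := by
      by_contra hne
      have h1 : b * (j + 1) ≤ b * (m / b) := Nat.mul_le_mul_left b (by omega)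
      rw [mul_add, mul_one] at h1
      omega
    subst hj'
    refine ⟨?_, by omega⟩
    by_contra hlt
    rw [Nat.div_eq_of_lt (show m < b by omega), Nat.mul_zero] at hm hle
    omega
  · rintro ⟨hbm, hle⟩ s hs hsn
    rcases Nat.lt_or_ge s (m / b) with hlt | hge
    · have h1 : b * (s + 1) ≤ b * (m / b) := Nat.mul_le_mul_left b hlt
      rw [mul_add, mul_one] at h1
      refine ⟨s, le_rfl, by omega, ?_⟩
      have hex' : b * s + 0 ≤ b * (m / b) := by omega
      omega
    · have hsN : s ≤ n / (2 * b) := (Nat.le_div_iff_mul_le (by omega)).2 (by rw [mul_comm, mul_assoc]; exact hsn)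
      have h1 : b * s ≤ b * (n / (2 * b)) := Nat.mul_le_mul_left b hsN
      exact ⟨m / b, hge, by omega, by omega⟩

end CfsgLib.Derangements.Herm
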