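import Mathlib
import Cfsg.Agent.Lib.Forms.HermFrames

/-!
Hermitian spaces over finite fields: orthogonals, totally isotropic subspaces and their number.
-/

set_option autoImplicit false
set_option linter.unusedSectionVars false

namespace CfsgLib.Derangements.Herm

open Module CfsgLib.Forms

universe u v

variable {F : Type u} [Field F] {σ : F →+* F} {V : Type v} [AddCommGroup V] [Module F V]

/-- A non-degenerate Hermitian form for the involution `σ`. -/
structure IsHerm (σ : F →+* F) (B : V →ₛₗ[σ] V →ₗ[F] F) : Prop where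
  ne : σ ≠ RingHom.id F
  invol : ∀ a, σ (σ a) = a
  symm : B.IsSymm
  nondeg : ∀ v, (∀ u, B v u = 0) → v = 0

/-- Totally isotropic. -/
def Ti (B : V →ₛₗ[σ] V →ₗ[F] F) (W : Submodule F V) : Prop := ∀ u ∈ W, ∀ v ∈ W, B u v = 0

/-- Non-degenerate on the subspace. -/
def Nd (B : V →ₛₗ[σ] V →ₗ[F] F) (U : Submodule F V) : Prop :=
  ∀ u ∈ U, (∀ w ∈ U, B u w = 0) → u = 0

/-- The orthogonal of a subspace. -/
def orth (B : V →ₛₗ[σ] V →ₗ[F] F) (W : Submodule F V) : Submodule F V := ⨅ w : W, LinearMap.ker (B (w : V))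

variable {B : V →ₛₗ[σ] V →ₗ[F] F}

theorem mem_orth {W : Submodule F V} {v : V} : v ∈ orth B W ↔ ∀ w ∈ W, B w v = 0 := by
  simp [orth]

theorem IsHerm.swap (hB : IsHerm σ B) {u v : V} (h : B u v = 0) : B v u = 0 := by
  rw [← hB.symm.eq, h, map_zero]

theorem IsHerm.nondegenerate (hB : IsHerm σ B) : B.Nondegenerate :=
  ⟨hB.nondeg, fun u hu => hB.nondeg u fun v => hB.swap (hu v)⟩

theorem IsHerm.nd_top (hB : IsHerm σ B) : Nd B ⊤ := fun u _ h => hB.nondeg u fun w => h w trivial

theorem nd_bot : Nd B ⊥ := fun _ hu _ => hu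

theorem ti_bot : Ti B ⊥ := fun u hu _ _ => by rw [(Submodule.mem_bot F).1 hu, map_zero, LinearMap.zero_apply]

theorem Ti.mono {W W' : Submodule F V} (h : Ti B W) (hle : W' ≤ W) : Ti B W' :=
  fun u hu v hv => h u (hle hu) v (hle hv)

theorem Ti.sup {W W' : Submodule F V} (hB : IsHerm σ B) (h : Ti B W) (h' : Ti B W')
    (ho : ∀ a ∈ W, ∀ b ∈ W', B a b = 0) : Ti B (W ⊔ W') := fun u hu v hv => by
  obtain ⟨a, ha, b, hb, rfl⟩ := Submodule.mem_sup.1 hu
  obtain ⟨a', ha', b', hb', rfl⟩ := Submodule.mem_sup.1 hv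
  simp [h a ha a' ha', h' b hb b' hb', ho a ha b' hb', hB.swap (ho a' ha' b hb)]

theorem isHerm_res (hB : IsHerm σ B) {U : Submodule F V} (hU : Nd B U) :
    IsHerm σ (B.domRestrict₁₂ U U) :=
  ⟨hB.ne, hB.invol, ⟨fun x y => hB.symm.eq _ _⟩,
    fun x hx => Subtype.ext (hU x x.2 fun w hw => hx ⟨w, hw⟩)⟩

theorem isHerm_std {n q : ℕ} (c : CfsgLib.ClassicalForms.Conj F q) :
    IsHerm c.σ (hermBundled n c.σ : (Fin n → F) →ₛₗ[c.σ] (Fin n → F) →ₗ[F] F) :=
  ⟨c.ne, c.invol, hermBundled_isSymm c.invol, (hermBundled_nondegenerate c.invol).1⟩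

variable [FiniteDimensional F V]

theorem finrank_orth (hB : IsHerm σ B) (W : Submodule F V) :
    finrank F (orth B W) + finrank F W = finrank F V := by
  let b := Module.finBasis F W
  let φ : V →ₗ[F] (Fin (finrank F W) → F) := LinearMap.pi fun i => B (b i : V)
  have hker : LinearMap.ker φ = orth B W := by
    ext v
    rw [LinearMap.mem_ker, mem_orth]
    constructor
    · intro h w hw
      have e := congrArg Subtype.val (b.sum_repr ⟨w, hw⟩)
      simp only [Submodule.coe_sum, Submodule.coe_smul] at e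
      rw [← e, map_sum, LinearMap.sum_apply]
      refine Finset.sum_eq_zero fun i _ => ?_
      rw [map_smulₛₗ, LinearMap.smul_apply, show B (b i : V) v = 0 from congrFun h i, smul_zero]
    · exact fun h => funext fun i => h _ (b i).2
  have hsurj : LinearMap.range φ = ⊤ := by
    by_contra hne
    obtain ⟨ψ, hψ0, hψ⟩ := Submodule.exists_dual_map_eq_bot_of_lt_top (lt_top_iff_ne_top.mpr hne)
      inferInstance
    set a : Fin (finrank F W) → F := fun i => ψ (Pi.single i 1) with ha
    have hexp : ∀ y, ψ y = ∑ i, a i * y i := fun y => by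
      conv_lhs => rw [pi_eq_sum_univ' y]
      simp only [map_sum, map_smul, smul_eq_mul, ha]
      exact Finset.sum_congr rfl fun i _ => mul_comm _ _
    have h0 : ∑ i, σ (a i) • b i = 0 := by
      refine Subtype.ext (hB.nondeg _ fun v => ?_)
      have hv : ψ (φ v) = 0 := by
        have : ψ (φ v) ∈ (LinearMap.range φ).map ψ := ⟨_, LinearMap.mem_range_self _ v, rfl⟩
        rwa [hψ, Submodule.mem_bot] at this
      rw [hexp] at hv
      simp only [Submodule.coe_sum, Submodule.coe_smul, map_sum, map_smulₛₗ, LinearMap.sum_apply,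
        LinearMap.smul_apply, hB.invol, smul_eq_mul]
      exact hv
    have ha0 : ∀ i, a i = 0 := fun i => σ.injective (by
      rw [map_zero]; exact Fintype.linearIndependent_iff.mp b.linearIndependent _ h0 i)
    exact hψ0 (LinearMap.ext fun y => by simp [hexp, ha0])
  have h1 := LinearMap.finrank_range_add_finrank_ker φ
  rw [hsurj, finrank_top, Module.finrank_fin_fun, hker] at h1
  omega

theorem isCompl_orth (hB : IsHerm σ B) {U : Submodule F V} (hU : Nd B U) : IsCompl U (orth B U) := by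
  have hd : Disjoint U (orth B U) :=
    Submodule.disjoint_def.2 fun x hx hx' => hU x hx fun w hw => hB.swap (mem_orth.1 hx' w hw)
  refine ⟨hd, codisjoint_iff.2 (Submodule.eq_top_of_finrank_eq ?_)⟩
  have h1 := Submodule.finrank_sup_add_finrank_inf_eq U (orth B U)
  rw [hd.eq_bot, finrank_bot, add_zero] at h1
  have := finrank_orth hB U
  omega

theorem Ti.two_mul_le (hB : IsHerm σ B) {W U : Submodule F V} (h : Ti B W) (hU : Nd B U) (hWU : W ≤ U) :
    2 * finrank F W ≤ finrank F U := by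
  have h1 := finrank_orth (isHerm_res hB hU) (W.comap U.subtype)
  have h2 : finrank F (W.comap U.subtype) ≤
      finrank F (orth (B.domRestrict₁₂ U U) (W.comap U.subtype)) :=
    Submodule.finrank_mono fun x hx => mem_orth.2 fun w hw => h _ hw _ hx
  rw [(Submodule.comapSubtypeEquivOfLe hWU).finrank_eq] at h1 h2
  omega

section Count

variable [Finite F] {q : ℕ}

open CfsgLib.ClassicalForms (Conj two_le_q card_herm_zero)

/-- The number of totally isotropic subspaces of the standard space. -/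
noncomputable def cnt (σ : F →+* F) (n m : ℕ) : ℕ :=
  Nat.card {W : Submodule F (Fin n → F) // finrank F W = m ∧ Ti (hermBundled n σ) W}

theorem card_eq_cnt (c : Conj F q) {B : V →ₛₗ[c.σ] V →ₗ[F] F} (hB : IsHerm c.σ B) {n : ℕ}
    (hn : finrank F V = n) (m : ℕ) :
    Nat.card {W : Submodule F V // finrank F W = m ∧ Ti B W} = cnt c.σ n m := by
  obtain ⟨e, he⟩ := hermitian_isometric c.σ c.ne c.invol B hB.symm hB.nondegenerate (hermBundled n c.σ)
    (hermBundled_isSymm c.invol) (hermBundled_nondegenerate c.invol)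
    (by rw [hn, Module.finrank_fin_fun])
  refine Nat.card_congr ((Submodule.orderIsoMapComap e).toEquiv.subtypeEquiv fun W => ?_)
  show _ ↔ finrank F ↥(W.map (e : V →ₗ[F] (Fin n → F))) = m ∧ Ti _ (W.map (e : V →ₗ[F] (Fin n → F)))
  rw [LinearEquiv.finrank_map_eq]
  refine and_congr_right fun _ => ?_
  constructor
  · rintro h _ ⟨u, hu, rfl⟩ _ ⟨v, hv, rfl⟩
    exact (he u v).trans (h u hu v hv)
  · intro h u hu v hv
    exact (he u v).symm.trans (h _ ⟨u, hu, rfl⟩ _ ⟨v, hv, rfl⟩)

/-- An isotropic vector lies in a hyperbolic pair, whose orthogonal carries the subspaces through it. -/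
theorem card_through (c : Conj F q) {B : V →ₛₗ[c.σ] V →ₗ[F] F} (hB : IsHerm c.σ B) {n : ℕ}
    (hn : finrank F V = n + 2) (m : ℕ) {e : V} (he0 : e ≠ 0) (he : B e e = 0) :
    Nat.card {W : Submodule F V // (finrank F W = m + 1 ∧ Ti B W) ∧ e ∈ W} = cnt c.σ n m := by
  obtain ⟨g₀, hg₀⟩ : ∃ g, B e g ≠ 0 := by
    by_contra hc
    push Not at hc
    exact he0 (hB.nondeg e hc)
  set g := (B e g₀)⁻¹ • g₀ with hg
  have heg : B e g = 1 := by rw [hg, map_smul, smul_eq_mul, inv_mul_cancel₀ hg₀]
  have hge : B g e = 1 := by rw [← hB.symm.eq, heg, map_one]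
  obtain ⟨θ, hθ⟩ := c.exists_trace_one
  set a := -(B g g * θ) with ha
  set f := g + a • e with hf
  have hef : B e f = 1 := by rw [hf, map_add, heg, map_smul, he]; simp
  have hfe : B f e = 1 := by rw [← hB.symm.eq, hef, map_one]
  have hff : B f f = 0 := by
    have hgg : c.σ (B g g) = B g g := hB.symm.eq g g
    simp only [hf, map_add, map_smul, LinearMap.add_apply, map_smulₛₗ, LinearMap.smul_apply, he, heg, hge,
      smul_eq_mul, mul_one, mul_zero, add_zero]
    rw [ha, map_neg, map_mul, hgg]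
    linear_combination (-(B g g)) * hθ
  set C : Submodule F V := LinearMap.ker (B e) ⊓ LinearMap.ker (B f) with hC
  have hmemC : ∀ x, x ∈ C ↔ B e x = 0 ∧ B f x = 0 := fun x => by simp [hC]
  have hproj : ∀ x, x - B e x • f - B f x • e ∈ C := fun x => by
    rw [hmemC]
    simp [hef, hfe, he, hff]
  have hli : LinearIndependent F ![e, f] := by
    refine LinearIndependent.pair_iff.2 fun s t hst => ⟨?_, ?_⟩
    · simpa [hfe, hff] using congrArg (B f) hst
    · simpa [he, hef] using congrArg (B e) hst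
  set P := Submodule.span F (Set.range ![e, f]) with hP
  have hPd : finrank F P = 2 := by rw [hP, finrank_span_eq_card hli, Fintype.card_fin]
  have hPN : Nd B P := by
    intro u hu h
    obtain ⟨s, hs⟩ := (Submodule.mem_span_range_iff_exists_fun F).1 hu
    have h1 := hB.swap (h e (Submodule.subset_span ⟨0, rfl⟩))
    have h2 := hB.swap (h f (Submodule.subset_span ⟨1, rfl⟩))
    rw [← hs] at h1 h2 ⊢
    simp [Fin.sum_univ_two, he, hef, hfe, hff] at h1 h2
    simp [Fin.sum_univ_two, h1, h2]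
  have hCP : C = orth B P := by
    ext x
    rw [mem_orth, hmemC]
    constructor
    · rintro ⟨h1, h2⟩ w hw
      obtain ⟨s, rfl⟩ := (Submodule.mem_span_range_iff_exists_fun F).1 hw
      simp [Fin.sum_univ_two, h1, h2]
    · exact fun h => ⟨h e (Submodule.subset_span ⟨0, rfl⟩), h f (Submodule.subset_span ⟨1, rfl⟩)⟩
  have hCd : finrank F C = n := by
    have := finrank_orth hB P
    rw [hCP]; omega
  have hCN : Nd B C := fun x hx h => hB.nondeg x fun y => by
    have h1 := h _ (hproj y)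
    have hxe := hB.swap ((hmemC x).1 hx).1
    have hxf := hB.swap ((hmemC x).1 hx).2
    simpa [hxe, hxf] using h1
  rw [← card_eq_cnt c (isHerm_res hB hCN) hCd m]
  have hdec : ∀ W : Submodule F V, Ti B W → e ∈ W → W = (F ∙ e) ⊔ (W ⊓ C) := by
    intro W hW hWe
    refine le_antisymm (fun w hw => ?_) (sup_le ((Submodule.span_singleton_le_iff_mem _ _).2 hWe) inf_le_left)
    have h1 : w - B f w • e ∈ W ⊓ C := ⟨W.sub_mem hw (W.smul_mem _ hWe), by
      have := hproj w
      rwa [hW e hWe w hw, zero_smul, sub_zero] at this⟩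
    have := Submodule.add_mem_sup (Submodule.smul_mem (F ∙ e) (B f w) (Submodule.mem_span_singleton_self e)) h1
    rwa [add_sub_cancel] at this
  have hdisj : ∀ W' : Submodule F V, W' ≤ C → (F ∙ e) ⊓ W' = ⊥ := fun W' hW' => by
    refine (Submodule.eq_bot_iff _).2 fun x hx => ?_
    obtain ⟨k, rfl⟩ := Submodule.mem_span_singleton.1 hx.1
    have := ((hmemC _).1 (hW' hx.2)).2
    rw [map_smul, hfe, smul_eq_mul, mul_one] at this
    rw [this, zero_smul]
  have hrank : ∀ W' : Submodule F V, W' ≤ C → finrank F ↥((F ∙ e) ⊔ W') = finrank F W' + 1 := fun W' hW' => by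
    have h := Submodule.finrank_sup_add_finrank_inf_eq (F ∙ e) W'
    rw [hdisj W' hW', finrank_bot, finrank_span_singleton he0] at h
    omega
  exact Nat.card_congr
    { toFun := fun W => ⟨(W.1 ⊓ C).comap C.subtype, by
        rw [(Submodule.comapSubtypeEquivOfLe inf_le_right).finrank_eq]
        have := hrank (W.1 ⊓ C) inf_le_right
        rw [← hdec W.1 W.2.1.2 W.2.2, W.2.1.1] at this
        omega, fun u hu v hv => W.2.1.2 _ hu.1 _ hv.1⟩
      invFun := fun W => ⟨(F ∙ e) ⊔ W.1.map C.subtype, ⟨by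
        rw [hrank _ (Submodule.map_subtype_le C W.1), Submodule.finrank_map_subtype_eq, W.2.1], by
        refine Ti.sup hB ?_ ?_ ?_
        · intro x hx y hy
          obtain ⟨k, rfl⟩ := Submodule.mem_span_singleton.1 hx
          obtain ⟨l, rfl⟩ := Submodule.mem_span_singleton.1 hy
          simp [he]
        · rintro _ ⟨x, hx, rfl⟩ _ ⟨y, hy, rfl⟩
          exact W.2.2 x hx y hy
        · rintro k hk _ ⟨x, -, rfl⟩
          obtain ⟨l, rfl⟩ := Submodule.mem_span_singleton.1 hk
          simp [((hmemC _).1 x.2).1]⟩,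
        Submodule.mem_sup_left (Submodule.mem_span_singleton_self e)⟩
      left_inv := fun W => Subtype.ext (by
        show (F ∙ e) ⊔ ((W.1 ⊓ C).comap C.subtype).map C.subtype = W.1
        rw [Submodule.map_comap_subtype, inf_comm W.1 C, ← inf_assoc, inf_idem, inf_comm C W.1,
          ← hdec W.1 W.2.1.2 W.2.2])
      right_inv := fun W => Subtype.ext (by
        show (((F ∙ e) ⊔ W.1.map C.subtype) ⊓ C).comap C.subtype = W.1
        have h : ((F ∙ e) ⊔ W.1.map C.subtype) ⊓ C = W.1.map C.subtype := by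
          rw [sup_comm, sup_inf_assoc_of_le _ (Submodule.map_subtype_le C W.1), hdisj C le_rfl, sup_bot_eq]
        rw [h, Submodule.comap_map_eq_of_injective C.injective_subtype]) }

/-- Double counting of pairs of a totally isotropic subspace and a non-zero vector in it. -/
theorem cnt_succ (hF : Nat.card F = q ^ 2) (c : Conj F q) (l m : ℕ) :
    cnt c.σ (l + 2) (m + 1) * ((q ^ 2) ^ (m + 1) - 1) =
      guFactor q (l + 1) * guFactor q l * cnt c.σ l m := by
  classical
  have hB : IsHerm c.σ (hermBundled (l + 2) c.σ : (Fin (l + 2) → F) →ₛₗ[c.σ] _ →ₗ[F] F) := isHerm_std c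
  set B := (hermBundled (l + 2) c.σ : (Fin (l + 2) → F) →ₛₗ[c.σ] _ →ₗ[F] F) with hBdef
  have : Finite (Submodule F (Fin (l + 2) → F)) :=
    Finite.of_injective (fun W => (W : Set (Fin (l + 2) → F))) SetLike.coe_injective
  let X := {W : Submodule F (Fin (l + 2) → F) // finrank F W = m + 1 ∧ Ti B W}
  let Y := {e : Fin (l + 2) → F // B e e = 0 ∧ e ≠ 0}
  let E : (Σ W : X, {e : W.1 // e ≠ 0}) ≃ (Σ e : Y, {W : Submodule F (Fin (l + 2) → F) // (finrank F ↥W = m + 1 ∧ Ti B W) ∧ e.1 ∈ W}) :=
    { toFun := fun p => ⟨⟨p.2.1, p.1.2.2 _ p.2.1.2 _ p.2.1.2, fun h => p.2.2 (Subtype.ext h)⟩,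
        ⟨p.1.1, p.1.2, p.2.1.2⟩⟩
      invFun := fun p => ⟨⟨p.2.1, p.2.2.1⟩, ⟨⟨p.1.1, p.2.2.2⟩, fun h => p.1.2.2 (congrArg Subtype.val h)⟩⟩
      left_inv := fun p => rfl
      right_inv := fun p => rfl }
  have := Fintype.ofFinite X
  have := Fintype.ofFinite Y
  have hfib : ∀ W : X, Nat.card {e : W.1 // e ≠ 0} = (q ^ 2) ^ (m + 1) - 1 := fun W => by
    have h1 := Nat.card_congr (Equiv.optionSubtypeNe (0 : W.1))
    rw [Finite.card_option, Module.natCard_eq_pow_finrank (K := F) (V := W.1), W.2.1, hF] at h1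
    omega
  have hY : Nat.card Y = guFactor q (l + 1) * guFactor q l := by
    have h1 := card_isotropic_eq hF l
    let T := {e : Fin (l + 2) → F // B e e = 0}
    have h2 : Nat.card T = guFactor q (l + 1) * guFactor q l + 1 := by
      rw [← h1]
      exact Nat.card_congr (Equiv.subtypeEquivRight fun e => by rw [hBdef, hermBundled_eq c])
    let z : T := ⟨0, by simp⟩
    have h3 := Nat.card_congr (Equiv.optionSubtypeNe z)
    rw [Finite.card_option, h2] at h3
    have h4 : Nat.card {t : T // t ≠ z} = Nat.card Y := Nat.card_congr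
      { toFun := fun t => ⟨t.1.1, t.1.2, fun h => t.2 (Subtype.ext h)⟩
        invFun := fun t => ⟨⟨t.1, t.2.1⟩, fun h => t.2.2 (congrArg Subtype.val h)⟩
        left_inv := fun t => rfl
        right_inv := fun t => rfl }
    omega
  have h := Nat.card_congr E
  rw [Nat.card_sigma, Nat.card_sigma, Finset.sum_congr rfl fun W _ => hfib W,
    Finset.sum_congr rfl fun (e : Y) _ =>
      card_through c hB (by rw [Module.finrank_fin_fun]) m e.2.2 e.2.1,
    Finset.sum_const, Finset.sum_const, Finset.card_univ, Finset.card_univ, smul_eq_mul, smul_eq_mul,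
    ← Nat.card_eq_fintype_card, ← Nat.card_eq_fintype_card, hY] at h
  exact h

theorem cnt_zero (σ : F →+* F) (n : ℕ) : cnt σ n 0 = 1 :=
  Nat.card_eq_one_iff_unique.2 ⟨⟨fun a b => Subtype.ext
    ((Submodule.finrank_eq_zero.1 a.2.1).trans (Submodule.finrank_eq_zero.1 b.2.1).symm)⟩,
    ⟨⟨⊥, finrank_bot F _, ti_bot⟩⟩⟩

theorem neg_pow_of_dvd_guFactor {r i : ℕ} (hq : 1 ≤ q) (h : r ∣ guFactor q i) :
    (-(q : ZMod r)) ^ (i + 1) = 1 := by
  rw [guFactor] at h
  rw [← ZMod.natCast_eq_zero_iff] at h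
  split_ifs at h with he
  · push_cast at h
    rw [(he.add_one).neg_pow, ← eq_neg_of_add_eq_zero_right h, ]
  · rw [Nat.cast_sub (Nat.one_le_pow _ _ hq)] at h
    push_cast at h
    rw [(Nat.not_even_iff_odd.1 he).add_one.neg_pow, sub_eq_zero.1 h]

/-- A prime dividing the number of totally isotropic subspaces. -/
theorem not_dvd_cnt (hF : Nat.card F = q ^ 2) (c : Conj F q) {r : ℕ} (hr : r.Prime) : ∀ m n : ℕ, 2 * m ≤ n →
    (∀ k, n - 2 * m < k → k ≤ n → (-(q : ZMod r)) ^ k ≠ 1) → ¬ r ∣ cnt c.σ n m := by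
  have hq : 1 ≤ q := (two_le_q hF).trans' one_le_two
  intro m
  induction m with
  | zero => intro n _ _; rw [cnt_zero]; exact hr.not_dvd_one
  | succ m ih =>
    intro n hmn hk hd
    obtain ⟨l, rfl⟩ : ∃ l, n = l + 2 := ⟨n - 2, by omega⟩
    have h : r ∣ guFactor q (l + 1) * guFactor q l * cnt c.σ l m := cnt_succ hF c l m ▸ hd.mul_right _
    rcases hr.dvd_mul.1 h with h | h
    · rcases hr.dvd_mul.1 h with h | h
      · exact hk (l + 2) (by omega) le_rfl (neg_pow_of_dvd_guFactor hq h)
      · exact hk (l + 1) (by omega) (by omega) (neg_pow_of_dvd_guFactor hq h)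
    · exact ih l (by omega) (fun k h1 h2 => hk k (by omega) (by omega)) h

end Count

end CfsgLib.Derangements.Herm
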