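import Mathlib
import Cfsg.Agent.Lib.Derangements.HermBasic
import Cfsg.Agent.Lib.Derangements.FixedSubspaces
import Cfsg.Agent.Lib.SemisimpleClasses.Unitary

/-!
The pieces of an isometry of a Hermitian space a power of which is scalar: kernels of the irreducible factors
of `X ^ r - z`, their pairing under `f ↦` the reciprocal of the conjugate, and invariant subspaces inside them.
-/

set_option autoImplicit false
set_option linter.unusedSectionVars false

namespace CfsgLib.Derangements.Herm

open Module Polynomial UniqueFactorizationMonoid CfsgLib.SemisimpleClasses CfsgLib.Derangements.SubFix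
open CfsgLib.Classes.SympSemi (rev rev_rev rev_mul rev_monic rev_irreducible natDegree_rev coeff_zero_rev)

universe u v

variable {F : Type u} [Field F]

/-- A monic irreducible divisor of `X ^ r - z`. -/
structure Fac (r : ℕ) (z : F) (f : F[X]) : Prop where
  monic : f.Monic
  irr : Irreducible f
  dvd : f ∣ (X : F[X]) ^ r - C z

/-- The reciprocal of the conjugate polynomial. -/
noncomputable def star (σ : F →+* F) (f : F[X]) : F[X] := rev (f.map σ)

/-- The polynomial whose value at a root `η` of `X ^ r - z` is the conjugate of `f` at `η⁻¹`. -/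
noncomputable def adjPoly (σ : F →+* F) (r : ℕ) (z : F) (f : F[X]) : F[X] :=
  (f.map σ).comp (C z⁻¹ * X ^ (r - 1))

section Poly

variable {σ : F →+* F} {r : ℕ} {z : F} {f g : F[X]}

theorem Fac.coeff_zero (hf : Fac r z f) (hr : r ≠ 0) (hz : z ≠ 0) : f.coeff 0 ≠ 0 := fun h0 => by
  obtain ⟨c, hc⟩ := hf.dvd
  have h := congrArg (fun p : F[X] => p.coeff 0) hc
  simp only [coeff_sub, coeff_X_pow, if_neg (Ne.symm hr), coeff_C_zero, mul_coeff_zero, h0, zero_mul, zero_sub,
    neg_eq_zero] at h
  exact hz h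

theorem Fac.deg_pos (hf : Fac r z f) : 0 < f.natDegree := hf.irr.natDegree_pos

theorem irreducible_map (hσ : ∀ a, σ (σ a) = a) (hf : Irreducible f) : Irreducible (f.map σ) :=
  (MulEquiv.irreducible_iff (Polynomial.mapEquiv (RingEquiv.ofBijective σ
    ⟨σ.injective, fun x => ⟨σ x, hσ x⟩⟩)).toMulEquiv).2 hf

theorem rev_X_pow_sub_C {a : F} (hr : r ≠ 0) (ha : a ≠ 0) : rev ((X : F[X]) ^ r - C a) = X ^ r - C a⁻¹ := by
  have hn : ((X : F[X]) ^ r - C a).natDegree = r := natDegree_X_pow_sub_C
  have h1 : ((X : F[X]) ^ r - C a).reverse = 1 - C a * X ^ r := by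
    rw [Polynomial.reverse, hn, reflect_sub, reflect_C, reflect_monomial, revAt_le le_rfl, Nat.sub_self, pow_zero]
  have h2 : ((X : F[X]) ^ r - C a).coeff 0 = -a := by
    rw [coeff_sub, coeff_X_pow, if_neg (Ne.symm hr), coeff_C_zero, zero_sub]
  rw [rev, h1, h2, inv_neg, map_neg, mul_sub, mul_one, ← mul_assoc, neg_mul, ← map_mul, inv_mul_cancel₀ ha,
    map_one]
  ring

theorem Fac.star (hf : Fac r z f) (hσ : ∀ a, σ (σ a) = a) (hr : r ≠ 0) (hn : z * σ z = 1) :
    Fac r z (star σ f) := by
  have hz : z ≠ 0 := left_ne_zero_of_mul_eq_one hn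
  have h0 : (f.map σ).coeff 0 ≠ 0 := by
    rw [coeff_map]; exact (map_ne_zero σ).2 (hf.coeff_zero hr hz)
  refine ⟨rev_monic h0, rev_irreducible (hf.monic.map σ) h0 (irreducible_map hσ hf.irr), ?_⟩
  obtain ⟨c, hc⟩ := hf.dvd
  refine ⟨rev (c.map σ), ?_⟩
  rw [Herm.star, ← rev_mul, ← Polynomial.map_mul, ← hc, Polynomial.map_sub, Polynomial.map_pow, map_X, map_C,
    rev_X_pow_sub_C hr ((map_ne_zero σ).2 hz), inv_eq_of_mul_eq_one_left hn]

theorem natDegree_star (hf : Fac r z f) (hr : r ≠ 0) (hz : z ≠ 0) : (star σ f).natDegree = f.natDegree := by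
  rw [Herm.star, natDegree_rev (by rw [coeff_map]; exact (map_ne_zero σ).2 (hf.coeff_zero hr hz)),
    natDegree_map_eq_of_injective σ.injective]

theorem star_star (hf : Fac r z f) (hσ : ∀ a, σ (σ a) = a) (hr : r ≠ 0) (hz : z ≠ 0) :
    star σ (star σ f) = f := by
  rw [Herm.star, Herm.star, Unitary.rev_map, Polynomial.map_map, show σ.comp σ = RingHom.id F from RingHom.ext hσ,
    Polynomial.map_id, rev_rev hf.monic (hf.coeff_zero hr hz)]

/-- The root of `f` in `F[X] / g` is inverted. -/
theorem dvd_adjPoly_iff (hf : Fac r z f) (hg : Fac r z g) (hσ : ∀ a, σ (σ a) = a) (hr : r ≠ 0)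
    (hn : z * σ z = 1) : g ∣ adjPoly σ r z f ↔ g = star σ f := by
  have hz : z ≠ 0 := left_ne_zero_of_mul_eq_one hn
  set η := AdjoinRoot.root g with hη
  set y := aeval η (C z⁻¹ * X ^ (r - 1) : F[X]) with hy
  have hηy : η * y = 1 := by
    have h1 : aeval η ((X : F[X]) ^ r - C z) = 0 := by
      rw [hη, AdjoinRoot.aeval_eq]; exact AdjoinRoot.mk_eq_zero.2 hg.dvd
    rw [map_sub, map_pow, aeval_X, aeval_C, sub_eq_zero] at h1
    rw [hy, map_mul, map_pow, aeval_X, aeval_C, mul_left_comm, ← pow_succ',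
      Nat.sub_add_cancel (Nat.one_le_iff_ne_zero.2 hr), h1, ← map_mul, inv_mul_cancel₀ hz, map_one]
  let : Invertible y := ⟨η, hηy, by rw [mul_comm, hηy]⟩
  have h0 : (f.map σ).coeff 0 ≠ 0 := by
    rw [coeff_map]; exact (map_ne_zero σ).2 (hf.coeff_zero hr hz)
  have h2 := eval₂_reverse_eq_zero_iff (algebraMap F (AdjoinRoot g)) y (f.map σ)
  rw [show (⅟y : AdjoinRoot g) = η from rfl, ← aeval_def, ← aeval_def, hη, AdjoinRoot.aeval_eq] at h2
  rw [← AdjoinRoot.mk_eq_zero, ← AdjoinRoot.aeval_eq, adjPoly, aeval_comp, ← hη, ← hy, ← h2,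
    AdjoinRoot.mk_eq_zero]
  constructor
  · intro h
    refine eq_of_monic_of_associated hg.monic (hf.star hσ hr hn).monic ?_
    refine hg.irr.associated_of_dvd (hf.star hσ hr hn).irr ?_
    exact h.mul_left _
  · intro h
    have e : f.map σ = rev (f.map σ) * 0 + f.map σ := by ring
    have h3 : (f.map σ).reverse = C ((f.map σ).coeff 0) * g := by
      rw [h, Herm.star, rev, ← mul_assoc, ← map_mul, mul_inv_cancel₀ h0, map_one, one_mul]
    rw [h3]
    exact dvd_mul_left _ _

theorem Fac.eq_of_dvd (hf : Fac r z f) (hg : Fac r z g) (h : f ∣ g) : f = g :=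
  eq_of_monic_of_associated hf.monic hg.monic (hf.irr.associated_of_dvd hg.irr h)

theorem Fac.coprime (hf : Fac r z f) (hg : Fac r z g) (h : f ≠ g) : IsCoprime f g :=
  hf.irr.coprime_iff_not_dvd.2 fun hd => h (hf.eq_of_dvd hg hd)

variable (r z) in
/-- All the factors. -/
noncomputable def facs : Finset F[X] :=
  haveI := Classical.decEq F
  (normalizedFactors ((X : F[X]) ^ r - C z)).toFinset

theorem mem_facs (hr : r ≠ 0) : f ∈ facs r z ↔ Fac r z f := by
  classical
  rw [facs, Multiset.mem_toFinset]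
  constructor
  · intro h
    have h1 := irreducible_of_normalized_factor f h
    refine ⟨?_, h1, dvd_of_mem_normalizedFactors h⟩
    rw [← normalize_normalized_factor f h]
    exact monic_normalize h1.ne_zero
  · intro h
    obtain ⟨g, hg, ha⟩ := exists_mem_normalizedFactors_of_dvd (X_pow_sub_C_ne_zero (Nat.pos_of_ne_zero hr) z)
      h.irr h.dvd
    have hgm : g.Monic := by
      rw [← normalize_normalized_factor g hg]
      exact monic_normalize (irreducible_of_normalized_factor g hg).ne_zero
    rwa [eq_of_monic_of_associated h.monic hgm ha]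

theorem prod_facs (hr : (r : F) ≠ 0) (hz : z ≠ 0) : ∏ f ∈ facs r z, f = (X : F[X]) ^ r - C z := by
  classical
  have hr0 : r ≠ 0 := fun h => hr (by rw [h, Nat.cast_zero])
  have hne := X_pow_sub_C_ne_zero (R := F) (Nat.pos_of_ne_zero hr0) z
  have hnd : (normalizedFactors ((X : F[X]) ^ r - C z)).Nodup :=
    (squarefree_iff_nodup_normalizedFactors hne).1 (separable_X_pow_sub_C z hr hz).squarefree
  rw [facs, ← Finset.prod_map_val, Multiset.toFinset_val, hnd.dedup, Multiset.map_id']
  rw [prod_normalizedFactors_eq hne, (monic_X_pow_sub_C z hr0).normalize_eq_self]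

end Poly

variable {σ : F →+* F} {V : Type v} [AddCommGroup V] [Module F V]

/-- The kernel of a polynomial in `x`. -/
noncomputable def K (x : Module.End F V) (f : F[X]) : Submodule F V := LinearMap.ker (aeval x f)

theorem mem_K {x : Module.End F V} {f : F[X]} {v : V} : v ∈ K x f ↔ aeval x f v = 0 := LinearMap.mem_ker

theorem aeval_mem {x : Module.End F V} {W : Submodule F V} (hW : Inv x W) (p : F[X]) {v : V} (hv : v ∈ W) :
    aeval x p v ∈ W := by
  induction p using Polynomial.induction_on' with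
  | add p q hp hq => rw [map_add, LinearMap.add_apply]; exact add_mem hp hq
  | monomial n a =>
    rw [aeval_monomial, Module.End.mul_apply, Module.algebraMap_end_apply]
    exact W.smul_mem _ (hW.pow n hv)

theorem inv_K (x : Module.End F V) (f : F[X]) : Inv x (K x f) := fun v hv => by
  show x v ∈ K x f
  have h : aeval x f * x = x * aeval x f := by
    have := congrArg (aeval x) (mul_comm f X)
    rwa [map_mul, map_mul, aeval_X] at this
  have := LinearMap.congr_fun h v
  rw [Module.End.mul_apply, Module.End.mul_apply, mem_K.1 hv, map_zero] at this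
  exact mem_K.2 this

theorem aeval_restrict_apply {x : Module.End F V} {W : Submodule F V} (hW : ∀ w ∈ W, x w ∈ W) (p : F[X]) (w : W) :
    ((aeval (x.restrict hW) p w : W) : V) = aeval x p (w : V) := by
  induction p using Polynomial.induction_on generalizing w with
  | C a => simp
  | add p q hp hq => simp [hp, hq]
  | monomial n a ih =>
    rw [pow_succ, ← mul_assoc, map_mul (aeval x), map_mul (aeval (x.restrict hW)), Module.End.mul_apply,
      Module.End.mul_apply, aeval_X, aeval_X, ih]
    rfl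

/-- An isometry a power of which is scalar. -/
structure Elt (σ : F →+* F) (B : V →ₛₗ[σ] V →ₗ[F] F) (r : ℕ) (z : F) (x : Module.End F V) : Prop where
  herm : IsHerm σ B
  iso : ∀ u v, B (x u) (x v) = B u v
  pow : x ^ r = z • (1 : Module.End F V)
  rne : (r : F) ≠ 0
  norm : z * σ z = 1

variable {B : V →ₛₗ[σ] V →ₗ[F] F} {r : ℕ} {z : F} {x : Module.End F V} {f g : F[X]}

theorem Elt.r0 (E : Elt σ B r z x) : r ≠ 0 := fun h => E.rne (by rw [h, Nat.cast_zero])

theorem Elt.z0 (E : Elt σ B r z x) : z ≠ 0 := left_ne_zero_of_mul_eq_one E.norm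

theorem Elt.adjoint (E : Elt σ B r z x) (p : F[X]) (u v : V) :
    B (aeval x p u) v = B u (aeval x (adjPoly σ r z p) v) := by
  set y : Module.End F V := aeval x (C z⁻¹ * X ^ (r - 1) : F[X]) with hy
  have hxy : ∀ w, x (y w) = w := fun w => by
    have e : x * y = 1 := by
      rw [hy, map_mul, map_pow, aeval_X, aeval_C, Algebra.algebraMap_eq_smul_one, smul_mul_assoc, one_mul,
        mul_smul_comm, ← pow_succ', Nat.sub_add_cancel (Nat.one_le_iff_ne_zero.2 E.r0), E.pow, smul_smul,
        inv_mul_cancel₀ E.z0, one_smul]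
    rw [← Module.End.mul_apply, e, Module.End.one_apply]
  have hk : ∀ (k : ℕ) (u v : V), B ((x ^ k) u) v = B u ((y ^ k) v) := by
    intro k
    induction k with
    | zero => intro u v; rfl
    | succ k ih =>
      intro u v
      rw [pow_succ', Module.End.mul_apply]
      conv_lhs => rw [← hxy v]
      rw [E.iso, ih, ← Module.End.mul_apply, ← pow_succ]
  induction p using Polynomial.induction_on' with
  | add p q hp hq => simp only [adjPoly, Polynomial.map_add, add_comp, map_add, LinearMap.add_apply] at hp hq ⊢; rw [hp, hq]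
  | monomial n a =>
    rw [adjPoly, map_monomial, monomial_comp, map_mul, map_pow, ← hy, aeval_C, aeval_monomial]
    simp only [Module.End.mul_apply, Module.algebraMap_end_apply, map_smulₛₗ, LinearMap.smul_apply, hk,
      RingHom.id_apply]

/-- Kernels are orthogonal unless they are partners. -/
theorem Elt.orth_K (E : Elt σ B r z x) (hf : Fac r z f) (hg : Fac r z g) (h : g ≠ star σ f) {u v : V}
    (hu : u ∈ K x f) (hv : v ∈ K x g) : B u v = 0 := by
  obtain ⟨a, b, hab⟩ : IsCoprime (adjPoly σ r z f) g :=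
    (hg.irr.coprime_iff_not_dvd.2 fun hd => h ((dvd_adjPoly_iff hf hg E.herm.invol E.r0 E.norm).1 hd)).symm
  have hv' : aeval x (adjPoly σ r z f) (aeval x a v) = v := by
    conv_rhs => rw [show v = aeval x (1 : F[X]) v by simp, ← hab, map_add, map_mul, map_mul,
      LinearMap.add_apply, Module.End.mul_apply (aeval x b), mem_K.1 hv, map_zero, add_zero]
    rw [← Module.End.mul_apply, ← map_mul, mul_comm, map_mul]
  rw [← hv', ← E.adjoint, mem_K.1 hu, map_zero, LinearMap.zero_apply]

theorem Elt.ti_of_ne_star (E : Elt σ B r z x) (hf : Fac r z f) (h : star σ f ≠ f) {W : Submodule F V}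
    (hW : W ≤ K x f) : Ti B W := fun _ hu _ hv => E.orth_K hf hf (fun e => h e.symm) (hW hu) (hW hv)

theorem Elt.mem_K_prod_facs (E : Elt σ B r z x) (v : V) : v ∈ K x (∏ f ∈ facs r z, f) := by
  rw [mem_K, prod_facs E.rne E.z0, map_sub, map_pow, aeval_X, aeval_C, E.pow]
  simp

variable [FiniteDimensional F V]

theorem split_prod {W : Submodule F V} (hW : Inv x W) {T : Finset F[X]} (hT : ∀ f ∈ T, Fac r z f) :
    W ⊓ K x (∏ f ∈ T, f) = T.sup (fun f => W ⊓ K x f) ∧
      finrank F ↥(W ⊓ K x (∏ f ∈ T, f)) = ∑ f ∈ T, finrank F ↥(W ⊓ K x f) := by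
  classical
  induction T using Finset.induction_on with
  | empty =>
    have h : W ⊓ K x (∏ f ∈ (∅ : Finset F[X]), f) = ⊥ := by
      rw [Finset.prod_empty, K, map_one, Module.End.one_eq_id, LinearMap.ker_id, inf_bot_eq]
    exact ⟨by rw [h, Finset.sup_empty], by rw [h, finrank_bot, Finset.sum_empty]⟩
  | insert a s ha ih =>
    obtain ⟨ih1, ih2⟩ := ih fun f hf => hT f (Finset.mem_insert_of_mem hf)
    have hcop : IsCoprime a (∏ f ∈ s, f) := IsCoprime.prod_right fun b hb =>
      (hT a (Finset.mem_insert_self a s)).coprime (hT b (Finset.mem_insert_of_mem hb)) fun h => ha (h ▸ hb)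
    have heq : W ⊓ K x (∏ f ∈ insert a s, f) = (W ⊓ K x a) ⊔ (W ⊓ K x (∏ f ∈ s, f)) := by
      rw [Finset.prod_insert ha]
      refine le_antisymm ?_ (sup_le (inf_le_inf_left W fun v hv => ?_) (inf_le_inf_left W fun v hv => ?_))
      · rintro v ⟨hvW, hv⟩
        obtain ⟨c, d, hcd⟩ := id hcop
        rw [show v = aeval x (1 : F[X]) v by simp, ← hcd, map_add, LinearMap.add_apply]
        refine Submodule.add_mem _ (Submodule.mem_sup_right ⟨aeval_mem hW _ hvW, mem_K.2 ?_⟩)
          (Submodule.mem_sup_left ⟨aeval_mem hW _ hvW, mem_K.2 ?_⟩)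
        · rw [← Module.End.mul_apply, ← map_mul, mul_left_comm, map_mul, Module.End.mul_apply,
            mul_comm (∏ f ∈ s, f) a, mem_K.1 hv, map_zero]
        · rw [← Module.End.mul_apply, ← map_mul, mul_left_comm, map_mul, Module.End.mul_apply,
            mem_K.1 hv, map_zero]
      · rw [mem_K, mul_comm, map_mul, Module.End.mul_apply, mem_K.1 hv, map_zero]
      · rw [mem_K, map_mul, Module.End.mul_apply, mem_K.1 hv, map_zero]
    have hdis : Disjoint (W ⊓ K x a) (W ⊓ K x (∏ f ∈ s, f)) :=
      (Polynomial.disjoint_ker_aeval_of_isCoprime x hcop).mono inf_le_right inf_le_right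
    refine ⟨by rw [heq, ih1, Finset.sup_insert], ?_⟩
    have h2 := Submodule.finrank_sup_add_finrank_inf_eq (W ⊓ K x a) (W ⊓ K x (∏ f ∈ s, f))
    rw [hdis.eq_bot, finrank_bot, add_zero, ← heq] at h2
    rw [h2, ih2, Finset.sum_insert ha]

theorem Elt.finrank_eq_sum (E : Elt σ B r z x) {W : Submodule F V} (hW : Inv x W) :
    finrank F W = ∑ f ∈ facs r z, finrank F ↥(W ⊓ K x f) := by
  rw [← (split_prod hW fun f hf => (mem_facs E.r0).1 hf).2, inf_eq_left.2 fun v _ => E.mem_K_prod_facs v]

theorem Elt.le_of_forall (E : Elt σ B r z x) {W X' : Submodule F V} (hW : Inv x W)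
    (h : ∀ f, Fac r z f → W ⊓ K x f ≤ X') : W ≤ X' := by
  have h1 := (split_prod hW (T := facs r z) fun f hf => (mem_facs E.r0).1 hf).1
  rw [inf_eq_left.2 fun v _ => E.mem_K_prod_facs v] at h1
  rw [h1]
  exact Finset.sup_le fun f hf => h f ((mem_facs E.r0).1 hf)

theorem Elt.eq_zero_of_orth (E : Elt σ B r z x) {u : V} (h : ∀ f, Fac r z f → ∀ w ∈ K x f, B u w = 0) : u = 0 :=
  E.herm.nondeg u fun v =>
    E.le_of_forall (inv_top x) (X' := LinearMap.ker (B u))
      (fun f hf w hw => h f hf w hw.2) (Submodule.mem_top (x := v))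

theorem Elt.nd_K (E : Elt σ B r z x) (hf : Fac r z f) (h : star σ f = f) : Nd B (K x f) := fun u hu h0 =>
  E.eq_zero_of_orth fun g hg w hw => by
    by_cases hgf : g = f
    · exact h0 w (hgf ▸ hw)
    · exact E.orth_K hf hg (fun e => hgf (e.trans h)) hu hw

theorem Elt.nd_pair (E : Elt σ B r z x) (hf : Fac r z f) : Nd B (K x f ⊔ K x (star σ f)) := fun u hu h0 =>
  E.eq_zero_of_orth fun g hg w hw => by
    by_cases h1 : g = f
    · exact h0 w (Submodule.mem_sup_left (h1 ▸ hw))
    · by_cases h2 : g = star σ f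
      · exact h0 w (Submodule.mem_sup_right (h2 ▸ hw))
      · obtain ⟨a, ha, b, hb, rfl⟩ := Submodule.mem_sup.1 hu
        rw [map_add, LinearMap.add_apply, E.orth_K hf hg h2 ha hw,
          E.orth_K (hf.star E.herm.invol E.r0 E.norm) hg
            (by rwa [star_star hf E.herm.invol E.r0 E.z0]) hb hw, add_zero]

/-- The orbit map on `F[X] / f`. -/
noncomputable def orb (x : Module.End F V) (hf : f.Monic) (v : V) : AdjoinRoot f →ₗ[F] V :=
  orbitMap x v ∘ₗ AdjoinRoot.modByMonicHom hf

theorem orb_mk (hf : f.Monic) {v : V} (hv : v ∈ K x f) (p : F[X]) :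
    orb x hf v (AdjoinRoot.mk f p) = aeval x p v := by
  rw [orb, LinearMap.comp_apply, AdjoinRoot.modByMonicHom_mk, orbitMap_apply]
  conv_rhs => rw [← modByMonic_add_div p f]
  rw [map_add, LinearMap.add_apply, mul_comm f, map_mul, Module.End.mul_apply, mem_K.1 hv, map_zero, add_zero]

theorem orb_mul (hf : f.Monic) {v : V} (hv : v ∈ K x f) (p : F[X]) (a : AdjoinRoot f) :
    orb x hf v (AdjoinRoot.mk f p * a) = aeval x p (orb x hf v a) := by
  induction a using AdjoinRoot.induction_on with
  | ih b => rw [← map_mul, orb_mk hf hv, orb_mk hf hv, map_mul, Module.End.mul_apply]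

theorem orb_injective (hf : f.Monic) (hi : Irreducible f) {v : V} (hv : v ∈ K x f) (hv0 : v ≠ 0) :
    Function.Injective (orb x hf v) := by
  refine (injective_iff_map_eq_zero _).2 fun a ha => ?_
  induction a using AdjoinRoot.induction_on with
  | ih b =>
    rw [orb_mk hf hv] at ha
    exact AdjoinRoot.mk_eq_zero.2 ((orbitMap_eq_zero_iff hv0 hi (mem_K.1 hv) b).1 ha)

theorem orb_mem (hf : f.Monic) {W : Submodule F V} (hW : Inv x W) {v : V} (hv : v ∈ W)
    (a : AdjoinRoot f) : orb x hf v a ∈ W := by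
  rw [orb, LinearMap.comp_apply, orbitMap_apply]
  exact aeval_mem hW _ hv

theorem inv_range_orb (hf : f.Monic) {v : V} (hv : v ∈ K x f) : Inv x (LinearMap.range (orb x hf v)) := by
  rintro _ ⟨a, rfl⟩
  exact ⟨AdjoinRoot.mk f X * a, by rw [orb_mul hf hv, aeval_X]⟩

theorem self_mem_range_orb (hf : f.Monic) {v : V} (hv : v ∈ K x f) : v ∈ LinearMap.range (orb x hf v) :=
  ⟨1, by rw [← map_one (AdjoinRoot.mk f), orb_mk hf hv, map_one]; rfl⟩

theorem finrank_range_orb (hf : f.Monic) (hi : Irreducible f) {v : V} (hv : v ∈ K x f) (hv0 : v ≠ 0) :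
    finrank F (LinearMap.range (orb x hf v)) = f.natDegree := by
  rw [LinearMap.finrank_range_of_inj (orb_injective hf hi hv hv0), (AdjoinRoot.powerBasis' hf).finrank,
    AdjoinRoot.powerBasis'_dim]

theorem Elt.exists_compl (E : Elt σ B r z x) {A : Submodule F V} (hA : Inv x A) :
    ∃ C : Submodule F V, IsCompl A C ∧ Inv x C := exists_inv_compl E.z0 E.rne E.pow hA

theorem Elt.uniform (E : Elt σ B r z x) (hf : Fac r z f) : Uniform x (K x f) f.natDegree := by
  refine ⟨hf.deg_pos, fun A hA hi => ?_, fun A hA hi => ?_⟩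
  · induction hk : finrank F A using Nat.strong_induction_on generalizing A with
    | _ k ih =>
      subst hk
      by_cases h0 : A = ⊥
      · rw [h0, finrank_bot]; exact dvd_zero _
      obtain ⟨v, hvA, hv0⟩ := Submodule.exists_mem_ne_zero_of_ne_bot h0
      set S := LinearMap.range (orb x hf.monic v) with hS
      have hSA : S ≤ A := by rintro _ ⟨a, rfl⟩; exact orb_mem hf.monic hi hvA a
      obtain ⟨C, hC, hCi⟩ := E.exists_compl (inv_range_orb hf.monic (hA hvA))
      have hsup : S ⊔ (C ⊓ A) = A := by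
        rw [← sup_inf_assoc_of_le C hSA, hC.sup_eq_top, top_inf_eq]
      have hd : Disjoint S (C ⊓ A) := hC.disjoint.mono_right inf_le_left
      have h1 := Submodule.finrank_sup_add_finrank_inf_eq S (C ⊓ A)
      rw [hsup, hd.eq_bot, finrank_bot, add_zero, hS, finrank_range_orb hf.monic hf.irr (hA hvA) hv0] at h1
      rw [h1]
      refine Nat.dvd_add dvd_rfl (ih _ ?_ _ (inf_le_right.trans hA) (hCi.inf hi) rfl)
      have := hf.deg_pos
      omega
  · obtain ⟨v, hvK, hvA⟩ := SetLike.exists_of_lt hA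
    set S := LinearMap.range (orb x hf.monic v) with hS
    refine ⟨A ⊔ S, lt_of_le_of_ne le_sup_left fun h => hvA (h.symm ▸ Submodule.mem_sup_right
      (self_mem_range_orb hf.monic hvK)), sup_le hA.le ?_, hi.sup (inv_range_orb hf.monic hvK), ?_⟩
    · rintro _ ⟨a, rfl⟩; exact orb_mem hf.monic (inv_K x f) hvK a
    · refine (Submodule.finrank_add_le_finrank_add_finrank A S).trans (Nat.add_le_add_left ?_ _)
      rw [hS, finrank_range_orb hf.monic hf.irr hvK fun h => hvA (h ▸ A.zero_mem)]

theorem charpoly_split {A C : Submodule F V} (hA : ∀ a ∈ A, x a ∈ A) (hC : ∀ c ∈ C, x c ∈ C)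
    (hAC : IsCompl A C) : x.charpoly = (x.restrict hA).charpoly * (x.restrict hC).charpoly := by
  rw [← LinearMap.charpoly_prodMap, ← LinearEquiv.charpoly_conj (Submodule.prodEquivOfIsCompl A C hAC)]
  congr 1
  refine LinearMap.ext fun v => ?_
  obtain ⟨⟨a, b⟩, rfl⟩ := (Submodule.prodEquivOfIsCompl A C hAC).surjective v
  rw [LinearEquiv.conj_apply_apply, LinearEquiv.symm_apply_apply]
  simp [map_add]

/-- Dimensions of the pieces from the characteristic polynomial. -/
theorem Elt.finrank_K (E : Elt σ B r z x) (hf : Fac r z f) {k : ℕ} {h : F[X]} (hc : x.charpoly = f ^ k * h)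
    (hh : ¬ f ∣ h) : finrank F (K x f) = f.natDegree * k := by
  obtain ⟨C, hC, hCi⟩ := E.exists_compl (inv_K x f)
  have hKi : ∀ a ∈ K x f, x a ∈ K x f := inv_K x f
  have hCi' : ∀ a ∈ C, x a ∈ C := hCi
  set cA := (x.restrict hKi).charpoly with hcA
  set cC := (x.restrict hCi').charpoly with hcC
  have hsp : x.charpoly = cA * cC := charpoly_split hKi hCi' hC
  have hA : ∀ g : F[X], Irreducible g → g ∣ cA → f ∣ g := fun g hg hgd => by
    obtain ⟨w, hw0, hw⟩ := exists_killed _ hg hgd
    have h1 : aeval x g (w : V) = 0 := by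
      rw [← aeval_restrict_apply hKi g w, hw]; rfl
    exact (orbitMap_eq_zero_iff (fun e => hw0 (Subtype.ext e)) hf.irr (mem_K.1 w.2) g).1 h1
  have hCn : ¬ f ∣ cC := fun hd => by
    obtain ⟨w, hw0, hw⟩ := exists_killed _ hf.irr hd
    have h1 : (w : V) ∈ K x f := mem_K.2 (by rw [← aeval_restrict_apply hCi' f w, hw]; rfl)
    exact hw0 (Subtype.ext (Submodule.disjoint_def.1 hC.disjoint _ h1 w.2))
  classical
  have hcAm : cA.Monic := LinearMap.charpoly_monic _
  obtain ⟨j, hj⟩ : ∃ j, cA = f ^ j := by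
    refine ⟨(normalizedFactors cA).card, ?_⟩
    have h1 := prod_normalizedFactors_eq hcAm.ne_zero
    rw [hcAm.normalize_eq_self] at h1
    suffices hrep : normalizedFactors cA = Multiset.replicate (normalizedFactors cA).card f by
      exact h1.symm.trans ((congrArg Multiset.prod hrep).trans (Multiset.prod_replicate _ _))
    refine Multiset.eq_replicate_card.2 fun g hg => ?_
    have hgi := irreducible_of_normalized_factor g hg
    have hgm : g.Monic := by rw [← normalize_normalized_factor g hg]; exact monic_normalize hgi.ne_zero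
    exact (eq_of_monic_of_associated hf.monic hgm
      (hf.irr.associated_of_dvd hgi (hA g hgi (dvd_of_mem_normalizedFactors hg)))).symm
  rw [hsp, hj] at hc
  have hjk : j = k := by
    have hp := hf.irr.prime
    rcases lt_trichotomy j k with hlt | rfl | hlt
    · refine absurd ?_ hCn
      have e : f ^ j * cC = f ^ j * (f ^ (k - j) * h) := by
        rw [hc, ← mul_assoc, ← pow_add, Nat.add_sub_cancel' hlt.le]
      rw [mul_left_cancel₀ (pow_ne_zero _ hf.irr.ne_zero) e]
      exact (dvd_pow_self f (by omega)).mul_right _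
    · rfl
    · refine absurd ?_ hh
      have e : f ^ k * h = f ^ k * (f ^ (j - k) * cC) := by
        rw [← hc, ← mul_assoc, ← pow_add, Nat.add_sub_cancel' hlt.le]
      rw [mul_left_cancel₀ (pow_ne_zero _ hf.irr.ne_zero) e]
      exact (dvd_pow_self f (by omega)).mul_right _
  have hd := congrArg natDegree hj
  rw [LinearMap.charpoly_natDegree, natDegree_pow, hjk] at hd
  rw [hd, mul_comm]

end CfsgLib.Derangements.Herm
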