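import Mathlib
import Cfsg.Agent.Lib.Derangements.HermPieces

/-!
Totally isotropic invariant subspaces inside the kernel of a self-dual factor: one for every pair of blocks.
-/

set_option autoImplicit false
set_option linter.unusedSectionVars false

namespace CfsgLib.Derangements.Herm

open Module Polynomial CfsgLib.Derangements.SubFix

universe u v

variable {F : Type u} [Field F] {σ : F →+* F} {V : Type v} [AddCommGroup V] [Module F V]
  {B : V →ₛₗ[σ] V →ₗ[F] F} {r : ℕ} {z : F} {x : Module.End F V} {f : F[X]}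

theorem Elt.surj (E : Elt σ B r z x) {W : Submodule F V} (hW : Inv x W) {w : V} (hw : w ∈ W) :
    ∃ w' ∈ W, x w' = w := by
  refine ⟨z⁻¹ • (x ^ (r - 1)) w, W.smul_mem _ (hW.pow _ hw), ?_⟩
  rw [map_smul, ← Module.End.mul_apply, ← pow_succ', Nat.sub_add_cancel (Nat.one_le_iff_ne_zero.2 E.r0), E.pow,
    LinearMap.smul_apply, Module.End.one_apply, smul_smul, inv_mul_cancel₀ E.z0, one_smul]

theorem Elt.inv_orth (E : Elt σ B r z x) {W : Submodule F V} (hW : Inv x W) : Inv x (orth B W) := fun v hv => by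
  show x v ∈ orth B W
  refine mem_orth.2 fun w hw => ?_
  obtain ⟨w', hw', rfl⟩ := E.surj hW hw
  rw [E.iso]
  exact mem_orth.1 hv w' hw'

variable [FiniteDimensional F V]

/-- The orthogonal of a totally isotropic invariant subspace splits off. -/
theorem Elt.exists_complement (E : Elt σ B r z x) {U : Submodule F V} (hU : Inv x U) (hUN : Nd B U)
    {W : Submodule F V} (hWU : W ≤ U) (hWT : Ti B W) (hW : Inv x W) :
    ∃ C ≤ U, Nd B C ∧ Inv x C ∧ (∀ a ∈ W, ∀ c ∈ C, B a c = 0) ∧ Disjoint W C ∧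
      finrank F U = finrank F C + 2 * finrank F W := by
  set K₀ : Submodule F V := U ⊓ orth B W with hK
  have hWK : W ≤ K₀ := le_inf hWU fun v hv => mem_orth.2 fun w hw => hWT w hw v hv
  obtain ⟨C₀, hC₀, hC₀i⟩ := E.exists_compl hW
  set C := C₀ ⊓ K₀ with hC
  have hsup : W ⊔ C = K₀ := by rw [hC, ← sup_inf_assoc_of_le C₀ hWK, hC₀.sup_eq_top, top_inf_eq]
  have hdisj : Disjoint W C := hC₀.disjoint.mono_right inf_le_left
  have hperp : ∀ a ∈ W, ∀ c ∈ C, B a c = 0 := fun a ha c hc => mem_orth.1 hc.2.2 a ha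
  have hKC : finrank F K₀ = finrank F W + finrank F C := by
    have h := Submodule.finrank_sup_add_finrank_inf_eq W C
    rw [hsup, hdisj.eq_bot, finrank_bot] at h
    omega
  have hres := isHerm_res E.herm hUN
  set W' := W.comap U.subtype with hW'
  have hW'd : finrank F W' = finrank F W := (Submodule.comapSubtypeEquivOfLe hWU).finrank_eq
  have horth : orth (B.domRestrict₁₂ U U) W' = K₀.comap U.subtype := by
    ext v
    rw [mem_orth, Submodule.mem_comap]
    exact ⟨fun h => ⟨v.2, mem_orth.2 fun w hw => h ⟨w, hWU hw⟩ hw⟩, fun h w hw => mem_orth.1 h.2 _ hw⟩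
  have hdimK : finrank F K₀ + finrank F W = finrank F U := by
    have h1 := finrank_orth hres W'
    rwa [horth, (Submodule.comapSubtypeEquivOfLe (inf_le_left : K₀ ≤ U)).finrank_eq, hW'd] at h1
  refine ⟨C, inf_le_right.trans inf_le_left, fun u hu h0 => ?_, hC₀i.inf (hU.inf (E.inv_orth hW)), hperp, hdisj,
    by omega⟩
  have hK' : ∀ y ∈ K₀, B u y = 0 := fun y hy => by
    obtain ⟨a, ha, c, hc, rfl⟩ := Submodule.mem_sup.1 (hsup.symm ▸ hy : y ∈ W ⊔ C)
    rw [map_add, h0 c hc, E.herm.swap (hperp a ha u hu), add_zero]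
  -- the double orthogonal
  have hle : W' ≤ orth (B.domRestrict₁₂ U U) (orth (B.domRestrict₁₂ U U) W') := fun a ha =>
    mem_orth.2 fun b hb => E.herm.swap (mem_orth.1 hb a ha)
  have heq := Submodule.eq_of_le_of_finrank_le hle (by
    have h1 := finrank_orth hres W'
    have h2 := finrank_orth hres (orth (B.domRestrict₁₂ U U) W')
    omega)
  have hu' : (⟨u, hu.2.1⟩ : U) ∈ orth (B.domRestrict₁₂ U U) (orth (B.domRestrict₁₂ U U) W') :=
    mem_orth.2 fun b hb => E.herm.swap (hK' _ (horth ▸ hb : b ∈ K₀.comap U.subtype))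
  rw [← heq] at hu'
  exact Submodule.disjoint_def.1 hdisj u hu' hu

/-- A cyclic subspace is totally isotropic or non-degenerate. -/
theorem Elt.cyclic_cases (E : Elt σ B r z x) (hf : Fac r z f) {v : V} (hv : v ∈ K x f) (hv0 : v ≠ 0) :
    Ti B (LinearMap.range (orb x hf.monic v)) ∨ Nd B (LinearMap.range (orb x hf.monic v)) := by
  set S := LinearMap.range (orb x hf.monic v) with hS
  have hSK : S ≤ K x f := by rintro _ ⟨a, rfl⟩; exact orb_mem hf.monic (inv_K x f) hv a
  have hSi : Inv x S := inv_range_orb hf.monic hv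
  rcases Nat.eq_zero_or_pos (finrank F ↥(S ⊓ orth B S)) with h0 | h0
  · refine Or.inr fun u hu h => ?_
    rw [Submodule.finrank_eq_zero] at h0
    exact (Submodule.mem_bot F).1 (h0 ▸ (⟨hu, mem_orth.2 fun w hw => E.herm.swap (h w hw)⟩ : u ∈ S ⊓ orth B S))
  · refine Or.inl fun u hu w hw => ?_
    have hd := (E.uniform hf).dvd _ (inf_le_left.trans hSK) (hSi.inf (E.inv_orth hSi))
    have heq : S ⊓ orth B S = S := Submodule.eq_of_le_of_finrank_le inf_le_left (by
      rw [hS, finrank_range_orb hf.monic hf.irr hv hv0]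
      exact Nat.le_of_dvd h0 hd)
    exact mem_orth.1 ((heq.symm ▸ hw : w ∈ S ⊓ orth B S)).2 u hu

variable [Finite F]

/-- Two blocks contain a totally isotropic one. -/
theorem Elt.exists_ti_block (E : Elt σ B r z x) (hf : Fac r z f) (hs : star σ f = f) {U : Submodule F V}
    (hU : Inv x U) (hUN : Nd B U) (hUK : U ≤ K x f) (hd : 2 * f.natDegree ≤ finrank F U) :
    ∃ S ≤ U, Inv x S ∧ Ti B S ∧ finrank F S = f.natDegree := by
  have hpos := hf.deg_pos
  obtain ⟨v, hvU, hv0⟩ := Submodule.exists_mem_ne_zero_of_ne_bot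
    (show U ≠ ⊥ from fun h => by rw [h, finrank_bot] at hd; omega)
  have hv := hUK hvU
  set L := orb x hf.monic v with hL
  set S := LinearMap.range L with hS
  have hSU : S ≤ U := by rintro _ ⟨a, rfl⟩; exact orb_mem hf.monic hU hvU a
  have hSi : Inv x S := inv_range_orb hf.monic hv
  have hSd : finrank F S = f.natDegree := finrank_range_orb hf.monic hf.irr hv hv0
  rcases E.cyclic_cases hf hv hv0 with hT | hN
  · exact ⟨S, hSU, hSi, hT, hSd⟩
  set U' := U ⊓ orth B S with hU'
  have hU'i : Inv x U' := hU.inf (E.inv_orth hSi)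
  obtain ⟨v', hv'U, hv'0⟩ := Submodule.exists_mem_ne_zero_of_ne_bot
    (show U' ≠ ⊥ from fun h => by
      have hle : U ≤ S := fun u hu => by
        obtain ⟨a, ha, b, hb, rfl⟩ := Submodule.mem_sup.1
          ((isCompl_orth E.herm hN).sup_eq_top.symm ▸ Submodule.mem_top : u ∈ S ⊔ orth B S)
        have hb' : b ∈ U' := ⟨by simpa using U.sub_mem hu (hSU ha), hb⟩
        rw [h, Submodule.mem_bot] at hb'
        rwa [hb', add_zero]
      have := Submodule.finrank_mono hle
      omega)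
  have hv' := hUK hv'U.1
  set L' := orb x hf.monic v' with hL'
  set S' := LinearMap.range L' with hS'
  have hS'U : S' ≤ U' := by rintro _ ⟨a, rfl⟩; exact orb_mem hf.monic hU'i hv'U a
  rcases E.cyclic_cases hf hv' hv'0 with hT | hN'
  · exact ⟨S', hS'U.trans inf_le_left, inv_range_orb hf.monic hv', hT,
      finrank_range_orb hf.monic hf.irr hv' hv'0⟩
  have hSS' : ∀ a b, B (L a) (L' b) = 0 := fun a b => mem_orth.1 (hS'U ⟨b, rfl⟩).2 _ ⟨a, rfl⟩
  -- the conjugation of the field of the block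
  have : Fact (Irreducible f) := ⟨hf.irr⟩
  have : Module.Finite F (AdjoinRoot f) := (AdjoinRoot.powerBasis' hf.monic).finite
  have : Finite (AdjoinRoot f) := Module.finite_of_finite F
  have key : ∀ p : F[X], p.eval₂ ((AdjoinRoot.of f).comp σ) (AdjoinRoot.mk f (C z⁻¹ * X ^ (r - 1))) =
      AdjoinRoot.mk f (adjPoly σ r z p) := fun p => by
    rw [adjPoly, ← AdjoinRoot.aeval_eq (f := f) ((p.map σ).comp _), aeval_comp, AdjoinRoot.aeval_eq, aeval_def,
      eval₂_map]
    rfl
  let τ : AdjoinRoot f →+* AdjoinRoot f := AdjoinRoot.lift ((AdjoinRoot.of f).comp σ)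
    (AdjoinRoot.mk f (C z⁻¹ * X ^ (r - 1)))
    (by rw [key]; exact AdjoinRoot.mk_eq_zero.2 ((dvd_adjPoly_iff hf hf E.herm.invol E.r0 E.norm).2 hs.symm))
  have hτ : ∀ p : F[X], τ (AdjoinRoot.mk f p) = AdjoinRoot.mk f (adjPoly σ r z p) := fun p => by
    rw [← key]; exact AdjoinRoot.lift_mk _ p
  have hτof : ∀ a : F, τ (AdjoinRoot.of f a) = AdjoinRoot.of f (σ a) := fun a => AdjoinRoot.lift_of _
  have hτ2 : ∀ a, τ (τ a) = a := by
    have hX : τ (τ (AdjoinRoot.root f)) = AdjoinRoot.root f := by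
      set η := AdjoinRoot.root f
      set y := AdjoinRoot.mk f (C z⁻¹ * X ^ (r - 1)) with hy
      have h1 : τ η = y := AdjoinRoot.lift_root _
      have h2 : η * y = 1 := by
        have hz : η ^ r = AdjoinRoot.of f z := by
          have := AdjoinRoot.mk_eq_zero.2 hf.dvd
          rwa [map_sub, map_pow, AdjoinRoot.mk_X, AdjoinRoot.mk_C, sub_eq_zero] at this
        rw [hy, map_mul, map_pow, AdjoinRoot.mk_X, AdjoinRoot.mk_C, mul_left_comm, ← pow_succ',
          Nat.sub_add_cancel (Nat.one_le_iff_ne_zero.2 E.r0), hz, ← map_mul, inv_mul_cancel₀ E.z0, map_one]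
      have h3 := congrArg τ h2
      rw [map_mul, h1, map_one] at h3
      rw [h1]
      calc τ y = η * y * τ y := by rw [h2, one_mul]
        _ = η := by rw [mul_assoc, h3, mul_one]
    intro a
    induction a using AdjoinRoot.induction_on with
    | ih p =>
      induction p using Polynomial.induction_on with
      | C c => rw [AdjoinRoot.mk_C, hτof, hτof, E.herm.invol]
      | add p q hp hq => rw [map_add, map_add, map_add, hp, hq]
      | monomial n c ih => rw [pow_succ, ← mul_assoc, map_mul, map_mul, map_mul, ih, AdjoinRoot.mk_X, hX]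
  have hτne : τ ≠ RingHom.id _ := fun h => E.herm.ne (RingHom.ext fun a =>
    (AdjoinRoot.of f).injective (by rw [← hτof, h]; rfl))
  -- the two forms on it
  have hadj : ∀ w, w ∈ K x f → ∀ c a b : AdjoinRoot f,
      B (orb x hf.monic w (c * a)) (orb x hf.monic w b) = B (orb x hf.monic w a) (orb x hf.monic w (τ c * b)) := by
    intro w hw c a b
    induction c using AdjoinRoot.induction_on with
    | ih p => rw [hτ, orb_mul hf.monic hw, orb_mul hf.monic hw, E.adjoint]
  set φ : AdjoinRoot f →ₗ[F] F := (B (L 1)) ∘ₗ L with hφ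
  set φ' : AdjoinRoot f →ₗ[F] F := (B (L' 1)) ∘ₗ L' with hφ'
  have hH : ∀ a b, B (L a) (L b) = φ (τ a * b) := fun a b => by
    have h := hadj v hv a 1 b
    rwa [mul_one] at h
  have hH' : ∀ a b, B (L' a) (L' b) = φ' (τ a * b) := fun a b => by
    have h := hadj v' hv' a 1 b
    rwa [mul_one] at h
  have hL1 : L 1 = v := by rw [hL, ← map_one (AdjoinRoot.mk f), orb_mk hf.monic hv, map_one]; rfl
  have hL1' : L' 1 = v' := by rw [hL', ← map_one (AdjoinRoot.mk f), orb_mk hf.monic hv', map_one]; rfl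
  have hφ0 : φ ≠ 0 := fun h0 => hv0 (hN v (self_mem_range_orb hf.monic hv) fun w hw => by
    obtain ⟨b, rfl⟩ := hw
    have h := LinearMap.congr_fun h0 b
    rw [hφ, LinearMap.comp_apply, hL1] at h
    exact h)
  let M : AdjoinRoot f →ₗ[F] Module.Dual F (AdjoinRoot f) :=
    { toFun := fun c => φ ∘ₗ LinearMap.mulLeft F c
      map_add' := fun c d => LinearMap.ext fun b => by simp [add_mul]
      map_smul' := fun t c => LinearMap.ext fun b => by simp }
  have hMa : ∀ c b, M c b = φ (c * b) := fun c b => rfl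
  have hMi : Function.Injective M := (injective_iff_map_eq_zero M).2 fun c hc => by
    by_contra hc0
    refine hφ0 (LinearMap.ext fun b => ?_)
    have := LinearMap.congr_fun hc (c⁻¹ * b)
    rwa [hMa, ← mul_assoc, mul_inv_cancel₀ hc0, one_mul] at this
  obtain ⟨k, hk⟩ := (LinearMap.injective_iff_surjective_of_finrank_eq_finrank
    Subspace.dual_finrank_eq.symm).1 hMi φ'
  have hφ'k : ∀ b, φ' b = φ (k * b) := fun b => by rw [← hk, hMa]
  have hsymm : ∀ c, φ (τ c) = σ (φ c) := fun c => by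
    rw [← mul_one (τ c), ← hH, ← E.herm.symm.eq]; rfl
  have hsymm' : ∀ c, φ' (τ c) = σ (φ' c) := fun c => by
    rw [← mul_one (τ c), ← hH', ← E.herm.symm.eq]; rfl
  have hτk : τ k = k := hMi (LinearMap.ext fun d => by
    rw [hMa, hMa, ← hτ2 d]
    calc φ (τ k * τ (τ d)) = σ (φ (k * τ d)) := by rw [← map_mul, hsymm]
      _ = φ' (τ (τ d)) := by rw [hsymm', hφ'k]
      _ = φ (k * τ (τ d)) := hφ'k _)
  have hk0 : k ≠ 0 := fun h0 => hv'0 (hN' v' (self_mem_range_orb hf.monic hv') fun w hw => by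
    obtain ⟨b, rfl⟩ := hw
    have h := hφ'k b
    rw [h0, zero_mul, map_zero] at h
    rw [hφ', LinearMap.comp_apply, hL1'] at h
    exact h)
  obtain ⟨e, he⟩ := CfsgLib.Forms.exists_norm_eq τ hτne hτ2 (-k⁻¹) (by rw [map_neg, map_inv₀, hτk])
  let G : AdjoinRoot f →ₗ[F] V := L + L' ∘ₗ LinearMap.mulLeft F e
  have hGa : ∀ a, G a = L a + L' (e * a) := fun a => rfl
  have hGi : Function.Injective G := (injective_iff_map_eq_zero G).2 fun a ha => by
    have h1 : L a ∈ S ⊓ orth B S := ⟨⟨a, rfl⟩, by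
      rw [eq_neg_of_add_eq_zero_left ((hGa a).symm.trans ha)]
      exact (orth B S).neg_mem (hS'U ⟨e * a, rfl⟩).2⟩
    rw [(isCompl_orth E.herm hN).inf_eq_bot, Submodule.mem_bot] at h1
    exact orb_injective hf.monic hf.irr hv hv0 (by rw [← hL, h1, map_zero])
  refine ⟨LinearMap.range G, ?_, ?_, ?_, ?_⟩
  · rintro _ ⟨a, rfl⟩
    exact U.add_mem (hSU ⟨a, rfl⟩) (hS'U ⟨e * a, rfl⟩).1
  · rintro _ ⟨a, rfl⟩
    refine ⟨AdjoinRoot.mk f X * a, ?_⟩
    rw [hGa, hGa, map_add, mul_left_comm, hL, hL', orb_mul hf.monic hv, orb_mul hf.monic hv', aeval_X]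
  · rintro _ ⟨a, rfl⟩ _ ⟨b, rfl⟩
    rw [hGa, hGa]
    simp only [map_add, LinearMap.add_apply, hH, hH', hSS', E.herm.swap (hSS' _ _), add_zero, zero_add]
    rw [hφ'k, map_mul τ e a, show k * (τ e * τ a * (e * b)) = k * (τ e * e) * (τ a * b) by ring, he,
      mul_neg, mul_inv_cancel₀ hk0, neg_one_mul, map_neg, add_neg_cancel]
  · rw [LinearMap.finrank_range_of_inj hGi, (AdjoinRoot.powerBasis' hf.monic).finrank, AdjoinRoot.powerBasis'_dim]

/-- Totally isotropic invariant subspaces of all possible dimensions in a self-dual kernel. -/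
theorem Elt.exists_ti_self (E : Elt σ B r z x) (hf : Fac r z f) (hs : star σ f = f) :
    ∀ (j : ℕ) (U : Submodule F V), Inv x U → Nd B U → U ≤ K x f → 2 * (j * f.natDegree) ≤ finrank F U →
      ∃ W ≤ U, Inv x W ∧ Ti B W ∧ finrank F W = j * f.natDegree := by
  intro j
  induction j with
  | zero => intro U _ _ _ _; exact ⟨⊥, bot_le, inv_bot x, ti_bot, by simp⟩
  | succ j ih =>
    intro U hU hUN hUK hd
    rw [add_mul, one_mul] at hd
    obtain ⟨S, hSU, hSi, hST, hSd⟩ := E.exists_ti_block hf hs hU hUN hUK (by omega)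
    obtain ⟨C, hCU, hCN, hCi, hSC, hdis, hCd⟩ := E.exists_complement hU hUN hSU hST hSi
    obtain ⟨W, hWC, hWi, hWT, hWd⟩ := ih C hCi hCN (hCU.trans hUK) (by omega)
    refine ⟨S ⊔ W, sup_le hSU (hWC.trans hCU), hSi.sup hWi, Ti.sup E.herm hST hWT fun a ha b hb =>
      hSC a ha b (hWC hb), ?_⟩
    have h := Submodule.finrank_sup_add_finrank_inf_eq S W
    rw [(hdis.mono_right hWC).eq_bot, finrank_bot, add_zero, hSd, hWd] at h
    rw [h, add_mul, one_mul, add_comm]

end CfsgLib.Derangements.Herm
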