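import Mathlib
import Cfsg.Agent.Lib.Derangements.HermPieces

/-!
The factors of `X ^ r - 1` over a field with `q ^ 2` elements: degrees, number, and which are their own
conjugate reciprocals.
-/

set_option autoImplicit false
set_option linter.unusedSectionVars false

namespace CfsgLib.Derangements.Herm

open Module Polynomial

universe u

variable {F : Type u} [Field F] [Finite F] {r : ℕ} [hr : Fact r.Prime] {f : F[X]}

theorem fac_X_sub_one : Fac r (1 : F) (X - C 1) := by
  refine ⟨monic_X_sub_C 1, irreducible_X_sub_C 1, dvd_iff_isRoot.2 ?_⟩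
  simp [IsRoot]

theorem star_X_sub_one (σ : F →+* F) : star σ (X - C (1 : F)) = X - C 1 := by
  rw [star, Polynomial.map_sub, map_X, map_C, map_one σ, CfsgLib.Classes.SympSemi.rev_X_sub_one]

theorem Fac.root_pow (hf : Fac r (1 : F) f) : AdjoinRoot.root f ^ r = 1 := by
  have := AdjoinRoot.mk_eq_zero.2 hf.dvd
  rwa [map_sub, map_pow, AdjoinRoot.mk_X, map_one C, map_one, sub_eq_zero] at this

theorem Fac.orderOf_root (hf : Fac r (1 : F) f) (hne : f ≠ X - C 1) : orderOf (AdjoinRoot.root f) = r := by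
  refine orderOf_eq_prime hf.root_pow fun h => hne ?_
  have h1 : AdjoinRoot.mk f (X - C 1) = 0 := by
    rw [map_sub, AdjoinRoot.mk_X, map_one C, map_one, h, sub_self]
  exact hf.eq_of_dvd fac_X_sub_one (AdjoinRoot.mk_eq_zero.1 h1)

/-- The degree of a factor is the order of `|F|` modulo `r`. -/
theorem Fac.natDegree_eq (hf : Fac r (1 : F) f) (hne : f ≠ X - C 1) :
    f.natDegree = orderOf ((Nat.card F : ZMod r)) := by
  set i₀ := orderOf ((Nat.card F : ZMod r))
  refine Nat.dvd_antisymm ?_ ?_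
  · refine hf.irr.natDegree_dvd_of_dvd_X_pow_card_pow_sub_X (hf.dvd.trans ?_)
    obtain ⟨k, hk⟩ := (SubFix.dvd_pow_card_sub_one (F := F) (r := r) i₀).2 dvd_rfl
    have hQ : Nat.card F ^ i₀ = r * k + 1 := by
      have : 1 ≤ Nat.card F ^ i₀ := Nat.one_le_pow _ _ Nat.card_pos
      omega
    rw [hQ, pow_succ, map_one C, show (X : F[X]) ^ (r * k) * X - X = (((X : F[X]) ^ r) ^ k - 1) * X by
      rw [← pow_mul]; ring]
    exact (sub_one_dvd_pow_sub_one _ k).mul_right _
  · have : Fact (Irreducible f) := ⟨hf.irr⟩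
    have : Module.Finite F (AdjoinRoot f) := (AdjoinRoot.powerBasis' hf.monic).finite
    have : Finite (AdjoinRoot f) := Module.finite_of_finite F
    have := Fintype.ofFinite (AdjoinRoot f)
    have h0 : AdjoinRoot.root f ≠ 0 := fun h => by
      have := hf.root_pow
      rw [h, zero_pow hr.out.ne_zero] at this
      exact zero_ne_one this
    have h1 := orderOf_dvd_of_pow_eq_one (FiniteField.pow_card_sub_one_eq_one _ h0)
    rw [hf.orderOf_root hne, ← Nat.card_eq_fintype_card, Module.natCard_eq_pow_finrank (K := F),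
      (AdjoinRoot.powerBasis' hf.monic).finrank, AdjoinRoot.powerBasis'_dim] at h1
    exact (SubFix.dvd_pow_card_sub_one _).1 h1

open Classical in
theorem sum_natDegree_facs (hrF : (r : F) ≠ 0) {z : F} (hz : z ≠ 0) :
    ∑ f ∈ facs r z, f.natDegree = r := by
  rw [← natDegree_prod_of_monic _ _ fun f hf => ((mem_facs hr.out.ne_zero).1 hf).monic, prod_facs hrF hz,
    natDegree_X_pow_sub_C]

/-- The factors other than `X - 1`. -/
noncomputable def rest (r : ℕ) : Finset F[X] :=
  haveI := Classical.decEq F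
  (facs r (1 : F)).erase (X - C 1)

theorem mem_rest : f ∈ rest r ↔ f ≠ X - C 1 ∧ Fac r (1 : F) f := by
  classical
  rw [rest, Finset.mem_erase, mem_facs hr.out.ne_zero]

theorem card_rest_mul (hrF : (r : F) ≠ 0) :
    (rest (F := F) r).card * orderOf ((Nat.card F : ZMod r)) = r - 1 := by
  classical
  have h := sum_natDegree_facs (F := F) hrF one_ne_zero
  rw [← Finset.add_sum_erase _ _ ((mem_facs hr.out.ne_zero).2 fac_X_sub_one), natDegree_X_sub_C] at h
  have h2 : ∑ f ∈ rest (F := F) r, f.natDegree = (rest (F := F) r).card * orderOf ((Nat.card F : ZMod r)) := by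
    rw [← smul_eq_mul, ← Finset.sum_const]
    exact Finset.sum_congr rfl fun f hf => (mem_rest.1 hf).2.natDegree_eq (mem_rest.1 hf).1
  have h3 : rest (F := F) r = (facs r (1 : F)).erase (X - C 1) := by unfold rest; congr
  rw [h3] at h2 ⊢
  omega

/-- The criterion for a factor to be its own conjugate reciprocal. -/
theorem Fac.star_eq_iff {q : ℕ} {σ : F →+* F} (hF : Nat.card F = q ^ 2) (hσ : ∀ a, σ a = a ^ q)
    (hσ2 : ∀ a, σ (σ a) = a) (hf : Fac r (1 : F) f) (hne : f ≠ X - C 1) :
    Herm.star σ f = f ↔ ∃ k : ℕ, (-(q : ZMod r)) = ((q : ZMod r) ^ 2) ^ k := by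
  classical
  have : Fintype F := Fintype.ofFinite F
  have : Fact (Irreducible f) := ⟨hf.irr⟩
  have : Module.Finite F (AdjoinRoot f) := (AdjoinRoot.powerBasis' hf.monic).finite
  have : Finite (AdjoinRoot f) := Module.finite_of_finite F
  obtain ⟨p, hp⟩ := CharP.exists F
  have hpp : p.Prime := (CharP.char_is_prime_or_zero F p).resolve_right (CharP.char_ne_zero_of_finite F p)
  have := Fact.mk hpp
  have : CharP (AdjoinRoot f) p := charP_of_injective_algebraMap (algebraMap F _).injective p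
  have : ExpChar (AdjoinRoot f) p := ExpChar.prime hpp
  obtain ⟨ν, hν⟩ : ∃ ν, q = p ^ ν := by
    obtain ⟨l, -, hl⟩ := FiniteField.card F p
    have h1 : q ∣ p ^ (l : ℕ) := by
      rw [← hl, ← Nat.card_eq_fintype_card, hF]; exact dvd_pow_self q two_ne_zero
    obtain ⟨ν, -, h⟩ := (Nat.dvd_prime_pow hpp).1 h1
    exact ⟨ν, h⟩
  set η := AdjoinRoot.root f with hη
  let φ : AdjoinRoot f →+* AdjoinRoot f := iterateFrobenius (AdjoinRoot f) p ν
  have hφ : ∀ a, φ a = a ^ q := fun a => by rw [hν]; exact iterateFrobenius_def _ _ a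
  have hr0 := hr.out.ne_zero
  rw [eq_comm, ← dvd_adjPoly_iff hf hf hσ2 hr0 (by rw [map_one, mul_one]), ← AdjoinRoot.mk_eq_zero,
    ← AdjoinRoot.aeval_eq, adjPoly, aeval_comp, map_mul, map_pow, aeval_X, aeval_C, inv_one, map_one, one_mul,
    ← hη]
  have h1 : aeval (η ^ (r - 1)) (f.map σ) = 0 ↔ aeval (η ^ ((r - 1) * q)) f = 0 := by
    rw [← map_eq_zero φ]
    refine iff_of_eq (congrArg (· = 0) ?_)
    rw [aeval_def, aeval_def, hom_eval₂, eval₂_map, hφ, ← pow_mul]
    congr 1
    refine RingHom.ext fun a => ?_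
    rw [RingHom.comp_apply, RingHom.comp_apply, hφ, ← map_pow, ← hσ, hσ2]
  rw [h1]
  have key : ∀ a b : ℕ, η ^ a = η ^ b ↔ (a : ZMod r) = b := fun a b => by
    rw [ZMod.natCast_eq_natCast_iff, (isOfFinOrder_iff_pow_eq_one.2 ⟨r, hr.out.pos, hf.root_pow⟩).pow_eq_pow_iff_modEq,
      hf.orderOf_root hne]
  have hcast : (((r - 1) * q : ℕ) : ZMod r) = -(q : ZMod r) := by
    rw [Nat.cast_mul, Nat.cast_sub hr.out.one_le, ZMod.natCast_self]; simp
  have hfr : ∀ (k : ℕ) (a : AdjoinRoot f),
      ((FiniteField.frobeniusAlgHom F (AdjoinRoot f)) ^ k) a = a ^ (Nat.card F) ^ k := by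
    intro k
    induction k with
    | zero => intro a; simp
    | succ k ih =>
      intro a
      rw [pow_succ', AlgHom.mul_apply, ih, FiniteField.frobeniusAlgHom_apply, ← Nat.card_eq_fintype_card, ← pow_mul,
        ← pow_succ]
  constructor
  · intro h
    let e : AdjoinRoot f →ₐ[F] AdjoinRoot f := AdjoinRoot.liftAlgHom f (Algebra.ofId F _) (η ^ ((r - 1) * q)) h
    obtain ⟨k, hk⟩ := (FiniteField.bijective_frobeniusAlgHom_pow F (AdjoinRoot f)).2 e
    refine ⟨k, ?_⟩
    have h2 := AlgHom.congr_fun hk η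
    rw [show e η = η ^ ((r - 1) * q) from AdjoinRoot.liftAlgHom_root _ _ _ _] at h2
    simp only [hfr, hF] at h2
    rw [← hcast, ← (key _ _).1 h2]
    push_cast; rfl
  · rintro ⟨k, hk⟩
    rw [(key _ ((q ^ 2) ^ k)).2 (by rw [hcast, hk]; push_cast; rfl), ← hF]
    rw [← hfr, aeval_algHom_apply, hη, AdjoinRoot.aeval_eq, AdjoinRoot.mk_self, map_zero]

end CfsgLib.Derangements.Herm
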