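import Mathlib
import Cfsg.Agent.Lib.Derangements.HermBlocks
import Cfsg.Agent.Lib.Derangements.HermFactors

/-!
The dimensions of totally isotropic invariant subspaces of an isometry `x` with `x ^ r = 1`, in terms of the
fixed part and the number of blocks.
-/

set_option autoImplicit false
set_option linter.unusedSectionVars false

namespace CfsgLib.Derangements.Herm

open Module Polynomial CfsgLib.Derangements.SubFix

universe u v

variable {F : Type u} [Field F] [Finite F] {σ : F →+* F} {V : Type v} [AddCommGroup V] [Module F V]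
  [FiniteDimensional F V] {B : V →ₛₗ[σ] V →ₗ[F] F} {r : ℕ} [hr : Fact r.Prime] {z : F} {x : Module.End F V}

/-- Pieces in pairwise non-partner kernels add up. -/
theorem Elt.exists_sup (E : Elt σ B r z x) {b : ℕ} (cap : F[X] → ℕ) (T : Finset F[X])
    (hT : ∀ f ∈ T, Fac r z f) (hpair : ∀ f ∈ T, ∀ g ∈ T, f ≠ g → g ≠ star σ f)
    (hcap : ∀ f ∈ T, ∀ j ≤ cap f, ∃ W ≤ K x f, Inv x W ∧ Ti B W ∧ finrank F W = j * b) :
    ∀ j ≤ ∑ f ∈ T, cap f, ∃ W ≤ K x (∏ f ∈ T, f), Inv x W ∧ Ti B W ∧ finrank F W = j * b ∧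
      ∀ g, Fac r z g → (∀ f ∈ T, g ≠ star σ f) → ∀ u ∈ W, ∀ w ∈ K x g, B u w = 0 := by
  classical
  induction T using Finset.induction_on with
  | empty =>
    intro j hj
    refine ⟨⊥, bot_le, inv_bot x, ti_bot, by simp at hj; simp [hj], fun g _ _ u hu w _ => ?_⟩
    rw [(Submodule.mem_bot F).1 hu, map_zero, LinearMap.zero_apply]
  | insert a s ha ih =>
    intro j hj
    rw [Finset.sum_insert ha] at hj
    obtain ⟨Wa, hWaK, hWai, hWaT, hWad⟩ := hcap a (Finset.mem_insert_self a s) (min j (cap a)) (min_le_right _ _)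
    obtain ⟨W', hW'K, hW'i, hW'T, hW'd, hW'o⟩ := ih (fun f hf => hT f (Finset.mem_insert_of_mem hf))
      (fun f hf g hg => hpair f (Finset.mem_insert_of_mem hf) g (Finset.mem_insert_of_mem hg))
      (fun f hf => hcap f (Finset.mem_insert_of_mem hf)) (j - min j (cap a)) (by omega)
    have hao : ∀ f ∈ s, a ≠ star σ f := fun f hf =>
      hpair f (Finset.mem_insert_of_mem hf) a (Finset.mem_insert_self a s) (fun h => ha (h ▸ hf))
    have hdis : Disjoint (K x a) (K x (∏ f ∈ s, f)) :=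
      Polynomial.disjoint_ker_aeval_of_isCoprime x (IsCoprime.prod_right fun f hf =>
        (hT a (Finset.mem_insert_self a s)).coprime (hT f (Finset.mem_insert_of_mem hf)) fun h => ha (h ▸ hf))
    refine ⟨Wa ⊔ W', ?_, hWai.sup hW'i, Ti.sup E.herm hWaT hW'T fun u hu w hw =>
      E.herm.swap (hW'o a (hT a (Finset.mem_insert_self a s)) hao w hw u (hWaK hu)), ?_, ?_⟩
    · rw [Finset.prod_insert ha]
      refine sup_le (hWaK.trans fun v hv => mem_K.2 ?_) (hW'K.trans fun v hv => mem_K.2 ?_)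
      · rw [mul_comm, map_mul, Module.End.mul_apply, mem_K.1 hv, map_zero]
      · rw [map_mul, Module.End.mul_apply, mem_K.1 hv, map_zero]
    · have h := Submodule.finrank_sup_add_finrank_inf_eq Wa W'
      rw [(hdis.mono hWaK hW'K).eq_bot, finrank_bot, add_zero, hWad, hW'd, ← add_mul,
        Nat.add_sub_cancel' (min_le_left _ _)] at h
      exact h
    · intro g hg hgo u hu w hw
      obtain ⟨u₁, hu₁, u₂, hu₂, rfl⟩ := Submodule.mem_sup.1 hu
      rw [map_add, LinearMap.add_apply,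
        E.orth_K (hT a (Finset.mem_insert_self a s)) hg (hgo a (Finset.mem_insert_self a s)) (hWaK hu₁) hw,
        hW'o g hg (fun f hf => hgo f (Finset.mem_insert_of_mem hf)) u₂ hu₂ w hw, add_zero]

variable {E₁ : Elt σ B r 1 x}

theorem mem_K_one {v : V} : v ∈ K x (X - C (1 : F)) ↔ x v = v := by
  rw [mem_K, map_sub, aeval_X, aeval_C, map_one, LinearMap.sub_apply, Module.End.one_apply, sub_eq_zero]

theorem Elt.finrank_split (E : Elt σ B r 1 x) {W : Submodule F V} (hW : Inv x W) :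
    finrank F W = finrank F ↥(W ⊓ K x (X - C 1)) + ∑ f ∈ rest r, finrank F ↥(W ⊓ K x f) := by
  classical
  rw [E.finrank_eq_sum hW, ← Finset.add_sum_erase _ _ ((mem_facs hr.out.ne_zero).2 fac_X_sub_one)]
  rfl

theorem Elt.finrank_piece (E : Elt σ B r 1 x) {b : ℕ} (hb : orderOf ((Nat.card F : ZMod r)) = b)
    {f : F[X]} (hf : f ∈ rest r) {W : Submodule F V} (hW : Inv x W) :
    b ∣ finrank F ↥(W ⊓ K x f) := by
  obtain ⟨hne, hf⟩ := mem_rest.1 hf
  rw [← hb, ← hf.natDegree_eq hne]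
  exact (E.uniform hf).dvd _ inf_le_right (hW.inf (inv_K x f))

theorem Elt.finrank_top_split (E : Elt σ B r 1 x) :
    finrank F V = finrank F ↥(K x (X - C 1)) + ∑ f ∈ rest r, finrank F ↥(K x f) := by
  have h := E.finrank_split (inv_top x)
  rw [finrank_top, top_inf_eq] at h
  rw [h]
  congr 1
  exact Finset.sum_congr rfl fun f _ => by rw [top_inf_eq]

theorem Elt.sum_pos (E : Elt σ B r 1 x) (hx : x ≠ 1) : 0 < ∑ f ∈ rest r, finrank F ↥(K x f) := by
  refine Nat.pos_of_ne_zero fun h0 => hx (LinearMap.ext fun v => ?_)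
  have h := E.finrank_top_split
  rw [h0, add_zero] at h
  exact mem_K_one.1 ((Submodule.eq_top_of_finrank_eq h.symm).symm ▸ Submodule.mem_top)

theorem Elt.exists_fixed (E : Elt σ B r 1 x) {a : ℕ} (ha : 2 * a ≤ finrank F ↥(K x (X - C 1))) :
    ∃ W ≤ K x (X - C 1), Inv x W ∧ Ti B W ∧ finrank F W = a := by
  have hs : star σ (X - C (1 : F)) = X - C 1 := star_X_sub_one σ
  obtain ⟨W, hW⟩ := E.exists_ti_self fac_X_sub_one hs a (K x (X - C 1)) (inv_K x _) (E.nd_K fac_X_sub_one hs) le_rfl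
    (by rw [natDegree_X_sub_C, mul_one]; exact ha)
  rw [natDegree_X_sub_C, mul_one] at hW
  exact ⟨W, hW⟩

/-- Gluing a fixed part to blocks. -/
theorem Elt.glue (E : Elt σ B r 1 x) {b : ℕ} (cap : F[X] → ℕ) (T : Finset F[X]) (hT : T ⊆ rest r)
    (hpair : ∀ f ∈ T, ∀ g ∈ T, f ≠ g → g ≠ star σ f)
    (hcap : ∀ f ∈ T, ∀ j ≤ cap f, ∃ W ≤ K x f, Inv x W ∧ Ti B W ∧ finrank F W = j * b) {a j : ℕ}
    (ha : 2 * a ≤ finrank F ↥(K x (X - C 1))) (hj : j ≤ ∑ f ∈ T, cap f) :
    ∃ W : Submodule F V, Inv x W ∧ Ti B W ∧ finrank F W = a + j * b := by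
  obtain ⟨W₁, hW₁K, hW₁i, hW₁T, hW₁d⟩ := E.exists_fixed ha
  obtain ⟨W', hW'K, hW'i, hW'T, hW'd, hW'o⟩ := E.exists_sup cap T (fun f hf => (mem_rest.1 (hT hf)).2)
    hpair hcap j hj
  have hne : ∀ f ∈ T, (X : F[X]) - C 1 ≠ star σ f := fun f hf h => by
    obtain ⟨hne, hf'⟩ := mem_rest.1 (hT hf)
    have := congrArg (star σ) h
    rw [star_X_sub_one, star_star hf' E.herm.invol E.r0 one_ne_zero] at this
    exact hne this.symm
  have hdis : Disjoint (K x (X - C 1)) (K x (∏ f ∈ T, f)) :=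
    Polynomial.disjoint_ker_aeval_of_isCoprime x (IsCoprime.prod_right fun f hf =>
      fac_X_sub_one.coprime (mem_rest.1 (hT hf)).2 (mem_rest.1 (hT hf)).1.symm)
  refine ⟨W₁ ⊔ W', hW₁i.sup hW'i, Ti.sup E.herm hW₁T hW'T fun u hu w hw =>
    E.herm.swap (hW'o _ fac_X_sub_one hne w hw u (hW₁K hu)), ?_⟩
  have h := Submodule.finrank_sup_add_finrank_inf_eq W₁ W'
  rw [(hdis.mono hW₁K hW'K).eq_bot, finrank_bot, add_zero, hW₁d, hW'd] at h
  exact h

/-- Lower bound, self-dual blocks. -/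
theorem Elt.lower_self (E : Elt σ B r 1 x) {b t : ℕ} (hb : orderOf ((Nat.card F : ZMod r)) = b) (hb0 : 0 < b)
    (ht : (rest (F := F) r).card = t) (hs : ∀ f ∈ rest r, star σ f = f) (hx : x ≠ 1) :
    ∃ s, 1 ≤ s ∧ b * s ≤ finrank F V ∧ ∀ a j, 2 * a + b * s ≤ finrank F V → j ≤ (s + 1 - t) / 2 →
      ∃ W : Submodule F V, Inv x W ∧ Ti B W ∧ finrank F W = a + j * b := by
  set k := fun f : F[X] => finrank F ↥(K x f) / b with hk
  have hkd : ∀ f ∈ rest r, finrank F ↥(K x f) = b * k f := fun f hf => by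
    have h := E.finrank_piece hb hf (inv_top x)
    rw [top_inf_eq] at h
    exact (Nat.mul_div_cancel' h).symm
  have hsum : ∑ f ∈ rest r, finrank F ↥(K x f) = b * ∑ f ∈ rest r, k f := by
    rw [Finset.mul_sum]; exact Finset.sum_congr rfl hkd
  have hn := E.finrank_top_split
  have hpos := E.sum_pos hx
  refine ⟨∑ f ∈ rest r, k f, Nat.pos_of_ne_zero fun h0 => by rw [hsum, h0, mul_zero] at hpos; omega,
    by omega, fun a j ha hj => E.glue (fun f => k f / 2) (rest r) subset_rfl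
      (fun f hf g _ hfg => by rw [hs f hf]; exact hfg.symm) (fun f hf i hi => ?_) (by omega) ?_⟩
  · obtain ⟨hne, hf'⟩ := mem_rest.1 hf
    obtain ⟨W, hW⟩ := E.exists_ti_self hf' (hs f hf) i (K x f) (inv_K x f) (E.nd_K hf' (hs f hf)) le_rfl (by
      rw [hf'.natDegree_eq hne, hb, hkd f hf]
      have h1 : b * (2 * i) ≤ b * k f := Nat.mul_le_mul_left b (by omega)
      rw [mul_left_comm, mul_comm b i] at h1
      exact h1)
    rw [hf'.natDegree_eq hne, hb] at hW
    exact ⟨W, hW⟩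
  · have h1 : ∑ f ∈ rest r, k f ≤ ∑ f ∈ rest r, (2 * (k f / 2) + 1) := Finset.sum_le_sum fun f _ => by omega
    rw [Finset.sum_add_distrib, ← Finset.mul_sum, Finset.sum_const, smul_eq_mul, mul_one, ht] at h1
    omega

theorem Elt.finrank_star (E : Elt σ B r 1 x) {f : F[X]} (hf : Fac r 1 f) (hne : star σ f ≠ f) :
    finrank F ↥(K x (star σ f)) = finrank F ↥(K x f) := by
  have key : ∀ g, Fac r 1 g → star σ g ≠ g → finrank F ↥(K x g) ≤ finrank F ↥(K x (star σ g)) := fun g hg hg' => by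
    have h1 := (E.ti_of_ne_star hg hg' le_rfl).two_mul_le E.herm (E.nd_pair hg) le_sup_left
    have h2 := Submodule.finrank_add_le_finrank_add_finrank (K x g) (K x (star σ g))
    omega
  have hff := star_star hf E.herm.invol E.r0 one_ne_zero
  have h := key (star σ f) (hf.star E.herm.invol E.r0 E.norm) (by rw [hff]; exact hne.symm)
  rw [hff] at h
  exact le_antisymm h (key f hf hne)

theorem Elt.star_mem_rest (E : Elt σ B r 1 x) {f : F[X]} (hf : f ∈ rest r) : star σ f ∈ rest r := by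
  obtain ⟨hne, hf⟩ := mem_rest.1 hf
  refine mem_rest.2 ⟨fun h => hne ?_, hf.star E.herm.invol E.r0 E.norm⟩
  rw [← star_star hf E.herm.invol E.r0 one_ne_zero, h, star_X_sub_one]

/-- Lower bound, dual pairs of blocks. -/
theorem Elt.lower_pair (E : Elt σ B r 1 x) {b : ℕ} (hb : orderOf ((Nat.card F : ZMod r)) = b) (hb0 : 0 < b)
    (hs : ∀ f ∈ rest r, star σ f ≠ f) (hx : x ≠ 1) :
    ∃ s, 1 ≤ s ∧ 2 * (b * s) ≤ finrank F V ∧ ∀ a j, 2 * a + 2 * (b * s) ≤ finrank F V → j ≤ s →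
      ∃ W : Submodule F V, Inv x W ∧ Ti B W ∧ finrank F W = a + j * b := by
  classical
  set k := fun f : F[X] => finrank F ↥(K x f) / b with hk
  have hkd : ∀ f ∈ rest r, finrank F ↥(K x f) = b * k f := fun f hf => by
    have h := E.finrank_piece hb hf (inv_top x)
    rw [top_inf_eq] at h
    exact (Nat.mul_div_cancel' h).symm
  set T := (rest (F := F) r).filter fun f => WellOrderingRel f (star σ f) with hT
  have hTr : T ⊆ rest r := Finset.filter_subset _ _
  have hst : ∀ f ∈ rest r, star σ (star σ f) = f := fun f hf =>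
    star_star (mem_rest.1 hf).2 E.herm.invol E.r0 one_ne_zero
  have hsplit : ∑ f ∈ rest r, k f = 2 * ∑ f ∈ T, k f := by
    rw [← Finset.sum_filter_add_sum_filter_not (rest r) fun f => WellOrderingRel f (star σ f), ← hT, two_mul]
    congr 1
    refine Finset.sum_nbij' (star σ) (star σ) ?_ ?_ (fun f hf => hst f (Finset.mem_filter.1 hf).1)
      (fun f hf => hst f (hTr hf)) ?_
    · intro f hf
      obtain ⟨hf1, hf2⟩ := Finset.mem_filter.1 hf
      refine Finset.mem_filter.2 ⟨E.star_mem_rest hf1, ?_⟩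
      rw [hst f hf1]
      exact ((trichotomous (r := WellOrderingRel) f (star σ f)).resolve_left hf2).resolve_left (hs f hf1).symm
    · intro f hf
      obtain ⟨hf1, hf2⟩ := Finset.mem_filter.1 hf
      refine Finset.mem_filter.2 ⟨E.star_mem_rest hf1, fun h => ?_⟩
      rw [hst f hf1] at h
      exact asymm hf2 h
    · intro f hf
      obtain ⟨hne, hf'⟩ := mem_rest.1 (Finset.mem_filter.1 hf).1
      simp only [hk, E.finrank_star hf' (hs f (Finset.mem_filter.1 hf).1)]
  have hsum : ∑ f ∈ rest r, finrank F ↥(K x f) = 2 * (b * ∑ f ∈ T, k f) := by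
    rw [Finset.sum_congr rfl hkd, ← Finset.mul_sum, hsplit]; ring
  have hn := E.finrank_top_split
  have hpos := E.sum_pos hx
  refine ⟨∑ f ∈ T, k f, Nat.pos_of_ne_zero fun h0 => by rw [hsum, h0, mul_zero, mul_zero] at hpos; omega,
    by omega, fun a j ha hj => E.glue k T hTr (fun f hf g hg hfg h => ?_) (fun f hf i hi => ?_) (by omega) hj⟩
  · obtain ⟨hf1, hf2⟩ := Finset.mem_filter.1 hf
    obtain ⟨-, hg2⟩ := Finset.mem_filter.1 hg
    rw [h, hst f hf1] at hg2
    exact asymm hf2 hg2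
  · obtain ⟨hne, hf'⟩ := mem_rest.1 (hTr hf)
    obtain ⟨W, -, hWK, hWi, hWd⟩ := (E.uniform hf').chain i ⊥ bot_le (inv_bot x) (by
      rw [finrank_bot, zero_add, hf'.natDegree_eq hne, hb, hkd f (hTr hf), mul_comm b]
      exact Nat.mul_le_mul_right b hi)
    rw [finrank_bot, zero_add, hf'.natDegree_eq hne, hb] at hWd
    exact ⟨W, hWK, hWi, E.ti_of_ne_star hf' (hs f (hTr hf)) hWK, hWd⟩

/-- Upper bound, self-dual blocks. -/
theorem Elt.upper_self (E : Elt σ B r 1 x) {b : ℕ} (hb : orderOf ((Nat.card F : ZMod r)) = b) (hb0 : 0 < b)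
    (hs : ∀ f ∈ rest r, star σ f = f) {W : Submodule F V} (hW : Inv x W) (hWT : Ti B W) :
    ∃ a j, finrank F W = a + j * b ∧ 2 * a ≤ finrank F ↥(K x (X - C 1)) ∧
      j ≤ ∑ f ∈ rest r, finrank F ↥(K x f) / b / 2 := by
  refine ⟨_, ∑ f ∈ rest r, finrank F ↥(W ⊓ K x f) / b, ?_,
    (hWT.mono inf_le_left).two_mul_le E.herm (E.nd_K fac_X_sub_one (star_X_sub_one σ)) inf_le_right,
    Finset.sum_le_sum fun f hf => ?_⟩
  · rw [E.finrank_split hW, Finset.sum_mul]
    congr 1
    exact Finset.sum_congr rfl fun f hf => (Nat.div_mul_cancel (E.finrank_piece hb hf hW)).symm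
  · obtain ⟨hne, hf'⟩ := mem_rest.1 hf
    have h := (hWT.mono (inf_le_left (b := K x f))).two_mul_le E.herm (E.nd_K hf' (hs f hf)) inf_le_right
    rw [Nat.le_div_iff_mul_le two_pos, Nat.le_div_iff_mul_le hb0, mul_right_comm,
      Nat.div_mul_cancel (E.finrank_piece hb hf hW), mul_comm]
    exact h

/-- Upper bound, dual pairs of blocks. -/
theorem Elt.upper_pair (E : Elt σ B r 1 x) {b : ℕ} (hb : orderOf ((Nat.card F : ZMod r)) = b)
    (hs : ∀ f ∈ rest r, star σ f ≠ f) {W : Submodule F V} (hW : Inv x W) (hWT : Ti B W) :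
    ∃ a j, finrank F W = a + j * b ∧ 2 * a ≤ finrank F ↥(K x (X - C 1)) ∧
      2 * (j * b) ≤ ∑ f ∈ rest r, finrank F ↥(K x f) := by
  classical
  refine ⟨_, ∑ f ∈ rest r, finrank F ↥(W ⊓ K x f) / b, ?_,
    (hWT.mono inf_le_left).two_mul_le E.herm (E.nd_K fac_X_sub_one (star_X_sub_one σ)) inf_le_right, ?_⟩
  · rw [E.finrank_split hW, Finset.sum_mul]
    congr 1
    exact Finset.sum_congr rfl fun f hf => (Nat.div_mul_cancel (E.finrank_piece hb hf hW)).symm
  · rw [Finset.sum_mul, Finset.sum_congr rfl fun f hf => Nat.div_mul_cancel (E.finrank_piece hb hf hW)]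
    have hperm : ∀ g : F[X] → ℕ, ∑ f ∈ rest r, g (star σ f) = ∑ f ∈ rest r, g f := fun g =>
      Finset.sum_nbij' (star σ) (star σ) (fun f hf => E.star_mem_rest hf) (fun f hf => E.star_mem_rest hf)
        (fun f hf => star_star (mem_rest.1 hf).2 E.herm.invol E.r0 one_ne_zero)
        (fun f hf => star_star (mem_rest.1 hf).2 E.herm.invol E.r0 one_ne_zero) (fun f _ => rfl)
    have h1 : ∀ f ∈ rest r, 2 * (finrank F ↥(W ⊓ K x f) + finrank F ↥(W ⊓ K x (star σ f))) ≤
        finrank F ↥(K x f) + finrank F ↥(K x (star σ f)) := fun f hf => by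
      obtain ⟨hne, hf'⟩ := mem_rest.1 hf
      have hle : (W ⊓ K x f) ⊔ (W ⊓ K x (star σ f)) ≤ K x f ⊔ K x (star σ f) :=
        sup_le_sup inf_le_right inf_le_right
      have h2 := (hWT.mono (sup_le inf_le_left inf_le_left)).two_mul_le E.herm (E.nd_pair hf') hle
      have h3 := Submodule.finrank_add_le_finrank_add_finrank (K x f) (K x (star σ f))
      have h4 := Submodule.finrank_sup_add_finrank_inf_eq (W ⊓ K x f) (W ⊓ K x (star σ f))
      have hd : Disjoint (W ⊓ K x f) (W ⊓ K x (star σ f)) :=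
        (Polynomial.disjoint_ker_aeval_of_isCoprime x
          (hf'.coprime (hf'.star E.herm.invol E.r0 E.norm) (hs f hf).symm)).mono inf_le_right inf_le_right
      rw [hd.eq_bot, finrank_bot] at h4
      omega
    have h5 := Finset.sum_le_sum h1
    rw [← Finset.mul_sum, Finset.sum_add_distrib, Finset.sum_add_distrib, hperm fun f => finrank F ↥(W ⊓ K x f),
      hperm fun f => finrank F ↥(K x f)] at h5
    omega

end CfsgLib.Derangements.Herm
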