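import Mathlib
import Cfsg.Agent.Lib.Derangements.HermRoom
import Cfsg.Agent.Lib.Generators.GU

/-!
Unitary matrices with prescribed kernels, and the elements leaving least room for invariant totally isotropic
subspaces.
-/

set_option autoImplicit false
set_option linter.unusedSectionVars false

namespace CfsgLib.Derangements.Herm

open Module Polynomial Matrix CfsgLib.Generators CfsgLib.SemisimpleClasses
open CfsgLib.ClassicalForms (Conj)

universe u

variable {F : Type u} [Field F] [Fintype F] {q n r : ℕ} [hr : Fact r.Prime] {z : F}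

/-- A unitary matrix gives an isometry of the standard space. -/
theorem elt_of_matrix (hK : Fintype.card F = q ^ 2) (c : Conj F q) (hrF : (r : F) ≠ 0) (hz : z * c.σ z = 1)
    {A : Matrix (Fin n) (Fin n) F} (hA : qAdjoint q A * A = 1) (hAr : A ^ r = z • 1) :
    Elt c.σ (CfsgLib.Forms.hermBundled n c.σ) r z (Matrix.toLin' A) := by
  refine ⟨isHerm_std c, fun u v => ?_, ?_, hrF, hz⟩
  · let g : GL (Fin n) F := ⟨A, qAdjoint q A, mul_eq_one_comm.1 hA, hA⟩
    have h := (mem_GU_iff_qAdjoint hK g).2 hA v u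
    rw [CfsgLib.Forms.hermBundled_eq c, CfsgLib.Forms.hermBundled_eq c, Matrix.toLin'_apply, Matrix.toLin'_apply]
    exact h
  · rw [← Matrix.toLin'_pow, hAr, map_smul, Matrix.toLin'_one]
    rfl

/-- A unitary matrix with prescribed kernel dimensions. -/
theorem exists_matrix_kernels (hK : Fintype.card F = q ^ 2) (c : Conj F q) (hrF : (r : F) ≠ 0)
    (hz : z * c.σ z = 1) (k : F[X] → ℕ) (hk : ∀ f ∈ facs r z, k (star c.σ f) = k f)
    (hn : ∑ f ∈ facs r z, f.natDegree * k f = n) :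
    ∃ A : Matrix (Fin n) (Fin n) F, qAdjoint q A * A = 1 ∧ A ^ r = z • 1 ∧
      A.charpoly = ∏ f ∈ facs r z, f ^ k f ∧
      ∀ f ∈ facs r z, finrank F ↥(K (Matrix.toLin' A) f) = f.natDegree * k f := by
  classical
  obtain ⟨p, hp⟩ := CharP.exists F
  have : Fact p.Prime := ⟨(CharP.char_is_prime_or_zero F p).resolve_right (CharP.char_ne_zero_of_finite F p)⟩
  have hr0 := hr.out.ne_zero
  have hz0 : z ≠ 0 := left_ne_zero_of_mul_eq_one hz
  have hfac : ∀ f ∈ facs r z, Fac r z f := fun f hf => (mem_facs hr0).1 hf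
  set χ := ∏ f ∈ facs r z, f ^ k f with hχ
  have hm : χ.Monic := monic_prod_of_monic _ _ fun f hf => (hfac f hf).monic.pow _
  have hst : ∀ f ∈ facs r z, star c.σ f ∈ facs r z := fun f hf =>
    (mem_facs hr0).2 ((hfac f hf).star c.invol hr0 hz)
  have hrev : ∀ (s : Finset F[X]) (g : F[X] → F[X]),
      CfsgLib.Classes.SympSemi.rev (∏ f ∈ s, g f) = ∏ f ∈ s, CfsgLib.Classes.SympSemi.rev (g f) := fun s g => by
    induction s using Finset.induction_on with
    | empty => simp [CfsgLib.Classes.SympSemi.rev_one]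
    | insert a s ha ih => rw [Finset.prod_insert ha, Finset.prod_insert ha, CfsgLib.Classes.SympSemi.rev_mul, ih]
  have hrevpow : ∀ (f : F[X]) (l : ℕ), CfsgLib.Classes.SympSemi.rev (f ^ l) = CfsgLib.Classes.SympSemi.rev f ^ l :=
    fun f l => by
      induction l with
      | zero => rw [pow_zero, pow_zero, CfsgLib.Classes.SympSemi.rev_one]
      | succ l ih => rw [pow_succ, pow_succ, CfsgLib.Classes.SympSemi.rev_mul, ih]
  have hU : Unitary.UPoly c.σ χ := by
    refine ⟨hm, ?_, ?_⟩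
    · rw [coeff_zero_eq_eval_zero, hχ, eval_prod]
      refine Finset.prod_ne_zero_iff.2 fun f hf => ?_
      rw [eval_pow, ← coeff_zero_eq_eval_zero]
      exact pow_ne_zero _ ((hfac f hf).coeff_zero hr0 hz0)
    · rw [hχ, Polynomial.map_prod, hrev]
      refine Finset.prod_nbij' (star c.σ) (star c.σ) hst hst
        (fun f hf => star_star (hfac f hf) c.invol hr0 hz0)
        (fun f hf => star_star (hfac f hf) c.invol hr0 hz0) fun f hf => ?_
      have hmap : CfsgLib.Classes.SympSemi.rev (star c.σ f) = f.map c.σ :=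
        CfsgLib.Classes.SympSemi.rev_rev ((hfac f hf).monic.map _) (by
          rw [coeff_map]; exact (map_ne_zero c.σ).2 ((hfac f hf).coeff_zero hr0 hz0))
      rw [Polynomial.map_pow, hrevpow, hk f hf, hmap]
  have hd : χ.natDegree = n := by
    rw [hχ, natDegree_prod_of_monic _ _ fun f hf => (hfac f hf).monic.pow _]
    simp_rw [natDegree_pow]
    rw [← hn]
    exact Finset.sum_congr rfl fun f _ => mul_comm _ _
  obtain ⟨A, ⟨hA, N, hN, hN0, hAN⟩, hAc⟩ := Unitary.exists_umat (p := p) c.σ hK c.apply hU hd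
  have hNF : (N : F) ≠ 0 := fun h => by
    have h1 := (CharP.cast_eq_zero_iff F p N).1 h
    exact (Fact.out : p.Prime).ne_one (Nat.eq_one_of_dvd_coprimes hN h1 dvd_rfl)
  have hμ : Squarefree (minpoly F A) := by
    refine (separable_X_pow_sub_C (1 : F) hNF one_ne_zero).squarefree.squarefree_of_dvd (minpoly.dvd F A ?_)
    simp [hAN]
  have hAr : A ^ r = z • 1 := by
    set M := (facs r z).sup k + 1
    have h1 : χ ∣ ((X : F[X]) ^ r - C z) ^ M := by
      rw [← prod_facs hrF hz0, ← Finset.prod_pow, hχ]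
      exact Finset.prod_dvd_prod_of_dvd _ _ fun f hf =>
        pow_dvd_pow f ((Finset.le_sup hf).trans (Nat.le_succ _))
    have h2 : minpoly F A ∣ (X : F[X]) ^ r - C z :=
      (hμ.dvd_pow_iff_dvd (Nat.succ_ne_zero _)).1 (((Matrix.minpoly_dvd_charpoly A).trans (hAc ▸ dvd_rfl)).trans h1)
    obtain ⟨w, hw⟩ := h2
    have h3 := congrArg (aeval A) hw
    rw [map_mul, minpoly.aeval, zero_mul, map_sub, map_pow, aeval_X, aeval_C, sub_eq_zero] at h3
    rw [h3, Algebra.algebraMap_eq_smul_one]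
  refine ⟨A, hA, hAr, hAc, fun f hf => ?_⟩
  refine (elt_of_matrix hK c hrF hz hA hAr).finrank_K (hfac f hf) (h := ∏ g ∈ (facs r z).erase f, g ^ k g) ?_ ?_
  · rw [Matrix.charpoly_toLin', hAc, hχ, Finset.mul_prod_erase _ (fun g => g ^ k g) hf]
  · intro hd'
    obtain ⟨g, hg, hfg⟩ := (hfac f hf).irr.prime.exists_mem_finset_dvd hd'
    exact Finset.ne_of_mem_erase hg
      ((hfac f hf).eq_of_dvd (hfac g (Finset.mem_of_mem_erase hg)) ((hfac f hf).irr.prime.dvd_of_dvd_pow hfg)).symm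

variable {b c : ℕ}

/-- The kernels of a prescribed matrix with `X - 1` as the remaining part. -/
theorem exists_matrix_rest (hK : Fintype.card F = q ^ 2) (cj : Conj F q) (hrF : (r : F) ≠ 0)
    (hb : orderOf ((Nat.card F : ZMod r)) = b) (k : F[X] → ℕ) (hk : ∀ f ∈ rest r, k (star cj.σ f) = k f) {S : ℕ}
    (hS : ∑ f ∈ rest r, k f = S) (hn : b * S ≤ n) :
    ∃ A : Matrix (Fin n) (Fin n) F, qAdjoint q A * A = 1 ∧ A ^ r = 1 ∧
      finrank F ↥(K (Matrix.toLin' A) (X - C 1)) = n - b * S ∧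
      ∀ f ∈ rest r, finrank F ↥(K (Matrix.toLin' A) f) = b * k f := by
  classical
  have hr0 := hr.out.ne_zero
  let k' : F[X] → ℕ := fun f => if f = X - C 1 then n - b * S else k f
  have hrest : rest (F := F) r = (facs r (1 : F)).erase (X - C 1) := by unfold rest; congr
  have h1 : (1 : F) * cj.σ 1 = 1 := by rw [map_one, one_mul]
  have hmem := (mem_facs hr0).2 (fac_X_sub_one (F := F) (r := r))
  obtain ⟨A, hA, hAr, -, hKd⟩ := exists_matrix_kernels (n := n) hK cj hrF h1 k' (fun f hf => by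
    by_cases hf1 : f = X - C 1
    · rw [hf1, star_X_sub_one]
    · have hne : star cj.σ f ≠ X - C 1 := fun h => hf1 (by
        rw [← star_star ((mem_facs hr0).1 hf) cj.invol hr0 one_ne_zero, h, star_X_sub_one])
      simp only [k', if_neg hf1, if_neg hne]
      exact hk f (mem_rest.2 ⟨hf1, (mem_facs hr0).1 hf⟩)) (by
    rw [← Finset.add_sum_erase _ _ hmem, natDegree_X_sub_C, one_mul, ← hrest]
    simp only [k', if_pos]
    rw [Finset.sum_congr rfl fun f (hf : f ∈ rest r) => show _ = b * k f by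
      rw [if_neg (mem_rest.1 hf).1, (mem_rest.1 hf).2.natDegree_eq (mem_rest.1 hf).1, hb],
      ← Finset.mul_sum, hS]
    omega)
  refine ⟨A, hA, by rw [hAr, one_smul], ?_, fun f hf => ?_⟩
  · rw [hKd _ hmem, natDegree_X_sub_C, one_mul]
    simp [k']
  · obtain ⟨hne, hf'⟩ := mem_rest.1 hf
    rw [hKd f ((mem_facs hr0).2 hf'), hf'.natDegree_eq hne, hb]
    simp only [k', if_neg hne]

/-- The worst element with `s` self-dual blocks. -/
theorem exists_worst_self (hK : Fintype.card F = q ^ 2) (cj : Conj F q) (hrF : (r : F) ≠ 0)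
    (hb : orderOf ((Nat.card F : ZMod r)) = b) (hb0 : 0 < b) {t : ℕ} (ht : (rest (F := F) r).card = t)
    (ht0 : 1 ≤ t) (hs : ∀ f ∈ rest r, star cj.σ f = f) {s : ℕ} (hs1 : 1 ≤ s) (hsn : b * s ≤ n) :
    ∃ A : Matrix (Fin n) (Fin n) F, qAdjoint q A * A = 1 ∧ A ^ r = 1 ∧ A ≠ 1 ∧
      ∀ W : Submodule F (Fin n → F), SubFix.Inv (Matrix.toLin' A) W → Ti (CfsgLib.Forms.hermBundled n cj.σ) W →
        ∃ a j, finrank F W = a + j * b ∧ 2 * a + b * s ≤ n ∧ j ≤ (s + 1 - t) / 2 := by
  classical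
  obtain ⟨k, hk, hk2⟩ : ∃ k : F[X] → ℕ, ∑ f ∈ rest r, k f = s ∧
      ∑ f ∈ rest r, k f / 2 ≤ (s + 1 - t) / 2 := by
    rcases Nat.lt_or_ge s t with hst | hst
    · obtain ⟨S, hS, hSc⟩ := Finset.exists_subset_card_eq (s := rest (F := F) r) (n := s) (by omega)
      refine ⟨fun f => if f ∈ S then 1 else 0, ?_, ?_⟩
      · rw [Finset.sum_ite_mem, Finset.inter_eq_right.2 hS, Finset.sum_const, hSc, smul_eq_mul, mul_one]
      · refine le_of_eq_of_le (Finset.sum_eq_zero fun f _ => ?_) (Nat.zero_le _)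
        show (if f ∈ S then 1 else 0) / 2 = 0
        split_ifs <;> rfl
    · obtain ⟨f₀, hf₀⟩ := Finset.card_pos.1 (show 0 < (rest (F := F) r).card by omega)
      refine ⟨fun f => if f = f₀ then s - t + 1 else 1, ?_, le_of_eq ?_⟩
      · rw [← Finset.add_sum_erase _ _ hf₀, if_pos rfl,
          Finset.sum_congr rfl fun f hf => if_neg (Finset.ne_of_mem_erase hf), Finset.sum_const,
          Finset.card_erase_of_mem hf₀, ht, smul_eq_mul, mul_one]
        omega
      · simp only []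
        rw [← Finset.add_sum_erase _ _ hf₀, if_pos rfl, Finset.sum_eq_zero fun f hf => by
          simp [Finset.ne_of_mem_erase hf], add_zero]
        congr 1
        omega
  obtain ⟨A, hA, hAr, h1, hKd⟩ := exists_matrix_rest (n := n) hK cj hrF hb k
    (fun f hf => by rw [hs f hf]) hk hsn
  have E := elt_of_matrix hK cj hrF (by rw [map_one, one_mul]) hA (by rw [hAr, one_smul])
  refine ⟨A, hA, hAr, ?_, fun W hW hWT => ?_⟩
  · intro h
    have htop : K (Matrix.toLin' A) (X - C 1) = ⊤ := eq_top_iff.2 fun v _ => mem_K_one.2 (by rw [h]; simp)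
    rw [htop, finrank_top, Module.finrank_fin_fun] at h1
    have := Nat.mul_pos hb0 hs1
    omega
  · obtain ⟨a, j, hd, ha, hj⟩ := E.upper_self hb hb0 hs hW hWT
    refine ⟨a, j, hd, by omega, hj.trans (le_trans (le_of_eq (Finset.sum_congr rfl fun f hf => ?_)) hk2)⟩
    rw [hKd f hf, Nat.mul_div_cancel_left _ hb0]

/-- The worst element with `s` dual pairs of blocks. -/
theorem exists_worst_pair (hK : Fintype.card F = q ^ 2) (cj : Conj F q) (hrF : (r : F) ≠ 0)
    (hb : orderOf ((Nat.card F : ZMod r)) = b) (hb0 : 0 < b) (hne : (rest (F := F) r).Nonempty)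
    (hs : ∀ f ∈ rest r, star cj.σ f ≠ f) {s : ℕ} (hs1 : 1 ≤ s) (hsn : 2 * (b * s) ≤ n) :
    ∃ A : Matrix (Fin n) (Fin n) F, qAdjoint q A * A = 1 ∧ A ^ r = 1 ∧ A ≠ 1 ∧
      ∀ W : Submodule F (Fin n → F), SubFix.Inv (Matrix.toLin' A) W → Ti (CfsgLib.Forms.hermBundled n cj.σ) W →
        ∃ a j, finrank F W = a + j * b ∧ 2 * a + 2 * (b * s) ≤ n ∧ j ≤ s := by
  classical
  obtain ⟨f₀, hf₀⟩ := hne
  obtain ⟨hf₀1, hf₀'⟩ := mem_rest.1 hf₀
  have hr0 := hr.out.ne_zero
  have hst0 : star cj.σ f₀ ∈ rest r := mem_rest.2 ⟨fun h => hf₀1 (by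
    rw [← star_star hf₀' cj.invol hr0 one_ne_zero, h, star_X_sub_one]),
    hf₀'.star cj.invol hr0 (by rw [map_one, one_mul])⟩
  let k : F[X] → ℕ := fun f => if f ∈ ({f₀, star cj.σ f₀} : Finset F[X]) then s else 0
  have hkst : ∀ f ∈ rest r, k (star cj.σ f) = k f := fun f hf => by
    have hff := star_star (σ := cj.σ) (mem_rest.1 hf).2 cj.invol hr0 one_ne_zero
    have h0 := star_star (σ := cj.σ) hf₀' cj.invol hr0 one_ne_zero
    have hiff : star cj.σ f ∈ ({f₀, star cj.σ f₀} : Finset F[X]) ↔ f ∈ ({f₀, star cj.σ f₀} : Finset F[X]) := by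
      simp only [Finset.mem_insert, Finset.mem_singleton]
      constructor
      · rintro (h | h)
        · exact Or.inr (by rw [← h, hff])
        · exact Or.inl (by rw [← hff, h, h0])
      · rintro (h | h)
        · exact Or.inr (by rw [h])
        · exact Or.inl (by rw [h, h0])
    simp only [k, hiff]
  have hk : ∑ f ∈ rest r, k f = 2 * s := by
    rw [Finset.sum_ite_mem, Finset.inter_eq_right.2 (Finset.insert_subset hf₀ (Finset.singleton_subset_iff.2 hst0)),
      Finset.sum_const, Finset.card_pair (hs f₀ hf₀).symm, smul_eq_mul]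
  obtain ⟨A, hA, hAr, h1, hKd⟩ := exists_matrix_rest (n := n) hK cj hrF hb k hkst hk
    (by rw [← mul_assoc, mul_comm b 2, mul_assoc]; exact hsn)
  have E := elt_of_matrix hK cj hrF (by rw [map_one, one_mul]) hA (by rw [hAr, one_smul])
  refine ⟨A, hA, hAr, ?_, fun W hW hWT => ?_⟩
  · intro h
    have htop : K (Matrix.toLin' A) (X - C 1) = ⊤ := eq_top_iff.2 fun v _ => mem_K_one.2 (by rw [h]; simp)
    rw [htop, finrank_top, Module.finrank_fin_fun] at h1
    have := Nat.mul_pos hb0 (show 0 < 2 * s by omega)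
    have e : b * (2 * s) = 2 * (b * s) := by ring
    omega
  · obtain ⟨a, j, hd, ha, hj⟩ := E.upper_pair hb hs hW hWT
    rw [Finset.sum_congr rfl hKd, ← Finset.mul_sum, hk] at hj
    have e : b * (2 * s) = 2 * (b * s) := by ring
    exact ⟨a, j, hd, by omega, Nat.le_of_mul_le_mul_right
      (show j * b ≤ s * b by rw [mul_comm s b]; omega) hb0⟩

end CfsgLib.Derangements.Herm
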