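import Mathlib
import Cfsg.Agent.Lib.Derangements.HermWorst
import Cfsg.Agent.Lib.Derangements.HermArith

/-!
Elements a power of which is a scalar without a root, diagonal elements, and involutions modulo scalars.
-/

set_option autoImplicit false
set_option linter.unusedSectionVars false

namespace CfsgLib.Derangements.Herm

open Module Polynomial Matrix CfsgLib.Generators
open CfsgLib.ClassicalForms (Conj)

universe u v

variable {F : Type u} [Field F]

theorem norm_pow {q : ℕ} (c : Conj F q) (a : F) : a * c.σ a = a ^ (q + 1) := by rw [c.apply, pow_succ']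

section NoRoot

variable {σ : F →+* F} {V : Type v} [AddCommGroup V] [Module F V] [FiniteDimensional F V]
  {B : V →ₛₗ[σ] V →ₗ[F] F} {r : ℕ} [hr : Fact r.Prime] {z : F} {x : Module.End F V}

theorem fac_no_root (hnr : ∀ a : F, a ^ r ≠ z) : Fac r z ((X : F[X]) ^ r - C z) :=
  ⟨monic_X_pow_sub_C z hr.out.ne_zero, X_pow_sub_C_irreducible_of_prime hr.out hnr, dvd_rfl⟩

theorem Elt.K_no_root (E : Elt σ B r z x) : K x ((X : F[X]) ^ r - C z) = ⊤ := eq_top_iff.2 fun v _ => by
  rw [← prod_facs E.rne E.z0]; exact E.mem_K_prod_facs v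

theorem star_no_root (hσ : ∀ a, σ (σ a) = a) (hn : z * σ z = 1) (hnr : ∀ a : F, a ^ r ≠ z) :
    star σ ((X : F[X]) ^ r - C z) = X ^ r - C z :=
  ((fac_no_root hnr).star hσ hr.out.ne_zero hn).eq_of_dvd (fac_no_root hnr)
    ((fac_no_root hnr).star hσ hr.out.ne_zero hn).dvd

theorem Elt.dvd_of_no_root (E : Elt σ B r z x) (hnr : ∀ a : F, a ^ r ≠ z) {W : Submodule F V}
    (hW : SubFix.Inv x W) : r ∣ finrank F W := by
  have h := (E.uniform (fac_no_root hnr)).dvd W (by rw [E.K_no_root]; exact le_top) hW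
  rwa [natDegree_X_pow_sub_C] at h

theorem Elt.det_of_no_root (E : Elt σ B r z x) (hnr : ∀ a : F, a ^ r ≠ z) (hodd : Odd r) {k : ℕ}
    (hk : finrank F V = r * k) : LinearMap.det x = z ^ k := by
  classical
  set f := (X : F[X]) ^ r - C z with hf
  have hff := fac_no_root hnr
  have hm := LinearMap.charpoly_monic x
  have hall : ∀ g : F[X], Irreducible g → g ∣ x.charpoly → f ∣ g := fun g hg hgd => by
    obtain ⟨w, hw0, hw⟩ := CfsgLib.SemisimpleClasses.exists_killed x hg hgd
    exact (CfsgLib.SemisimpleClasses.orbitMap_eq_zero_iff hw0 hff.irr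
      (mem_K.1 (E.K_no_root.symm ▸ Submodule.mem_top)) g).1 hw
  obtain ⟨j, hj⟩ : ∃ j, x.charpoly = f ^ j := by
    refine ⟨(UniqueFactorizationMonoid.normalizedFactors x.charpoly).card, ?_⟩
    have h1 := UniqueFactorizationMonoid.prod_normalizedFactors_eq hm.ne_zero
    rw [hm.normalize_eq_self] at h1
    suffices hrep : UniqueFactorizationMonoid.normalizedFactors x.charpoly =
        Multiset.replicate (UniqueFactorizationMonoid.normalizedFactors x.charpoly).card f by
      exact h1.symm.trans ((congrArg Multiset.prod hrep).trans (Multiset.prod_replicate _ _))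
    refine Multiset.eq_replicate_card.2 fun g hg => ?_
    have hgi := UniqueFactorizationMonoid.irreducible_of_normalized_factor g hg
    have hgm : g.Monic := by
      rw [← UniqueFactorizationMonoid.normalize_normalized_factor g hg]; exact monic_normalize hgi.ne_zero
    exact (eq_of_monic_of_associated hff.monic hgm (hff.irr.associated_of_dvd hgi
      (hall g hgi (UniqueFactorizationMonoid.dvd_of_mem_normalizedFactors hg)))).symm
  have hd := congrArg natDegree hj
  rw [LinearMap.charpoly_natDegree, natDegree_pow, hf, natDegree_X_pow_sub_C, hk, mul_comm] at hd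
  have hjk : k = j := Nat.eq_of_mul_eq_mul_right hr.out.pos hd
  have h0 : f.coeff 0 = -z := by
    rw [hf, coeff_sub, coeff_X_pow, if_neg hr.out.ne_zero.symm, coeff_C_zero, zero_sub]
  rw [LinearMap.det_eq_sign_charpoly_coeff, hj, ← hjk, coeff_zero_eq_eval_zero, eval_pow,
    ← coeff_zero_eq_eval_zero, h0, hk, neg_pow z, ← mul_assoc, ← pow_add]
  rw [(show Even (r * k + k) from by rw [← Nat.succ_mul]; exact (hodd.add_one).mul_right k).neg_one_pow, one_mul]

end NoRoot

variable [Fintype F] {q n r : ℕ} [hr : Fact r.Prime]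

theorem card_cast_eq_one (hK : Fintype.card F = q ^ 2) (hq : r ∣ q + 1) : ((Nat.card F : ℕ) : ZMod r) = 1 := by
  rw [← ZMod.natCast_eq_zero_iff, Nat.cast_add, Nat.cast_one, add_eq_zero_iff_eq_neg] at hq
  rw [Nat.card_eq_fintype_card, hK, Nat.cast_pow, hq, neg_one_sq]

theorem star_linear (hK : Fintype.card F = q ^ 2) (cj : Conj F q) (hq : r ∣ q + 1) :
    ∀ f ∈ rest (F := F) r, star cj.σ f = f := fun f hf => by
  obtain ⟨hne, hf⟩ := mem_rest.1 hf
  refine (hf.star_eq_iff (by rw [Nat.card_eq_fintype_card, hK]) cj.apply cj.invol hne).2 ⟨0, ?_⟩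
  rw [← ZMod.natCast_eq_zero_iff, Nat.cast_add, Nat.cast_one, add_eq_zero_iff_eq_neg] at hq
  rw [hq, neg_neg, pow_zero]

/-- A diagonal element whose eigenvalues other than `1` are distinct. -/
theorem diagonal_bound [DecidableEq F] (hK : Fintype.card F = q ^ 2) (cj : Conj F q) (hrF : (r : F) ≠ 0) (hq : r ∣ q + 1)
    (d : Fin n → F) (hd : ∀ i, d i ^ r = 1) (hinj : ∀ i j, d i = d j → d i ≠ 1 → i = j) :
    qAdjoint q (diagonal d) * diagonal d = 1 ∧ (diagonal d) ^ r = 1 ∧
      ∀ W : Submodule F (Fin n → F), SubFix.Inv (Matrix.toLin' (diagonal d)) W →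
        Ti (CfsgLib.Forms.hermBundled n cj.σ) W → 2 * finrank F W ≤ (Finset.univ.filter fun i => d i = 1).card := by
  have hq0 : q ≠ 0 := cj.q_ne_zero
  have hnorm : ∀ i, d i ^ q * d i = 1 := fun i => by
    obtain ⟨k, hk⟩ := hq
    rw [← pow_succ, hk, pow_mul, hd, one_pow]
  have hA : qAdjoint q (diagonal d) * diagonal d = 1 := by
    have e : (diagonal d).map (fun x => x ^ q) = diagonal fun i => d i ^ q :=
      Matrix.diagonal_map (f := fun x : F => x ^ q) (by simpa using zero_pow (M₀ := F) hq0)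
    rw [qAdjoint, e, Matrix.diagonal_transpose, Matrix.diagonal_mul_diagonal,
      ← Matrix.diagonal_one]
    exact congrArg diagonal (funext hnorm)
  have hAr : (diagonal d) ^ r = 1 := by
    rw [Matrix.diagonal_pow, ← Matrix.diagonal_one]
    exact congrArg diagonal (funext hd)
  refine ⟨hA, hAr, fun W hW hWT => ?_⟩
  have E := elt_of_matrix hK cj hrF (show (1 : F) * cj.σ 1 = 1 by rw [map_one, one_mul]) hA (by rw [hAr, one_smul])
  have hb : orderOf ((Nat.card F : ℕ) : ZMod r) = 1 := by rw [card_cast_eq_one hK hq, orderOf_one]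
  have hdim : ∀ y : F, Fac r (1 : F) (X - C y) →
      finrank F ↥(K (Matrix.toLin' (diagonal d)) (X - C y)) = (Finset.univ.filter fun i => d i = y).card := by
    intro y hy
    rw [E.finrank_K hy (k := (Finset.univ.filter fun i => d i = y).card)
      (h := ∏ i ∈ Finset.univ.filter (fun i => ¬ d i = y), (X - C (d i))) ?_ ?_, natDegree_X_sub_C, one_mul]
    · rw [Matrix.charpoly_toLin', Matrix.charpoly_diagonal, ← Finset.prod_filter_mul_prod_filter_not Finset.univ
        (fun i => d i = y)]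
      congr 1
      rw [Finset.prod_congr rfl fun i hi => by rw [(Finset.mem_filter.1 hi).2], Finset.prod_const]
    · intro hdv
      obtain ⟨i, hi, hiy⟩ := hy.irr.prime.exists_mem_finset_dvd hdv
      rw [dvd_iff_isRoot, IsRoot, eval_sub, eval_X, eval_C, sub_eq_zero] at hiy
      exact (Finset.mem_filter.1 hi).2 hiy.symm
  obtain ⟨a, j, hdW, ha, hj⟩ := E.upper_self hb one_pos (star_linear hK cj hq) hW hWT
  rw [hdim 1 fac_X_sub_one] at ha
  have hz : ∀ f ∈ rest r, finrank F ↥(K (Matrix.toLin' (diagonal d)) f) / 1 / 2 = 0 := fun f hf => by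
    obtain ⟨hne, hf'⟩ := mem_rest.1 hf
    have hdeg := hf'.natDegree_eq hne
    rw [hb] at hdeg
    have hfy : f = X - C (-(f.coeff 0)) := by
      conv_lhs => rw [hf'.monic.eq_X_add_C hdeg]
      rw [map_neg, sub_neg_eq_add]
    rw [hfy, hdim _ (hfy ▸ hf'), Nat.div_one]
    refine Nat.div_eq_of_lt (Nat.lt_succ_of_le (Finset.card_le_one.2 fun i hi l hl => ?_))
    have hi' := (Finset.mem_filter.1 hi).2
    refine hinj i l (hi'.trans (Finset.mem_filter.1 hl).2.symm) fun h1 => hne ?_
    rw [hfy, ← hi', h1]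
  rw [Finset.sum_eq_zero hz, Nat.le_zero] at hj
  rw [hdW, hj, zero_mul, add_zero]
  exact ha

/-- An element of given order among the norm-one elements. -/
theorem exists_orderOf (hK : Fintype.card F = q ^ 2) {k : ℕ} (hk : k ∣ q + 1) :
    ∃ a : Fˣ, orderOf a = k := by
  have hk0 : k ≠ 0 := fun h => by subst h; have := Nat.eq_zero_of_zero_dvd hk; omega
  obtain ⟨g, hg⟩ := IsCyclic.exists_ofOrder_eq_natCard (α := Fˣ)
  have hF : Nat.card Fˣ = (q + 1) * (q - 1) :=
    CfsgLib.ClassicalForms.card_units_eq (by rw [Nat.card_eq_fintype_card, hK])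
  refine ⟨g ^ (Nat.card Fˣ / k), ?_⟩
  have hd : k ∣ Nat.card Fˣ := hF ▸ hk.mul_right _
  rw [← hg] at hd ⊢
  exact orderOf_pow_orderOf_div (orderOf_pos g).ne' hd

/-- Power residues. -/
theorem exists_root_of_pow (hK : Fintype.card F = q ^ 2) {z : F} (hz : z ≠ 0) {k : ℕ}
    (hk : k * r ∣ Nat.card Fˣ) (hzk : z ^ k = 1) : ∃ a : F, a ^ r = z := by
  obtain ⟨g, hg⟩ := IsCyclic.exists_generator (α := Fˣ)
  obtain ⟨e, he⟩ := mem_powers_iff_mem_zpowers.2 (hg (Units.mk0 z hz))
  have h1 : g ^ (e * k) = 1 := by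
    rw [pow_mul]
    refine Units.ext ?_
    simp only at he
    rw [he, Units.val_pow_eq_pow_val, Units.val_mk0, hzk, Units.val_one]
  have hord : orderOf g = Nat.card Fˣ := orderOf_eq_card_of_forall_mem_zpowers hg
  have h2 : k * r ∣ k * e := by
    rw [mul_comm k e]; exact hk.trans (hord ▸ orderOf_dvd_of_pow_eq_one h1)
  have hk0 : 0 < k := Nat.pos_of_ne_zero fun h => by
    rw [h, zero_mul] at hk
    have := Nat.eq_zero_of_zero_dvd hk
    have := Nat.card_pos (α := Fˣ)
    omega
  obtain ⟨l, hl⟩ := Nat.dvd_of_mul_dvd_mul_left hk0 h2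
  refine ⟨((g ^ l : Fˣ) : F), ?_⟩
  rw [← Units.val_pow_eq_pow_val, ← pow_mul, mul_comm, ← hl]
  simp only at he
  rw [he, Units.val_mk0]

end CfsgLib.Derangements.Herm
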