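import Mathlib
import Cfsg.Agent.Lib.Derangements.HermScalar
import Cfsg.Agent.Lib.CharDegrees.SUOrders

/-!
The criterion for every element of prime order of `PSU` to fix a totally isotropic subspace.
-/

set_option autoImplicit false
set_option linter.unusedSectionVars false

namespace CfsgLib.Derangements.Herm

open Module Polynomial Matrix CfsgLib.Generators
open CfsgLib.ClassicalForms (Conj)

universe u

variable {F : Type u} [Field F] [Fintype F] {q n m r : ℕ}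

/-- `A` fixes a totally isotropic subspace of dimension `m`. -/
def Fixes (cj : Conj F q) (m : ℕ) (A : Matrix (Fin n) (Fin n) F) : Prop :=
  ∃ W : Submodule F (Fin n → F), finrank F W = m ∧ Ti (CfsgLib.Forms.hermBundled n cj.σ) W ∧
    SubFix.Inv (Matrix.toLin' A) W

/-- Every element of order `r` modulo scalars fixes one. -/
def AllFix (cj : Conj F q) (n m r : ℕ) : Prop :=
  ∀ A : Matrix (Fin n) (Fin n) F, qAdjoint q A * A = 1 → A.det = 1 → (∃ z : F, A ^ r = z • 1) →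
    (∀ z : F, A ≠ z • 1) → Fixes cj m A

theorem Fixes.smul {cj : Conj F q} {A : Matrix (Fin n) (Fin n) F} (h : Fixes cj m A) (a : F) :
    Fixes cj m (a • A) := by
  obtain ⟨W, h1, h2, h3⟩ := h
  refine ⟨W, h1, h2, fun v hv => ?_⟩
  show Matrix.toLin' (a • A) v ∈ W
  rw [map_smul, LinearMap.smul_apply]
  exact W.smul_mem a (h3 hv)

theorem norm_of_pow (hK : Fintype.card F = q ^ 2) (cj : Conj F q) (hn : 0 < n) {A : Matrix (Fin n) (Fin n) F}
    (hA : qAdjoint q A * A = 1) {z : F} (hz : A ^ r = z • 1) : z * cj.σ z = 1 := by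
  have h : ∀ k : ℕ, qAdjoint q (A ^ k) * A ^ k = 1 := fun k => by
    induction k with
    | zero => rw [pow_zero, qAdjoint_one hK, one_mul]
    | succ k ih =>
      rw [pow_succ, qAdjoint_mul hK, mul_assoc, ← mul_assoc (qAdjoint q (A ^ k)), ih, one_mul, hA]
  have h1 := h r
  rw [hz, CfsgLib.CharDegrees.qAdjoint_smul, qAdjoint_one hK, smul_mul_assoc, one_mul, smul_smul] at h1
  have h2 := congrFun (congrFun h1 ⟨0, hn⟩) ⟨0, hn⟩
  rw [Matrix.smul_apply, Matrix.one_apply_eq, smul_eq_mul, mul_one] at h2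
  rw [cj.apply, mul_comm]
  exact h2

theorem unscale (hK : Fintype.card F = q ^ 2) {A : Matrix (Fin n) (Fin n) F} (hA : qAdjoint q A * A = 1) {z a : F}
    (hz : A ^ r = z • 1) (ha : a ^ r = z) (hna : a ^ (q + 1) = 1) :
    qAdjoint q (a⁻¹ • A) * (a⁻¹ • A) = 1 ∧ (a⁻¹ • A) ^ r = 1 ∧ A = a • (a⁻¹ • A) := by
  have ha0 : a ≠ 0 := fun h => by simp [h] at hna
  refine ⟨?_, ?_, by rw [smul_smul, mul_inv_cancel₀ ha0, one_smul]⟩
  · rw [CfsgLib.CharDegrees.qAdjoint_smul, smul_mul_assoc, mul_smul_comm, hA, smul_smul, inv_pow, ← mul_inv,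
      ← pow_succ, hna, inv_one, one_smul]
  · rw [_root_.smul_pow, hz, smul_smul, inv_pow, ha, inv_mul_cancel₀ (by rw [← ha]; exact pow_ne_zero _ ha0), one_smul]

variable [hr : Fact r.Prime] {i b c : ℕ}

theorem qpow_card (hK : Fintype.card F = q ^ 2) : ((Nat.card F : ℕ) : ZMod r) = (q : ZMod r) ^ 2 := by
  rw [Nat.card_eq_fintype_card, hK, Nat.cast_pow]

theorem Ord.rest_facts (O : Ord r q i b c) (hK : Fintype.card F = q ^ 2) (cj : Conj F q) (hrF : (r : F) ≠ 0) :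
    orderOf ((Nat.card F : ℕ) : ZMod r) = b ∧ (rest (F := F) r).card = (r - 1) / b ∧ 1 ≤ (r - 1) / b ∧
      (i % 4 = 2 → ∀ f ∈ rest (F := F) r, star cj.σ f = f) ∧
      (i % 4 ≠ 2 → ∀ f ∈ rest (F := F) r, star cj.σ f ≠ f) := by
  have hb : orderOf ((Nat.card F : ℕ) : ZMod r) = b := by rw [qpow_card hK, O.order_sq]
  have hc := card_rest_mul (F := F) (r := r) hrF
  rw [hb] at hc
  have h2 := O.two_lt
  have hiff : ∀ f ∈ rest (F := F) r, (star cj.σ f = f ↔ i % 4 = 2) := fun f hf => by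
    rw [(mem_rest.1 hf).2.star_eq_iff (by rw [Nat.card_eq_fintype_card, hK]) cj.apply cj.invol (mem_rest.1 hf).1,
      O.self_dual_iff]
  refine ⟨hb, by rw [← hc, Nat.mul_div_cancel _ O.b_pos], ?_, fun h f hf => (hiff f hf).2 h,
    fun h f hf e => h ((hiff f hf).1 e)⟩
  rw [← hc, Nat.mul_div_cancel _ O.b_pos]
  exact Nat.pos_of_ne_zero fun h => by rw [h, zero_mul] at hc; omega

/-- Isometries of order `r`, self-dual blocks. -/
theorem Ord.fixes_self (O : Ord r q i b c) (hK : Fintype.card F = q ^ 2) (cj : Conj F q) (hrF : (r : F) ≠ 0)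
    (hi : i % 4 = 2)
    (H : ∀ s, 1 ≤ s → b * s ≤ n → ∃ j ≤ (s + 1 - (r - 1) / b) / 2, b * j ≤ m ∧ 2 * m + b * s ≤ 2 * (b * j) + n)
    {A : Matrix (Fin n) (Fin n) F} (hA : qAdjoint q A * A = 1) (hAr : A ^ r = 1) (hA1 : A ≠ 1) :
    Fixes cj m A := by
  obtain ⟨hb, ht, -, hs, -⟩ := O.rest_facts hK cj hrF
  have E := elt_of_matrix hK cj hrF (show (1 : F) * cj.σ 1 = 1 by rw [map_one, one_mul]) hA
    (by rw [hAr, one_smul])
  obtain ⟨s, hs1, hsn, hW⟩ := E.lower_self hb O.b_pos ht (hs hi) fun h => hA1 (Matrix.toLin'.injective (by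
    rw [h, Matrix.toLin'_one]; rfl))
  rw [Module.finrank_fin_fun] at hsn hW
  obtain ⟨j, hjJ, hj, hle⟩ := H s hs1 hsn
  obtain ⟨W, hWi, hWT, hWd⟩ := hW (m - b * j) j (by omega) hjJ
  exact ⟨W, by rw [hWd, mul_comm j b]; omega, hWT, hWi⟩

/-- Isometries of order `r`, dual pairs of blocks. -/
theorem Ord.fixes_pair (O : Ord r q i b c) (hK : Fintype.card F = q ^ 2) (cj : Conj F q) (hrF : (r : F) ≠ 0)
    (hi : i % 4 ≠ 2)
    (H : ∀ s, 1 ≤ s → 2 * (b * s) ≤ n → ∃ j ≤ s, b * j ≤ m ∧ 2 * m + 2 * (b * s) ≤ 2 * (b * j) + n)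
    {A : Matrix (Fin n) (Fin n) F} (hA : qAdjoint q A * A = 1) (hAr : A ^ r = 1) (hA1 : A ≠ 1) :
    Fixes cj m A := by
  obtain ⟨hb, -, -, -, hs⟩ := O.rest_facts hK cj hrF
  have E := elt_of_matrix hK cj hrF (show (1 : F) * cj.σ 1 = 1 by rw [map_one, one_mul]) hA
    (by rw [hAr, one_smul])
  obtain ⟨s, hs1, hsn, hW⟩ := E.lower_pair hb O.b_pos (hs hi) fun h => hA1 (Matrix.toLin'.injective (by
    rw [h, Matrix.toLin'_one]; rfl))
  rw [Module.finrank_fin_fun] at hsn hW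
  obtain ⟨j, hjJ, hj, hle⟩ := H s hs1 hsn
  obtain ⟨W, hWi, hWT, hWd⟩ := hW (m - b * j) j (by omega) hjJ
  exact ⟨W, by rw [hWd, mul_comm j b]; omega, hWT, hWi⟩

theorem pow_eq_one_of_coprime' {M : Type*} [Monoid M] {a : M} {k l : ℕ} (h : k.Coprime l) (hk : a ^ k = 1)
    (hl : a ^ l = 1) : a = 1 := by
  rw [← pow_one a, ← h.gcd_eq_one, pow_gcd_eq_one]
  exact ⟨hk, hl⟩

theorem Ord.det_eq_one (O : Ord r q i b c) (hK : Fintype.card F = q ^ 2) (cj : Conj F q) (hi2 : i ≠ 2)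
    {A : Matrix (Fin n) (Fin n) F} (hA : qAdjoint q A * A = 1) (hAr : A ^ r = 1) : A.det = 1 := by
  have h1 : A.det ^ r = 1 := by rw [← det_pow, hAr, det_one]
  have h2 : A.det ^ (q + 1) = 1 := by
    have := congrArg Matrix.det hA
    rw [det_mul, det_one, CfsgLib.SemisimpleClasses.Unitary.det_qAdjoint cj.σ cj.apply, ← pow_succ] at this
    exact this
  have hco : r.Coprime (q + 1) := hr.out.coprime_iff_not_dvd.2 fun h => hi2 (O.dvd_succ_iff.1 h)
  exact pow_eq_one_of_coprime' hco h1 h2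

/-- The criterion for `i ≠ 2`. -/
theorem Ord.main_ne_two (O : Ord r q i b c) (hK : Fintype.card F = q ^ 2) (cj : Conj F q) (hrF : (r : F) ≠ 0)
    (hn : 0 < n) (hm : 1 ≤ m) (hmn : 2 * m ≤ n) (hex : ¬ 2 * m ≤ n % c) (hi2 : i ≠ 2) :
    AllFix cj n m r ↔
      b ≤ m ∧ 2 * (m % b) ≤ n % c ∧ (i % 4 = 2 → (r - 1) / b + 2 * (m / b) ≤ n / b) := by
  obtain ⟨hb, ht, ht0, hs, hp⟩ := O.rest_facts hK cj hrF
  have hco : r.Coprime (q + 1) := hr.out.coprime_iff_not_dvd.2 fun h => hi2 (O.dvd_succ_iff.1 h)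
  have hne : ∀ A : Matrix (Fin n) (Fin n) F, qAdjoint q A * A = 1 → A ^ r = 1 → A ≠ 1 → ∀ z : F, A ≠ z • 1 := by
    intro A hA hAr hA1 z hz
    have h1 : z ^ r = 1 := by
      have h := hAr
      rw [hz, _root_.smul_pow, one_pow] at h
      have := congrFun (congrFun h ⟨0, hn⟩) ⟨0, hn⟩
      rwa [Matrix.smul_apply, Matrix.one_apply_eq, smul_eq_mul, mul_one] at this
    have h2 : z ^ (q + 1) = 1 := by
      rw [← norm_pow cj]
      exact norm_of_pow (r := 1) hK cj hn hA (by rw [pow_one, hz])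
    rw [pow_eq_one_of_coprime' hco h1 h2, one_smul] at hz
    exact hA1 hz
  have hred : (∀ A : Matrix (Fin n) (Fin n) F, qAdjoint q A * A = 1 → A ^ r = 1 → A ≠ 1 → Fixes cj m A) →
      AllFix cj n m r := by
    intro H A hA _ hz hns
    obtain ⟨z, hz⟩ := hz
    have hzn := norm_of_pow hK cj hn hA hz
    rw [norm_pow cj] at hzn
    obtain ⟨k, -, hk⟩ := Nat.exists_mul_mod_eq_one_of_coprime hco (by
      have := CfsgLib.ClassicalForms.two_le_q (F := F) (q := q) (by rw [Nat.card_eq_fintype_card, hK]); omega)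
    have ha : (z ^ k) ^ r = z := by
      rw [← pow_mul, mul_comm, ← Nat.mod_add_div (r * k) (q + 1), hk, pow_add, pow_one, pow_mul, hzn, one_pow,
        mul_one]
    obtain ⟨h1, h2, h3⟩ := unscale hK hA hz ha (by rw [← pow_mul, mul_comm, pow_mul, hzn, one_pow])
    rw [h3]
    exact (H _ h1 h2 fun h => hns (z ^ k) (by rw [h3, h])).smul _
  obtain ⟨hc2, hc4⟩ := O.c_eq
  by_cases hi : i % 4 = 2
  · rw [hc2 hi] at hex ⊢
    have key := herm_room_self (t := (r - 1) / b) O.b_pos ht0 hmn hex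
    constructor
    · intro H
      have := key.1 fun s hs1 hsn => by
        obtain ⟨A, hA, hAr, hA1, hW⟩ := exists_worst_self hK cj hrF hb O.b_pos ht ht0 (hs hi) hs1 hsn
        obtain ⟨W, hWd, hWT, hWi⟩ := H A hA (O.det_eq_one hK cj hi2 hA hAr) ⟨1, by rw [hAr, one_smul]⟩
          (hne A hA hAr hA1)
        obtain ⟨a, j, he, ha, hj⟩ := hW W hWi hWT
        rw [hWd, mul_comm j b] at he
        exact ⟨j, hj, by omega, by omega⟩
      exact ⟨this.1, this.2.1, fun _ => this.2.2⟩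
    · rintro ⟨h1, h2, h3⟩
      exact hred fun A hA hAr hA1 => O.fixes_self hK cj hrF hi (key.2 ⟨h1, h2, h3 hi⟩) hA hAr hA1
  · rw [hc4 hi] at hex ⊢
    have key := herm_room_pair O.b_pos hmn hex
    constructor
    · intro H
      have := key.1 fun s hs1 hsn => by
        obtain ⟨A, hA, hAr, hA1, hW⟩ := exists_worst_pair hK cj hrF hb O.b_pos
          (Finset.card_pos.1 (by omega)) (hp hi) hs1 hsn
        obtain ⟨W, hWd, hWT, hWi⟩ := H A hA (O.det_eq_one hK cj hi2 hA hAr) ⟨1, by rw [hAr, one_smul]⟩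
          (hne A hA hAr hA1)
        obtain ⟨a, j, he, ha, hj⟩ := hW W hWi hWT
        rw [hWd, mul_comm j b] at he
        exact ⟨j, hj, by omega, by omega⟩
      exact ⟨this.1, this.2, fun h => absurd h hi⟩
    · rintro ⟨h1, h2, -⟩
      exact hred fun A hA hAr hA1 => O.fixes_pair hK cj hrF hi (key.2 ⟨h1, h2⟩) hA hAr hA1

end CfsgLib.Derangements.Herm
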