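import Mathlib
import Cfsg.Agent.Lib.Derangements.HermMain

/-!
The criterion for odd primes `r` dividing `q + 1`.
-/

set_option autoImplicit false
set_option linter.unusedSectionVars false

namespace CfsgLib.Derangements.Herm

open Module Polynomial Matrix CfsgLib.Generators
open CfsgLib.ClassicalForms (Conj)

universe u

variable {F : Type u} [Field F] [Fintype F] {q n m r : ℕ} [hr : Fact r.Prime] {b c : ℕ}

/-- An exponent assignment: pairs with sum `r`, then zeros. -/
def pairExp (r h i : ℕ) : ℕ :=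
  if i < 2 * h then (if i % 2 = 0 then i / 2 + 1 else r - (i / 2 + 1)) else 0

theorem sum_pairExp {r h : ℕ} (hh : h ≤ r) : ∀ k ≤ h, ∑ i ∈ Finset.range (2 * k), pairExp r h i = k * r := by
  intro k
  induction k with
  | zero => intro _; simp
  | succ k ih =>
    intro hk
    rw [show 2 * (k + 1) = 2 * k + 1 + 1 by ring, Finset.sum_range_succ, Finset.sum_range_succ, ih (by omega),
      add_mul, one_mul]
    have e1 : pairExp r h (2 * k) = k + 1 := by
      rw [pairExp, if_pos (by omega), if_pos (by omega), Nat.mul_div_cancel_left k two_pos]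
    have e2 : pairExp r h (2 * k + 1) = r - (k + 1) := by
      rw [pairExp, if_pos (by omega), if_neg (by omega), show (2 * k + 1) / 2 = k by omega]
    omega

omit [Fintype F] in
theorem prod_pairExp {ζ : F} (hζ : ζ ^ r = 1) {h : ℕ} (hh : h ≤ r) (hn : 2 * h ≤ n) :
    ∏ i : Fin n, ζ ^ pairExp r h i = 1 := by
  rw [Finset.prod_pow_eq_pow_sum, Fin.sum_univ_eq_sum_range (pairExp r h) n,
    ← Finset.sum_range_add_sum_Ico _ hn, sum_pairExp hh h le_rfl,
    Finset.sum_eq_zero fun i hi => by rw [pairExp, if_neg (not_lt.2 (Finset.mem_Ico.1 hi).1)], add_zero,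
    mul_comm, pow_mul, hζ, one_pow]

/-- Many distinct eigenvalues leave little room. -/
theorem Ord.counterexample_pairs (O : Ord r q 2 b c) (hK : Fintype.card F = q ^ 2) (cj : Conj F q)
    (hrF : (r : F) ≠ 0) (hn : 3 ≤ n) (hlt : n < r - 1 + 2 * m) (hm : 1 ≤ m) : ¬ AllFix cj n m r := by
  classical
  have hr2 := O.two_lt
  obtain ⟨ζu, hζu⟩ := exists_orderOf (F := F) hK (O.dvd_succ_iff.2 rfl)
  set ζ : F := (ζu : F) with hζ
  have hζr : ζ ^ r = 1 := by rw [hζ, ← Units.val_pow_eq_pow_val, ← hζu, pow_orderOf_eq_one, Units.val_one]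
  have hord : orderOf ζ = r := by rw [hζ, orderOf_units, hζu]
  set h := min ((r - 1) / 2) (n / 2) with hh
  let d : Fin n → F := fun i => ζ ^ pairExp r h i
  have he : ∀ i : Fin n, pairExp r h i < r := fun i => by
    unfold pairExp; split_ifs <;> omega
  have hinj : ∀ i j : Fin n, d i = d j → d i ≠ 1 → i = j := by
    intro i j hij h1
    have he' : pairExp r h i = pairExp r h j := by
      have := (isOfFinOrder_iff_pow_eq_one.2 ⟨r, hr.out.pos, hζr⟩).pow_eq_pow_iff_modEq.1 hij
      rw [hord] at this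
      exact Nat.ModEq.eq_of_lt_of_lt this (he i) (he j)
    have h1' : pairExp r h i ≠ 0 := fun e => h1 (by simp [d, e])
    refine Fin.ext ?_
    have hi' : (i : ℕ) < 2 * h := by
      by_contra hge
      exact h1' (by rw [pairExp, if_neg hge])
    have hj' : (j : ℕ) < 2 * h := by
      by_contra hge
      exact h1' (he'.trans (by rw [pairExp, if_neg hge]))
    rw [pairExp, pairExp, if_pos hi', if_pos hj'] at he'
    have hodd : r % 2 = 1 := Nat.odd_iff.1 (hr.out.odd_of_ne_two (by omega))
    split_ifs at he' <;> omega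
  obtain ⟨hA, hAr, hW⟩ := diagonal_bound hK cj hrF (O.dvd_succ_iff.2 rfl) d
    (fun i => by rw [← pow_mul, mul_comm, pow_mul, hζr, one_pow]) hinj
  intro H
  obtain ⟨W, hWd, hWT, hWi⟩ := H (diagonal d) hA (by
    rw [det_diagonal]; exact prod_pairExp hζr (by omega) (by omega)) ⟨1, by rw [hAr, one_smul]⟩ (fun y hy => by
    have h0 := congrFun (congrFun hy ⟨0, by omega⟩) ⟨0, by omega⟩
    have h1 := congrFun (congrFun hy ⟨1, by omega⟩) ⟨1, by omega⟩
    simp only [diagonal_apply_eq, Matrix.smul_apply, Matrix.one_apply_eq] at h0 h1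
    have h01 : d ⟨0, by omega⟩ = d ⟨1, by omega⟩ := h0.trans h1.symm
    have hne : d ⟨0, by omega⟩ ≠ 1 := fun e => by
      have h' := orderOf_dvd_of_pow_eq_one (x := ζ) (n := pairExp r h 0) e
      rw [hord, pairExp, if_pos (by omega), if_pos rfl] at h'
      have := Nat.le_of_dvd (by omega) h'
      omega
    have := congrArg Fin.val (hinj _ _ h01 hne)
    simp at this)
  have h1 := hW W hWi hWT
  rw [hWd] at h1
  have h2 : 2 * h + (Finset.univ.filter fun i => d i = 1).card ≤ n := by
    have hsub : (Finset.univ : Finset (Fin (2 * h))).map ⟨Fin.castLE (by omega), Fin.castLE_injective _⟩ ⊆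
        Finset.univ.filter fun i => ¬ d i = 1 := fun i hi => by
      obtain ⟨j, -, rfl⟩ := Finset.mem_map.1 hi
      refine Finset.mem_filter.2 ⟨Finset.mem_univ _, fun e => ?_⟩
      have h' := orderOf_dvd_of_pow_eq_one (x := ζ) (n := pairExp r h j) e
      rw [hord, pairExp, if_pos j.2] at h'
      split_ifs at h' <;> [(have := Nat.le_of_dvd (by omega) h'); (have := Nat.le_of_dvd (by omega) h')] <;> omega
    have := Finset.card_le_card hsub
    rw [Finset.card_map, Finset.card_univ, Fintype.card_fin] at this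
    have h3 := Finset.card_filter_add_card_filter_not (s := (Finset.univ : Finset (Fin n))) (fun i => d i = 1)
    rw [Finset.card_univ, Fintype.card_fin] at h3
    omega
  have hodd : r % 2 = 1 := Nat.odd_iff.1 (hr.out.odd_of_ne_two (by omega))
  omega

/-- A scalar power without root in `SU`. -/
theorem Ord.counterexample_scalar (O : Ord r q 2 b c) (hK : Fintype.card F = q ^ 2) (cj : Conj F q)
    (hrF : (r : F) ≠ 0) (hn : 0 < n) (hrm : ¬ r ∣ m) (hv : padicValNat r (q + 1) < padicValNat r n) :
    ¬ AllFix cj n m r := by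
  classical
  have hr0 := hr.out.ne_zero
  have hdvd : r ∣ q + 1 := O.dvd_succ_iff.2 rfl
  set a := padicValNat r (q + 1)
  obtain ⟨wu, hwu⟩ := exists_orderOf (F := F) (k := r ^ a) hK pow_padicValNat_dvd
  set z : F := (wu : F) with hz
  have hza : z ^ r ^ a = 1 := by rw [hz, ← Units.val_pow_eq_pow_val, ← hwu, pow_orderOf_eq_one, Units.val_one]
  have hzn : z * cj.σ z = 1 := by
    rw [norm_pow cj]
    obtain ⟨l, hl⟩ : r ^ a ∣ q + 1 := pow_padicValNat_dvd
    rw [hl, pow_mul, hza, one_pow]
  have ha1 : 1 ≤ a := one_le_padicValNat_of_dvd (Nat.succ_ne_zero q) hdvd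
  have hnr : ∀ y : F, y ^ r ≠ z := fun y hy => by
    have hy0 : y ≠ 0 := fun e => by rw [e, zero_pow hr0] at hy; exact Units.ne_zero wu hy.symm
    have hu : (Units.mk0 y hy0) ^ r = wu := Units.ext (by rw [Units.val_pow_eq_pow_val, Units.val_mk0, hy])
    have ho : orderOf (Units.mk0 y hy0) = r ^ (a + 1) := by
      refine orderOf_eq_prime_pow (fun e => ?_) ?_
      · obtain ⟨a', ha'⟩ : ∃ a', a = a' + 1 := ⟨a - 1, by omega⟩
        rw [ha', pow_succ', pow_mul, hu] at e
        have := Nat.le_of_dvd (pow_pos hr.out.pos _) (orderOf_dvd_of_pow_eq_one e)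
        rw [hwu, ha', pow_succ] at this
        have h1 := Nat.pow_pos (a := r) (n := a') hr.out.pos
        nlinarith [hr.out.two_le]
      · rw [pow_succ', pow_mul, hu, ← hwu, pow_orderOf_eq_one]
    have h1 : r ^ (a + 1) ∣ (q + 1) * (q - 1) := by
      rw [← CfsgLib.ClassicalForms.card_units_eq (F := F) (q := q) (by rw [Nat.card_eq_fintype_card, hK]), ← ho]
      exact orderOf_dvd_natCard _
    refine pow_succ_padicValNat_not_dvd (Nat.succ_ne_zero q) ((Nat.Coprime.pow_left _ ?_).dvd_of_dvd_mul_right h1)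
    refine hr.out.coprime_iff_not_dvd.2 fun hd => ?_
    have hq : 1 ≤ q := Nat.one_le_iff_ne_zero.2 fun e => O.not_dvd (e ▸ dvd_zero r)
    have h3 : r ∣ 2 := by
      have := Nat.dvd_sub hdvd hd
      rwa [show q + 1 - (q - 1) = 2 by omega] at this
    have := Nat.le_of_dvd two_pos h3
    have := O.two_lt
    omega
  have hrn : r ^ (a + 1) ∣ n := (pow_dvd_pow r hv).trans pow_padicValNat_dvd
  obtain ⟨l, hl⟩ := hrn
  have hk : n = r * (r ^ a * l) := by rw [hl, pow_succ']; ring
  have hf := fac_no_root (r := r) hnr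
  have hfs : facs r z = {(X : F[X]) ^ r - C z} := Finset.ext fun g => by
    rw [mem_facs hr0, Finset.mem_singleton]
    exact ⟨fun hg => hg.eq_of_dvd hf hg.dvd, fun e => e ▸ hf⟩
  obtain ⟨A, hA, hAr, -, -⟩ := exists_matrix_kernels (n := n) hK cj hrF hzn (fun _ => r ^ a * l) (fun _ _ => rfl)
    (by rw [hfs, Finset.sum_singleton, natDegree_X_pow_sub_C, ← hk])
  have E := elt_of_matrix hK cj hrF hzn hA hAr
  have hdet : A.det = 1 := by
    rw [← LinearMap.det_toLin', E.det_of_no_root hnr (hr.out.odd_of_ne_two (by have := O.two_lt; omega))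
      (by rw [Module.finrank_fin_fun, ← hk]), pow_mul, hza, one_pow]
  intro H
  obtain ⟨W, hWd, -, hWi⟩ := H A hA hdet ⟨z, hAr⟩ fun y hy => hnr y (by
    have h := hAr
    rw [hy, _root_.smul_pow, one_pow] at h
    have := congrFun (congrFun h ⟨0, hn⟩) ⟨0, hn⟩
    simpa using this)
  exact hrm (hWd ▸ E.dvd_of_no_root hnr hWi)

/-- The criterion for `i = 2`. -/
theorem Ord.main_two (O : Ord r q 2 b c) (hK : Fintype.card F = q ^ 2) (cj : Conj F q) (hrF : (r : F) ≠ 0)
    (hn : 3 ≤ n) (hm : 1 ≤ m) (hmn : 2 * m ≤ n) :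
    AllFix cj n m r ↔ r - 1 + 2 * m ≤ n ∧ (r ∣ m ∨ padicValNat r n ≤ padicValNat r (q + 1)) := by
  classical
  constructor
  · intro H
    refine ⟨by_contra fun h => O.counterexample_pairs hK cj hrF hn (by omega) hm H, ?_⟩
    by_contra h
    push Not at h
    exact O.counterexample_scalar hK cj hrF (by omega) h.1 h.2 H
  · rintro ⟨hle, hext⟩ A hA hdet ⟨z, hz⟩ hns
    have hb1 : b = 1 := by rw [O.hb, if_pos (by decide)]
    subst hb1
    have hzn := norm_of_pow hK cj (by omega) hA hz
    have hz0 : z ≠ 0 := left_ne_zero_of_mul_eq_one hzn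
    have hdvd : r ∣ q + 1 := O.dvd_succ_iff.2 rfl
    have hF : Nat.card Fˣ = (q + 1) * (q - 1) :=
      CfsgLib.ClassicalForms.card_units_eq (by rw [Nat.card_eq_fintype_card, hK])
    have hq : 1 ≤ q := Nat.one_le_iff_ne_zero.2 fun e => O.not_dvd (e ▸ dvd_zero r)
    have hco : r.Coprime (q - 1) := hr.out.coprime_iff_not_dvd.2 fun hd => by
      have := Nat.dvd_sub hdvd hd
      rw [show q + 1 - (q - 1) = 2 by omega] at this
      have := Nat.le_of_dvd two_pos this
      have := O.two_lt
      omega
    by_cases hroot : ∃ a : F, a ^ r = z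
    · obtain ⟨a, ha⟩ := hroot
      have hna : a ^ (q + 1) = 1 := by
        rw [← norm_pow cj]
        have h1 : (a * cj.σ a) ^ r = 1 := by rw [mul_pow, ← map_pow, ha, hzn]
        have h0 : a * cj.σ a ≠ 0 := fun e => by rw [e, zero_pow hr.out.ne_zero] at h1; exact zero_ne_one h1
        have h2 : (a * cj.σ a) ^ (q - 1) = 1 := by
          refine mul_left_cancel₀ h0 ?_
          rw [← pow_succ', Nat.sub_add_cancel hq, ← cj.apply, map_mul, cj.invol, mul_one, mul_comm]
        exact pow_eq_one_of_coprime' hco h1 h2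
      obtain ⟨h1, h2, h3⟩ := unscale hK hA hz ha hna
      rw [h3]
      refine (O.fixes_self hK cj hrF (by norm_num) ?_ h1 h2 fun h => hns a (by rw [h3, h])).smul a
      exact (herm_room_self one_pos (by have := O.two_lt; rw [Nat.div_one]; omega) hmn
        (by rw [Nat.mod_one]; omega)).2 ⟨hm, by simp [Nat.mod_one], by simpa [Nat.div_one] using hle⟩
    · push Not at hroot
      have E := elt_of_matrix hK cj hrF hzn hA hz
      have hrn : r ∣ n := by
        have := E.dvd_of_no_root hroot (SubFix.inv_top _)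
        rwa [finrank_top, Module.finrank_fin_fun] at this
      obtain ⟨k, hk⟩ := id hrn
      rcases hext with hm' | hv
      · obtain ⟨j, hj⟩ := hm'
        obtain ⟨W, -, hWi, hWT, hWd⟩ := E.exists_ti_self (fac_no_root hroot)
          (star_no_root cj.invol hzn hroot) j ⊤ (SubFix.inv_top _) E.herm.nd_top
          (by rw [E.K_no_root]) (by
            rw [natDegree_X_pow_sub_C, finrank_top, Module.finrank_fin_fun, mul_comm j, ← hj]; exact hmn)
        rw [natDegree_X_pow_sub_C, mul_comm, ← hj] at hWd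
        exact ⟨W, hWd, hWT, hWi⟩
      · exfalso
        have hdet' : z ^ k = 1 := by
          rw [← E.det_of_no_root hroot (hr.out.odd_of_ne_two (by have := O.two_lt; omega))
            (by rw [Module.finrank_fin_fun, hk]), LinearMap.det_toLin', hdet]
        have hq1 : z ^ (q + 1) = 1 := by rw [← norm_pow cj, hzn]
        have hg : z ^ k.gcd (q + 1) = 1 := pow_gcd_eq_one.2 ⟨hdet', hq1⟩
        set g := k.gcd (q + 1) with hgdef
        have hk0 : k ≠ 0 := fun e => by rw [e, mul_zero] at hk; omega
        have hg0 : g ≠ 0 := Nat.gcd_ne_zero_left hk0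
        have hgr : g * r ∣ q + 1 := by
          rw [← Nat.factorization_le_iff_dvd (Nat.mul_ne_zero hg0 hr.out.ne_zero) (show q + 1 ≠ 0 by omega)]
          intro ℓ
          rw [Nat.factorization_mul hg0 hr.out.ne_zero, Finsupp.add_apply]
          have h1 := (Nat.factorization_le_iff_dvd hg0 (show q + 1 ≠ 0 by omega)).2 (Nat.gcd_dvd_right k (q + 1)) ℓ
          by_cases hℓ : ℓ = r
          · subst hℓ
            have h2 := (Nat.factorization_le_iff_dvd hg0 hk0).2 (Nat.gcd_dvd_left k (q + 1)) ℓ
            have h3 := Nat.factorization_def n hr.out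
            have h4 := Nat.factorization_def (q + 1) hr.out
            have h5 : n.factorization ℓ = 1 + k.factorization ℓ := by
              rw [hk, Nat.factorization_mul hr.out.ne_zero hk0, Finsupp.add_apply, hr.out.factorization_self]
            rw [hr.out.factorization_self]
            omega
          · rw [hr.out.factorization, Finsupp.single_eq_of_ne hℓ, add_zero]
            exact h1
        obtain ⟨y, hy⟩ := exists_root_of_pow hK hz0 (hgr.trans (hF ▸ dvd_mul_right _ _)) hg
        exact hroot y hy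

end CfsgLib.Derangements.Herm
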