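import Mathlib
import Cfsg.Agent.Lib.Derangements.HermMain
import Cfsg.Agent.Lib.Derangements.HermScalar

/-!
The criterion for involutions modulo scalars in odd characteristic.
-/

set_option autoImplicit false
set_option linter.unusedSectionVars false

namespace CfsgLib.Derangements.Herm

open Module Polynomial Matrix CfsgLib.Generators
open CfsgLib.ClassicalForms (Conj)

universe u v

theorem det_split {F : Type u} [Field F] {V : Type v} [AddCommGroup V] [Module F V] [FiniteDimensional F V]
    {x : Module.End F V} {A C : Submodule F V} (hA : ∀ a ∈ A, x a ∈ A) (hC : ∀ c ∈ C, x c ∈ C) (hAC : IsCompl A C) :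
    LinearMap.det x = LinearMap.det (x.restrict hA) * LinearMap.det (x.restrict hC) := by
  rw [LinearMap.det_eq_sign_charpoly_coeff x, LinearMap.det_eq_sign_charpoly_coeff (x.restrict hA),
    LinearMap.det_eq_sign_charpoly_coeff (x.restrict hC), charpoly_split hA hC hAC, mul_coeff_zero,
    ← Submodule.finrank_add_eq_of_isCompl hAC, pow_add]
  ring

theorem det_restrict_smul {F : Type u} [Field F] {V : Type v} [AddCommGroup V] [Module F V] [FiniteDimensional F V]
    {x : Module.End F V} {A : Submodule F V} (hA : ∀ a ∈ A, x a ∈ A) (s : F) (h : ∀ a ∈ A, x a = s • a) :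
    LinearMap.det (x.restrict hA) = s ^ finrank F A := by
  have e : x.restrict hA = s • LinearMap.id := LinearMap.ext fun a => Subtype.ext (h a a.2)
  rw [e, LinearMap.det_smul, LinearMap.det_id, mul_one]

variable {F : Type u} [Field F] [Fintype F] {q n m : ℕ}

theorem two_ne_of_odd (hK : Fintype.card F = q ^ 2) (hq : ¬ 2 ∣ q) : (2 : F) ≠ 0 := by
  intro h
  refine hq ?_
  have hch : ringChar F = 2 := by
    refine CharP.ringChar_of_prime_eq_zero Nat.prime_two ?_
    exact_mod_cast h
  have := FiniteField.even_card_of_char_two hch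
  rw [hK] at this
  exact Nat.prime_two.dvd_of_dvd_pow (Nat.dvd_of_mod_eq_zero this)

/-- Involutions whose scalar is minus a norm square root fix many subspaces. -/
theorem fixes_of_neg_norm (hK : Fintype.card F = q ^ 2) (cj : Conj F q) (h2 : (2 : F) ≠ 0)
    {A : Matrix (Fin n) (Fin n) F} (hA : qAdjoint q A * A = 1) {z a : F} (hz : A ^ 2 = z • 1) (ha : a ^ 2 = z)
    (hzn : z * cj.σ z = 1) (hna : a * cj.σ a = -1) (hmn : 2 * m ≤ n) : Fixes cj m A := by
  classical
  have : Fact (Nat.Prime 2) := ⟨Nat.prime_two⟩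
  have hrF : ((2 : ℕ) : F) ≠ 0 := by exact_mod_cast h2
  have E := elt_of_matrix hK cj hrF hzn hA hz
  have ha0 : a ≠ 0 := fun h => by simp [h] at hna
  have hfac : ∀ s : F, s ^ 2 = z → Fac 2 z (X - C s) := fun s hs =>
    ⟨monic_X_sub_C s, irreducible_X_sub_C s, dvd_iff_isRoot.2 (by simp [IsRoot, hs])⟩
  have hf₁ := hfac a ha
  have hf₂ := hfac (-a) (by rw [neg_sq, ha])
  have hsa : cj.σ a ≠ 0 := (map_ne_zero cj.σ).2 ha0
  have hstar : star cj.σ (X - C a) = X - C (-a) := by
    have h := rev_X_pow_sub_C (r := 1) one_ne_zero hsa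
    rw [pow_one] at h
    rw [star, Polynomial.map_sub, map_X, map_C, h, inv_eq_of_mul_eq_one_left (show -a * cj.σ a = 1 by
      rw [neg_mul, hna, neg_neg])]
  have hne : star cj.σ (X - C a) ≠ X - C a := fun h => by
    rw [hstar] at h
    have := congrArg (fun p : F[X] => p.coeff 0) h
    simp only [coeff_sub, coeff_X_zero, coeff_C_zero, zero_sub, neg_inj] at this
    exact ha0 (mul_left_cancel₀ h2 (by linear_combination -this))
  have hall : (⊤ : Submodule F (Fin n → F)) ≤ K (Matrix.toLin' A) (X - C a) ⊔ K (Matrix.toLin' A) (X - C (-a)) :=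
    E.le_of_forall (SubFix.inv_top _) fun g hg => by
      have hd : g ∣ (X - C a) * (X - C (-a)) := by
        convert hg.dvd using 1
        rw [← ha, map_neg, map_pow]; ring
      rcases hg.irr.prime.dvd_or_dvd hd with h | h
      · rw [hg.eq_of_dvd hf₁ h]; exact inf_le_right.trans le_sup_left
      · rw [hg.eq_of_dvd hf₂ h]; exact inf_le_right.trans le_sup_right
  have hd₁ := (E.ti_of_ne_star hf₁ hne le_rfl).two_mul_le E.herm E.herm.nd_top le_top
  have hne2 : star cj.σ (X - C (-a)) ≠ X - C (-a) := by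
    rw [← hstar, star_star hf₁ cj.invol two_ne_zero E.z0]; exact hne.symm
  have hd₂ := (E.ti_of_ne_star hf₂ hne2 le_rfl).two_mul_le E.herm E.herm.nd_top le_top
  have hsum := (Submodule.finrank_mono hall).trans (Submodule.finrank_add_le_finrank_add_finrank _ _)
  rw [finrank_top, Module.finrank_fin_fun] at hd₁ hd₂ hsum
  obtain ⟨W, -, hWK, hWi, hWd⟩ := (E.uniform hf₁).chain m ⊥ bot_le (SubFix.inv_bot _) (by
    rw [finrank_bot, zero_add, natDegree_X_sub_C, mul_one]; omega)
  rw [finrank_bot, zero_add, natDegree_X_sub_C, mul_one] at hWd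
  exact ⟨W, hWd, E.ti_of_ne_star hf₁ hne hWK, hWi⟩

theorem card_cast_two (hK : Fintype.card F = q ^ 2) (hq : ¬ 2 ∣ q) :
    orderOf ((Nat.card F : ℕ) : ZMod 2) = 1 := by
  have : Fact (Nat.Prime 2) := ⟨Nat.prime_two⟩
  rw [card_cast_eq_one hK (by omega), orderOf_one]

/-- Involutions with the scalar a norm-one square. -/
theorem fixes_of_norm (hK : Fintype.card F = q ^ 2) (cj : Conj F q) (hq : ¬ 2 ∣ q)
    {y : Matrix (Fin n) (Fin n) F} (hy : qAdjoint q y * y = 1) (hyr : y ^ 2 = 1) (hy1 : y ≠ 1) (hmn : 2 * m ≤ n)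
    (hpar : 2 * m = n → y.det = 1) : Fixes cj m y := by
  classical
  have : Fact (Nat.Prime 2) := ⟨Nat.prime_two⟩
  have h2 := two_ne_of_odd hK hq
  have hrF : ((2 : ℕ) : F) ≠ 0 := by exact_mod_cast h2
  have E := elt_of_matrix hK cj hrF (show (1 : F) * cj.σ 1 = 1 by rw [map_one, one_mul]) hy (by rw [hyr, one_smul])
  have hb := card_cast_two hK hq
  have hself := star_linear (r := 2) hK cj (by omega)
  have hcard : (rest (F := F) 2).card = 1 := by
    have := card_rest_mul (F := F) (r := 2) hrF
    rwa [hb, mul_one] at this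
  obtain ⟨f₀, hf₀⟩ := Finset.card_eq_one.1 hcard
  have hmem : f₀ ∈ rest (F := F) 2 := by rw [hf₀]; exact Finset.mem_singleton_self f₀
  obtain ⟨hne, hf⟩ := mem_rest.1 hmem
  have hdeg : f₀.natDegree = 1 := (hf.natDegree_eq hne).trans hb
  set s := finrank F ↥(K (Matrix.toLin' y) f₀) with hs
  have hn := E.finrank_top_split
  rw [Module.finrank_fin_fun, hf₀, Finset.sum_singleton, ← hs] at hn
  have hspos := E.sum_pos fun h => hy1 (Matrix.toLin'.injective (by rw [h, Matrix.toLin'_one]; rfl))
  rw [hf₀, Finset.sum_singleton, ← hs] at hspos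
  set d₁ := finrank F ↥(K (Matrix.toLin' y) (X - C 1)) with hd₁
  have hj : ∃ j ≤ s / 2, j ≤ m ∧ 2 * (m - j) ≤ d₁ := by
    rcases Nat.lt_or_ge (2 * m) n with hlt | hge
    · exact ⟨min (s / 2) m, min_le_left _ _, min_le_right _ _, by omega⟩
    · have hdet := hpar (by omega)
      -- the moved part has even dimension
      have heq : f₀ = X - C (-1) := by
        have h1 : f₀ ∣ (X - C (1 : F)) * (X - C (-1)) := by
          convert hf.dvd using 1
          rw [map_neg, map_one]; ring
        refine hf.eq_of_dvd ⟨monic_X_sub_C _, irreducible_X_sub_C _, dvd_iff_isRoot.2 (by simp [IsRoot])⟩ ?_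
        exact (hf.irr.prime.dvd_or_dvd h1).resolve_left fun h => hne (hf.eq_of_dvd fac_X_sub_one h)
      have hev : ∀ v ∈ K (Matrix.toLin' y) f₀, Matrix.toLin' y v = (-1 : F) • v := fun v hv => by
        rw [heq, mem_K, map_sub, aeval_X, aeval_C, LinearMap.sub_apply, sub_eq_zero,
          Module.algebraMap_end_apply] at hv
        exact hv
      have hfix : ∀ v ∈ K (Matrix.toLin' y) (X - C 1), Matrix.toLin' y v = (1 : F) • v := fun v hv => by
        rw [one_smul]; exact mem_K_one.1 hv
      have hdis : Disjoint (K (Matrix.toLin' y) (X - C 1)) (K (Matrix.toLin' y) f₀) :=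
        Polynomial.disjoint_ker_aeval_of_isCoprime _ (fac_X_sub_one.coprime hf hne.symm)
      have hcompl : IsCompl (K (Matrix.toLin' y) (X - C 1)) (K (Matrix.toLin' y) f₀) := by
        refine ⟨hdis, codisjoint_iff.2 (Submodule.eq_top_of_finrank_eq ?_)⟩
        have h := Submodule.finrank_sup_add_finrank_inf_eq (K (Matrix.toLin' y) (X - C 1)) (K (Matrix.toLin' y) f₀)
        rw [hdis.eq_bot, finrank_bot, add_zero] at h
        rw [h, Module.finrank_fin_fun]
        omega
      have hK1i : ∀ v ∈ K (Matrix.toLin' y) (X - C 1), Matrix.toLin' y v ∈ K (Matrix.toLin' y) (X - C 1) :=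
        inv_K _ _
      have hK0i : ∀ v ∈ K (Matrix.toLin' y) f₀, Matrix.toLin' y v ∈ K (Matrix.toLin' y) f₀ := inv_K _ _
      have h := det_split hK1i hK0i hcompl
      rw [det_restrict_smul hK1i 1 hfix, det_restrict_smul hK0i (-1) hev, one_pow, one_mul, LinearMap.det_toLin', hdet,
        ← hs] at h
      rcases Nat.even_or_odd s with hev' | hodd
      · obtain ⟨l, hl⟩ := hev'
        exact ⟨min l m, by omega, min_le_right _ _, by omega⟩
      · rw [hodd.neg_one_pow] at h
        exact absurd (by linear_combination h : (2 : F) = 0) h2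
  obtain ⟨j, hjs, hjm, hjd⟩ := hj
  obtain ⟨W, hWi, hWT, hWd⟩ := E.glue (b := 1) (a := m - j) (j := j) (fun f => finrank F ↥(K (Matrix.toLin' y) f) / 2) (rest 2)
    subset_rfl (fun f hf' g hg hfg => by rw [hself f hf']; exact hfg.symm) (fun f hf' k hk => by
      rw [hf₀, Finset.mem_singleton] at hf'
      subst hf'
      obtain ⟨W, hW⟩ := E.exists_ti_self hf (hself _ hmem) k _ (inv_K _ _) (E.nd_K hf (hself _ hmem)) le_rfl
        (by rw [hdeg, mul_one]; omega)
      rw [hdeg] at hW
      exact ⟨W, hW⟩) hjd (by rw [hf₀, Finset.sum_singleton]; exact hjs)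
  exact ⟨W, by rw [hWd]; omega, hWT, hWi⟩

/-- The criterion for `r = 2`. -/
theorem main_involution (hK : Fintype.card F = q ^ 2) (cj : Conj F q) (hq : ¬ 2 ∣ q) (hn : 3 ≤ n)
    (hmn : 2 * m ≤ n) :
    AllFix cj n m 2 ↔ (2 * m < n ∨ padicValNat 2 (q + 1) ≤ padicValNat 2 n) := by
  classical
  have : Fact (Nat.Prime 2) := ⟨Nat.prime_two⟩
  have h2 := two_ne_of_odd hK hq
  have hrF : ((2 : ℕ) : F) ≠ 0 := by exact_mod_cast h2
  constructor
  · intro H
    by_contra hc
    push Not at hc
    obtain ⟨hge, hv⟩ := hc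
    set e := padicValNat 2 n
    have hdv : 2 ^ (e + 1) ∣ q + 1 := (pow_dvd_pow 2 hv).trans pow_padicValNat_dvd
    obtain ⟨au, hau⟩ := exists_orderOf (F := F) hK hdv
    set a : F := (au : F) with ha
    have hua : au ^ 2 ^ e = -1 := by
      have h1 : (au ^ 2 ^ e) * (au ^ 2 ^ e) = 1 := by
        rw [← pow_add, show 2 ^ e + 2 ^ e = orderOf au by rw [hau, pow_succ]; ring, pow_orderOf_eq_one]
      have h1' : ((au ^ 2 ^ e : Fˣ) : F) * (au ^ 2 ^ e : Fˣ) = 1 := by rw [← Units.val_mul, h1, Units.val_one]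
      rcases mul_self_eq_one_iff.1 h1' with h | h
      · exfalso
        have := Nat.le_of_dvd (Nat.two_pow_pos e) (orderOf_dvd_of_pow_eq_one (Units.val_eq_one.1 h))
        rw [hau, pow_succ] at this
        have := Nat.two_pow_pos e
        omega
      · exact Units.ext (by rw [h]; rfl)
    obtain ⟨n', hn'⟩ : 2 ^ e ∣ n := pow_padicValNat_dvd
    have hn'odd : Odd n' := by
      refine Nat.not_even_iff_odd.1 fun ⟨l, hl⟩ => pow_succ_padicValNat_not_dvd (p := 2) (show n ≠ 0 by omega)
        ⟨l, by show n = 2 ^ (e + 1) * l; rw [hn', hl, pow_succ]; ring⟩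
    have han : a ^ n = -1 := by
      rw [ha, ← Units.val_pow_eq_pow_val, hn', pow_mul, hua, hn'odd.neg_one_pow]; rfl
    have haq : a ^ (q + 1) = 1 := by
      obtain ⟨l, hl⟩ := hdv
      rw [ha, ← Units.val_pow_eq_pow_val, hl, pow_mul, ← hau, pow_orderOf_eq_one, one_pow, Units.val_one]
    let d : Fin n → F := fun i => if (i : ℕ) = 0 then -1 else 1
    have hm1 : (-1 : F) ≠ 1 := fun h => h2 (by linear_combination -h)
    obtain ⟨hdA, hdr, hW⟩ := diagonal_bound hK cj hrF (by omega) d (fun i => by simp only [d]; split_ifs <;> simp)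
      (fun i j hij h1 => by
        have hi : (i : ℕ) = 0 := by
          by_contra h
          exact h1 (if_neg h)
        have hj : (j : ℕ) = 0 := by
          by_contra h
          exact h1 (hij.trans (if_neg h))
        exact Fin.ext (by omega))
    have hdet : (a • diagonal d).det = 1 := by
      rw [det_smul, Fintype.card_fin, han, det_diagonal,
        Finset.prod_eq_single (⟨0, by omega⟩ : Fin n) (fun i _ hi => if_neg fun h => hi (Fin.ext h))
          (fun h => absurd (Finset.mem_univ _) h)]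
      simp [d]
    obtain ⟨W, hWd, hWT, hWi⟩ := H (a • diagonal d)
      (by rw [CfsgLib.CharDegrees.qAdjoint_smul, smul_mul_assoc, mul_smul_comm, hdA, smul_smul, ← pow_succ, haq,
        one_smul]) hdet ⟨a ^ 2, by rw [_root_.smul_pow, hdr]⟩ (fun y hy => by
        have h0 := congrFun (congrFun hy ⟨0, by omega⟩) ⟨0, by omega⟩
        have h1 := congrFun (congrFun hy ⟨1, by omega⟩) ⟨1, by omega⟩
        simp [d] at h0 h1
        exact hm1 (mul_left_cancel₀ (Units.ne_zero au) (by rw [← ha, mul_neg, mul_one, h0, h1])))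
    have hinv : SubFix.Inv (Matrix.toLin' (diagonal d)) W := fun v hv => by
      have h : (a • Matrix.toLin' (diagonal d)) v ∈ W := by rw [← map_smul]; exact hWi hv
      exact (W.smul_mem_iff (Units.ne_zero au)).1 h
    have hb := hW W hinv hWT
    have hcard : (Finset.univ.filter fun i => d i = 1).card + 1 ≤ n := by
      have := Finset.card_lt_card (s := Finset.univ.filter fun i => d i = 1) (t := (Finset.univ : Finset (Fin n)))
        (Finset.filter_ssubset.2 ⟨⟨0, by omega⟩, Finset.mem_univ _, by simp [d, hm1]⟩)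
      rw [Finset.card_univ, Fintype.card_fin] at this
      omega
    omega
  · intro hor A hA hdet ⟨z, hz⟩ hns
    have hzn := norm_of_pow hK cj (by omega) hA hz
    have hz0 : z ≠ 0 := left_ne_zero_of_mul_eq_one hzn
    have hzq : z ^ (q + 1) = 1 := by rw [← norm_pow cj, hzn]
    obtain ⟨l, hl⟩ : 2 ∣ q - 1 := by omega
    obtain ⟨a, ha⟩ := exists_root_of_pow (r := 2) hK hz0 (k := (q + 1) * l)
      (by rw [CfsgLib.ClassicalForms.card_units_eq (F := F) (q := q) (by rw [Nat.card_eq_fintype_card, hK]), hl,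
        mul_assoc, mul_comm l 2]) (by rw [pow_mul, hzq, one_pow])
    have hu : a * cj.σ a = 1 ∨ a * cj.σ a = -1 := by
      refine mul_self_eq_one_iff.1 ?_
      rw [← pow_two, mul_pow, ← map_pow, ha, hzn]
    rcases hu with hu | hu
    · have hna : a ^ (q + 1) = 1 := by rw [← norm_pow cj, hu]
      obtain ⟨h1, h2', h3⟩ := unscale hK hA hz ha hna
      rw [h3]
      refine (fixes_of_norm hK cj hq h1 h2' (fun h => hns a (by rw [h3, h])) hmn fun heq => ?_).smul a
      have hd := congrArg Matrix.det h3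
      rw [hdet, Matrix.det_smul (a⁻¹ • A) a, Fintype.card_fin] at hd
      have hd2 : (a⁻¹ • A).det * (a⁻¹ • A).det = 1 := by rw [← det_mul, ← pow_two, h2', det_one]
      rcases mul_self_eq_one_iff.1 hd2 with h | h
      · exact h
      · exfalso
        rw [h, mul_neg, mul_one, eq_comm, neg_eq_iff_eq_neg] at hd
        have hv := hor.resolve_left (by omega)
        obtain ⟨u, hu'⟩ : 2 ^ padicValNat 2 (q + 1) ∣ q + 1 := pow_padicValNat_dvd
        obtain ⟨w, hw⟩ : 2 ^ padicValNat 2 (q + 1) ∣ n := (pow_dvd_pow 2 hv).trans pow_padicValNat_dvd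
        have huodd : Odd u := by
          refine Nat.not_even_iff_odd.1 fun ⟨l', hl'⟩ => pow_succ_padicValNat_not_dvd (p := 2)
            (show q + 1 ≠ 0 by omega) ⟨l', by rw [pow_succ, mul_assoc, two_mul, ← hl']; exact hu'⟩
        generalize padicValNat 2 (q + 1) = e at hu' hw
        have h5 : a ^ (n * u) = 1 := by
          rw [show n * u = (q + 1) * w by rw [hw, hu']; ring, pow_mul, hna, one_pow]
        rw [pow_mul, hd, huodd.neg_one_pow] at h5
        exact h2 (by linear_combination -h5)
    · exact fixes_of_neg_norm hK cj h2 hA hz ha hzn hu hmn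

end CfsgLib.Derangements.Herm
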