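import Mathlib
import Cfsg.Agent.Lib.ClassicalForms.Ortho.Values
import Cfsg.Agent.Lib.Classes.QuadSpace
import Cfsg.Agent.Lib.Classes.QuadDisc

/-!
The type of a quadratic form of even dimension over a finite field, read off from its level sets: the number of
zeros minus the number of vectors of any given non-zero value is `± q ^ m`, and this is multiplicative in
orthogonal sums.
-/

set_option autoImplicit false
set_option linter.unusedSectionVars false

namespace CfsgLib.Derangements.OrthType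

open QuadraticMap CfsgLib.ClassicalForms

universe u v w

variable {F : Type u} [Field F] [Finite F]

/-- The number of vectors of value `c`. -/
noncomputable def nval {V : Type v} [AddCommGroup V] [Module F V] (Q : QuadraticForm F V) (c : F) : ℕ :=
  Nat.card {v : V // Q v = c}

/-- All level sets of non-zero value have the same size, `D` less than that of the zeros. -/
def HasDisc {V : Type v} [AddCommGroup V] [Module F V] (Q : QuadraticForm F V) (D : ℤ) : Prop :=
  ∀ a : F, a ≠ 0 → (nval Q 0 : ℤ) - nval Q a = D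

variable {V : Type v} [AddCommGroup V] [Module F V] {W : Type w} [AddCommGroup W] [Module F W]

theorem HasDisc.congr {Q : QuadraticForm F V} {Q' : QuadraticForm F W} {D : ℤ} (h : HasDisc Q D)
    (e : V ≃ₗ[F] W) (he : ∀ x, Q' (e x) = Q x) : HasDisc Q' D := by
  intro a ha
  have : ∀ c, nval Q c = nval Q' c := fun c =>
    Nat.card_congr (Equiv.subtypeEquiv e.toEquiv fun x => by simp [he])
  rw [← this, ← this]
  exact h a ha

theorem HasDisc.unique {Q : QuadraticForm F V} {D D' : ℤ} (h : HasDisc Q D) (h' : HasDisc Q D') : D = D' :=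
  (h 1 one_ne_zero).symm.trans (h' 1 one_ne_zero)

/-- Multiplicativity in orthogonal sums. -/
theorem HasDisc.prod [Finite V] [Finite W] {Q : QuadraticForm F V} {Q' : QuadraticForm F W} {D D' : ℤ}
    (h : HasDisc Q D) (h' : HasDisc Q' D') : HasDisc (Q.prod Q') (D * D') := by
  classical
  haveI := Fintype.ofFinite F
  have key : ∀ c, nval (Q.prod Q') c = ∑ t, nval Q t * nval Q' (c - t) := fun c => by
    rw [nval]
    let e : {x : V × W // Q.prod Q' x = c} ≃ Σ t : F, {x : V // Q x = t} × {y : W // Q' y = c - t} :=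
      { toFun := fun x => ⟨Q x.1.1, ⟨x.1.1, rfl⟩, ⟨x.1.2, eq_sub_of_add_eq' (by simpa using x.2)⟩⟩
        invFun := fun s => ⟨(s.2.1.1, s.2.2.1), by simp [s.2.1.2, s.2.2.2]⟩
        left_inv := fun x => rfl
        right_inv := by
          rintro ⟨t, ⟨x, rfl⟩, y⟩
          rfl }
    rw [Nat.card_congr e, Nat.card_sigma]
    simp only [Nat.card_prod]
    rfl
  intro a ha
  rw [key, key, Nat.cast_sum, Nat.cast_sum, ← Finset.sum_sub_distrib,
    ← Finset.add_sum_erase _ _ (Finset.mem_univ (0 : F)),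
    Finset.sum_eq_single a]
  · simp only [zero_sub, sub_zero, sub_self, neg_zero, Nat.cast_mul]
    have e1 := h' a ha
    have e2 := h a ha
    have e3 := h' (-a) (neg_ne_zero.2 ha)
    linear_combination (nval Q 0 : ℤ) * e1 - (nval Q a : ℤ) * e3 + D' * e2
  · intro t ht hta
    have ht0 : t ≠ 0 := Finset.ne_of_mem_erase ht
    have e1 := h' (-t) (neg_ne_zero.2 ht0)
    have e2 := h' (a - t) (sub_ne_zero.2 (Ne.symm hta))
    simp only [zero_sub, Nat.cast_mul]
    linear_combination (nval Q t : ℤ) * e2 - (nval Q t : ℤ) * e1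
  · intro h0
    exact absurd (Finset.mem_erase.2 ⟨ha, Finset.mem_univ a⟩) h0

/-- The hyperbolic form. -/
theorem hasDisc_qPlus (m : ℕ) : HasDisc (qPlus m F) ((Nat.card F : ℤ) ^ m) := by
  intro a ha
  have h := card_values_qH (F := F) (0 : QuadraticForm F (Fin 0 → F)) a m
  have h' := card_values_qH (F := F) (0 : QuadraticForm F (Fin 0 → F)) (0 : F) m
  rw [← card_values_congr (plusEquiv m) (qH_plusEquiv m)] at h h'
  have h0 : Nat.card {v : Fin 0 → F // (0 : QuadraticForm F (Fin 0 → F)) v = a} = 0 := by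
    rw [Nat.card_eq_zero]
    exact Or.inl ⟨fun v => ha (by simpa using v.2.symm)⟩
  have h1 : Nat.card {v : Fin 0 → F // (0 : QuadraticForm F (Fin 0 → F)) v = 0} = 1 :=
    Nat.card_eq_one_iff_unique.2 ⟨⟨fun _ _ => Subtype.ext (Subsingleton.elim _ _)⟩, ⟨⟨0, rfl⟩⟩⟩
  rw [h0] at h
  rw [h1] at h'
  apply mul_right_cancel₀ (show (Nat.card F : ℤ) ≠ 0 by exact_mod_cast Nat.card_pos.ne')
  rw [sub_mul]
  show (Nat.card {v // qPlus m F v = 0} : ℤ) * _ - (Nat.card {v // qPlus m F v = a} : ℤ) * _ = _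
  rw [h, h']
  push_cast
  ring

/-- An anisotropic binary form takes every non-zero value `q + 1` times. -/
theorem card_binForm_value {a b : F} (h : Aniso a b) {c : F} (hc : c ≠ 0) :
    nval (binForm a b) c = Nat.card F + 1 := by
  classical
  haveI := Fintype.ofFinite F
  have hfib : ∀ c : F, c ≠ 0 → nval (binForm a b) c = 0 ∨ nval (binForm a b) c = Nat.card F + 1 := by
    intro c hc
    rcases isEmpty_or_nonempty {v : Fin 2 → F // binForm a b v = c} with he | ⟨⟨z, hz⟩⟩
    · exact Or.inl (Nat.card_eq_zero.2 (Or.inl he))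
    · right
      rw [← card_binForm_eq_one h]
      let L : (Fin 2 → F) →ₗ[F] (Fin 2 → F) :=
        { toFun := fun v => ![z 0 * v 0 - b * (z 1 * v 1), z 0 * v 1 + z 1 * v 0 + a * (z 1 * v 1)]
          map_add' := fun u v => funext fun i => by fin_cases i <;> simp <;> ring
          map_smul' := fun t v => funext fun i => by fin_cases i <;> simp <;> ring }
      have hL : ∀ v, binForm a b (L v) = c * binForm a b v := fun v => by
        rw [← hz]
        simp only [binForm_apply, L, LinearMap.coe_mk, AddHom.coe_mk, Matrix.cons_val_zero, Matrix.cons_val_one]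
        ring
      have hinj : Function.Injective L := (injective_iff_map_eq_zero L).2 fun v hv => h.eq_zero (by
        have := hL v
        rw [hv, QuadraticMap.map_zero] at this
        exact (mul_eq_zero.1 this.symm).resolve_left hc)
      refine (Nat.card_congr (Equiv.subtypeEquiv
        (Equiv.ofBijective L ⟨hinj, LinearMap.injective_iff_surjective.1 hinj⟩) fun v => ?_)).symm
      show _ ↔ binForm a b (L v) = c
      rw [hL]
      exact ⟨fun h1 => by rw [h1, mul_one], fun h1 => mul_left_cancel₀ hc (h1.trans (mul_one c).symm)⟩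
  have htot : ∑ t : F, nval (binForm a b) t = Nat.card F ^ 2 := by
    simp only [nval]
    rw [← Nat.card_sigma, Nat.card_congr (Equiv.sigmaFiberEquiv (fun v : Fin 2 → F => binForm a b v)), Nat.card_fun,
      Nat.card_fin]
  rw [← Finset.add_sum_erase _ _ (Finset.mem_univ (0 : F))] at htot
  have h0 : nval (binForm a b) 0 = 1 :=
    Nat.card_eq_one_iff_unique.2
      ⟨⟨fun x y => Subtype.ext ((h.eq_zero x.2).trans (h.eq_zero y.2).symm)⟩, ⟨⟨0, QuadraticMap.map_zero _⟩⟩⟩
  rw [h0] at htot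
  refine (hfib c hc).resolve_left fun hzero => ?_
  have hle : ∑ t ∈ Finset.univ.erase (0 : F), nval (binForm a b) t ≤ (Nat.card F - 2) * (Nat.card F + 1) := by
    rw [← Finset.add_sum_erase _ _ (show c ∈ Finset.univ.erase (0 : F) by simp [hc]), hzero, zero_add]
    refine (Finset.sum_le_card_nsmul _ _ (Nat.card F + 1) fun t ht => ?_).trans ?_
    · have ht0 : t ≠ 0 := Finset.ne_of_mem_erase (Finset.mem_of_mem_erase ht)
      rcases hfib t ht0 with e | e <;> omega
    · rw [Finset.card_erase_of_mem (by simp [hc]), Finset.card_erase_of_mem (Finset.mem_univ _), Finset.card_univ,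
        ← Nat.card_eq_fintype_card, smul_eq_mul, Nat.sub_sub]
  have hq : 2 ≤ Nat.card F := Finite.one_lt_card
  obtain ⟨k, hk⟩ : ∃ k, Nat.card F = k + 2 := ⟨_, (Nat.sub_add_cancel hq).symm⟩
  rw [hk] at htot hle
  simp only [Nat.add_sub_cancel] at hle
  nlinarith

/-- The elliptic form. -/
theorem hasDisc_qMinus {a b : F} (hab : Aniso a b) (m : ℕ) :
    HasDisc (qMinus m F a b) (-(Nat.card F : ℤ) ^ (m + 1)) := by
  intro c hc
  have h := card_values_qH (F := F) (binForm a b) c m
  have h' := card_values_qH (F := F) (binForm a b) (0 : F) m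
  rw [← card_values_congr (minusEquiv m) (qH_minusEquiv m a b)] at h h'
  have h0 : Nat.card {v : Fin 2 → F // binForm a b v = 0} = 1 :=
    Nat.card_eq_one_iff_unique.2
      ⟨⟨fun x y => Subtype.ext ((hab.eq_zero x.2).trans (hab.eq_zero y.2).symm)⟩, ⟨⟨0, QuadraticMap.map_zero _⟩⟩⟩
  rw [h0] at h'
  rw [show Nat.card {v : Fin 2 → F // binForm a b v = c} = Nat.card F + 1 from card_binForm_value hab hc] at h
  apply mul_right_cancel₀ (show (Nat.card F : ℤ) ≠ 0 by exact_mod_cast Nat.card_pos.ne')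
  rw [sub_mul]
  show (Nat.card {v // qMinus m F a b v = 0} : ℤ) * _ - (Nat.card {v // qMinus m F a b v = c} : ℤ) * _ = _
  rw [h, h']
  push_cast
  ring

theorem aniso_of_noroot {ζ : F} (hζ : ∀ t : F, t ^ 2 + t + ζ ≠ 0) : Aniso (1 : F) ζ :=
  haveI := Fintype.ofFinite F
  fun x y h => CfsgLib.Classes.anisotropic_of_noroot hζ x y (by linear_combination h)

theorem exists_noroot : ∃ ζ : F, ∀ t : F, t ^ 2 + t + ζ ≠ 0 := by
  by_contra h
  push Not at h
  choose t ht using h
  have hinj : Function.Injective t := fun x y hxy => by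
    have h1 := ht x
    rw [hxy] at h1
    linear_combination h1 - ht y
  obtain ⟨x, hx⟩ := Finite.injective_iff_surjective.1 hinj 0
  obtain ⟨y, hy⟩ := Finite.injective_iff_surjective.1 hinj (-1)
  have h1 := ht x
  have h2 := ht y
  rw [hx] at h1
  rw [hy] at h2
  have hxy : x = y := by linear_combination h1 - h2
  rw [hxy, hy] at hx
  exact one_ne_zero (neg_eq_zero.1 hx)

/-- The standard form of a given type. -/
theorem exists_form_of_disc {l : ℕ} (hl : 1 ≤ l) {ε : ℤ} (hε : ε = 1 ∨ ε = -1) :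
    ∃ (κ : Type) (_ : Fintype κ) (_ : DecidableEq κ) (Q : QuadraticForm F (κ → F)),
      Fintype.card κ = 2 * l ∧ (polarBilin Q).Nondegenerate ∧ HasDisc Q (ε * (Nat.card F : ℤ) ^ l) := by
  rcases hε with rfl | rfl
  · exact ⟨_, inferInstance, inferInstance, qPlus l F, by simp [two_mul],
      nondeg_iff_polarBilin.2 (nondeg_qPlus l), by rw [one_mul]; exact hasDisc_qPlus l⟩
  · obtain ⟨ζ, hζ⟩ := exists_noroot (F := F)
    obtain ⟨k, rfl⟩ : ∃ k, l = k + 1 := ⟨l - 1, by omega⟩
    exact ⟨_, inferInstance, inferInstance, qMinus k F 1 ζ, by simp; omega,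
      nondeg_iff_polarBilin.2 (nondeg_qMinus (aniso_of_noroot hζ) k),
      by rw [neg_one_mul]; exact hasDisc_qMinus (aniso_of_noroot hζ) k⟩

/-- Every non-degenerate form of even dimension has a type. -/
theorem exists_hasDisc [FiniteDimensional F V] {m : ℕ} (hV : Module.finrank F V = 2 * m) (Q : QuadraticForm F V)
    (hQ : (polarBilin Q).Nondegenerate) :
    HasDisc Q ((Nat.card F : ℤ) ^ m) ∨ HasDisc Q (-(Nat.card F : ℤ) ^ m) := by
  rcases Nat.eq_zero_or_pos m with rfl | hm
  · left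
    intro a ha
    haveI : Subsingleton V := Module.finrank_zero_iff.1 (by rw [hV])
    have h0 : nval Q 0 = 1 :=
      Nat.card_eq_one_iff_unique.2 ⟨⟨fun x y => Subtype.ext (Subsingleton.elim _ _)⟩, ⟨⟨0, QuadraticMap.map_zero _⟩⟩⟩
    have h1 : nval Q a = 0 := Nat.card_eq_zero.2 (Or.inl ⟨fun x => ha (by
      rw [← x.2, Subsingleton.elim x.1 0, QuadraticMap.map_zero])⟩)
    simp [h0, h1]
  rcases CfsgLib.Classes.exists_equiv_even hm hV Q hQ with ⟨E, hE⟩ | ⟨E, ζ, hζ, hE⟩
  · left
    exact (hasDisc_qPlus m).congr E.symm fun x => by rw [hE, E.apply_symm_apply, qPlus_apply]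
  · right
    obtain ⟨k, rfl⟩ : ∃ k, m = k + 1 := ⟨m - 1, by omega⟩
    exact (hasDisc_qMinus (aniso_of_noroot hζ) k).congr E.symm fun x => by
      rw [hE, E.apply_symm_apply, qMinus_apply]
      rfl

/-- Forms of the same even dimension and type are isometric. -/
theorem exists_isometry [FiniteDimensional F V] [FiniteDimensional F W] {m : ℕ}
    (hV : Module.finrank F V = 2 * m) (hW : Module.finrank F W = 2 * m) {Q : QuadraticForm F V}
    {Q' : QuadraticForm F W} (hQ : (polarBilin Q).Nondegenerate) (hQ' : (polarBilin Q').Nondegenerate) {D : ℤ}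
    (hD : HasDisc Q D) (hD' : HasDisc Q' D) : ∃ E : V ≃ₗ[F] W, ∀ x, Q' (E x) = Q x := by
  rcases Nat.eq_zero_or_pos m with rfl | hm
  · haveI : Subsingleton V := Module.finrank_zero_iff.1 (by rw [hV])
    refine ⟨LinearEquiv.ofFinrankEq V W (by rw [hV, hW]), fun x => ?_⟩
    rw [Subsingleton.elim x 0, map_zero, QuadraticMap.map_zero, QuadraticMap.map_zero]
  have hne : (Nat.card F : ℤ) ^ m ≠ -(Nat.card F : ℤ) ^ m := by
    have : (0 : ℤ) < (Nat.card F : ℤ) ^ m := pow_pos (by exact_mod_cast Nat.card_pos) m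
    omega
  obtain ⟨k, rfl⟩ : ∃ k, m = k + 1 := ⟨m - 1, by omega⟩
  have hdm : ∀ {ζ : F}, (∀ t : F, t ^ 2 + t + ζ ≠ 0) → ∀ (E : V ≃ₗ[F] ((Fin k ⊕ Fin k) ⊕ Fin 2 → F)),
      (∀ x, Q x = Cfsg.quadFormMinus k F 1 ζ (E x)) → HasDisc Q (-(Nat.card F : ℤ) ^ (k + 1)) :=
    fun {ζ} hζ E hE =>
    (hasDisc_qMinus (aniso_of_noroot hζ) k).congr E.symm fun x => by rw [hE, E.apply_symm_apply, qMinus_apply]
  have hdm' : ∀ {ζ : F}, (∀ t : F, t ^ 2 + t + ζ ≠ 0) → ∀ (E : W ≃ₗ[F] ((Fin k ⊕ Fin k) ⊕ Fin 2 → F)),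
      (∀ x, Q' x = Cfsg.quadFormMinus k F 1 ζ (E x)) → HasDisc Q' (-(Nat.card F : ℤ) ^ (k + 1)) :=
    fun {ζ} hζ E hE =>
    (hasDisc_qMinus (aniso_of_noroot hζ) k).congr E.symm fun x => by rw [hE, E.apply_symm_apply, qMinus_apply]
  rcases CfsgLib.Classes.exists_equiv_even hm hV Q hQ with ⟨E, hE⟩ | ⟨E, ζ, hζ, hE⟩ <;>
    rcases CfsgLib.Classes.exists_equiv_even hm hW Q' hQ' with ⟨E', hE'⟩ | ⟨E', ζ', hζ', hE'⟩
  · exact ⟨E.trans E'.symm, fun x => by rw [hE', hE, LinearEquiv.trans_apply, E'.apply_symm_apply]⟩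
  · exfalso
    have h1 : HasDisc Q ((Nat.card F : ℤ) ^ (k + 1)) :=
      (hasDisc_qPlus (k + 1)).congr E.symm fun x => by rw [hE, E.apply_symm_apply, qPlus_apply]
    exact hne ((h1.unique hD).trans (hD'.unique (hdm' hζ' E' hE')))
  · exfalso
    have h1 : HasDisc Q' ((Nat.card F : ℤ) ^ (k + 1)) :=
      (hasDisc_qPlus (k + 1)).congr E'.symm fun x => by rw [hE', E'.apply_symm_apply, qPlus_apply]
    exact hne ((h1.unique hD').trans (hD.unique (hdm hζ E hE)))
  · haveI := Fintype.ofFinite F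
    obtain ⟨g, hg⟩ := CfsgLib.Classes.minus_isometric (F := F) k hζ hζ'
    refine ⟨(E.trans g).trans E'.symm, fun x => ?_⟩
    rw [hE', hE, LinearEquiv.trans_apply, E'.apply_symm_apply, LinearEquiv.trans_apply]
    exact hg _

end CfsgLib.Derangements.OrthType
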