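import Mathlib
import Cfsg.Agent.Lib.Derangements.OrthTypeDisc
import Cfsg.Agent.Lib.Classes.GUPrimeClasses
import Cfsg.Agent.Lib.Classes.SympSemisimple

/-!
Eigenvalue exponents of isometries of odd prime order of quadratic spaces over finite fields.
-/

set_option autoImplicit false
set_option linter.unusedSectionVars false
set_option linter.style.haveILetI false

namespace CfsgLib.Derangements.OrthExpo

open Module Polynomial QuadraticMap CfsgLib.Classes.GUPrime

universe u v w

variable {F : Type u} [Field F] [Fintype F] {L : Type u} [Field L] [Algebra F L] {r : ℕ} [Fact r.Prime]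
  {ζ : L} {V : Type v} [AddCommGroup V] [Module F V] [FiniteDimensional F V]
  {W : Type w} [AddCommGroup W] [Module F W] [FiniteDimensional F W]

/-- The exponents of `ζ` giving the eigenvalues of `g`. -/
def Expo (ζ : L) (g : Module.End F V) (M : Multiset (ZMod r)) : Prop :=
  g.charpoly.map (algebraMap F L) = expPoly ζ M

theorem Expo.unique (hζ : IsPrimitiveRoot ζ r) {g : Module.End F V} {M M' : Multiset (ZMod r)} (h : Expo ζ g M)
    (h' : Expo ζ g M') : M = M' :=
  expPoly_injective hζ (h.symm.trans h')

theorem Expo.card {g : Module.End F V} {M : Multiset (ZMod r)} (h : Expo ζ g M) : M.card = finrank F V := by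
  have h' := congrArg natDegree h
  rw [expPoly_natDegree, Polynomial.natDegree_map, LinearMap.charpoly_natDegree] at h'
  exact h'.symm

theorem expPoly_add (M M' : Multiset (ZMod r)) : expPoly ζ (M + M') = expPoly ζ M * expPoly ζ M' := by
  simp [expPoly, Multiset.map_add, Multiset.prod_add]

theorem expPoly_replicate_zero (d : ℕ) : expPoly ζ (Multiset.replicate d (0 : ZMod r)) = (X - C 1) ^ d := by
  simp [expPoly, Multiset.map_replicate, Multiset.prod_replicate]

theorem Expo.prodMap {g : Module.End F V} {h : Module.End F W} {M M' : Multiset (ZMod r)} (hg : Expo ζ g M)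
    (hh : Expo ζ h M') : Expo ζ (LinearMap.prodMap g h) (M + M') := by
  rw [Expo, LinearMap.charpoly_prodMap, Polynomial.map_mul, hg, hh, expPoly_add]

theorem expo_one : Expo ζ (1 : Module.End F V) (Multiset.replicate (finrank F V) (0 : ZMod r)) := by
  rw [Expo, LinearMap.charpoly_one, expPoly_replicate_zero]
  simp

theorem Expo.conj {g : Module.End F V} {M : Multiset (ZMod r)} (h : Expo ζ g M) (e : V ≃ₗ[F] W) :
    Expo ζ (e.conj g) M := by
  rw [Expo, LinearEquiv.charpoly_conj]
  exact h

theorem toMatrix_pow_eq_one {g : Module.End F V} {k : ℕ} (hg : g ^ k = 1) :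
    (LinearMap.toMatrix (finBasis F V) (finBasis F V) g).map (algebraMap F L) ^ k = 1 := by
  have h : LinearMap.toMatrixAlgEquiv (finBasis F V) g ^ k = 1 := by rw [← map_pow, hg, map_one]
  show ((algebraMap F L).mapMatrix (LinearMap.toMatrixAlgEquiv (finBasis F V) g)) ^ k = 1
  rw [← map_pow, h, map_one]

theorem expo_iff_matrix {g : Module.End F V} {M : Multiset (ZMod r)} :
    Expo ζ g M ↔ ((LinearMap.toMatrix (finBasis F V) (finBasis F V) g).map (algebraMap F L)).charpoly =
      expPoly ζ M := by
  rw [Matrix.charpoly_map, LinearMap.charpoly_toMatrix]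
  rfl

theorem exists_expo (hζ : IsPrimitiveRoot ζ r) {g : Module.End F V} (hg : g ^ r = 1) :
    ∃ M : Multiset (ZMod r), Expo ζ g M := by
  obtain ⟨M, hM, -⟩ := exists_exponents hζ _ (toMatrix_pow_eq_one (L := L) hg)
  exact ⟨M, expo_iff_matrix.2 hM⟩

theorem Expo.pow (hζ : IsPrimitiveRoot ζ r) {g : Module.End F V} (hg : g ^ r = 1) {M : Multiset (ZMod r)}
    (h : Expo ζ g M) (k : ℕ) : Expo ζ (g ^ k) (M.map ((k : ZMod r) * ·)) := by
  rw [expo_iff_matrix] at h ⊢
  have h1 := charpoly_pow hζ (toMatrix_pow_eq_one (L := L) hg) h k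
  rw [← h1]
  congr 1
  show (algebraMap F L).mapMatrix (LinearMap.toMatrixAlgEquiv (finBasis F V) (g ^ k)) = _
  rw [map_pow, map_pow]
  rfl

/-- The exponents are invariant under the Frobenius. -/
theorem Expo.map_card (hζ : IsPrimitiveRoot ζ r) {g : Module.End F V} {M : Multiset (ZMod r)}
    (h : Expo ζ g M) : M.map ((Fintype.card F : ZMod r) * ·) = M := by
  obtain ⟨p, hchar⟩ := CharP.exists F
  haveI : Fact p.Prime := ⟨CharP.char_is_prime F p⟩
  obtain ⟨f, -, hf⟩ := FiniteField.card F p
  haveI : CharP L p := charP_of_injective_algebraMap (algebraMap F L).injective p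
  haveI : ExpChar L p := ExpChar.prime Fact.out
  let σ : L →+* L := iterateFrobenius L p (f : ℕ)
  have hσ : ∀ x, σ x = x ^ Fintype.card F := fun x => by rw [hf]; exact iterateFrobenius_def _ _ x
  refine expPoly_injective hζ ?_
  rw [← expPoly_map hζ σ hσ, ← h, Polynomial.map_map]
  congr 1
  ext c
  rw [RingHom.comp_apply, hσ, ← map_pow, FiniteField.pow_card]

/-- The exponents of an isometry are invariant under negation. -/
theorem Expo.map_neg (hζ : IsPrimitiveRoot ζ r) {Q : QuadraticForm F V} (hQ : (polarBilin Q).Nondegenerate)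
    {g : Module.End F V} (hg : g ^ r = 1) (hgQ : ∀ x, Q (g x) = Q x) {M : Multiset (ZMod r)} (h : Expo ζ g M) :
    M.map ((-1 : ZMod r) * ·) = M := by
  have hr : r.Prime := Fact.out
  set b := finBasis F V
  set A := LinearMap.toMatrix b b g with hA
  set Wm := LinearMap.BilinForm.toMatrix b (polarBilin Q) with hW
  have hWd : IsUnit Wm.det := isUnit_iff_ne_zero.2 ((LinearMap.BilinForm.nondegenerate_iff_det_ne_zero b).1 hQ)
  have hform : A.transpose * Wm * A = Wm := by
    rw [hA, hW, ← LinearMap.BilinForm.toMatrix_comp]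
    congr 1
    refine LinearMap.ext₂ fun x y => ?_
    show QuadraticMap.polar Q (g x) (g y) = QuadraticMap.polar Q x y
    simp only [QuadraticMap.polar, ← map_add, hgQ]
  have hAr : A ^ r = 1 := by
    show LinearMap.toMatrixAlgEquiv b g ^ r = 1
    rw [← map_pow, hg, map_one]
  have hAu : IsUnit A := IsUnit.of_pow_eq_one hAr hr.ne_zero
  have hinv : A⁻¹ = A ^ (r - 1) := Matrix.inv_eq_left_inv (by rw [← pow_succ, Nat.sub_add_cancel hr.one_le, hAr])
  have hch : (A ^ (r - 1)).charpoly = A.charpoly := by
    rw [← hinv, CfsgLib.Classes.SympSemi.charpoly_inv_eq_rev A hAu,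
      CfsgLib.Classes.SympSemi.rev_charpoly_of_form hWd hform]
  have hAr' : (A.map (algebraMap F L)) ^ r = 1 := toMatrix_pow_eq_one hg
  have h1 := charpoly_pow hζ hAr' (expo_iff_matrix.1 h) (r - 1)
  rw [show (A.map (algebraMap F L)) ^ (r - 1) = (A ^ (r - 1)).map (algebraMap F L) from
      ((algebraMap F L).mapMatrix.map_pow A (r - 1)).symm,
    Matrix.charpoly_map, hch, ← Matrix.charpoly_map, expo_iff_matrix.1 h] at h1
  have h2 := expPoly_injective hζ h1
  conv_rhs => rw [h2]
  refine Multiset.map_congr rfl fun a _ => ?_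
  rw [Nat.cast_sub hr.one_le, ZMod.natCast_self, Nat.cast_one, zero_sub]

/-- A fixed vector gives the exponent zero. -/
theorem Expo.zero_mem (hζ : IsPrimitiveRoot ζ r) {g : Module.End F V} {M : Multiset (ZMod r)} (h : Expo ζ g M)
    {x : V} (hx : x ≠ 0) (hgx : g x = x) : (0 : ZMod r) ∈ M := by
  have hev : g.HasEigenvalue 1 := Module.End.hasEigenvalue_of_hasEigenvector
    (x := x) ⟨Module.End.mem_eigenspace_iff.2 (by rw [one_smul, hgx]), hx⟩
  have h1 : (g.charpoly.map (algebraMap F L)).IsRoot (algebraMap F L 1) :=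
    ((Module.End.hasEigenvalue_iff_isRoot_charpoly g 1).1 hev).map
  rw [h, map_one, ← mem_roots (expPoly_monic M).ne_zero, expPoly_roots, Multiset.mem_map] at h1
  obtain ⟨a, ha, hae⟩ := h1
  rwa [show a = 0 from zeta_pow_val_inj hζ (show ζ ^ a.val = ζ ^ (0 : ZMod r).val by
    rw [hae, ZMod.val_zero, pow_zero])] at ha

/-- A root of the characteristic polynomial is an eigenvalue exponent. -/
theorem Expo.mem_of_root (hζ : IsPrimitiveRoot ζ r) {g : Module.End F V} {M : Multiset (ZMod r)} (h : Expo ζ g M)
    {a : ZMod r} (ha : aeval (ζ ^ a.val) g.charpoly = 0) : a ∈ M := by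
  have h1 : (g.charpoly.map (algebraMap F L)).IsRoot (ζ ^ a.val) := by
    rw [IsRoot.def, eval_map, ← aeval_def]
    exact ha
  rw [h, ← mem_roots (expPoly_monic M).ne_zero, expPoly_roots, Multiset.mem_map] at h1
  obtain ⟨b, hb, hbe⟩ := h1
  rwa [show b = a from zeta_pow_val_inj hζ hbe] at hb

/-- An isometry of order `r` without fixed vectors forces the difference of the level sets to be `1` modulo `r`. -/
theorem disc_of_fixedPointFree {Q : QuadraticForm F V} {D : ℤ} (hD : OrthType.HasDisc Q D) {g : Module.End F V}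
    (hg : g ^ r = 1) (hgQ : ∀ x, Q (g x) = Q x) (hfix : ∀ x, g x = x → x = 0) : (D : ZMod r) = 1 := by
  classical
  haveI : Finite V := Module.finite_of_finite F
  haveI := Fintype.ofFinite V
  have key : ∀ c : F, (OrthType.nval Q c : ZMod r) = if c = 0 then 1 else 0 := by
    intro c
    let f : Function.End {x // Q x = c} := fun x => ⟨g x, by rw [hgQ, x.2]⟩
    have hfr : f ^ r ^ 1 = 1 := by
      rw [pow_one]
      have hit : ∀ (k : ℕ) (x : {x // Q x = c}),
          ((show {x // Q x = c} → {x // Q x = c} from f ^ k) x : V) = (g ^ k) (x : V) := fun k => by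
        induction k with
        | zero => intro x; rw [pow_zero, pow_zero]; rfl
        | succ k ih =>
          intro x
          rw [pow_succ' g k, Module.End.mul_apply, ← ih x, pow_succ' f k]
          rfl
      refine funext fun x => Subtype.ext ?_
      have h1 := hit r x
      rw [hg] at h1
      exact h1
    have hmod := Equiv.Perm.card_fixedPoints_modEq (f := f) (p := r) (n := 1) hfr
    have hfp : Fintype.card f.fixedPoints = if c = 0 then 1 else 0 := by
      split_ifs with hc
      · subst hc
        refine Fintype.card_eq_one_iff.2 ⟨⟨⟨0, QuadraticMap.map_zero Q⟩, Subtype.ext (map_zero g)⟩, fun x => ?_⟩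
        exact Subtype.ext (Subtype.ext (hfix _ (congrArg Subtype.val x.2)))
      · refine Fintype.card_eq_zero_iff.2 ⟨fun x => hc ?_⟩
        rw [← x.1.2, hfix _ (congrArg Subtype.val x.2), QuadraticMap.map_zero]
    rw [OrthType.nval, Nat.card_eq_fintype_card, (ZMod.natCast_eq_natCast_iff _ _ _).2 hmod, hfp]
    split_ifs <;> simp
  have h := congrArg (Int.cast : ℤ → ZMod r) (hD 1 one_ne_zero)
  push_cast at h
  rw [key, key, if_pos rfl, if_neg one_ne_zero, sub_zero] at h
  exact h.symm

end CfsgLib.Derangements.OrthExpo
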