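import Mathlib
import Cfsg.Agent.Lib.Derangements.OrthExpo
import Cfsg.Agent.Lib.Classes.QuadSpace

/-!
Orthogonal blocks: every set of non-zero exponents closed under the Frobenius and under negation is the spectrum
of an isometry of order dividing `r` of a non-degenerate quadratic space.
-/

set_option autoImplicit false
set_option linter.unusedSectionVars false
set_option linter.style.haveILetI false

namespace CfsgLib.Derangements.OrthExpo

open Module Polynomial QuadraticMap IntermediateField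

universe u

variable {r : ℕ} [hrp : Fact r.Prime]

/-- Multisets fixed by multiplication by `x`. -/
def Fixes (x : ZMod r) (M : Multiset (ZMod r)) : Prop := M.map (x * ·) = M

theorem Fixes.mul {x y : ZMod r} {M : Multiset (ZMod r)} (hx : Fixes x M) (hy : Fixes y M) : Fixes (x * y) M := by
  rw [Fixes]
  conv_rhs => rw [← hx, ← hy, Multiset.map_map]
  exact Multiset.map_congr rfl fun a _ => mul_assoc x y a

theorem Fixes.pow {x : ZMod r} {M : Multiset (ZMod r)} (hx : Fixes x M) : ∀ k : ℕ, Fixes (x ^ k) M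
  | 0 => by simp [Fixes]
  | k + 1 => by rw [pow_succ]; exact (hx.pow k).mul hx

/-- The generator of the group of `± q ^ j` modulo `r`. -/
noncomputable def uu (uq : (ZMod r)ˣ) : (ZMod r)ˣ := if Odd (orderOf uq) then -uq else uq

theorem orderOf_neg_one_units (hr2 : r ≠ 2) : orderOf (-1 : (ZMod r)ˣ) = 2 := by
  rw [← orderOf_units, Units.val_neg, Units.val_one, orderOf_neg_one, if_neg]
  rw [ringChar.eq (ZMod r) r]; exact hr2

theorem pow_half {uq : (ZMod r)ˣ} {k : ℕ} (hk : orderOf uq = 2 * k) : (uq : ZMod r) ^ k = -1 := by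
  have hpos := orderOf_pos uq
  have h2 : ((uq : ZMod r) ^ k) ^ 2 = 1 := by
    rw [← pow_mul, mul_comm k 2, ← hk, ← Units.val_pow_eq_pow_val, pow_orderOf_eq_one, Units.val_one]
  refine (sq_eq_one_iff.1 h2).resolve_left fun h => ?_
  have h1 : uq ^ k = 1 := Units.ext (by rw [Units.val_pow_eq_pow_val, h, Units.val_one])
  have := Nat.le_of_dvd (by omega) (orderOf_dvd_of_pow_eq_one h1)
  omega

theorem orderOf_uu (hr2 : r ≠ 2) (uq : (ZMod r)ˣ) :
    orderOf (uu uq) = if Odd (orderOf uq) then 2 * orderOf uq else orderOf uq := by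
  rw [uu]
  split_ifs with h
  · rw [← neg_one_mul uq, (Commute.all _ _).orderOf_mul_eq_mul_orderOf_of_coprime (by
      rw [orderOf_neg_one_units hr2]; exact Nat.coprime_two_left.2 h), orderOf_neg_one_units hr2]
  · rfl

theorem even_orderOf_uu (hr2 : r ≠ 2) (uq : (ZMod r)ˣ) : Even (orderOf (uu uq)) := by
  rw [orderOf_uu hr2]
  split_ifs with h
  · exact even_two_mul _
  · exact Nat.not_odd_iff_even.1 h

theorem fixes_uu_iff (uq : (ZMod r)ˣ) (M : Multiset (ZMod r)) :
    Fixes ((uu uq : (ZMod r)ˣ) : ZMod r) M ↔ Fixes (uq : ZMod r) M ∧ Fixes (-1 : ZMod r) M := by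
  rcases Nat.even_or_odd (orderOf uq) with he | ho
  · rw [uu, if_neg (Nat.not_odd_iff_even.2 he)]
    obtain ⟨k, hk⟩ := he
    exact ⟨fun h => ⟨h, by rw [← pow_half (show orderOf uq = 2 * k by omega)]; exact h.pow k⟩, fun h => h.1⟩
  · rw [uu, if_pos ho, Units.val_neg]
    constructor
    · intro h
      have h1 : (-(uq : ZMod r)) ^ orderOf uq = -1 := by
        rw [ho.neg_pow, ← Units.val_pow_eq_pow_val, pow_orderOf_eq_one, Units.val_one]
      have hn : Fixes (-1 : ZMod r) M := h1 ▸ h.pow _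
      exact ⟨by simpa using hn.mul h, hn⟩
    · rintro ⟨h1, h2⟩
      simpa using h2.mul h1

/-- The orbit of `a` under the powers of `u`. -/
noncomputable def orbit (u : (ZMod r)ˣ) (a : ZMod r) : Multiset (ZMod r) :=
  (Finset.range (orderOf u)).val.map fun j => ((u ^ j : (ZMod r)ˣ) : ZMod r) * a

theorem card_orbit (u : (ZMod r)ˣ) (a : ZMod r) : (orbit u a).card = orderOf u := by
  simp [orbit]

theorem orbit_nodup (u : (ZMod r)ˣ) {a : ZMod r} (ha : a ≠ 0) : (orbit u a).Nodup :=
  Multiset.Nodup.map_on (fun x hx y hy h => pow_injOn_Iio_orderOf (by simpa using hx) (by simpa using hy)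
    (Units.ext (mul_right_cancel₀ ha h))) (Finset.range _).nodup

theorem orbit_le (u : (ZMod r)ˣ) {a : ZMod r} (ha : a ≠ 0) {M : Multiset (ZMod r)} (hM : Fixes (u : ZMod r) M)
    (haM : a ∈ M) : orbit u a ≤ M := by
  refine (Multiset.le_iff_subset (orbit_nodup u ha)).2 fun x hx => ?_
  obtain ⟨j, -, rfl⟩ := Multiset.mem_map.1 hx
  rw [← hM.pow j, Units.val_pow_eq_pow_val]
  exact Multiset.mem_map_of_mem _ haM

variable {F : Type u} [Field F] [Fintype F] {L : Type u} [Field L] [Algebra F L] (ζ : L)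

/-- Realised by an isometry of order dividing `r` of a non-degenerate quadratic space. -/
def Good (F : Type u) [Field F] [Algebra F L] (M : Multiset (ZMod r)) : Prop :=
  ∃ (V : Type u) (_ : AddCommGroup V) (_ : Module F V) (_ : FiniteDimensional F V) (Q : QuadraticForm F V)
    (g : Module.End F V), (polarBilin Q).Nondegenerate ∧ g ^ r = 1 ∧ (∀ x, Q (g x) = Q x) ∧ Expo ζ g M

variable {ζ}

omit hrp in
theorem nondegenerate_prod {V W : Type*} [AddCommGroup V] [Module F V] [AddCommGroup W] [Module F W]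
    {Q : QuadraticForm F V} {Q' : QuadraticForm F W} (hQ : (polarBilin Q).Nondegenerate)
    (hQ' : (polarBilin Q').Nondegenerate) : (polarBilin (Q.prod Q')).Nondegenerate := by
  refine CfsgLib.Classes.nondegenerate_polarBilin _ fun x h => Prod.ext ?_ ?_
  · exact hQ.1 _ fun y => by simpa using h (y, 0)
  · exact hQ'.1 _ fun y => by simpa using h (0, y)

omit hrp in
theorem prodMap_pow {V W : Type*} [AddCommGroup V] [Module F V] [AddCommGroup W] [Module F W] (g : Module.End F V)
    (h : Module.End F W) : ∀ k : ℕ, (LinearMap.prodMap g h : Module.End F (V × W)) ^ k =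
      LinearMap.prodMap (g ^ k) (h ^ k)
  | 0 => LinearMap.ext fun x => rfl
  | k + 1 => by
    rw [pow_succ, pow_succ, pow_succ, prodMap_pow g h k]
    exact LinearMap.ext fun x => rfl

theorem Good.add {M M' : Multiset (ZMod r)} (h : Good ζ F M) (h' : Good ζ F M') : Good ζ F (M + M') := by
  obtain ⟨V, _, _, _, Q, g, hQ, hg, hgQ, hgM⟩ := h
  obtain ⟨W, _, _, _, Q', g', hQ', hg', hg'Q, hgM'⟩ := h'
  refine ⟨V × W, inferInstance, inferInstance, inferInstance, Q.prod Q', LinearMap.prodMap g g',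
    nondegenerate_prod hQ hQ', ?_, fun x => ?_, hgM.prodMap hgM'⟩
  · rw [prodMap_pow, hg, hg']; exact LinearMap.ext fun x => rfl
  · simp [hgQ, hg'Q]

theorem good_zero : Good ζ F (0 : Multiset (ZMod r)) := by
  refine ⟨ULift.{u} (Fin 0 → F), inferInstance, inferInstance, inferInstance, 0, 1, ?_, one_pow r, fun x => rfl, ?_⟩
  · refine CfsgLib.Classes.nondegenerate_polarBilin _ fun x _ => Subsingleton.elim _ _
  · have h := expo_one (ζ := ζ) (r := r) (F := F) (V := ULift.{u} (Fin 0 → F))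
    rwa [Module.finrank_zero_of_subsingleton, Multiset.replicate_zero] at h

/-- The basic block containing a given exponent. -/
theorem good_block (hr2 : r ≠ 2) {uq : (ZMod r)ˣ} (huq : (uq : ZMod r) = (Fintype.card F : ZMod r))
    (hζ : IsPrimitiveRoot ζ r) {a : ZMod r} (ha : a ≠ 0) :
    ∃ M : Multiset (ZMod r), Good ζ F M ∧ a ∈ M ∧ M.card = orderOf (uu uq) := by
  classical
  have hr : r.Prime := hrp.out
  set η : L := ζ ^ a.val with hη
  have hηr : η ^ r = 1 := by rw [hη, ← pow_mul, mul_comm, pow_mul, hζ.pow_eq_one, one_pow]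
  have hη1 : η ≠ 1 := fun h => ha (CfsgLib.Classes.GUPrime.zeta_pow_val_inj hζ
    (show ζ ^ a.val = ζ ^ (0 : ZMod r).val by rw [← hη, h, ZMod.val_zero, pow_zero]))
  have hint : IsIntegral F η := IsIntegral.of_pow hr.pos (by rw [hηr]; exact isIntegral_one)
  haveI : FiniteDimensional F F⟮η⟯ := IntermediateField.adjoin.finiteDimensional hint
  haveI : Finite F⟮η⟯ := Module.finite_of_finite F
  let e : F⟮η⟯ := ⟨η, IntermediateField.mem_adjoin_simple_self F η⟩
  have her : e ^ r = 1 := Subtype.ext (by simpa [e] using hηr)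
  have he1 : e ≠ 1 := fun h => hη1 (by simpa [e] using congrArg Subtype.val h)
  have heord : orderOf e = r := orderOf_eq_prime her he1
  set q := Fintype.card F with hq
  have hqpow : ∀ j : ℕ, e ^ q ^ j = e ↔ uq ^ j = 1 := fun j => by
    conv_lhs => rhs; rw [← pow_one e]
    rw [(isOfFinOrder_iff_pow_eq_one.2 ⟨r, hr.pos, her⟩).pow_eq_pow_iff_modEq, heord,
      ← ZMod.natCast_eq_natCast_iff, Nat.cast_pow, Nat.cast_one, ← huq,
      ← Units.val_pow_eq_pow_val, Units.val_eq_one]
  let φ : F⟮η⟯ →ₐ[F] F⟮η⟯ := FiniteField.frobeniusAlgHom F F⟮η⟯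
  have hφ : ∀ (j : ℕ) (x : F⟮η⟯), (φ ^ j) x = x ^ q ^ j := fun j x => by
    rw [AlgHom.coe_pow, show ⇑φ = (· ^ q) from FiniteField.coe_frobeniusAlgHom F F⟮η⟯, pow_iterate]
  let pb := IntermediateField.adjoin.powerBasis hint
  have hgen : pb.gen = e := IntermediateField.adjoin.powerBasis_gen hint
  have hext : ∀ f f' : F⟮η⟯ →ₐ[F] F⟮η⟯, f e = f' e → f = f' := fun f f' h => pb.algHom_ext (by rw [hgen, h])
  have hφi : φ ^ orderOf uq = 1 := hext _ _ (by
    rw [hφ, AlgHom.one_apply, (hqpow _).2 (pow_orderOf_eq_one uq)])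
  have hdim : finrank F F⟮η⟯ = orderOf uq := by
    have hd := FiniteField.orderOf_frobeniusAlgHom F F⟮η⟯
    refine Nat.dvd_antisymm (hd ▸ orderOf_dvd_of_pow_eq_one hφi) (orderOf_dvd_of_pow_eq_one ?_)
    rw [← hqpow, ← hφ]
    show (φ ^ finrank F F⟮η⟯) e = e
    rw [← hd, pow_orderOf_eq_one, AlgHom.one_apply]
  let m : F⟮η⟯ → Module.End F F⟮η⟯ := fun x => Algebra.lmul F F⟮η⟯ x
  have hmr : ∀ x : F⟮η⟯, x ^ r = 1 → m x ^ r = 1 := fun x hx => by
    rw [← map_pow, hx, map_one]
  have hmem : ∀ M : Multiset (ZMod r), Expo ζ (m e) M → a ∈ M := fun M hM => by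
    refine hM.mem_of_root hζ ?_
    have h0 : aeval e (m e).charpoly = 0 := by
      have h1 := LinearMap.aeval_self_charpoly (m e)
      rw [show aeval (m e) (m e).charpoly = m (aeval e (m e).charpoly) from
        Polynomial.aeval_algHom_apply (Algebra.lmul F F⟮η⟯) e _] at h1
      have h2 := LinearMap.congr_fun h1 1
      rw [show m (aeval e (m e).charpoly) 1 = aeval e (m e).charpoly * 1 from rfl, mul_one] at h2
      exact h2
    have h3 := congrArg (Subtype.val : F⟮η⟯ → L) h0
    rw [ZeroMemClass.coe_zero, ← IntermediateField.coe_val, ← Polynomial.aeval_algHom_apply] at h3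
    exact h3
  haveI : Algebra.IsSeparable F F⟮η⟯ := inferInstance
  have hnd := traceForm_nondegenerate F F⟮η⟯
  obtain ⟨M₁, hM₁⟩ := exists_expo hζ (hmr e her)
  have hM₁c : M₁.card = orderOf uq := by rw [hM₁.card, hdim]
  rcases Nat.even_or_odd (orderOf uq) with he | ho
  · -- elliptic block
    obtain ⟨k, hk⟩ := he
    have hk0 : 0 < k := by have := orderOf_pos uq; omega
    let σ : F⟮η⟯ →ₐ[F] F⟮η⟯ := φ ^ k
    have hσσ : ∀ x, σ (σ x) = x := fun x => by
      show (φ ^ k) ((φ ^ k) x) = x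
      rw [← AlgHom.mul_apply, ← pow_add, ← hk, hφi, AlgHom.one_apply]
    have hσe : e * σ e = 1 := by
      show e * (φ ^ k) e = 1
      rw [hφ, ← pow_succ', ← orderOf_dvd_iff_pow_eq_one, heord, ← ZMod.natCast_eq_zero_iff, Nat.cast_add,
        Nat.cast_pow, Nat.cast_one, ← huq, pow_half (show orderOf uq = 2 * k by omega), neg_add_cancel]
    obtain ⟨x₀, hx₀⟩ : ∃ x₀ : F⟮η⟯, x₀ + σ x₀ ≠ 0 := by
      by_contra h
      push Not at h
      have h1 := h 1
      rw [map_one] at h1
      have hσid : σ e = e := by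
        linear_combination h e - e * h1
      rw [hσid, ← pow_two] at hσe
      have h2 : e ^ Nat.gcd 2 r = 1 := pow_gcd_eq_one.2 ⟨hσe, her⟩
      rw [show Nat.gcd 2 r = 1 from (Nat.coprime_primes Nat.prime_two hr).2 (Ne.symm hr2), pow_one] at h2
      exact he1 h2
    set δ := x₀ / (x₀ + σ x₀) with hδdef
    have hδ : δ + σ δ = 1 := by
      rw [hδdef, map_div₀, map_add, hσσ, add_comm (σ x₀) x₀, ← add_div, div_self hx₀]
    let β : LinearMap.BilinForm F F⟮η⟯ := (Algebra.traceForm F F⟮η⟯).compl₁₂ (m δ) σ.toLinearMap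
    have hβ : ∀ x y, β x y = Algebra.trace F F⟮η⟯ (δ * x * σ y) := fun x y => rfl
    let σe : F⟮η⟯ ≃ₐ[F] F⟮η⟯ := AlgEquiv.ofBijective σ (Algebra.IsAlgebraic.algHom_bijective σ)
    have htr : ∀ z, Algebra.trace F F⟮η⟯ (σ z) = Algebra.trace F F⟮η⟯ z := fun z =>
      Algebra.trace_eq_of_algEquiv σe z
    have hpol : ∀ x y, polar (β.toQuadraticMap) x y = Algebra.trace F F⟮η⟯ (x * σ y) := fun x y => by
      rw [LinearMap.BilinMap.polar_toQuadraticMap, hβ, hβ, ← htr (δ * y * σ x), ← map_add]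
      congr 1
      rw [map_mul σ (δ * y) (σ x), map_mul σ δ y, hσσ]
      linear_combination (x * σ y) * hδ
    refine ⟨M₁, ⟨F⟮η⟯, inferInstance, inferInstance, inferInstance, β.toQuadraticMap, m e, ?_, hmr e her,
      fun x => ?_, hM₁⟩, hmem M₁ hM₁, ?_⟩
    · refine CfsgLib.Classes.nondegenerate_polarBilin _ fun x h => hnd.1 x fun y => ?_
      have h1 := h (σ y)
      rw [hpol, hσσ] at h1
      exact h1
    · show β (e * x) (e * x) = β x x
      rw [hβ, hβ]
      congr 1
      rw [map_mul σ e x]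
      linear_combination (δ * x * σ x) * hσe
    · rw [hM₁c, orderOf_uu hr2, if_neg (Nat.not_odd_iff_even.2 ⟨k, hk⟩)]
  · -- pair of totally singular blocks
    have he0 : e ≠ 0 := fun h => by rw [h, zero_pow hr.ne_zero] at her; exact zero_ne_one her
    obtain ⟨M₂, hM₂⟩ := exists_expo hζ (hmr e⁻¹ (by rw [inv_pow, her, inv_one]))
    let β : LinearMap.BilinForm F (F⟮η⟯ × F⟮η⟯) :=
      (Algebra.traceForm F F⟮η⟯).compl₁₂ (LinearMap.fst F F⟮η⟯ F⟮η⟯) (LinearMap.snd F F⟮η⟯ F⟮η⟯)
    have hβ : ∀ v w, β v w = Algebra.trace F F⟮η⟯ (v.1 * w.2) := fun v w => rfl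
    refine ⟨M₁ + M₂, ⟨F⟮η⟯ × F⟮η⟯, inferInstance, inferInstance, inferInstance, β.toQuadraticMap,
      LinearMap.prodMap (m e) (m e⁻¹), ?_, ?_, fun x => ?_, hM₁.prodMap hM₂⟩,
      Multiset.mem_add.2 (Or.inl (hmem M₁ hM₁)), ?_⟩
    · refine CfsgLib.Classes.nondegenerate_polarBilin _ fun x h => Prod.ext ?_ ?_
      · refine hnd.1 _ fun y => ?_
        have h1 := h (0, y)
        rw [LinearMap.BilinMap.polar_toQuadraticMap, hβ, hβ, zero_mul, map_zero, add_zero] at h1
        exact h1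
      · refine hnd.1 _ fun y => ?_
        have h1 := h (y, 0)
        rw [LinearMap.BilinMap.polar_toQuadraticMap, hβ, hβ, mul_zero, map_zero, zero_add, mul_comm] at h1
        exact h1
    · rw [prodMap_pow, hmr e her, hmr e⁻¹ (by rw [inv_pow, her, inv_one])]
      exact LinearMap.ext fun x => rfl
    · show β ((e * x.1), (e⁻¹ * x.2)) ((e * x.1), (e⁻¹ * x.2)) = β x x
      rw [hβ, hβ]
      congr 1
      rw [mul_mul_mul_comm, mul_inv_cancel₀ he0, one_mul]
    · rw [Multiset.card_add, hM₁c, hM₂.card, hdim, orderOf_uu hr2, if_pos ho, two_mul]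

/-- All closed sets of non-zero exponents are realised. -/
theorem good_of_fixes (hr2 : r ≠ 2) {uq : (ZMod r)ˣ} (huq : (uq : ZMod r) = (Fintype.card F : ZMod r))
    (hζ : IsPrimitiveRoot ζ r) : ∀ (M : Multiset (ZMod r)), Fixes ((uu uq : (ZMod r)ˣ) : ZMod r) M →
      (0 : ZMod r) ∉ M → Good ζ F M := by
  intro M
  induction hn : M.card using Nat.strong_induction_on generalizing M with
  | _ c ih =>
    intro hM h0
    rcases Multiset.empty_or_exists_mem M with rfl | ⟨a, haM⟩
    · exact good_zero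
    have ha : a ≠ 0 := fun h => h0 (h ▸ haM)
    obtain ⟨B, hB, haB, hBc⟩ := good_block hr2 huq hζ ha
    have hBfix : Fixes ((uu uq : (ZMod r)ˣ) : ZMod r) B := by
      obtain ⟨V, _, _, _, Q, g, hQ, hg, hgQ, hgM⟩ := hB
      rw [fixes_uu_iff]
      exact ⟨by rw [Fixes, huq]; exact hgM.map_card hζ, hgM.map_neg hζ hQ hg hgQ⟩
    have hBo : orbit (uu uq) a = B := Multiset.eq_of_le_of_card_le (orbit_le _ ha hBfix haB)
      (by rw [card_orbit, hBc])
    obtain ⟨N, rfl⟩ := Multiset.le_iff_exists_add.1 (orbit_le (uu uq) ha hM haM)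
    rw [hBo] at *
    refine hB.add (ih N.card ?_ N rfl ?_ fun h => h0 (Multiset.mem_add.2 (Or.inr h)))
    · rw [← hn, Multiset.card_add, hBc]
      have := orderOf_pos (uu uq)
      omega
    · rw [Fixes, Multiset.map_add, hBfix] at hM
      exact add_left_cancel hM

end CfsgLib.Derangements.OrthExpo
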