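import Mathlib
import Cfsg.Agent.Lib.Classes.InvolutionQuad
import Cfsg.Agent.Lib.Classes.InvolutionCentralizer
import Cfsg.Agent.Lib.Derangements.OrthTypeDisc

/-!
Isometries of a quadratic form in characteristic two commuting with a nilpotent part of an involution:
they are counted by adapted families with prescribed values and the orthogonal group of the complement.
-/

set_option autoImplicit false
set_option linter.unusedSectionVars false
set_option linter.unusedVariables false
set_option linter.style.haveILetI false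

namespace CfsgLib.Derangements.OrthInv

open Module QuadraticMap CfsgLib.Classes.InvTwo CfsgLib.ClassicalForms
open scoped Matrix

section Matrices

variable {F : Type*} [Field F] [Fintype F] [CharP F 2] {ι : Type} [Fintype ι] [DecidableEq ι]

theorem transpose_eq_iff (W : Matrix ι ι F) : W + Wᵀ = 0 ↔ Wᵀ = W := by
  refine ⟨fun h => Matrix.ext fun i j => (CharTwo.add_eq_zero.mp (congrFun (congrFun h i) j)).symm, fun h => ?_⟩
  rw [h]
  exact Matrix.ext fun i j => CharTwo.add_self_eq_zero _

/-- Symmetric matrices with zero diagonal. -/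
theorem card_symm_zeroDiag :
    Nat.card {W : Matrix ι ι F // Wᵀ = W ∧ ∀ i, W i i = 0} = Fintype.card F ^ Nat.choose (Fintype.card ι) 2 := by
  classical
  let e : {W : Matrix ι ι F // Wᵀ = W ∧ ∀ i, W i i = 0} ≃ ({z : Sym2 ι // ¬z.IsDiag} → F) :=
  { toFun := fun W z => Sym2.lift ⟨fun i j => W.1 i j, fun i j => (congrFun (congrFun W.2.1 i) j).symm⟩ z.1
    invFun := fun f => ⟨Matrix.of fun i j => if h : s(i, j).IsDiag then 0 else f ⟨s(i, j), h⟩, by
      refine Matrix.ext fun i j => ?_
      simp [Matrix.transpose_apply, eq_comm (a := i), Sym2.eq_swap], fun i => by simp⟩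
    left_inv := fun W => by
      apply Subtype.ext
      ext i j
      simp only [Matrix.of_apply]
      split_ifs with h
      · rw [Sym2.mk_isDiag_iff] at h
        subst h
        exact (W.2.2 i).symm
      · rfl
    right_inv := fun f => by
      funext z
      obtain ⟨z, hz⟩ := z
      induction z using Sym2.inductionOn with
      | hf i j =>
        simp only [Sym2.lift_mk, Matrix.of_apply]
        rw [dif_neg hz] }
  rw [Nat.card_congr e, Nat.card_eq_fintype_card, Fintype.card_fun, Sym2.card_subtype_not_diag]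

/-- The group of symmetric matrices. -/
def symmSub (F : Type*) [Field F] (ι : Type) : AddSubgroup (Matrix ι ι F) where
  carrier := {W | Wᵀ = W}
  add_mem' {a b} ha hb := by
    show (a + b)ᵀ = a + b
    rw [Matrix.transpose_add, ha, hb]
  zero_mem' := Matrix.transpose_zero
  neg_mem' {a} ha := by
    show (-a)ᵀ = -a
    rw [Matrix.transpose_neg, ha]

theorem mem_symmSub {W : Matrix ι ι F} : W ∈ symmSub F ι ↔ Wᵀ = W := Iff.rfl

theorem card_symmSub : Nat.card (symmSub F ι) = Fintype.card F ^ Nat.choose (Fintype.card ι + 1) 2 := by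
  have h := card_symm_solutions (S := (0 : Matrix ι ι F)) (M₀ := 0) (by simp)
  rw [← h]
  exact Nat.card_congr (Equiv.subtypeEquivRight fun W => by rw [zero_add, transpose_eq_iff, mem_symmSub])

/-- The sum of all entries of a symmetric matrix is its trace. -/
theorem sum_entries {W : Matrix ι ι F} (h : Wᵀ = W) : ∑ i, ∑ j, W i j = ∑ i, W i i := by
  rw [← Fintype.sum_prod_type (f := fun p : ι × ι => W p.1 p.2)]
  rw [← Finset.sum_filter_add_sum_filter_not (s := Finset.univ) (p := fun p : ι × ι => p.1 = p.2)]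
  have h0 : ∑ p ∈ Finset.univ.filter (fun p : ι × ι => ¬p.1 = p.2), W p.1 p.2 = 0 := by
    refine Finset.sum_involution (fun p _ => (p.2, p.1)) (fun p _ => ?_) (fun p hp _ => ?_) (fun p hp => ?_)
      (fun p _ => rfl)
    · rw [show W p.2 p.1 = W p.1 p.2 from congrFun (congrFun h p.1) p.2, CharTwo.add_self_eq_zero]
    · intro he
      exact (Finset.mem_filter.mp hp).2 (congrArg Prod.fst he).symm
    · simp only [Finset.mem_filter, Finset.mem_univ, true_and] at hp ⊢
      exact fun he => hp he.symm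
  rw [h0, add_zero]
  refine Finset.sum_bij (fun p _ => p.1) (fun p _ => Finset.mem_univ _) (fun p hp q hq he => ?_)
    (fun i _ => ⟨(i, i), by simp, rfl⟩) (fun p hp => by rw [(Finset.mem_filter.mp hp).2])
  exact Prod.ext he (by rw [← (Finset.mem_filter.mp hp).2, ← (Finset.mem_filter.mp hq).2]; exact he)

/-- The diagonal plus the squared row sums. -/
def rowMap (W : Matrix ι ι F) (i : ι) : F := W i i + (∑ j, W i j) ^ 2

theorem rowMap_add (W W' : Matrix ι ι F) : rowMap (W + W') = rowMap W + rowMap W' := by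
  funext i
  simp only [rowMap, Matrix.add_apply, Pi.add_apply, Finset.sum_add_distrib, CharTwo.add_sq]
  ring

/-- The values `c² + c`. -/
def IsArf (a : F) : Prop := ∃ c : F, c * c + c = a

theorem IsArf.add {a b : F} (ha : IsArf a) (hb : IsArf b) : IsArf (a + b) := by
  obtain ⟨c, rfl⟩ := ha
  obtain ⟨d, rfl⟩ := hb
  exact ⟨c + d, by rw [CharTwo.add_mul_self]; ring⟩

theorem isArf_sq_add (c : F) : IsArf (c ^ 2 + c) := ⟨c, by ring⟩

theorem isArf_add_iff {a b : F} (hb : IsArf b) : IsArf (a + b) ↔ IsArf a :=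
  ⟨fun h => by simpa [add_assoc, CharTwo.add_self_eq_zero] using h.add hb, fun h => h.add hb⟩

/-- Half of the field consists of values `c² + c`. -/
theorem two_mul_card_isArf : 2 * Nat.card {a : F // IsArf a} = Fintype.card F := by
  classical
  obtain ⟨δ, hδ, hcov⟩ := exists_arf_rep (F := F)
  have e : {a : F // IsArf a} ≃ {a : F // ¬IsArf a} :=
    Equiv.subtypeEquiv (Equiv.addRight δ) fun a => by
      simp only [Equiv.coe_addRight]
      constructor
      · intro ha h
        obtain ⟨c, hc⟩ := h.add ha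
        exact hδ c (by rw [hc, add_comm a δ, add_assoc, CharTwo.add_self_eq_zero, add_zero])
      · exact fun h => (hcov a).resolve_right h
  have h := Nat.card_congr (Equiv.sumCompl (fun a : F => IsArf a))
  rw [Nat.card_sum, ← Nat.card_congr e, Nat.card_eq_fintype_card (α := F)] at h
  omega

theorem isArf_of_rowMap {W : Matrix ι ι F} (h : Wᵀ = W) : IsArf (∑ i, rowMap W i) := by
  simp only [rowMap, Finset.sum_add_distrib]
  rw [← sum_pow_char 2, sum_entries h, add_comm]
  exact isArf_sq_add _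

theorem exists_rowMap (i₀ : ι) (v : ι → F) (h : IsArf (∑ i, v i)) :
    ∃ W : Matrix ι ι F, Wᵀ = W ∧ rowMap W = v := by
  classical
  obtain ⟨c, hc⟩ := h
  set a := ∑ j ∈ Finset.univ.erase i₀, v j with ha
  let W : Matrix ι ι F := Matrix.of fun i j =>
    if i = i₀ then (if j = i₀ then c + a else v j) else if j = i₀ then v i else if i = j then v i else 0
  refine ⟨W, Matrix.ext fun i j => ?_, funext fun i => ?_⟩
  · by_cases hi : i = i₀ <;> by_cases hj : j = i₀ <;> by_cases hij : i = j <;>
      simp_all [W, eq_comm]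
  · rw [rowMap, ← Finset.add_sum_erase _ _ (Finset.mem_univ i₀)]
    by_cases hi : i = i₀
    · subst hi
      have hrow : ∑ j ∈ Finset.univ.erase i, W i j = a :=
        Finset.sum_congr rfl fun j hj => by simp [W, Finset.ne_of_mem_erase hj]
      rw [hrow, show W i i = c + a by simp [W], add_assoc c a a, CharTwo.add_self_eq_zero, add_zero]
      rw [← Finset.add_sum_erase _ _ (Finset.mem_univ i), ← ha] at hc
      linear_combination hc + a * (CharTwo.two_eq_zero : (2 : F) = 0)
    · have hrow : ∑ j ∈ Finset.univ.erase i₀, W i j = v i := by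
        rw [Finset.sum_eq_single i (fun j hj hne => by simp [W, hi, Finset.ne_of_mem_erase hj, Ne.symm hne])
          (by simp [hi])]
        simp [W, hi]
      rw [hrow]
      simp [W, hi, CharTwo.add_self_eq_zero]

/-- The fibres of the affine map `Y ↦ rowMap Y` on the solutions of a symmetrised equation. -/
theorem card_fiber_rowMap (i₀ : ι) {S : Matrix ι ι F} {M₀ : Matrix ι ι F} (h₀ : S + (M₀ + M₀ᵀ) = 0) (v : ι → F)
    [Decidable (IsArf (∑ i, (v i + rowMap M₀ i)))] :
    Nat.card {Y : Matrix ι ι F // S + (Y + Yᵀ) = 0 ∧ ∀ i, rowMap Y i = v i} =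
      if IsArf (∑ i, (v i + rowMap M₀ i)) then 2 * Fintype.card F ^ Nat.choose (Fintype.card ι) 2 else 0 := by
  classical
  set q := Fintype.card F
  let ψ : symmSub F ι →+ (ι → F) := AddMonoidHom.mk' (fun W => rowMap W.1) fun W W' => rowMap_add _ _
  set w : ι → F := fun i => v i + rowMap M₀ i with hw
  have hiff : ∀ Y : Matrix ι ι F, S + (Y + Yᵀ) = 0 ↔ (Y + M₀) ∈ symmSub F ι := fun Y => by
    rw [← h₀, add_right_inj, mem_symmSub, ← transpose_eq_iff, Matrix.transpose_add]
    constructor <;> intro h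
    · rw [show Y + M₀ + (Yᵀ + M₀ᵀ) = (Y + Yᵀ) + (M₀ + M₀ᵀ) by abel, h]
      exact Matrix.ext fun i j => CharTwo.add_self_eq_zero _
    · rw [show Y + M₀ + (Yᵀ + M₀ᵀ) = (Y + Yᵀ) + (M₀ + M₀ᵀ) by abel] at h
      exact Matrix.ext fun i j => CharTwo.add_eq_zero.mp (congrFun (congrFun h i) j)
  have hMM : M₀ + M₀ = 0 := Matrix.ext fun i j => CharTwo.add_self_eq_zero _
  have e : {Y : Matrix ι ι F // S + (Y + Yᵀ) = 0 ∧ ∀ i, rowMap Y i = v i} ≃ {W : symmSub F ι // ψ W = w} :=
  { toFun := fun Y => ⟨⟨Y.1 + M₀, (hiff _).1 Y.2.1⟩, funext fun i => by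
      show rowMap (Y.1 + M₀) i = _
      rw [rowMap_add, Pi.add_apply, Y.2.2]⟩
    invFun := fun W => ⟨W.1.1 + M₀, (hiff _).2 (by rw [add_assoc, hMM, add_zero]; exact W.1.2), fun i => by
      have h1 : rowMap W.1.1 i = w i := congrFun W.2 i
      rw [rowMap_add, Pi.add_apply, h1, hw, add_assoc, CharTwo.add_self_eq_zero, add_zero]⟩
    left_inv := fun Y => Subtype.ext (by simp [add_assoc, hMM])
    right_inv := fun W => Subtype.ext (Subtype.ext (by simp [add_assoc, hMM])) }
  rw [Nat.card_congr e]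
  split_ifs with hA
  · obtain ⟨W₀, hW₀, hW₀v⟩ := exists_rowMap i₀ w hA
    have e' : {W : symmSub F ι // ψ W = w} ≃ ψ.ker :=
      Equiv.subtypeEquiv (Equiv.addRight (⟨W₀, hW₀⟩ : symmSub F ι)) fun W => by
        rw [AddMonoidHom.mem_ker, Equiv.coe_addRight, map_add]
        show ψ W = w ↔ ψ W + rowMap W₀ = 0
        rw [hW₀v]
        exact ⟨fun h => by rw [h]; exact funext fun i => CharTwo.add_self_eq_zero _,
          fun h => funext fun i => CharTwo.add_eq_zero.mp (congrFun h i)⟩
    rw [Nat.card_congr e']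
    have hr : Nat.card ψ.range = q ^ (Fintype.card ι - 1) * Nat.card {a : F // IsArf a} := by
      let sh : (ι → F) ≃ F × ({j // j ≠ i₀} → F) := (Equiv.funSplitAt i₀ F).trans
        { toFun := fun p => (p.1 + ∑ j, p.2 j, p.2)
          invFun := fun p => (p.1 - ∑ j, p.2 j, p.2)
          left_inv := fun p => by simp
          right_inv := fun p => by simp }
      have hsh : ∀ u : ι → F, (sh u).1 = ∑ i, u i := fun u => by
        show u i₀ + ∑ j : {j // j ≠ i₀}, u j = _
        rw [← Finset.add_sum_erase _ _ (Finset.mem_univ i₀)]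
        congr 1
        exact (Finset.sum_subtype (p := fun j => j ≠ i₀) _ (fun j => by simp) u).symm
      have e2 : ψ.range ≃ {p : F × ({j // j ≠ i₀} → F) // IsArf p.1} := Equiv.subtypeEquiv sh fun u => by
        rw [hsh]
        constructor
        · rintro ⟨W, rfl⟩
          exact isArf_of_rowMap W.2
        · intro h
          obtain ⟨W, hW, hWv⟩ := exists_rowMap i₀ u h
          exact ⟨⟨W, hW⟩, hWv⟩
      rw [Nat.card_congr (e2.trans (Equiv.prodSubtypeFstEquivSubtypeProd)), Nat.card_prod,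
        Nat.card_eq_fintype_card (α := {j // j ≠ i₀} → F), Fintype.card_fun, Fintype.card_subtype_compl,
        Fintype.card_subtype_eq, mul_comm]
    have h1 := ψ.ker.card_mul_index
    rw [AddSubgroup.index_ker, hr, card_symmSub, Nat.choose_succ_succ, Nat.choose_one_right, pow_add] at h1
    have hpos : 0 < Fintype.card ι := Fintype.card_pos_iff.2 ⟨i₀⟩
    have h2 := two_mul_card_isArf (F := F)
    have hq : 0 < q ^ (Fintype.card ι - 1) * q := by positivity
    refine Nat.eq_of_mul_eq_mul_right hq ?_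
    have h3 : q ^ Fintype.card ι = q ^ (Fintype.card ι - 1) * q := by
      rw [← pow_succ, Nat.sub_add_cancel hpos]
    calc _ = 2 * (Nat.card ψ.ker * (q ^ (Fintype.card ι - 1) * Nat.card {a : F // IsArf a})) := by
          have h2' : 2 * Nat.card {a : F // IsArf a} = q := h2
          rw [← h2']; ring
      _ = _ := by rw [h1, h3]; ring
  · rw [Nat.card_eq_zero]
    refine Or.inl ⟨fun W => hA ?_⟩
    have h1 := W.2
    show IsArf (∑ i, w i)
    rw [← h1]
    exact isArf_of_rowMap W.1.2

end Matrices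

section Split

variable {F V : Type*} [Field F] [AddCommGroup V] [Module F V] [CharP F 2] [FiniteDimensional F V]
  {Q : QuadraticForm F V} {N : V →ₗ[F] V} {ι : Type} [Fintype ι] [DecidableEq ι] {σ : ι → ι} {x : ι → V}

/-- Isometries of the quadratic form commuting with `N`. -/
abbrev CommQ (Q : QuadraticForm F V) (N : V →ₗ[F] V) :=
  {g : V ≃ₗ[F] V // (∀ v, Q (g v) = Q v) ∧ ∀ v, g (N v) = N (g v)}

/-- The values on the support. -/
theorem quad_lin (hN : IsQuadNil Q N) (hσ : Function.Involutive σ) (hx : Adapted (polarBilin Q) N σ x)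
    (c : ι ⊕ ι → F) : Q (lin N x c) = (∑ k, c (Sum.inl k) * c (Sum.inl k) * Q (x k)) +
      (∑ k, if σ k = k then c (Sum.inr k) * c (Sum.inr k) else 0) + ∑ k, c (Sum.inl k) * c (Sum.inr (σ k)) := by
  rw [lin_apply, map_add_polar,
    map_sum_orth Q _ _ (fun i _ j _ => by simp only [map_smul, LinearMap.smul_apply, hx.orth, smul_zero]),
    map_sum_orth Q _ _ (fun i _ j _ => by
      simp only [map_smul, LinearMap.smul_apply, hN.toIsNilSelf.isotropic, smul_zero])]
  congr 1
  · congr 1
    · simp only [map_smul_sq]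
    · simp only [map_smul_sq, hx.value_map hN, mul_ite, mul_one, mul_zero]
  · simp only [map_sum, map_smul, LinearMap.sum_apply, LinearMap.smul_apply, hx.pair, smul_eq_mul, mul_ite, mul_one,
      mul_zero]
    simp only [Finset.mul_sum]
    rw [Finset.sum_comm]
    simp [mul_comm]

theorem quad_split (hN : IsQuadNil Q N) (hσ : Function.Involutive σ) (hx : Adapted (polarBilin Q) N σ x)
    (c : ι ⊕ ι → F) (p : suppOrth (polarBilin Q) N x) :
    Q (split hN.toIsNilSelf hσ hx (c, p)) = Q (lin N x c) + Q (p : V) := by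
  rw [split_apply, map_add_polar, bilin_lin_orth p.2, add_zero]

/-- The form on the complement of the support. -/
noncomputable abbrev suppForm (Q : QuadraticForm F V) (N : V →ₗ[F] V) (x : ι → V) :
    QuadraticForm F (suppOrth (polarBilin Q) N x) :=
  Q.comp (suppOrth (polarBilin Q) N x).subtype

theorem card_stab (hQ : (polarBilin Q).Nondegenerate) (hN : IsQuadNil Q N) (hσ : Function.Involutive σ)
    (hx : Adapted (polarBilin Q) N σ x) :
    Nat.card {g : CommQ Q N // ∀ i, g.1 (x i) = x i} = Nat.card (orth (suppForm Q N x)) := by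
  set B := polarBilin Q with hB
  have hA : B.IsAlt := polarBilin_isAlt Q
  let E := stabEquiv hQ hA hN.toIsNilSelf hσ hx
  have hE : ∀ g (p : suppOrth B N x), ((E g).1 p : V) = g.1.1 (p : V) := fun g p => rfl
  let e1 : {g : CommQ Q N // ∀ i, g.1 (x i) = x i} ≃
      {g : {g : CommIsom B N // ∀ i, g.1 (x i) = x i} // ∀ v, Q (g.1.1 v) = Q v} :=
  { toFun := fun g => ⟨⟨⟨g.1.1, polar_eq_of_isometry (T := g.1.1.toLinearMap) g.1.2.1, g.1.2.2⟩, g.2⟩, g.1.2.1⟩
    invFun := fun g => ⟨⟨g.1.1.1, g.2, g.1.1.2.2⟩, g.1.2⟩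
    left_inv := fun g => rfl
    right_inv := fun g => rfl }
  let e2 : {g : {g : CommIsom B N // ∀ i, g.1 (x i) = x i} // ∀ v, Q (g.1.1 v) = Q v} ≃
      {h : SubIsom B (suppOrth B N x) // ∀ p, Q (h.1 p : V) = Q (p : V)} :=
    Equiv.subtypeEquiv E fun g => by
      refine ⟨fun h p => by rw [hE]; exact h _, fun h v => ?_⟩
      obtain ⟨⟨c, p⟩, rfl⟩ := (split hN.toIsNilSelf hσ hx).surjective v
      have hc : g.1.1 (lin N x c) = lin N x c := by simp [lin_apply, g.1.2.2, g.2]
      have h1 : g.1.1 (split hN.toIsNilSelf hσ hx (c, p)) = split hN.toIsNilSelf hσ hx (c, (E g).1 p) := by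
        rw [split_apply, split_apply, map_add, hc, hE]
      rw [h1, quad_split hN hσ hx, quad_split hN hσ hx, h]
  let e3 : {h : SubIsom B (suppOrth B N x) // ∀ p, Q (h.1 p : V) = Q (p : V)} ≃ orth (suppForm Q N x) :=
  { toFun := fun h => ⟨h.1.1, h.2⟩
    invFun := fun h => ⟨⟨h.1, fun u v =>
      polar_eq_of_isometry (Q := suppForm Q N x) (Q' := suppForm Q N x) (T := h.1.toLinearMap) h.2 u v⟩, h.2⟩
    left_inv := fun h => rfl
    right_inv := fun h => rfl }
  exact Nat.card_congr ((e1.trans e2).trans e3)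

/-- The commuting isometries are counted by adapted families with the same values. -/
theorem card_commQ (hQ : (polarBilin Q).Nondegenerate) (hN : IsQuadNil Q N) (hσ : Function.Involutive σ)
    (hx : Adapted (polarBilin Q) N σ x) :
    Nat.card (CommQ Q N) =
      Nat.card {x' : ι → V // Adapted (polarBilin Q) N σ x' ∧ ∀ i, Q (x' i) = Q (x i)} *
        Nat.card (orth (suppForm Q N x)) := by
  classical
  have hA := polarBilin_isAlt Q
  let Fam := {x' : ι → V // Adapted (polarBilin Q) N σ x' ∧ ∀ i, Q (x' i) = Q (x i)}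
  have hex : ∀ x' : Fam, ∃ g : CommQ Q N, ∀ i, g.1 (x i) = x'.1 i := by
    rintro ⟨x', hx', hq⟩
    let e := LinearEquiv.ofInjective (lin N x) (hx.lin_injective hN.toIsNilSelf hσ)
    obtain ⟨g, hg, hgx⟩ := CfsgLib.Forms.witt_extension_quadratic Q hQ (LinearMap.range (lin N x))
      ((lin N x').comp e.symm.toLinearMap) ((hx'.lin_injective hN.toIsNilSelf hσ).comp e.symm.injective)
      (fun u => by
        obtain ⟨a, rfl⟩ := e.surjective u
        show Q (lin N x' (e.symm (e a))) = Q (lin N x a)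
        rw [e.symm_apply_apply, hx.quad_lin_eq hN hσ hN hx' fun i => (hq i).symm])
    have hgl : ∀ c, g (lin N x c) = lin N x' c := fun c =>
      (hgx (e c)).trans (congrArg (lin N x') (e.symm_apply_apply c))
    refine ⟨⟨g, hg, hx.intertwine hQ hA hN.toIsNilSelf hσ hN.toIsNilSelf hx' g
      (polar_eq_of_isometry (T := g.toLinearMap) hg) hgl⟩, fun i => ?_⟩
    have := hgl (Sum.elim (Pi.single i 1) 0)
    simpa [lin_apply, Pi.single_apply] using this
  choose t ht using hex
  have hmap : ∀ g : CommQ Q N, Adapted (polarBilin Q) N σ (fun i => g.1 (x i)) ∧ ∀ i, Q (g.1 (x i)) = Q (x i) :=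
    fun g => by
    have hB := polar_eq_of_isometry (Q := Q) (Q' := Q) (T := g.1.toLinearMap) g.2.1
    refine ⟨⟨fun i j => (hB _ _).trans (hx.orth i j), fun i j => ?_, hx.card⟩, fun i => g.2.1 _⟩
    show polarBilin Q (g.1 (x i)) (N (g.1 (x j))) = _
    rw [← g.2.2]
    exact (hB _ _).trans (hx.pair i j)
  rw [← card_stab hQ hN hσ hx, ← Nat.card_prod]
  refine Nat.card_congr
    { toFun := fun g => (⟨_, hmap g⟩, ⟨⟨g.1.trans (t ⟨_, hmap g⟩).1.symm, ?_, ?_⟩, fun i => ?_⟩)
      invFun := fun q => ⟨q.2.1.1.trans (t q.1).1, ?_, ?_⟩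
      left_inv := fun g => ?_
      right_inv := fun q => ?_ }
  · intro v
    rw [LinearEquiv.trans_apply, ← (t ⟨_, hmap g⟩).2.1, LinearEquiv.apply_symm_apply, g.2.1]
  · intro v
    rw [LinearEquiv.trans_apply, LinearEquiv.trans_apply, LinearEquiv.symm_apply_eq, (t ⟨_, hmap g⟩).2.2,
      LinearEquiv.apply_symm_apply, g.2.2]
  · rw [LinearEquiv.trans_apply, LinearEquiv.symm_apply_eq, ht]
  · intro v
    rw [LinearEquiv.trans_apply, (t q.1).2.1, q.2.1.2.1]
  · intro v
    rw [LinearEquiv.trans_apply, LinearEquiv.trans_apply, q.2.1.2.2, (t q.1).2.2]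
  · apply Subtype.ext
    refine LinearEquiv.ext fun v => ?_
    simp
  · obtain ⟨x', g⟩ := q
    have h1 : (fun i => (g.1.1.trans (t x').1) (x i)) = x'.1 := funext fun i => by
      rw [LinearEquiv.trans_apply, g.2, ht]
    refine Prod.ext (Subtype.ext h1) ?_
    apply Subtype.ext; apply Subtype.ext
    refine LinearEquiv.ext fun v => ?_
    simp only [LinearEquiv.trans_apply, LinearEquiv.symm_apply_eq]
    congr 3
    exact Subtype.ext h1.symm

/-- The matrix of the polar form on a family. -/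
def gram (Q : QuadraticForm F V) (p : ι → V) : Matrix ι ι F := Matrix.of fun i j => polarBilin Q (p i) (p j)

/-- The values of the family with given coordinates. -/
def famVal (Q : QuadraticForm F V) (σ : ι → ι) (x : ι → V) (A : Matrix ι ι F) (p : ι → V) (Y : Matrix ι ι F)
    (i : ι) : F :=
  Q (p i) + (∑ k, A i k * A i k * Q (x k)) + Y i i +
    ∑ k, if σ k = k then (Y * (pairMat F σ * A)) i k * (Y * (pairMat F σ * A)) i k else 0

theorem pairMat_mul_self (hσ : Function.Involutive σ) : pairMat F σ * pairMat F σ = 1 := by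
  ext i j
  rw [Matrix.mul_apply]
  simp only [pairMat, Matrix.of_apply, ite_mul, one_mul, zero_mul, Finset.sum_ite_eq, Finset.mem_univ,
    if_true, hσ i, Matrix.one_apply]

/-- The parameters of an adapted family with the values of `x`. -/
abbrev Param (Q : QuadraticForm F V) (N : V →ₗ[F] V) (σ : ι → ι) (x : ι → V) :=
  Σ A : {A : Matrix ι ι F // A * pairMat F σ * Aᵀ = pairMat F σ}, Σ p : ι → suppOrth (polarBilin Q) N x,
    {Y : Matrix ι ι F // gram Q (fun i => (p i : V)) + (Y + Yᵀ) = 0 ∧
      ∀ i, famVal Q σ x A.1 (fun i => (p i : V)) Y i = Q (x i)}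

theorem card_fam (hQ : (polarBilin Q).Nondegenerate) (hN : IsQuadNil Q N) (hσ : Function.Involutive σ)
    (hx : Adapted (polarBilin Q) N σ x) :
    Nat.card {x' : ι → V // Adapted (polarBilin Q) N σ x' ∧ ∀ i, Q (x' i) = Q (x i)} =
      Nat.card (Param Q N σ x) := by
  classical
  set J := pairMat F σ with hJ
  set B := polarBilin Q with hB
  have hA : B.IsAlt := polarBilin_isAlt Q
  have hJJ : J * J = 1 := pairMat_mul_self hσ
  have hJT : Jᵀ = J := by
    ext i j
    simp only [hJ, pairMat, Matrix.transpose_apply, Matrix.of_apply]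
    congr 1
    exact propext ⟨fun h => by rw [← h, hσ], fun h => by rw [← h, hσ]⟩
  let P := suppOrth B N x
  let S := split hN.toIsNilSelf hσ hx
  let mk : Matrix ι ι F → Matrix ι ι F → (ι → P) → ι → V := fun A M p i => S (Sum.elim (A i) (M i), p i)
  have hlin : ∀ c : ι ⊕ ι → F, ∀ d : ι ⊕ ι → F, B (lin N x c) (lin N x d) =
      (c ∘ Sum.inl) ⬝ᵥ (J *ᵥ (d ∘ Sum.inr)) + (c ∘ Sum.inr) ⬝ᵥ (J *ᵥ (d ∘ Sum.inl)) := fun c d => by
    rw [hx.bilin_lin hN.toIsNilSelf hσ]
    simp [hJ, pairMat, Matrix.mulVec, dotProduct]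
  have hdot : ∀ (A A' : Matrix ι ι F) i j, A i ⬝ᵥ (J *ᵥ A' j) = (A * J * A'ᵀ) i j := fun A A' i j => by
    rw [Matrix.dotProduct_mulVec]; rfl
  have hpair : ∀ A M p i j, B (mk A M p i) (N (mk A M p j)) = (A * J * Aᵀ) i j := fun A M p i j => by
    show B (S _) (N (S _)) = _
    rw [show N (S (Sum.elim (A j) (M j), p j)) = S (Sum.elim 0 (A j), 0) by
      rw [split_apply, split_apply, map_add, map_suppOrth hQ hA hN.toIsNilSelf hσ hx (p j).2, add_zero,
        map_lin hN.sq]
      simp, bilin_split hA, hlin]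
    simp [hdot]
  have hT : ∀ A M : Matrix ι ι F, ∀ i j, (M * J * Aᵀ) j i = (A * J * Mᵀ) i j := fun A M i j => by
    have hT : (M * J * Aᵀ)ᵀ = A * J * Mᵀ := by simp [Matrix.transpose_mul, hJT, Matrix.mul_assoc]
    exact congrFun (congrFun hT i) j
  have horth : ∀ A M p i j, B (mk A M p i) (mk A M p j) =
      B (p i : V) (p j : V) + ((M * J * Aᵀ) i j + (M * J * Aᵀ) j i) := fun A M p i j => by
    show B (S _) (S _) = _
    rw [bilin_split hA, hlin, hT A M i j]
    simp only [Sum.elim_comp_inl, Sum.elim_comp_inr, hdot]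
    ring
  have hval : ∀ A M p i, Q (mk A M p i) = Q (p i : V) + (∑ k, A i k * A i k * Q (x k)) + (M * J * Aᵀ) i i +
      ∑ k, if σ k = k then M i k * M i k else 0 := fun A M p i => by
    show Q (S _) = _
    rw [quad_split hN hσ hx, quad_lin hN hσ hx, hT]
    simp only [Sum.elim_inl, Sum.elim_inr]
    rw [show ∑ k, A i k * M i (σ k) = (A * J * Mᵀ) i i by
      rw [← hdot]; simp [hJ, pairMat, Matrix.mulVec, dotProduct]]
    ring
  have hinv : ∀ A : Matrix ι ι F, A * J * Aᵀ = J → J * Aᵀ * (J * A) = 1 := fun A h => by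
    rw [mul_eq_one_comm, Matrix.mul_assoc, ← Matrix.mul_assoc A, h, hJJ]
  have hYM : ∀ A Y : Matrix ι ι F, A * J * Aᵀ = J → Y * (J * A) * J * Aᵀ = Y := fun A Y h => by
    rw [Matrix.mul_assoc _ J, Matrix.mul_assoc Y, mul_eq_one_comm.1 (hinv _ h), Matrix.mul_one]
  refine (Nat.card_congr (Equiv.ofBijective (fun q : Param Q N σ x =>
    (⟨mk q.1.1 (q.2.2.1 * (J * q.1.1)) q.2.1, ⟨fun i j => ?_, fun i j => ?_, hx.card⟩, fun i => ?_⟩ :
      {x' : ι → V // Adapted (polarBilin Q) N σ x' ∧ ∀ i, Q (x' i) = Q (x i)})) ⟨?_, ?_⟩)).symm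
  · rw [horth, hYM _ _ q.1.2]
    exact congrFun (congrFun q.2.2.2.1 i) j
  · rw [hpair, q.1.2]; simp [hJ, pairMat]
  · rw [hval, hYM _ _ q.1.2]
    exact q.2.2.2.2 i
  · rintro ⟨⟨A, hA'⟩, p, Y, hY⟩ ⟨⟨A', hA''⟩, p', Y', hY'⟩ h
    have h1 : ∀ i, (Sum.elim (A i) ((Y * (J * A)) i), p i) = (Sum.elim (A' i) ((Y' * (J * A')) i), p' i) :=
      fun i => S.injective (congrFun (congrArg Subtype.val h) i)
    obtain rfl : A = A' := Matrix.ext fun i j => congrFun (congrArg Prod.fst (h1 i)) (Sum.inl j)
    obtain rfl : p = p' := funext fun i => congrArg Prod.snd (h1 i)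
    have hM : Y * (J * A) = Y' * (J * A) :=
      Matrix.ext fun i j => congrFun (congrArg Prod.fst (h1 i)) (Sum.inr j)
    have h2 := congrArg (· * (J * Aᵀ)) hM
    simp only [Matrix.mul_assoc Y, Matrix.mul_assoc Y', mul_eq_one_comm.1 (hinv A hA'), Matrix.mul_one] at h2
    obtain rfl : Y = Y' := h2
    rfl
  · rintro ⟨x', hx', hq⟩
    let cp := fun i => S.symm (x' i)
    let A : Matrix ι ι F := Matrix.of fun i j => (cp i).1 (Sum.inl j)
    let M : Matrix ι ι F := Matrix.of fun i j => (cp i).1 (Sum.inr j)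
    have hxe : mk A M (fun i => (cp i).2) = x' := funext fun i => by
      show S (Sum.elim (A i) (M i), (cp i).2) = x' i
      have : Sum.elim (A i) (M i) = (cp i).1 := funext fun k => by cases k <;> rfl
      rw [this]
      exact S.apply_symm_apply (x' i)
    have hA' : A * J * Aᵀ = J := Matrix.ext fun i j => by
      rw [← hpair A M (fun i => (cp i).2), hxe, hx'.pair]; simp [hJ, pairMat]
    have hY : gram Q (fun i => ((cp i).2 : V)) + (M * J * Aᵀ + (M * J * Aᵀ)ᵀ) = 0 :=
      Matrix.ext fun i j => by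
        have h2 := horth A M (fun i => (cp i).2) i j
        rw [hxe, hx'.orth] at h2
        simpa only [gram, Matrix.add_apply, Matrix.of_apply, Matrix.transpose_apply, Matrix.zero_apply] using h2.symm
    have hMM : M * J * Aᵀ * (J * A) = M := by
      rw [Matrix.mul_assoc M J, Matrix.mul_assoc M, hinv A hA', Matrix.mul_one]
    have hV : ∀ i, famVal Q σ x A (fun i => ((cp i).2 : V)) (M * J * Aᵀ) i = Q (x i) := fun i => by
      rw [famVal, ← hJ, hMM, ← hq i]
      exact ((hval A M (fun i => (cp i).2) i).symm).trans (by rw [hxe])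
    refine ⟨⟨⟨A, hA'⟩, fun i => (cp i).2, ⟨M * J * Aᵀ, hY, hV⟩⟩, Subtype.ext ?_⟩
    show mk A (M * J * Aᵀ * (J * A)) (fun i => (cp i).2) = x'
    rw [hMM]; exact hxe

end Split

end CfsgLib.Derangements.OrthInv
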