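import Mathlib
import Cfsg.Agent.Lib.Derangements.OrthInvCentralizerCount
import Cfsg.Agent.Lib.Classes.OrthonormalCount
import Cfsg.Agent.Lib.Classes.InvolutionOrth
import Cfsg.Agent.Lib.Classes.HyperLevi
import Cfsg.Agent.Lib.ClassicalLinear.SympCard

/-!
Orders of centralisers of involutions in orthogonal groups of plus type in characteristic two
(Aschbacher–Seitz).
-/

set_option autoImplicit false
set_option linter.unusedSectionVars false
set_option linter.unusedVariables false
set_option linter.style.haveILetI false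

namespace CfsgLib.Derangements.OrthInv

open Module QuadraticMap CfsgLib.Classes.InvTwo CfsgLib.ClassicalForms CfsgLib.Derangements.OrthType
open scoped Matrix

section Counts

variable {F V : Type*} [Field F] [Fintype F] [AddCommGroup V] [Module F V] [CharP F 2] [FiniteDimensional F V]
  {Q : QuadraticForm F V} {N : V →ₗ[F] V} {ι : Type} [Fintype ι] [DecidableEq ι] {σ : ι → ι} {x : ι → V}

theorem finrank_suppOrth (hN : IsQuadNil Q N) (hσ : Function.Involutive σ) (hx : Adapted (polarBilin Q) N σ x)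
    {d : ℕ} (hd : finrank F V = 2 * Fintype.card ι + 2 * d) :
    finrank F (suppOrth (polarBilin Q) N x) = 2 * d := by
  have := (split hN.toIsNilSelf hσ hx).finrank_eq
  rw [finrank_prod, finrank_fintype_fun_eq_card, Fintype.card_sum, hd] at this
  omega

theorem suppForm_nondeg (hQ : (polarBilin Q).Nondegenerate) (hN : IsQuadNil Q N) (hσ : Function.Involutive σ)
    (hx : Adapted (polarBilin Q) N σ x) : (polarBilin (suppForm Q N x)).Nondegenerate := by
  have hA := polarBilin_isAlt Q
  have hP : ∀ p r : suppOrth (polarBilin Q) N x,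
      polarBilin (suppForm Q N x) p r = polarBilin Q (p : V) (r : V) := fun p r => by
    simp [QuadraticMap.polar]
  have key : ∀ p : suppOrth (polarBilin Q) N x,
      (∀ r : suppOrth (polarBilin Q) N x, polarBilin Q (p : V) (r : V) = 0) → p = 0 := fun p h =>
    Subtype.ext <| hQ.1 _ fun v => by
      obtain ⟨⟨c, r⟩, rfl⟩ := (split hN.toIsNilSelf hσ hx).surjective v
      rw [split_apply, map_add, symm_of_alt hA (p : V) (lin N x c), bilin_lin_orth p.2, h r, add_zero]
  exact ⟨fun p h => key p fun r => (hP p r).symm.trans (h r),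
    fun p h => key p fun r => (symm_of_alt hA _ _).trans ((hP r p).symm.trans (h r))⟩

/-- The form on the support is hyperbolic when all values vanish. -/
theorem hasDisc_supp (hN : IsQuadNil Q N) (hσ : Function.Involutive σ) (hx : Adapted (polarBilin Q) N σ x)
    (hq : ∀ i, Q (x i) = 0) :
    HasDisc (Q.comp (lin N x)) ((Nat.card F : ℤ) ^ Fintype.card ι) := by
  classical
  let e := Fintype.equivFin ι
  let L : (Fin (Fintype.card ι) ⊕ Fin (Fintype.card ι) → F) →ₗ[F] (ι ⊕ ι → F) :=
  { toFun := fun w => Sum.elim (fun i => w (.inl (e i)) + if σ i = i then w (.inr (e i)) else 0)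
      (fun i => w (.inr (e (σ i))))
    map_add' := fun u v => funext fun k => by
      rcases k with i | i <;> simp only [Sum.elim_inl, Sum.elim_inr, Pi.add_apply] <;> split_ifs <;> ring
    map_smul' := fun t v => funext fun k => by
      rcases k with i | i <;>
        simp only [Sum.elim_inl, Sum.elim_inr, Pi.smul_apply, smul_eq_mul, RingHom.id_apply] <;>
        split_ifs <;> ring }
  have hinj : Function.Injective L := (injective_iff_map_eq_zero L).2 fun w hw => by
    have h2 : ∀ i, w (.inr (e i)) = 0 := fun i => by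
      have h := congrFun hw (.inr (σ i))
      simpa [L, hσ i] using h
    funext k
    rcases k with k | k
    · obtain ⟨i, rfl⟩ := e.surjective k
      have h := congrFun hw (.inl i)
      simpa [L, h2 i] using h
    · simpa using h2 (e.symm k)
  let E := LinearEquiv.ofInjectiveOfFinrankEq L hinj (by simp [finrank_fintype_fun_eq_card])
  refine (hasDisc_qPlus (F := F) (Fintype.card ι)).congr E fun w => ?_
  show Q (lin N x (L w)) = _
  rw [quad_lin hN hσ hx]
  simp only [hq, mul_zero, Finset.sum_const_zero, zero_add, L, LinearMap.coe_mk, AddHom.coe_mk, Sum.elim_inl,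
    Sum.elim_inr]
  rw [qPlus_apply, Cfsg.quadFormPlus, ← Finset.sum_add_distrib,
    ← e.sum_comp (fun i => w (.inl i) * w (.inr i))]
  refine Finset.sum_congr rfl fun i _ => ?_
  by_cases h : σ i = i
  · simp only [h, if_true]
    rw [add_mul, ← add_assoc, add_comm (w _ * w _) _, add_assoc, CharTwo.add_self_eq_zero, add_zero]
  · simp only [h, if_false, hσ i, zero_add, add_zero]

/-- The complement of the support has plus type. -/
theorem hasDisc_suppForm (hQ : (polarBilin Q).Nondegenerate) (hN : IsQuadNil Q N) (hσ : Function.Involutive σ)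
    (hx : Adapted (polarBilin Q) N σ x) {d : ℕ} (hd : finrank F V = 2 * Fintype.card ι + 2 * d)
    (hD : HasDisc Q ((Nat.card F : ℤ) ^ (Fintype.card ι + d))) (hq : d = 0 ∨ ∀ i, Q (x i) = 0) :
    HasDisc (suppForm Q N x) ((Nat.card F : ℤ) ^ d) := by
  have hdim := finrank_suppOrth hN hσ hx hd
  rcases exists_hasDisc hdim _ (suppForm_nondeg hQ hN hσ hx) with h | h
  · exact h
  rcases hq with rfl | hq
  · intro a ha
    haveI : Subsingleton (suppOrth (polarBilin Q) N x) := Module.finrank_zero_iff.1 (by rw [hdim])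
    have h0 : nval (suppForm Q N x) 0 = 1 :=
      Nat.card_eq_one_iff_unique.2
        ⟨⟨fun p r => Subtype.ext (Subsingleton.elim _ _)⟩, ⟨⟨0, QuadraticMap.map_zero _⟩⟩⟩
    have h1 : nval (suppForm Q N x) a = 0 := Nat.card_eq_zero.2 (Or.inl ⟨fun p => ha (by
      rw [← p.2, Subsingleton.elim p.1 0, QuadraticMap.map_zero])⟩)
    simp [h0, h1]
  exfalso
  haveI : Finite V := Module.finite_of_finite F
  have h2 : HasDisc Q (((Nat.card F : ℤ) ^ Fintype.card ι) * -(Nat.card F : ℤ) ^ d) :=
    ((hasDisc_supp hN hσ hx hq).prod h).congr (split hN.toIsNilSelf hσ hx) fun z => by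
      obtain ⟨c, p⟩ := z
      rw [quad_split hN hσ hx]
      rfl
  have h3 := hD.unique h2
  rw [pow_add] at h3
  have : (0 : ℤ) < (Nat.card F : ℤ) ^ Fintype.card ι * (Nat.card F : ℤ) ^ d :=
    mul_pos (pow_pos (by exact_mod_cast Nat.card_pos) _) (pow_pos (by exact_mod_cast Nat.card_pos) _)
  linarith

theorem card_orth_suppForm (hQ : (polarBilin Q).Nondegenerate) (hN : IsQuadNil Q N) (hσ : Function.Involutive σ)
    (hx : Adapted (polarBilin Q) N σ x) {d : ℕ} (hd : finrank F V = 2 * Fintype.card ι + 2 * d)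
    (hP : HasDisc (suppForm Q N x) ((Nat.card F : ℤ) ^ d)) :
    Nat.card (orth (suppForm Q N x)) = Nat.card (orth (qPlus d F)) := by
  obtain ⟨E, hE⟩ := exists_isometry (finrank_suppOrth hN hσ hx hd)
    (by simp [finrank_fintype_fun_eq_card, two_mul]) (suppForm_nondeg hQ hN hσ hx)
    (nondeg_iff_polarBilin.2 (nondeg_qPlus d)) hP (hasDisc_qPlus d)
  exact Nat.card_congr (orthCongr E hE).toEquiv

theorem natCard_suppOrth (hN : IsQuadNil Q N) (hσ : Function.Involutive σ) (hx : Adapted (polarBilin Q) N σ x)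
    {d : ℕ} (hd : finrank F V = 2 * Fintype.card ι + 2 * d) :
    Nat.card (suppOrth (polarBilin Q) N x) = Fintype.card F ^ (2 * d) := by
  rw [Module.natCard_eq_pow_finrank (K := F), finrank_suppOrth hN hσ hx hd, Nat.card_eq_fintype_card]

/-- The vectors whose value has the form `c² + c`. -/
theorem two_mul_card_arf_values {W : Type*} [AddCommGroup W] [Module F W] [Finite W] {R : QuadraticForm F W} {D : ℤ}
    (h : HasDisc R D) : 2 * (Nat.card {w : W // IsArf (R w)} : ℤ) = Nat.card W + D := by
  classical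
  have key : ∀ (p : F → Prop) [DecidablePred p],
      Nat.card {w : W // p (R w)} = ∑ t ∈ Finset.univ.filter p, nval R t := fun p _ => by
    let e : {w : W // p (R w)} ≃ Σ t : {t : F // p t}, {w : W // R w = t} :=
    { toFun := fun w => ⟨⟨R w.1, w.2⟩, ⟨w.1, rfl⟩⟩
      invFun := fun s => ⟨s.2.1, by rw [s.2.2]; exact s.1.2⟩
      left_inv := fun w => rfl
      right_inv := by
        rintro ⟨⟨t, ht⟩, ⟨w, hw⟩⟩
        dsimp only at hw
        subst hw
        rfl }
    rw [Nat.card_congr e, Nat.card_sigma]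
    exact (Finset.sum_subtype (p := p) _ (fun t => by simp) (fun t => nval R t)).symm
  have hval : ∀ t : F, (nval R t : ℤ) = ((nval R 0 : ℤ) - D) + if t = 0 then D else 0 := fun t => by
    split_ifs with ht
    · subst ht; ring
    · linear_combination -(h t ht)
  have hsum : ∀ s : Finset F, (0 : F) ∈ s →
      ((∑ t ∈ s, nval R t : ℕ) : ℤ) = s.card * ((nval R 0 : ℤ) - D) + D := fun s hs => by
    rw [Nat.cast_sum, Finset.sum_congr rfl fun t _ => hval t, Finset.sum_add_distrib, Finset.sum_const,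
      Finset.sum_ite_eq', if_pos hs, nsmul_eq_mul]
  have htot : (Nat.card W : ℤ) = Fintype.card F * ((nval R 0 : ℤ) - D) + D := by
    have h1 := key (fun _ => True)
    rw [Nat.card_congr (Equiv.subtypeUnivEquiv fun _ => trivial)] at h1
    rw [h1, hsum _ (by simp)]
    simp
  rw [key IsArf, hsum _ (by simp only [Finset.mem_filter, Finset.mem_univ, true_and]; exact ⟨0, by ring⟩), htot]
  have hc : 2 * (Finset.univ.filter (IsArf : F → Prop)).card = Fintype.card F := by
    rw [← two_mul_card_isArf (F := F), Nat.card_eq_fintype_card, Fintype.card_subtype]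
  rw [← hc]
  push_cast
  ring

theorem gram_isAlt_zero (p : ι → V) : ∃ M : Matrix ι ι F, gram Q p + (M + Mᵀ) = 0 := by
  obtain ⟨M, -, hM⟩ := exists_correction (x := p) (polarBilin_isAlt Q) 0
  exact ⟨Matrix.of M, Matrix.ext fun i j => by simpa [gram] using hM i j⟩

/-- The value at the sum of a family. -/
theorem quad_sum {p : ι → V} {Y : Matrix ι ι F} (hY : gram Q p + (Y + Yᵀ) = 0) (s : Finset ι) :
    Q (∑ i ∈ s, p i) = (∑ i ∈ s, Q (p i)) + (∑ i ∈ s, Y i i) + ∑ i ∈ s, ∑ j ∈ s, Y i j := by
  induction s using Finset.induction_on with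
  | empty => simp
  | insert a s ha ih =>
    have h2 : (2 : F) = 0 := CharTwo.two_eq_zero
    rw [Finset.sum_insert ha, map_add_polar, ih, map_sum]
    have hB : ∀ j, polarBilin Q (p a) (p j) = Y a j + Y j a := fun j => by
      have h := congrFun (congrFun hY a) j
      simp only [gram, Matrix.add_apply, Matrix.of_apply, Matrix.transpose_apply, Matrix.zero_apply] at h
      exact CharTwo.add_eq_zero.mp h
    simp only [hB, Finset.sum_insert ha, Finset.sum_add_distrib]
    linear_combination -(Y a a) * h2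

/-- The count of adapted families with vanishing values in the alternating case. -/
theorem card_fam_alt (hQ : (polarBilin Q).Nondegenerate) (hN : IsQuadNil Q N) (hσ : Function.Involutive σ)
    (hfix : ∀ i, σ i ≠ i) (hx : Adapted (polarBilin Q) N σ x) (hq : ∀ i, Q (x i) = 0) :
    Nat.card {x' : ι → V // Adapted (polarBilin Q) N σ x' ∧ ∀ i, Q (x' i) = Q (x i)} =
      Nat.card {A : Matrix ι ι F // A * pairMat F σ * Aᵀ = pairMat F σ} *
        (Nat.card (suppOrth (polarBilin Q) N x) ^ Fintype.card ι *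
          Fintype.card F ^ Nat.choose (Fintype.card ι) 2) := by
  classical
  haveI : Finite V := Module.finite_of_finite F
  haveI := Fintype.ofFinite (suppOrth (polarBilin Q) N x)
  rw [card_fam hQ hN hσ hx, Param]
  have hfib : ∀ (A : Matrix ι ι F) (p : ι → V),
      Nat.card {Y : Matrix ι ι F // gram Q p + (Y + Yᵀ) = 0 ∧ ∀ i, famVal Q σ x A p Y i = Q (x i)} =
        Fintype.card F ^ Nat.choose (Fintype.card ι) 2 := fun A p => by
    obtain ⟨M, hMd, hM⟩ := exists_correction (x := p) (polarBilin_isAlt Q) fun i => Q (p i)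
    have hfv : ∀ Y i, famVal Q σ x A p Y i = Q (p i) + Y i i := fun Y i => by
      simp [famVal, hq, hfix]
    rw [← card_symm_zeroDiag]
    have hMM : Matrix.of M + Matrix.of M = 0 := Matrix.ext fun i j => CharTwo.add_self_eq_zero _
    have hM' : gram Q p + (Matrix.of M + (Matrix.of M)ᵀ) = 0 := Matrix.ext fun i j => by simpa [gram] using hM i j
    refine Nat.card_congr (Equiv.subtypeEquiv (Equiv.addRight (Matrix.of M)) fun Y => ?_)
    simp only [Equiv.coe_addRight, hfv, hq]
    rw [← transpose_eq_iff]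
    refine and_congr ?_ (forall_congr' fun i => ?_)
    · constructor <;> intro h <;> ext i j <;>
        have e1 := congrFun (congrFun h i) j <;>
        have e2 := congrFun (congrFun hM' i) j <;>
        simp only [Matrix.add_apply, Matrix.transpose_apply, Matrix.zero_apply, gram, Matrix.of_apply] at e1 e2 ⊢
      · linear_combination e1 + e2 - polarBilin Q (p i) (p j) * (CharTwo.two_eq_zero : (2 : F) = 0)
      · linear_combination e1 + e2 - (M i j + M j i) * (CharTwo.two_eq_zero : (2 : F) = 0)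
    · show Q (p i) + Y i i = 0 ↔ Y i i + M i i = 0
      rw [hMd, add_comm]
  simp only [Nat.card_sigma, hfib, Finset.sum_const, Finset.card_univ, smul_eq_mul, Fintype.card_fun]
  rw [Nat.card_eq_fintype_card, Nat.card_eq_fintype_card (α := suppOrth (polarBilin Q) N x)]

/-- Rows and columns of an orthogonal matrix. -/
theorem ortho_sums {A : Matrix ι ι F} (hA : A * Aᵀ = 1) :
    (∀ j, ∑ k, A j k = 1) ∧ ∀ k, ∑ j, A j k * A j k = 1 := by
  refine ⟨fun j => ?_, fun k => ?_⟩
  · have h := congrFun (congrFun hA j) j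
    simp only [Matrix.mul_apply, Matrix.transpose_apply, Matrix.one_apply_eq] at h
    have h1 : (∑ k, A j k) * (∑ k, A j k) = 1 := by
      rw [← _root_.sq, sum_pow_char 2]; simpa [_root_.sq] using h
    rw [mul_self_eq_one_iff, CharTwo.neg_eq, or_self] at h1
    exact h1
  · have h' : Aᵀ * A = 1 := mul_eq_one_comm.1 hA
    have h := congrFun (congrFun h' k) k
    simpa [Matrix.mul_apply] using h

theorem pairMat_id : pairMat F (id : ι → ι) = 1 := by
  ext i j; simp [pairMat, Matrix.one_apply]

/-- The count of adapted families with given values in the non-alternating case. -/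
theorem card_fam_id (hQ : (polarBilin Q).Nondegenerate) (hN : IsQuadNil Q N) (i₀ : ι)
    (hx : Adapted (polarBilin Q) N id x) :
    Nat.card {x' : ι → V // Adapted (polarBilin Q) N id x' ∧ ∀ i, Q (x' i) = Q (x i)} =
      Nat.card {A : Matrix ι ι F // A * Aᵀ = 1} *
        (Nat.card (suppOrth (polarBilin Q) N x) ^ (Fintype.card ι - 1) *
          Nat.card {w : suppOrth (polarBilin Q) N x // IsArf (Q (w : V))} *
          (2 * Fintype.card F ^ Nat.choose (Fintype.card ι) 2)) := by
  classical
  haveI : Finite V := Module.finite_of_finite F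
  haveI := Fintype.ofFinite (suppOrth (polarBilin Q) N x)
  rw [card_fam hQ hN (fun a => rfl) hx, Param]
  set P := suppOrth (polarBilin Q) N x
  set c := 2 * Fintype.card F ^ Nat.choose (Fintype.card ι) 2
  have hfib : ∀ (A : {A : Matrix ι ι F // A * pairMat F id * Aᵀ = pairMat F id}) (p : ι → P),
      Nat.card {Y : Matrix ι ι F // gram Q (fun i => (p i : V)) + (Y + Yᵀ) = 0 ∧
        ∀ i, famVal Q id x A.1 (fun i => (p i : V)) Y i = Q (x i)} =
      if IsArf (Q ((∑ i, p i : P) : V)) then c else 0 := fun A p => by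
    have hA : A.1 * A.1ᵀ = 1 := by simpa [pairMat_id] using A.2
    obtain ⟨hrow, hcol⟩ := ortho_sums hA
    obtain ⟨M, hM⟩ := gram_isAlt_zero (Q := Q) fun i => (p i : V)
    set v : ι → F := fun i => Q (x i) + (Q (p i : V) + ∑ k, A.1 i k * A.1 i k * Q (x k)) with hv
    have hfv : ∀ Y i, (famVal Q id x A.1 (fun i => (p i : V)) Y i = Q (x i)) ↔ rowMap Y i = v i := fun Y i => by
      have h1 : ∑ k, (Y * (pairMat F (id : ι → ι) * A.1)) i k * (Y * (pairMat F (id : ι → ι) * A.1)) i k =
          (∑ j, Y i j) ^ 2 := by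
        simp only [pairMat_id, Matrix.one_mul]
        simp only [← _root_.sq, ← sum_pow_char 2, Matrix.mul_apply]
        rw [Finset.sum_comm]
        simp [← Finset.mul_sum, hrow]
      simp only [famVal, id_eq, if_true, h1, rowMap, hv]
      constructor <;> intro h <;> linear_combination (norm := ring_nf) h
      · linear_combination (norm := ring_nf) (Q (p i : V) + ∑ k, A.1 i k * A.1 i k * Q (x k)) *
          -(CharTwo.two_eq_zero : (2 : F) = 0)
      · linear_combination (norm := ring_nf) (Q (p i : V) + ∑ k, A.1 i k * A.1 i k * Q (x k)) *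
          (CharTwo.two_eq_zero : (2 : F) = 0)
    rw [Nat.card_congr (Equiv.subtypeEquivRight fun Y => and_congr_right fun _ => forall_congr' fun i => hfv Y i),
      card_fiber_rowMap i₀ hM v]
    refine if_congr ?_ rfl rfl
    have hAq : ∑ i, ∑ k, A.1 i k * A.1 i k * Q (x k) = ∑ k, Q (x k) := by
      rw [Finset.sum_comm]
      simp [← Finset.sum_mul, hcol]
    have hsum : Q ((∑ i, p i : P) : V) = (∑ i, Q (p i : V)) + (∑ i, M i i) + ∑ i, ∑ j, M i j := by
      rw [Submodule.coe_sum]; exact quad_sum hM _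
    have : ∑ i, (v i + rowMap M i) =
        Q ((∑ i, p i : P) : V) + ((∑ i, ∑ j, M i j) ^ 2 + ∑ i, ∑ j, M i j) := by
      simp only [hv, rowMap, Finset.sum_add_distrib]
      rw [hAq, hsum, ← sum_pow_char 2]
      linear_combination ((∑ k, Q (x k)) - ∑ i, ∑ j, M i j) * (CharTwo.two_eq_zero : (2 : F) = 0)
    rw [this, isArf_add_iff (isArf_sq_add _)]
  simp only [Nat.card_sigma, hfib]
  have hcount : ∑ p : ι → P, (if IsArf (Q ((∑ i, p i : P) : V)) then c else 0) =
      Fintype.card P ^ (Fintype.card ι - 1) * Nat.card {w : P // IsArf (Q (w : V))} * c := by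
    rw [← Finset.sum_filter, Finset.sum_const, smul_eq_mul, ← Fintype.card_subtype]
    congr 1
    let sh : (ι → P) ≃ P × ({j // j ≠ i₀} → P) := (Equiv.funSplitAt i₀ P).trans
      { toFun := fun p => (p.1 + ∑ j, p.2 j, p.2)
        invFun := fun p => (p.1 - ∑ j, p.2 j, p.2)
        left_inv := fun p => by simp
        right_inv := fun p => by simp }
    have hsh : ∀ u : ι → P, (sh u).1 = ∑ i, u i := fun u => by
      show u i₀ + ∑ j : {j // j ≠ i₀}, u j = _
      rw [← Finset.add_sum_erase _ _ (Finset.mem_univ i₀)]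
      congr 1
      exact (Finset.sum_subtype (p := fun j => j ≠ i₀) _ (fun j => by simp) u).symm
    have e2 : {p : ι → P // IsArf (Q ((∑ i, p i : P) : V))} ≃
        {p : P × ({j // j ≠ i₀} → P) // IsArf (Q (p.1 : V))} :=
      Equiv.subtypeEquiv sh fun u => by rw [hsh]
    rw [← Nat.card_eq_fintype_card,
      Nat.card_congr (e2.trans (Equiv.prodSubtypeFstEquivSubtypeProd (p := fun w : P => IsArf (Q (w : V))))),
      Nat.card_prod, Nat.card_eq_fintype_card (α := {j // j ≠ i₀} → P), Fintype.card_fun,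
      Fintype.card_subtype_compl, Fintype.card_subtype_eq, mul_comm]
  rw [hcount, Finset.sum_const, Finset.card_univ, smul_eq_mul, ← Nat.card_eq_fintype_card,
    ← Nat.card_eq_fintype_card (α := P), pairMat_id]
  simp only [Matrix.mul_one]

end Counts

section Plus

open CfsgLib.Classes CfsgLib.OrthGen CfsgLib.Forms

variable {F : Type*} [Field F] [Fintype F]

theorem card_orth_zero : Nat.card (orth (qPlus 0 F)) = 1 :=
  Nat.card_eq_one_iff_unique.2
    ⟨⟨fun g h => Subtype.ext (LinearEquiv.ext fun v => Subsingleton.elim _ _)⟩, ⟨1⟩⟩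

theorem card_orth_succ (d : ℕ) :
    Nat.card (orth (qPlus (d + 1) F)) = 2 * (Fintype.card F ^ ((d + 1) * d) * (Fintype.card F ^ (d + 1) - 1) *
      ∏ i : Fin d, (Fintype.card F ^ (2 * ((i : ℕ) + 1)) - 1)) := by
  have hq : 1 ≤ Fintype.card F := Fintype.card_pos
  have h := card_orth_qPlus (F := F) (d + 1) (by omega)
  rw [Nat.card_eq_fintype_card (α := F), Nat.add_sub_cancel] at h
  rw [Fin.prod_univ_eq_prod_range (fun i => Fintype.card F ^ (2 * (i + 1)) - 1) d]
  apply Nat.cast_injective (R := ℤ)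
  push_cast [Nat.one_le_pow _ _ hq]
  rw [h]
  ring

theorem orth_mul_values (d : ℕ) :
    (Fintype.card F ^ (2 * d) + Fintype.card F ^ d) * Nat.card (orth (qPlus d F)) =
      2 * (Fintype.card F ^ d ^ 2 * ∏ i : Fin d, (Fintype.card F ^ (2 * ((i : ℕ) + 1)) - 1)) := by
  rcases d with - | d
  · simp
  rw [card_orth_succ, Fin.prod_univ_castSucc (n := d)]
  simp only [Fin.val_castSucc, Fin.val_last]
  set q := Fintype.card F
  set P := ∏ i : Fin d, (q ^ (2 * ((i : ℕ) + 1)) - 1)
  have hq : ∀ n, 1 ≤ q ^ n := fun n => Nat.one_le_pow _ _ Fintype.card_pos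
  zify [hq (d + 1), hq (2 * (d + 1))]
  ring

variable [CharP F 2] {ι : Type} [Fintype ι] [DecidableEq ι] {Q : QuadraticForm F (ι → F)}

/-- The centraliser in the full orthogonal group. -/
theorem card_commute_eq (g : Cfsg.isometryGroup F (⇑Q)) :
    Nat.card {h : Cfsg.isometryGroup F (⇑Q) // h * g = g * h} = Nat.card (CommQ Q (subOne g)) := by
  refine Nat.card_congr (Equiv.subtypeEquiv (p := fun h => h * g = g * h)
    (q := fun e : orth Q => ∀ v, e.1 (subOne g v) = subOne g (e.1 v))
    (isoMat Q fun v => rfl).toEquiv ?_ |>.trans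
    { toFun := fun h => ⟨h.1.1, h.1.2, h.2⟩
      invFun := fun h => ⟨⟨h.1, h.2.1⟩, h.2.2⟩
      left_inv := fun h => rfl
      right_inv := fun h => rfl })
  intro h
  show _ ↔ ∀ v, (isoMat Q (fun v => rfl) h : (ι → F) ≃ₗ[F] (ι → F)) (subOne g v) = _
  simp only [isoMat_apply]
  change _ ↔ ∀ v, act Q h (subOne g v) = subOne g (act Q h v)
  refine ⟨fun hc => subOne_intertwine hc, fun hc => ext_act fun v => ?_⟩
  have h1 := hc v
  rw [subOne_apply, subOne_apply, act_sub] at h1
  rw [act_mul, act_mul]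
  exact sub_left_injective h1

/-- Half of the centraliser lies in `Ω` when some element outside commutes. -/
theorem card_commute_omega (hQ : (polarBilin Q).Nondegenerate) (hgen : reflClosure Q = ⊤)
    {g r : Cfsg.isometryGroup F (⇑Q)} (hr : Commute r g) (hrs : dicksonSign r = -1) :
    2 * Nat.card {h : Cfsg.Omega F (⇑Q) //
        (h : Cfsg.isometryGroup F (⇑Q)) * g = g * (h : Cfsg.isometryGroup F (⇑Q))} =
      Nat.card {h : Cfsg.isometryGroup F (⇑Q) // h * g = g * h} := by
  classical
  have hmem := mem_omega_iff_of_gen hQ hgen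
  rw [← Nat.card_congr (Equiv.sumCompl fun h : {h : Cfsg.isometryGroup F (⇑Q) // h * g = g * h} =>
    h.1 ∈ Cfsg.Omega F (⇑Q)), Nat.card_sum, two_mul]
  have hneg : ∀ h, dicksonSign (h * r) = -dicksonSign h := fun h => by
    rw [dicksonSign_mul hQ hgen, hrs, mul_neg_one]
  let e1 : {h : Cfsg.Omega F (⇑Q) // (h : Cfsg.isometryGroup F (⇑Q)) * g = g * (h : Cfsg.isometryGroup F (⇑Q))} ≃
      {h : {h : Cfsg.isometryGroup F (⇑Q) // h * g = g * h} // h.1 ∈ Cfsg.Omega F (⇑Q)} :=
  { toFun := fun h => ⟨⟨h.1.1, h.2⟩, h.1.2⟩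
    invFun := fun h => ⟨⟨h.1.1, h.2⟩, h.1.2⟩
    left_inv := fun h => rfl
    right_inv := fun h => rfl }
  have hcr : r⁻¹ * g = g * r⁻¹ := hr.inv_left.eq
  let e2 : {h : {h : Cfsg.isometryGroup F (⇑Q) // h * g = g * h} // h.1 ∈ Cfsg.Omega F (⇑Q)} ≃
      {h : {h : Cfsg.isometryGroup F (⇑Q) // h * g = g * h} // ¬h.1 ∈ Cfsg.Omega F (⇑Q)} :=
  { toFun := fun h => ⟨⟨h.1.1 * r, by rw [mul_assoc, hr.eq, ← mul_assoc, h.1.2, mul_assoc]⟩, by
      rw [hmem, hneg, (hmem _).1 h.2]; decide⟩
    invFun := fun h => ⟨⟨h.1.1 * r⁻¹, by rw [mul_assoc, hcr, ← mul_assoc, h.1.2, mul_assoc]⟩, by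
      have h1 := hneg (h.1.1 * r⁻¹)
      rw [inv_mul_cancel_right] at h1
      have h2 : dicksonSign h.1.1 = -1 :=
        (Int.units_eq_one_or _).resolve_left fun e => h.2 ((hmem _).2 e)
      rw [hmem]
      rw [h2] at h1
      exact (neg_injective h1).symm⟩
    left_inv := fun h => Subtype.ext (Subtype.ext (mul_inv_cancel_right _ _))
    right_inv := fun h => Subtype.ext (Subtype.ext (inv_mul_cancel_right _ _)) }
  exact congrArg₂ (· + ·) (Nat.card_congr e1) (Nat.card_congr (e1.trans e2))

/-- All of the centraliser lies in `Ω` when the image is maximal totally singular. -/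
theorem card_commute_omega_full (hQ : (polarBilin Q).Nondegenerate) (hgen : reflClosure Q = ⊤)
    {g : Cfsg.isometryGroup F (⇑Q)} (hN : IsQuadNil Q (subOne g)) (ha : IsAltType (polarBilin Q) (subOne g))
    (hf : 2 * finrank F (LinearMap.range (subOne g)) = Fintype.card ι) :
    Nat.card {h : Cfsg.Omega F (⇑Q) //
        (h : Cfsg.isometryGroup F (⇑Q)) * g = g * (h : Cfsg.isometryGroup F (⇑Q))} =
      Nat.card {h : Cfsg.isometryGroup F (⇑Q) // h * g = g * h} := by
  classical
  have hW : IsMaxSingular Q (LinearMap.range (subOne g)) := ⟨hN.singular_range ha, hf⟩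
  have hall : ∀ h : Cfsg.isometryGroup F (⇑Q), h * g = g * h → h ∈ Cfsg.Omega F (⇑Q) := fun h hc => by
    have hm : Classes.mapSub h (LinearMap.range (subOne g)) = LinearMap.range (subOne g) := by
      refine le_antisymm ?_ fun y hy => ?_
      · rintro _ ⟨_, ⟨v, rfl⟩, rfl⟩
        exact ⟨act Q h v, (subOne_intertwine hc v).symm⟩
      · obtain ⟨v, rfl⟩ := hy
        exact ⟨subOne g (act Q h⁻¹ v), LinearMap.mem_range_self _ _,
          (subOne_intertwine hc _).trans (by rw [act_act_inv])⟩
    have h1 := relSign_mapSub hQ hgen hW hW h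
    rw [hm] at h1
    exact (mem_omega_iff_of_gen hQ hgen h).2 (mul_eq_right.mp h1.symm)
  exact Nat.card_congr
    { toFun := fun h => ⟨h.1.1, h.2⟩
      invFun := fun h => ⟨⟨h.1, hall h.1 h.2⟩, h.2⟩
      left_inv := fun h => rfl
      right_inv := fun h => rfl }

end Plus

section Main

open CfsgLib.Classes CfsgLib.OrthGen CfsgLib.Forms

variable {F : Type*} [Field F] [Fintype F] [CharP F 2] {m s : ℕ}

theorem finrank_subOne_of_rank {ι : Type} [Fintype ι] [DecidableEq ι] {Q : QuadraticForm F (ι → F)}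
    (g : Cfsg.isometryGroup F (⇑Q))
    (hs : (((g : Matrix.GeneralLinearGroup ι F) : Matrix ι ι F) - 1).rank = s) :
    finrank F (LinearMap.range (subOne g)) = s := by
  have hlin : subOne g = (((g : Matrix.GeneralLinearGroup ι F) : Matrix ι ι F) - 1).mulVecLin :=
    LinearMap.ext fun v => by
      rw [subOne_apply, Matrix.mulVecLin_apply, Matrix.sub_mulVec, Matrix.one_mulVec]
      rfl
  rw [hlin]
  exact hs

theorem two_mul_choose_two (s : ℕ) : 2 * Nat.choose s 2 + s = s * s := by
  induction s with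
  | zero => rfl
  | succ n ih =>
    rw [Nat.choose_succ_succ, Nat.choose_one_right]
    linear_combination ih

theorem orderOf_eq_two {G : Type*} [Group G] {g : G} (h2 : g ^ 2 = 1) (h1 : g ≠ 1) : orderOf g = 2 :=
  orderOf_eq_prime h2 h1

theorem ne_one_of_finrank {g : Cfsg.isometryGroup F (⇑(hypQ F m))}
    (hs : finrank F (LinearMap.range (subOne g)) = s) (h : 1 ≤ s) : g ≠ 1 := fun e => by
  have : subOne g = 0 := LinearMap.ext fun v => by rw [subOne_apply, e, act_one, sub_self]; rfl
  rw [this, LinearMap.range_zero, finrank_bot] at hs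
  omega

theorem rank_le (hQ : (polarBilin (hypQ F m)).Nondegenerate) {g : Cfsg.isometryGroup F (⇑(hypQ F m))}
    (hN : IsQuadNil (hypQ F m) (subOne g)) (hs : finrank F (LinearMap.range (subOne g)) = s) : s ≤ m := by
  have h := two_mul_rank_le hQ (polarBilin_isAlt _) hN.toIsNilSelf
  rw [hs, finrank_fintype_fun_eq_card] at h
  simp at h
  omega

/-- The centraliser in `Ω` of an involution of type `a`. -/
theorem card_omega_centralizer_alt (hh : Fintype.card F ≠ 2 ∨ m ≠ 2) {g : Cfsg.isometryGroup F (⇑(hypQ F m))}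
    (hg : orderOf g = 2) (hs : finrank F (LinearMap.range (subOne g)) = s)
    (ha : IsAltType (polarBilin (hypQ F m)) (subOne g)) :
    Nat.card {h : Cfsg.Omega F (⇑(hypQ F m)) //
        (h : Cfsg.isometryGroup F (⇑(hypQ F m))) * g = g * (h : Cfsg.isometryGroup F (⇑(hypQ F m)))} =
      Fintype.card F ^ (2 * (m - s) * s + Nat.choose s 2) *
        (Fintype.card F ^ ((s / 2) ^ 2) * ∏ i : Fin (s / 2), (Fintype.card F ^ (2 * ((i : ℕ) + 1)) - 1)) *
        (if s = m then 1 else Fintype.card F ^ ((m - s) * (m - s - 1)) * (Fintype.card F ^ (m - s) - 1) *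
          ∏ i : Fin (m - s - 1), (Fintype.card F ^ (2 * ((i : ℕ) + 1)) - 1)) := by
  classical
  have hQ := hypQ_nondegenerate F m
  have hgen := hypQ_gen F m hh
  obtain ⟨hN, -⟩ := orderOf_two_spec hg
  have hle := rank_le hQ hN hs
  obtain ⟨l, x, hx, hq⟩ := exists_adapted_alt hQ hN ha
  have hl : 2 * l = s := by
    have := hx.card.trans hs
    simp at this
    omega
  have hι : Fintype.card (Fin l ⊕ Fin l) = s := by simp; omega
  obtain ⟨d, rfl⟩ := Nat.exists_eq_add_of_le hle
  have hσ : Function.Involutive (Sum.swap : Fin l ⊕ Fin l → Fin l ⊕ Fin l) := fun a => Sum.swap_swap a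
  have hV : finrank F (Fin (s + d) ⊕ Fin (s + d) → F) = 2 * Fintype.card (Fin l ⊕ Fin l) + 2 * d := by
    rw [hι]; simp [finrank_fintype_fun_eq_card]; omega
  have hP := hasDisc_suppForm hQ hN hσ hx hV (by rw [hι]; exact hasDisc_qPlus _) (Or.inr hq)
  have hJ : pairMat F (Sum.swap : Fin l ⊕ Fin l → Fin l ⊕ Fin l) = Matrix.J (Fin l) F := by
    ext i j
    rcases i with i | i <;> rcases j with j | j <;> simp [pairMat, Matrix.J, Matrix.one_apply, CharTwo.neg_eq]
  have hA : Nat.card {A : Matrix (Fin l ⊕ Fin l) (Fin l ⊕ Fin l) F //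
      A * pairMat F Sum.swap * Aᵀ = pairMat F Sum.swap} = Nat.card (Matrix.symplecticGroup (Fin l) F) := by
    rw [hJ]; rfl
  have hO : Nat.card {h : Cfsg.isometryGroup F (⇑(hypQ F (s + d))) // h * g = g * h} =
      Fintype.card F ^ (2 * d * s + Nat.choose s 2) *
        (Fintype.card F ^ ((s / 2) ^ 2) * ∏ i : Fin (s / 2), (Fintype.card F ^ (2 * ((i : ℕ) + 1)) - 1)) *
        Nat.card (orth (qPlus d F)) := by
    rw [card_commute_eq, card_commQ hQ hN hσ hx, card_fam_alt hQ hN hσ (fun i => by cases i <;> simp) hx hq,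
      card_orth_suppForm hQ hN hσ hx hV hP, natCard_suppOrth hN hσ hx hV, hA, hι,
      CfsgLib.ClassicalLinear.card_sp, show s / 2 = l by omega,
      ← Fin.prod_univ_eq_prod_range (fun i => Fintype.card F ^ (2 * (i + 1)) - 1) l, ← pow_mul, pow_add]
    ring
  rcases d with - | d
  · rw [card_commute_omega_full hQ hgen hN ha (by rw [hs]; simp; omega), hO, card_orth_zero]
    simp
  · obtain ⟨r, hr, hrs⟩ := exists_odd_commute hQ hg fun hf => by
      have := hf.2
      rw [hs] at this
      simp at this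
      omega
    refine Nat.eq_of_mul_eq_mul_left (show 0 < 2 by norm_num) ?_
    rw [card_commute_omega hQ hgen hr hrs, hO, if_neg (by omega), Nat.add_sub_cancel_left, Nat.add_sub_cancel,
      card_orth_succ]
    ring

/-- The centraliser in `Ω` of an involution of type `b` or `c`. -/
theorem card_omega_centralizer_nonalt (hh : Fintype.card F ≠ 2 ∨ m ≠ 2) {g : Cfsg.isometryGroup F (⇑(hypQ F m))}
    (hg : orderOf g = 2) (hs : finrank F (LinearMap.range (subOne g)) = s)
    (ha : ¬IsAltType (polarBilin (hypQ F m)) (subOne g)) :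
    Nat.card {h : Cfsg.Omega F (⇑(hypQ F m)) //
        (h : Cfsg.isometryGroup F (⇑(hypQ F m))) * g = g * (h : Cfsg.isometryGroup F (⇑(hypQ F m)))} =
      Fintype.card F ^ (2 * (m - s) * (s - 1) + Nat.choose s 2) * Nat.card (OrthoMat F s) *
        (Fintype.card F ^ ((m - s) ^ 2) * ∏ i : Fin (m - s), (Fintype.card F ^ (2 * ((i : ℕ) + 1)) - 1)) := by
  classical
  have hQ := hypQ_nondegenerate F m
  have hgen := hypQ_gen F m hh
  obtain ⟨hN, hpos⟩ := orderOf_two_spec hg
  have hle := rank_le hQ hN hs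
  subst hs
  obtain ⟨d, hd⟩ := Nat.exists_eq_add_of_le hle
  obtain ⟨δ, hδ, hcov⟩ := exists_arf_rep (F := F)
  set s := finrank F (LinearMap.range (subOne g)) with hs
  obtain ⟨x, i₀, hx, hx0, hxi⟩ : ∃ (x : Fin s → Fin m ⊕ Fin m → F) (i₀ : Fin s),
      Adapted (polarBilin (hypQ F m)) (subOne g) id x ∧ (∀ i, i ≠ i₀ → hypQ F m (x i) = 0) ∧ (hypQ F m (x i₀) = 0 ∨
        (finrank F (Fin m ⊕ Fin m → F) = 2 * s ∧ hypQ F m (x i₀) = δ)) :=
    exists_adapted_reduced hQ hN ha δ hcov
  have hσ : Function.Involutive (id : Fin s → Fin s) := fun a => rfl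
  have hι : Fintype.card (Fin s) = s := Fintype.card_fin s
  have hV : finrank F (Fin m ⊕ Fin m → F) = 2 * Fintype.card (Fin s) + 2 * d := by
    rw [hι]; simp [finrank_fintype_fun_eq_card]; omega
  have hq : d = 0 ∨ ∀ i, hypQ F m (x i) = 0 := by
    rcases hxi with h0 | ⟨hf, -⟩
    · exact Or.inr fun i => if hi : i = i₀ then hi ▸ h0 else hx0 i hi
    · left
      rw [hV, hι] at hf
      omega
  have hP := hasDisc_suppForm hQ hN hσ hx hV (by rw [hι, ← hd]; exact hasDisc_qPlus m) hq
  obtain ⟨r, hr, hrs⟩ := exists_odd_commute hQ hg fun hf => ha hf.1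
  refine Nat.eq_of_mul_eq_mul_left (show 0 < 2 by norm_num) ?_
  have hW : 2 * Nat.card {w : suppOrth (polarBilin (hypQ F m)) (subOne g) x // IsArf (hypQ F m (w : _))} =
      Fintype.card F ^ (2 * d) + Fintype.card F ^ d := by
    have h := two_mul_card_arf_values hP
    rw [natCard_suppOrth hN hσ hx hV, Nat.card_eq_fintype_card (α := F)] at h
    exact_mod_cast h
  rw [card_commute_omega hQ hgen hr hrs, card_commute_eq, card_commQ hQ hN hσ hx, card_fam_id hQ hN i₀ hx,
    card_orth_suppForm hQ hN hσ hx hV hP, natCard_suppOrth hN hσ hx hV, hι, show m - s = d by omega, ← pow_mul,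
    pow_add]
  calc _ = Nat.card (OrthoMat F s) * Fintype.card F ^ (2 * d * (s - 1)) * Fintype.card F ^ Nat.choose s 2 *
        ((2 * Nat.card {w : suppOrth (polarBilin (hypQ F m)) (subOne g) x // IsArf (hypQ F m (w : _))}) *
          Nat.card (orth (qPlus d F))) := by ring
    _ = _ := by rw [hW, orth_mul_values]; ring

end Main

end CfsgLib.Derangements.OrthInv
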