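import Mathlib
import Cfsg.Agent.Lib.Derangements.OrthBlocks
import Cfsg.Agent.Lib.Classes.SemisimpleIsometry
import Cfsg.Agent.Lib.Classes.InvolutionCount
import Cfsg.Agent.Lib.Classes.OmegaClasses
import Cfsg.Agent.Lib.SemisimpleClasses.Conjugacy

/-!
Classes of elements of odd prime order in orthogonal groups over finite fields of coprime characteristic.
-/

set_option autoImplicit false
set_option linter.unusedSectionVars false
set_option linter.style.haveILetI false

namespace CfsgLib.Derangements.OrthExpo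

open Module QuadraticMap CfsgLib.OrthGen

universe u

variable {r : ℕ} [hrp : Fact r.Prime] {F : Type u} [Field F] [Fintype F]

section Counting

theorem fixes_replicate_zero (x : ZMod r) (c : ℕ) : Fixes x (Multiset.replicate c (0 : ZMod r)) := by
  simp [Fixes, Multiset.map_replicate]

theorem split_zero (M : Multiset (ZMod r)) :
    Multiset.replicate (M.count 0) (0 : ZMod r) + M.filter (fun a => ¬ a = 0) = M := by
  rw [← Multiset.filter_eq' M 0]
  exact Multiset.filter_add_not _ M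

theorem fixes_filter {x : ZMod r} {M : Multiset (ZMod r)} (h : Fixes x M) :
    Fixes x (M.filter fun a => ¬ a = 0) := by
  have h1 := h
  rw [← split_zero M, Fixes, Multiset.map_add, fixes_replicate_zero] at h1
  exact add_left_cancel h1

theorem orderOf_dvd_card_of_fixes (u : (ZMod r)ˣ) : ∀ (M : Multiset (ZMod r)), Fixes (u : ZMod r) M → (0 : ZMod r) ∉ M →
    orderOf u ∣ M.card := by
  intro M
  induction hn : M.card using Nat.strong_induction_on generalizing M with
  | _ c ih =>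
    intro hM h0
    rcases Multiset.empty_or_exists_mem M with rfl | ⟨a, haM⟩
    · simp [← hn]
    have ha : a ≠ 0 := fun h => h0 (h ▸ haM)
    obtain ⟨N, rfl⟩ := Multiset.le_iff_exists_add.1 (orbit_le u ha hM haM)
    have hO : Fixes (u : ZMod r) (orbit u a) := by
      refine Multiset.eq_of_le_of_card_le ((Multiset.le_iff_subset
        ((orbit_nodup u ha).map (mul_right_injective₀ u.ne_zero))).2 fun x hx => ?_) (by simp)
      obtain ⟨y, hy, rfl⟩ := Multiset.mem_map.1 hx
      obtain ⟨j, -, rfl⟩ := Multiset.mem_map.1 hy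
      refine Multiset.mem_map.2 ⟨(j + 1) % orderOf u,
        Finset.mem_range.2 (Nat.mod_lt _ (orderOf_pos u)), ?_⟩
      rw [pow_mod_orderOf, pow_succ', Units.val_mul, mul_assoc]
    rw [← hn, Multiset.card_add, card_orbit]
    refine Dvd.dvd.add dvd_rfl (ih N.card ?_ N rfl ?_ fun h => h0 (Multiset.mem_add.2 (Or.inr h)))
    · rw [← hn, Multiset.card_add, card_orbit]
      have := orderOf_pos u
      omega
    · rw [Fixes, Multiset.map_add, hO] at hM
      exact add_left_cancel hM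

variable (u : (ZMod r)ˣ)

/-- Closed multisets of a given size. -/
abbrev FixSym (u : (ZMod r)ˣ) (n : ℕ) : Type :=
  {M : Sym (ZMod r) n // Fixes (u : ZMod r) (M : Multiset (ZMod r))}

theorem card_fixSym (n : ℕ) :
    Nat.card (FixSym u n) = Nat.choose (n / orderOf u + (r - 1) / orderOf u) ((r - 1) / orderOf u) :=
  CfsgLib.Classes.OrbitCount.card_invariant u n

/-- Closed multisets avoiding zero. -/
theorem card_fixSym_noZero {n : ℕ} (hn : 1 ≤ n) :
    Nat.card {M : FixSym u n // (M.1 : Multiset (ZMod r)).count 0 = 0} =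
      if orderOf u ∣ n then Nat.choose (n / orderOf u + (r - 1) / orderOf u - 1) ((r - 1) / orderOf u - 1) else 0 := by
  classical
  obtain ⟨n, rfl⟩ : ∃ k, n = k + 1 := ⟨n - 1, by omega⟩
  set d := orderOf u with hd
  have hd0 : 0 < d := orderOf_pos u
  set T := (r - 1) / d with hT
  have hT1 : 1 ≤ T := by
    refine (Nat.one_le_div_iff hd0).2 (Nat.le_of_dvd (by have := hrp.out.two_le; omega) ?_)
    have hc : Fintype.card (ZMod r)ˣ = r - 1 := ZMod.card_units r
    rw [hd, ← hc]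
    exact orderOf_dvd_card
  let e : FixSym u n ≃ {M : FixSym u (n + 1) // ¬ (M.1 : Multiset (ZMod r)).count 0 = 0} :=
    { toFun := fun N => ⟨⟨Sym.cons 0 N.1, by
          rw [Fixes, Sym.coe_cons, Multiset.map_cons, mul_zero, N.2]⟩, by simp⟩
      invFun := fun M => ⟨M.1.1.erase 0 (Multiset.count_ne_zero.1 M.2), by
          have h := M.1.2
          rw [← Sym.cons_erase (Multiset.count_ne_zero.1 M.2), Fixes, Sym.coe_cons, Multiset.map_cons,
            mul_zero, Multiset.cons_inj_right] at h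
          exact h⟩
      left_inv := fun N => Subtype.ext (Sym.erase_cons_head N.1 0 (by simp))
      right_inv := fun M => Subtype.ext (Subtype.ext (Sym.cons_erase (Multiset.count_ne_zero.1 M.2))) }
  have hsum : Nat.card (FixSym u (n + 1)) =
      Nat.card {M : FixSym u (n + 1) // (M.1 : Multiset (ZMod r)).count 0 = 0} + Nat.card (FixSym u n) := by
    rw [Nat.card_congr e, ← Nat.card_sum]
    exact Nat.card_congr (Equiv.sumCompl _).symm
  rw [card_fixSym, card_fixSym, ← hd, ← hT] at hsum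
  split_ifs with hdvd
  · obtain ⟨k, hk⟩ := hdvd
    rcases k with _ | k
    · simp at hk
    have h1 : (n + 1) / d = k + 1 := by rw [hk, Nat.mul_div_cancel_left _ hd0]
    have h2 : n / d = k := by
      refine Nat.div_eq_of_lt_le ?_ ?_
      · rw [mul_add, mul_one, mul_comm d k] at hk; omega
      · rw [mul_comm, ← hk]; omega
    rw [h1, h2] at hsum
    obtain ⟨T', hT'⟩ : ∃ T', T = T' + 1 := ⟨T - 1, by omega⟩
    rw [hT', show k + 1 + (T' + 1) = (k + 1 + T') + 1 by omega, Nat.choose_succ_succ',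
      show k + (T' + 1) = k + 1 + T' by omega] at hsum
    rw [h1, hT', Nat.add_sub_cancel, show k + 1 + (T' + 1) - 1 = k + 1 + T' by omega]
    omega
  · have h1 : (n + 1) / d = n / d := by
      rw [Nat.succ_div, if_neg hdvd, Nat.add_zero]
    rw [h1] at hsum
    omega

theorem card_fixSym_cond {n : ℕ} (hn : 1 ≤ n) (P : Prop) [Decidable P] :
    Nat.card {M : FixSym u n // (M.1 : Multiset (ZMod r)).count 0 = 0 → P} =
      Nat.choose (n / orderOf u + (r - 1) / orderOf u) ((r - 1) / orderOf u) -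
        (if P then 0 else if orderOf u ∣ n then
          Nat.choose (n / orderOf u + (r - 1) / orderOf u - 1) ((r - 1) / orderOf u - 1) else 0) := by
  classical
  rw [← card_fixSym]
  by_cases hP : P
  · rw [if_pos hP, Nat.sub_zero]
    exact Nat.card_congr (Equiv.subtypeUnivEquiv fun M _ => hP)
  · rw [if_neg hP, ← card_fixSym_noZero u hn]
    have h : Nat.card (FixSym u n) = Nat.card {M : FixSym u n // (M.1 : Multiset (ZMod r)).count 0 = 0} +
        Nat.card {M : FixSym u n // (M.1 : Multiset (ZMod r)).count 0 = 0 → P} := by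
      rw [← Nat.card_congr (Equiv.subtypeEquivRight (p := fun M : FixSym u n => ¬ (M.1 : Multiset (ZMod r)).count 0 = 0)
        (q := fun M : FixSym u n => (M.1 : Multiset (ZMod r)).count 0 = 0 → P)
        fun M => ⟨fun h1 h2 => absurd h2 h1, fun h1 h2 => hP (h1 h2)⟩), ← Nat.card_sum]
      exact Nat.card_congr (Equiv.sumCompl _).symm
    omega

end Counting

theorem conj_pow_eq {V W : Type*} [AddCommGroup V] [Module F V] [AddCommGroup W] [Module F W]
    (E : V ≃ₗ[F] W) (g : Module.End F V) : ∀ k : ℕ, (E.conj g) ^ k = E.conj (g ^ k)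
  | 0 => LinearMap.ext fun x => by simp [LinearEquiv.conj_apply]
  | k + 1 => by
    rw [pow_succ, pow_succ, conj_pow_eq E g k]
    exact LinearMap.ext fun x => by simp [LinearEquiv.conj_apply]

variable {L : Type u} [Field L] [Algebra F L] {ζ : L}

section Realised

variable {ι : Type} [Fintype ι] [DecidableEq ι] (ζ)

/-- The multisets of exponents of isometries of order dividing `r`. -/
def Realised (Q₀ : QuadraticForm F (ι → F)) (M : Multiset (ZMod r)) : Prop :=
  ∃ g : Module.End F (ι → F), g ^ r = 1 ∧ (∀ x, Q₀ (g x) = Q₀ x) ∧ Expo ζ g M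

variable {ζ} {Q₀ : QuadraticForm F (ι → F)} {uq : (ZMod r)ˣ}

theorem Realised.necessary (hζ : IsPrimitiveRoot ζ r) (hQ : (polarBilin Q₀).Nondegenerate)
    (huq : (uq : ZMod r) = (Fintype.card F : ZMod r)) {M : Multiset (ZMod r)} (h : Realised ζ Q₀ M) :
    M.card = Fintype.card ι ∧ Fixes ((uu uq : (ZMod r)ˣ) : ZMod r) M := by
  obtain ⟨g, hg, hgQ, hgM⟩ := h
  refine ⟨by rw [hgM.card, Module.finrank_fintype_fun_eq_card], ?_⟩
  rw [fixes_uu_iff]
  exact ⟨by rw [Fixes, huq]; exact hgM.map_card hζ, hgM.map_neg hζ hQ hg hgQ⟩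

/-- Realised multisets in even dimension, for a form of given type. -/
theorem realised_iff_even (hr2 : r ≠ 2) (hζ : IsPrimitiveRoot ζ r) (hQ : (polarBilin Q₀).Nondegenerate)
    (huq : (uq : ZMod r) = (Fintype.card F : ZMod r)) {m : ℕ} (hι : Fintype.card ι = 2 * m) {ε : ℤ}
    (hε : ε = 1 ∨ ε = -1) (hD : OrthType.HasDisc Q₀ (ε * (Nat.card F : ℤ) ^ m)) (M : Multiset (ZMod r))
    (hMc : M.card = Fintype.card ι) :
    Realised ζ Q₀ M ↔ Fixes ((uu uq : (ZMod r)ˣ) : ZMod r) M ∧
      (M.count 0 = 0 → ((ε * (Nat.card F : ℤ) ^ m : ℤ) : ZMod r) = 1) := by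
  constructor
  · intro h
    refine ⟨(h.necessary hζ hQ huq).2, fun h0 => ?_⟩
    obtain ⟨g, hg, hgQ, hgM⟩ := h
    exact disc_of_fixedPointFree hD hg hgQ fun x hx => by
      by_contra hx0
      exact (Multiset.count_eq_zero.1 h0) (hgM.zero_mem hζ hx0 hx)
  rintro ⟨hM, hP⟩
  set M₁ := M.filter (fun a => ¬ a = 0) with hM₁
  have hM₁0 : (0 : ZMod r) ∉ M₁ := fun h => (Multiset.mem_filter.1 h).2 rfl
  obtain ⟨l₁, hl₁⟩ := (even_iff_two_dvd.1 (even_orderOf_uu hr2 uq)).trans
    (orderOf_dvd_card_of_fixes _ M₁ (fixes_filter hM) hM₁0)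
  obtain ⟨V, _, _, _, Q₁, g₁, hQ₁, hg₁, hg₁Q, hg₁M⟩ := good_of_fixes hr2 huq hζ M₁ (fixes_filter hM) hM₁0
  have hV : finrank F V = 2 * l₁ := by rw [← hg₁M.card, hl₁]
  have hsum : M.count 0 + M₁.card = 2 * m := by
    rw [← hι, ← hMc]
    conv_rhs => rw [← split_zero M, Multiset.card_add, Multiset.card_replicate]
  haveI : Finite V := Module.finite_of_finite F
  obtain ⟨ε₁, hε₁, hD₁⟩ : ∃ ε₁ : ℤ, (ε₁ = 1 ∨ ε₁ = -1) ∧ OrthType.HasDisc Q₁ (ε₁ * (Nat.card F : ℤ) ^ l₁) := by
    rcases OrthType.exists_hasDisc hV Q₁ hQ₁ with h | h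
    · exact ⟨1, Or.inl rfl, by rwa [one_mul]⟩
    · exact ⟨-1, Or.inr rfl, by rwa [neg_one_mul]⟩
  rcases Nat.eq_zero_or_pos (M.count 0) with h0 | h0
  · have hlm : l₁ = m := by omega
    subst hlm
    have hfix : ∀ x, g₁ x = x → x = 0 := fun x hx => by
      by_contra hx0
      exact hM₁0 (hg₁M.zero_mem hζ hx0 hx)
    have h1 := disc_of_fixedPointFree hD₁ hg₁ hg₁Q hfix
    have h2 := hP h0
    have hεeq : ε₁ = ε := by
      have h3 := h1.trans h2.symm
      push_cast at h3
      have hqne : ((Nat.card F : ℕ) : ZMod r) ^ l₁ ≠ 0 := pow_ne_zero _ (by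
        rw [Nat.card_eq_fintype_card, ← huq]; exact uq.ne_zero)
      have h4 := mul_right_cancel₀ hqne h3
      haveI : Fact (2 < r) := ⟨by have := hrp.out.two_le; omega⟩
      rcases hε₁ with rfl | rfl <;> rcases hε with rfl | rfl <;> first | rfl | (exfalso; push_cast at h4)
      · exact ZMod.neg_one_ne_one h4.symm
      · exact ZMod.neg_one_ne_one h4
    subst hεeq
    obtain ⟨E, hE⟩ := OrthType.exists_isometry hV (by rw [Module.finrank_fintype_fun_eq_card, hι]) hQ₁ hQ hD₁ hD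
    refine ⟨E.conj g₁, by rw [conj_pow_eq, hg₁]; exact LinearEquiv.conj_id E, fun x => ?_, ?_⟩
    · rw [LinearEquiv.conj_apply_apply, hE, hg₁Q, ← hE, E.apply_symm_apply]
    · have h := hg₁M.conj E
      rwa [show M₁ = M from Multiset.filter_eq_self.2 fun a ha h => Multiset.count_eq_zero.1 h0 (h ▸ ha)] at h
  · obtain ⟨l₀, hl₀⟩ : ∃ l₀, M.count 0 = 2 * l₀ := ⟨m - l₁, by omega⟩
    obtain ⟨κ, _, _, Qc, hκ, hQc, hDc⟩ := OrthType.exists_form_of_disc (F := F) (l := l₀) (by omega)
      (ε := ε * ε₁) (by rcases hε with rfl | rfl <;> rcases hε₁ with rfl | rfl <;> simp)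
    have hD' : OrthType.HasDisc (Qc.prod Q₁) (ε * (Nat.card F : ℤ) ^ m) := by
      have h := hDc.prod hD₁
      rwa [show ε * ε₁ * (Nat.card F : ℤ) ^ l₀ * (ε₁ * (Nat.card F : ℤ) ^ l₁) =
        ε * (Nat.card F : ℤ) ^ m * (ε₁ * ε₁) by rw [show m = l₀ + l₁ by omega, pow_add]; ring,
        show ε₁ * ε₁ = 1 by rcases hε₁ with rfl | rfl <;> rfl, mul_one] at h
    obtain ⟨E, hE⟩ := OrthType.exists_isometry (m := m)
      (by rw [Module.finrank_prod, Module.finrank_fintype_fun_eq_card, hκ, hV]; omega)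
      (by rw [Module.finrank_fintype_fun_eq_card, hι]) (nondegenerate_prod hQc hQ₁) hQ hD' hD
    refine ⟨E.conj (LinearMap.prodMap 1 g₁), ?_, fun x => ?_, ?_⟩
    · rw [conj_pow_eq, prodMap_pow, one_pow, hg₁]
      exact LinearMap.ext fun x => by simp [LinearEquiv.conj_apply]
    · rw [LinearEquiv.conj_apply_apply, hE]
      conv_rhs => rw [← E.apply_symm_apply x, hE]
      simp [hg₁Q]
    · have h := ((expo_one (ζ := ζ) (r := r) (F := F) (V := κ → F)).prodMap hg₁M).conj E
      rwa [Module.finrank_fintype_fun_eq_card, hκ, ← hl₀, hM₁, split_zero] at h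

/-- Realised multisets in odd dimension. -/
theorem realised_iff_odd (hr2 : r ≠ 2) (hζ : IsPrimitiveRoot ζ r) (h2 : (2 : F) ≠ 0) {m : ℕ}
    (huq : (uq : ZMod r) = (Fintype.card F : ZMod r)) (M : Multiset (ZMod r)) (hMc : M.card = 2 * m + 1) :
    Realised ζ (CfsgLib.ClassicalForms.qOdd m F) M ↔ Fixes ((uu uq : (ZMod r)ˣ) : ZMod r) M := by
  have hQ0 := CfsgLib.ClassicalForms.nondeg_iff_polarBilin.2 (CfsgLib.ClassicalForms.nondeg_qOdd (F := F) h2 m)
  refine ⟨fun h => (h.necessary hζ hQ0 huq).2, fun hM => ?_⟩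
  set M₁ := M.filter (fun a => ¬ a = 0) with hM₁
  have hM₁0 : (0 : ZMod r) ∉ M₁ := fun h => (Multiset.mem_filter.1 h).2 rfl
  obtain ⟨l₁, hl₁⟩ := (even_iff_two_dvd.1 (even_orderOf_uu hr2 uq)).trans
    (orderOf_dvd_card_of_fixes _ M₁ (fixes_filter hM) hM₁0)
  obtain ⟨V, _, _, _, Q₁, g₁, hQ₁, hg₁, hg₁Q, hg₁M⟩ := good_of_fixes hr2 huq hζ M₁ (fixes_filter hM) hM₁0
  have hV : finrank F V = 2 * l₁ := by rw [← hg₁M.card, hl₁]
  have hsum : M.count 0 + M₁.card = 2 * m + 1 := by
    rw [← hMc]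
    conv_rhs => rw [← split_zero M, Multiset.card_add, Multiset.card_replicate]
  obtain ⟨l₀, hl₀⟩ : ∃ l₀, M.count 0 = 2 * l₀ + 1 := ⟨m - l₁, by omega⟩
  set Qc := CfsgLib.ClassicalForms.qOdd l₀ F with hQcdef
  have hQc := CfsgLib.ClassicalForms.nondeg_iff_polarBilin.2 (CfsgLib.ClassicalForms.nondeg_qOdd (F := F) h2 l₀)
  obtain ⟨E, c, -, hc, hE⟩ := CfsgLib.Classes.exists_equiv_odd (m := m)
    (by rw [Module.finrank_prod, Module.finrank_fintype_fun_eq_card, hV]; simp; omega)
    (Qc.prod Q₁) (nondegenerate_prod hQc hQ₁)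
  let S : (Unit ⊕ (Fin m ⊕ Fin m) → F) ≃ₗ[F] (Unit ⊕ (Fin m ⊕ Fin m) → F) :=
    LinearEquiv.piCongrRight fun i => LinearEquiv.smulOfUnit
      (Sum.elim (fun _ => (1 : Fˣ)) (Sum.elim (fun _ => (Units.mk0 c hc)⁻¹) fun _ => 1) i)
  have hES : ∀ x, (Qc.prod Q₁) x = c * CfsgLib.ClassicalForms.qOdd m F (S (E x)) := fun x => by
    rw [hE, CfsgLib.ClassicalForms.qOdd_apply, Cfsg.quadFormOdd, mul_add, Finset.mul_sum]
    congr 1
    · simp [S, LinearEquiv.smulOfUnit, Units.smul_def]
    · refine Finset.sum_congr rfl fun i _ => ?_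
      simp [S, LinearEquiv.smulOfUnit, Units.smul_def]
      field_simp
  refine ⟨(E.trans S).conj (LinearMap.prodMap 1 g₁), ?_, fun x => ?_, ?_⟩
  · rw [conj_pow_eq, prodMap_pow, one_pow, hg₁]
    exact LinearMap.ext fun x => by simp [LinearEquiv.conj_apply]
  · obtain ⟨y, rfl⟩ := (E.trans S).surjective x
    rw [LinearEquiv.conj_apply_apply, LinearEquiv.symm_apply_apply]
    apply mul_left_cancel₀ hc
    show c * CfsgLib.ClassicalForms.qOdd m F (S (E _)) = c * CfsgLib.ClassicalForms.qOdd m F (S (E y))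
    rw [← hES, ← hES]
    simp [hg₁Q]
  · have h := ((expo_one (ζ := ζ) (r := r) (F := F) (V := Unit ⊕ (Fin l₀ ⊕ Fin l₀) → F)).prodMap hg₁M).conj
      (E.trans S)
    rwa [Module.finrank_fintype_fun_eq_card, show Fintype.card (Unit ⊕ (Fin l₀ ⊕ Fin l₀)) = M.count 0 by
      simp; omega, hM₁, split_zero] at h

/-- Classes of elements of order `r` correspond to the non-trivial realised multisets. -/
theorem card_classes_eq_realised (hr2 : r ≠ 2) (hrF : (r : F) ≠ 0) (hζ : IsPrimitiveRoot ζ r)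
    (hQ : (polarBilin Q₀).Nondegenerate) :
    Nat.card {C : ConjClasses (Cfsg.isometryGroup F (⇑Q₀)) //
        ∃ g : Cfsg.isometryGroup F (⇑Q₀), ConjClasses.mk g = C ∧ orderOf g = r} =
      Nat.card {M : Sym (ZMod r) (Fintype.card ι) // Realised ζ Q₀ (M : Multiset (ZMod r))} - 1 := by
  classical
  have hr : r.Prime := hrp.out
  let toEnd : Cfsg.isometryGroup F (⇑Q₀) →* Module.End F (ι → F) :=
    { toFun := fun g => Matrix.toLinAlgEquiv' ((g : Matrix.GeneralLinearGroup ι F) : Matrix ι ι F)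
      map_one' := by simp
      map_mul' := fun g g' => by simp }
  have htE : ∀ g v, toEnd g v = act Q₀ g v := fun g v => rfl
  have hpow : ∀ g : Cfsg.isometryGroup F (⇑Q₀), g ^ r = 1 → toEnd g ^ r = 1 := fun g hg => by
    rw [← map_pow, hg, map_one]
  have hiso : ∀ g v, Q₀ (toEnd g v) = Q₀ v := fun g v => Q_act g v
  have hex : ∀ g : Cfsg.isometryGroup F (⇑Q₀), g ^ r = 1 →
      ∃ M : Sym (ZMod r) (Fintype.card ι), Expo ζ (toEnd g) (M : Multiset (ZMod r)) := fun g hg => by
    obtain ⟨M, hM⟩ := exists_expo hζ (hpow g hg)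
    exact ⟨⟨M, by rw [hM.card, Module.finrank_fintype_fun_eq_card]⟩, hM⟩
  let f : Cfsg.isometryGroup F (⇑Q₀) → Sym (ZMod r) (Fintype.card ι) := fun g =>
    if hg : g ^ r = 1 then (hex g hg).choose else Sym.replicate _ 0
  have hf : ∀ g : Cfsg.isometryGroup F (⇑Q₀), g ^ r = 1 → Expo ζ (toEnd g) (f g : Multiset (ZMod r)) :=
    fun g hg => by simp only [f, dif_pos hg]; exact (hex g hg).choose_spec
  have hss : ∀ g : Cfsg.isometryGroup F (⇑Q₀), g ^ r = 1 → (toEnd g).IsSemisimple := fun g hg =>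
    Module.End.isSemisimple_of_squarefree_aeval_eq_zero
      (Polynomial.separable_X_pow_sub_C (1 : F) hrF one_ne_zero).squarefree
      (by simp [hpow g hg])
  have hconj : ∀ g g' : Cfsg.isometryGroup F (⇑Q₀), g ^ r = 1 → g' ^ r = 1 → (IsConj g g' ↔ f g = f g') := by
    intro g g' hg hg'
    constructor
    · intro h
      obtain ⟨c, hc⟩ := isConj_iff.1 h
      let cE : (ι → F) ≃ₗ[F] (ι → F) :=
        LinearEquiv.ofLinearMap (toEnd c) (toEnd c⁻¹)
          (by rw [← Module.End.mul_eq_comp, ← map_mul, mul_inv_cancel, map_one]; rfl)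
          (by rw [← Module.End.mul_eq_comp, ← map_mul, inv_mul_cancel, map_one]; rfl)
      have he : cE.conj (toEnd g) = toEnd g' := by
        rw [← hc, map_mul, map_mul]
        rfl
      refine Sym.coe_injective (((hf g hg).conj cE).unique hζ ?_)
      rw [he]; exact hf g' hg'
    · intro h
      have hch : (toEnd g).charpoly = (toEnd g').charpoly := by
        refine Polynomial.map_injective _ (algebraMap F L).injective ?_
        rw [hf g hg, hf g' hg', h]
      obtain ⟨X, hX⟩ := CfsgLib.SemisimpleClasses.exists_equiv_of_charpoly_eq (finrank F (ι → F)) (toEnd g)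
        (toEnd g') (hss g hg) (hss g' hg') le_rfl hch
      obtain ⟨c, hcQ, hcx⟩ := CfsgLib.Classes.SemiConj.exists_quad_conj hQ hrF (hr.odd_of_ne_two hr2)
        (hpow g hg) (hpow g' hg') (hiso g) (hiso g') X hX
      refine isConj_iff.2 ⟨CfsgLib.Classes.isoOfEquiv c hcQ, mul_inv_eq_iff_eq_mul.2 (ext_act fun v => ?_)⟩
      rw [act_mul, act_mul, CfsgLib.Classes.act_isoOfEquiv, CfsgLib.Classes.act_isoOfEquiv, ← htE, ← htE]
      exact hcx v
  have horder : ∀ g : Cfsg.isometryGroup F (⇑Q₀), orderOf g = r ↔ g ^ r = 1 ∧ g ≠ 1 := by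
    intro g
    refine ⟨fun h => ⟨by rw [← h]; exact pow_orderOf_eq_one g, fun h1 => ?_⟩, fun h => orderOf_eq_prime h.1 h.2⟩
    rw [h1, orderOf_one] at h
    exact hr.ne_one h.symm
  rw [CfsgLib.Classes.InvTwo.card_classes_eq (fun g : Cfsg.isometryGroup F (⇑Q₀) => orderOf g = r) f
    (fun g g' hg hg' => hconj g g' ((horder g).1 hg).1 ((horder g').1 hg').1)]
  have hreal : ∀ M : Sym (ZMod r) (Fintype.card ι),
      Realised ζ Q₀ (M : Multiset (ZMod r)) ↔ ∃ g : Cfsg.isometryGroup F (⇑Q₀), g ^ r = 1 ∧ f g = M := by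
    intro M
    constructor
    · rintro ⟨g, hg, hgQ, hgM⟩
      have hinj : Function.Injective g := fun x y hxy => by
        have h1 : ∀ z, (g ^ r) z = (g ^ (r - 1)) (g z) := fun z => by
          rw [← Module.End.mul_apply, ← pow_succ, Nat.sub_add_cancel hr.one_le]
        have := (h1 x).trans ((congrArg _ hxy).trans (h1 y).symm)
        rwa [hg] at this
      set g' := CfsgLib.Classes.isoOfEquiv (Q := Q₀) (LinearEquiv.ofInjectiveEndo g hinj) hgQ with hg'
      have hE : toEnd g' = g := LinearMap.ext fun v => by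
        rw [htE, hg']; exact CfsgLib.Classes.act_isoOfEquiv _ _ v
      have hg'r : g' ^ r = 1 := ext_act fun v => by
        rw [← htE, map_pow, hE, hg, act_one]; rfl
      refine ⟨g', hg'r, Sym.coe_injective ((hf g' hg'r).unique hζ ?_)⟩
      rw [hE]; exact hgM
    · rintro ⟨g, hg, rfl⟩
      exact ⟨toEnd g, hpow g hg, hiso g, hf g hg⟩
  rw [Nat.card_congr (Equiv.subtypeEquivRight hreal), Nat.card_eq_fintype_card, Nat.card_eq_fintype_card,
    Fintype.card_subtype, Fintype.card_subtype]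
  have hmem : f 1 ∈ Finset.univ.filter (fun M => ∃ g : Cfsg.isometryGroup F (⇑Q₀), g ^ r = 1 ∧ f g = M) := by
    simp only [Finset.mem_filter, Finset.mem_univ, true_and]
    exact ⟨1, one_pow r, rfl⟩
  rw [← Finset.card_erase_of_mem hmem]
  congr 1
  ext M
  simp only [Finset.mem_filter, Finset.mem_univ, true_and, Finset.mem_erase]
  constructor
  · rintro ⟨g, hg, rfl⟩
    obtain ⟨hgr, hg1⟩ := (horder g).1 hg
    exact ⟨fun h => hg1 (isConj_one_left.1 ((hconj g 1 hgr (one_pow r)).2 h)), g, hgr, rfl⟩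
  · rintro ⟨hne, g, hgr, rfl⟩
    exact ⟨g, (horder g).2 ⟨hgr, fun h => hne (by rw [h])⟩, rfl⟩

/-- The class count in even dimension. -/
theorem card_classes_even (hr2 : r ≠ 2) (hrF : (r : F) ≠ 0) (hQ : (polarBilin Q₀).Nondegenerate)
    (huq : (uq : ZMod r) = (Fintype.card F : ZMod r)) {m : ℕ} (hm : 1 ≤ m) (hι : Fintype.card ι = 2 * m) {ε : ℤ}
    (hε : ε = 1 ∨ ε = -1) (hD : OrthType.HasDisc Q₀ (ε * (Nat.card F : ℤ) ^ m)) :
    Nat.card {C : ConjClasses (Cfsg.isometryGroup F (⇑Q₀)) //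
        ∃ g : Cfsg.isometryGroup F (⇑Q₀), ConjClasses.mk g = C ∧ orderOf g = r} =
      Nat.choose (2 * m / orderOf (uu uq) + (r - 1) / orderOf (uu uq)) ((r - 1) / orderOf (uu uq)) -
        (if ((ε * (Nat.card F : ℤ) ^ m : ℤ) : ZMod r) = 1 then 0 else if orderOf (uu uq) ∣ 2 * m then
          Nat.choose (2 * m / orderOf (uu uq) + (r - 1) / orderOf (uu uq) - 1)
            ((r - 1) / orderOf (uu uq) - 1) else 0) - 1 := by
  haveI : NeZero (r : AlgebraicClosure F) := ⟨fun h => hrF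
    ((algebraMap F (AlgebraicClosure F)).injective (by rwa [map_natCast, map_zero]))⟩
  obtain ⟨ζ', hζ'⟩ := HasEnoughRootsOfUnity.exists_primitiveRoot (AlgebraicClosure F) r
  rw [card_classes_eq_realised hr2 hrF hζ' hQ,
    ← card_fixSym_cond (uu uq) (n := 2 * m) (by omega) (((ε * (Nat.card F : ℤ) ^ m : ℤ) : ZMod r) = 1), ← hι]
  exact congrArg (· - 1) (Nat.card_congr ((Equiv.subtypeEquivRight fun M : Sym (ZMod r) (Fintype.card ι) =>
      realised_iff_even (uq := uq) hr2 hζ' hQ huq hι hε hD _ M.2).trans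
      (Equiv.subtypeSubtypeEquivSubtypeInter _ (fun M : Sym (ZMod r) (Fintype.card ι) =>
        (M : Multiset (ZMod r)).count 0 = 0 → ((ε * (Nat.card F : ℤ) ^ m : ℤ) : ZMod r) = 1)).symm))

/-- The class count in odd dimension. -/
theorem card_classes_odd (hr2 : r ≠ 2) (hrF : (r : F) ≠ 0) (h2 : (2 : F) ≠ 0)
    (huq : (uq : ZMod r) = (Fintype.card F : ZMod r)) (m : ℕ) :
    Nat.card {C : ConjClasses (Cfsg.isometryGroup F (⇑(CfsgLib.ClassicalForms.qOdd m F))) //
        ∃ g : Cfsg.isometryGroup F (⇑(CfsgLib.ClassicalForms.qOdd m F)), ConjClasses.mk g = C ∧ orderOf g = r} =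
      Nat.choose ((2 * m + 1) / orderOf (uu uq) + (r - 1) / orderOf (uu uq)) ((r - 1) / orderOf (uu uq)) - 1 := by
  haveI : NeZero (r : AlgebraicClosure F) := ⟨fun h => hrF
    ((algebraMap F (AlgebraicClosure F)).injective (by rwa [map_natCast, map_zero]))⟩
  obtain ⟨ζ', hζ'⟩ := HasEnoughRootsOfUnity.exists_primitiveRoot (AlgebraicClosure F) r
  have hc : Fintype.card (Unit ⊕ (Fin m ⊕ Fin m)) = 2 * m + 1 := by simp; omega
  rw [card_classes_eq_realised hr2 hrF hζ'
      (CfsgLib.ClassicalForms.nondeg_iff_polarBilin.2 (CfsgLib.ClassicalForms.nondeg_qOdd (F := F) h2 m)),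
    ← card_fixSym, ← hc]
  exact congrArg (· - 1) (Nat.card_congr (Equiv.subtypeEquivRight fun M : Sym (ZMod r) _ =>
      realised_iff_odd (uq := uq) hr2 hζ' h2 huq _ (M.2.trans hc)))

end Realised

end CfsgLib.Derangements.OrthExpo
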