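import Mathlib
import Cfsg.Agent.Lib.Derangements.OrthPrimeClasses

/-!
Arithmetic for the class counts of elements of odd prime order in orthogonal groups.
-/

set_option autoImplicit false

namespace CfsgLib.Derangements.OrthExpo

universe u

theorem cast_ne_zero_of_ne {F : Type u} [Field F] {p r : ℕ} [Fact p.Prime] [CharP F p] (hr : r.Prime) (hrp : r ≠ p) :
    (r : F) ≠ 0 := fun h =>
  hrp ((Nat.prime_dvd_prime_iff_eq Fact.out hr).1 ((CharP.cast_eq_zero_iff F p r).1 h)).symm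

theorem card_cast_ne_zero {F : Type u} [Field F] [Fintype F] {p r : ℕ} [Fact p.Prime] [CharP F p] (hr : r.Prime)
    (hrp : r ≠ p) : ((Fintype.card F : ℕ) : ZMod r) ≠ 0 := by
  obtain ⟨f, hp, hf⟩ := FiniteField.card F p
  intro h
  rw [hf, ZMod.natCast_eq_zero_iff] at h
  exact hrp ((Nat.prime_dvd_prime_iff_eq hr hp).1 (hr.dvd_of_dvd_pow h))

/-- The order of the generator and the number of orbits, by the parity of `i`. -/
theorem uu_params {r i t : ℕ} [Fact r.Prime] (hr2 : r ≠ 2) (uq : (ZMod r)ˣ) (hi : orderOf uq = i)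
    (ht : t * i = r - 1) :
    (Odd i → orderOf (uu uq) = 2 * i ∧ (r - 1) / orderOf (uu uq) = t / 2) ∧
      (¬ Odd i → orderOf (uu uq) = i ∧ (r - 1) / orderOf (uu uq) = t) := by
  have hi0 : 0 < i := hi ▸ orderOf_pos uq
  constructor
  · intro ho
    rw [orderOf_uu hr2, hi, if_pos ho, ← ht]
    exact ⟨rfl, Nat.mul_div_mul_right _ _ hi0⟩
  · intro ho
    rw [orderOf_uu hr2, hi, if_neg ho, ← ht]
    exact ⟨rfl, Nat.mul_div_cancel _ hi0⟩

/-- The power `q ^ m` when the blocks fill the space. -/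
theorem pow_full {r : ℕ} [Fact r.Prime] (uq : (ZMod r)ˣ) {i m : ℕ} (hi : orderOf uq = i) :
    (Odd i → i ∣ m → (uq : ZMod r) ^ m = 1) ∧
      (¬ Odd i → i ∣ 2 * m → (uq : ZMod r) ^ m = (-1) ^ (2 * m / i)) := by
  have hi0 : 0 < i := hi ▸ orderOf_pos uq
  constructor
  · rintro - ⟨k, rfl⟩
    rw [pow_mul, ← Units.val_pow_eq_pow_val, ← hi, pow_orderOf_eq_one, Units.val_one, one_pow]
  · rintro ho ⟨k, hk⟩
    obtain ⟨j, hj⟩ := Nat.not_odd_iff_even.1 ho
    have hm : m = j * k := by rw [hj] at hk; linarith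
    rw [hk, Nat.mul_div_cancel_left _ hi0, hm, pow_mul, pow_half (show orderOf uq = 2 * j by omega)]

theorem signed_one {r : ℕ} [Fact r.Prime] (hr2 : r ≠ 2) (k : ℕ) :
    ((-1 : ZMod r) ^ k = 1 ↔ Even k) ∧ (-(-1 : ZMod r) ^ k = 1 ↔ Odd k) := by
  haveI : Fact (2 < r) := ⟨by have := (Fact.out : r.Prime).two_le; omega⟩
  rcases Nat.even_or_odd k with h | h
  · rw [h.neg_one_pow]
    exact ⟨iff_of_true rfl h, iff_of_false ZMod.neg_one_ne_one (Nat.not_odd_iff_even.2 h)⟩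
  · rw [h.neg_one_pow, neg_neg]
    exact ⟨iff_of_false ZMod.neg_one_ne_one (Nat.not_even_iff_odd.2 h), iff_of_true rfl h⟩

end CfsgLib.Derangements.OrthExpo
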