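import Mathlib
import Cfsg.Agent.S2588
import Cfsg.Agent.Lib.Classes.PGLPrimeClasses
import Cfsg.Agent.Lib.Classes.UnipotentGU
import Cfsg.Agent.Lib.ClassicalForms.Unitary.Center

/-!
Classes of elements of odd prime order `r ∣ q + 1` in `PGUₙ(q)`.
-/

set_option autoImplicit false
set_option linter.style.haveILetI false
set_option linter.unusedSectionVars false

namespace CfsgLib.Derangements.PGUPrime

open Polynomial Matrix CfsgLib.Classes.PGLPrime

variable {K : Type*} [Field K] [Fintype K] {q n : ℕ}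

set_option quotPrecheck false in
local notation "Gu" => ↥(Cfsg.GU n K q)
set_option quotPrecheck false in
local notation "Qu" => ↥(Cfsg.GU n K q) ⧸ Subgroup.center ↥(Cfsg.GU n K q)

/-- The norm one scalars. -/
abbrev normOne (K : Type*) [Field K] (q : ℕ) : Subgroup Kˣ := (powMonoidHom (q + 1) : Kˣ →* Kˣ).ker

theorem mem_GU_iff' (hK : Fintype.card K = q ^ 2) (g : GL (Fin n) K) :
    g ∈ Cfsg.GU n K q ↔ ((g : Matrix (Fin n) (Fin n) K).map (fun x => x ^ q))ᵀ * (g : Matrix (Fin n) (Fin n) K) = 1 :=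
  CfsgLib.Generators.mem_GU_iff_qAdjoint hK g

theorem q_pos (hK : Fintype.card K = q ^ 2) : 0 < q := by
  rcases Nat.eq_zero_or_pos q with rfl | h
  · exact absurd hK (by simp)
  · exact h

theorem scal_mem_GU (hK : Fintype.card K = q ^ 2) {a : Kˣ} (ha : a ^ (q + 1) = 1) : scal n a ∈ Cfsg.GU n K q := by
  rw [mem_GU_iff' hK, coe_scal, Matrix.smul_one_eq_diagonal,
    Matrix.diagonal_map (f := fun x : K => x ^ q) (zero_pow (q_pos hK).ne'), Matrix.diagonal_transpose, Matrix.diagonal_mul_diagonal,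
    ← Matrix.diagonal_one]
  congr 1
  funext i
  rw [← pow_succ, ← Units.val_pow_eq_pow_val, ha, Units.val_one]

theorem diagElt_mem_GU (hK : Fintype.card K = q ^ 2) {r : ℕ} {ζ : Kˣ} (hζ : ζ ^ (q + 1) = 1) (v : Fin n → ZMod r) :
    (diagElt ζ v : GL (Fin n) K) ∈ Cfsg.GU n K q := by
  rw [mem_GU_iff' hK, coe_diagElt, Matrix.diagonal_map (f := fun x : K => x ^ q) (zero_pow (q_pos hK).ne'), Matrix.diagonal_transpose,
    Matrix.diagonal_mul_diagonal, ← Matrix.diagonal_one]
  congr 1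
  funext i
  rw [← pow_succ, ← Units.val_pow_eq_pow_val, chi, ← pow_mul, mul_comm, pow_mul, hζ, one_pow, Units.val_one]

theorem exists_scal_of_mem_center (hK : Fintype.card K = q ^ 2) (hn : 2 ≤ n) {z : Gu}
    (hz : z ∈ Subgroup.center Gu) : ∃ a : Kˣ, a ^ (q + 1) = 1 ∧ (z : GL (Fin n) K) = scal n a := by
  obtain ⟨a, ha⟩ := CfsgLib.ClassicalForms.exists_scalar_of_commute_su (by rw [Nat.card_eq_fintype_card, hK]) hn z
    fun s _ => (Subgroup.mem_center_iff.1 hz s).symm
  have hM : ((z : GL (Fin n) K) : Matrix (Fin n) (Fin n) K) = a • 1 := Matrix.ext_of_mulVec_single fun j => by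
    rw [← CfsgLib.Geometric.ap_def, ha, Matrix.smul_mulVec, Matrix.one_mulVec]
  let i₀ : Fin n := ⟨0, by omega⟩
  have h1 := (mem_GU_iff' hK _).1 z.2
  rw [hM, Matrix.smul_one_eq_diagonal, Matrix.diagonal_map (f := fun x : K => x ^ q) (zero_pow (q_pos hK).ne'), Matrix.diagonal_transpose,
    Matrix.diagonal_mul_diagonal, ← Matrix.diagonal_one] at h1
  have h2 : a ^ (q + 1) = 1 := by
    have := congrFun (Matrix.diagonal_injective h1) i₀
    rwa [← pow_succ] at this
  have ha0 : a ≠ 0 := fun h => by rw [h, zero_pow (by omega)] at h2; exact zero_ne_one h2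
  refine ⟨Units.mk0 a ha0, Units.ext (by rw [Units.val_pow_eq_pow_val, Units.val_mk0, h2, Units.val_one]),
    Units.ext (by rw [coe_scal, Units.val_mk0, hM])⟩

/-- The number of classes of elements of order `r` in `PGUₙ`. -/
theorem card_classes {r : ℕ} (hK : Fintype.card K = q ^ 2) (hn : 2 ≤ n) (hr : r.Prime) (hr2 : r ≠ 2)
    (hrq : r ∣ q + 1) :
    Nat.card {C : ConjClasses Qu // ∃ g : Qu, ConjClasses.mk g = C ∧ orderOf g = r} =
      Nat.card (Quotient (AddAction.orbitRel (ZMod r) (NC r n))) + (r - 1) * (if r ∣ n then 1 else 0) := by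
  classical
  haveI : Fact r.Prime := ⟨hr⟩
  haveI : NeZero r := ⟨hr.ne_zero⟩
  obtain ⟨p, hchar⟩ := CharP.exists K
  haveI : Fact p.Prime := ⟨CharP.char_is_prime K p⟩
  have hq0 := q_pos hK
  have hq2 : (q + 1) ∣ Fintype.card K - 1 := ⟨q - 1, by
    rw [hK]; obtain ⟨t, rfl⟩ : ∃ t, q = t + 1 := ⟨q - 1, by omega⟩
    simp only [Nat.add_sub_cancel, sq]; ring_nf; omega⟩
  have hcop := r_ne_p (F := K) (p := p) (hrq.trans hq2) hr
  have hpq : p ∣ Fintype.card K := (CharP.cast_eq_zero_iff K p _).1 (Nat.cast_card_eq_zero K)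
  have hUcard : Nat.card (normOne K q) = q + 1 := by
    rw [IsCyclic.card_powMonoidHom_ker, Nat.card_units, Nat.card_eq_fintype_card]
    exact Nat.gcd_eq_right hq2
  obtain ⟨ζ, hζ⟩ : ∃ ζ : Kˣ, IsPrimitiveRoot ζ r := by
    obtain ⟨g, hg⟩ := IsCyclic.exists_generator (α := Kˣ)
    have ho := orderOf_eq_card_of_forall_mem_zpowers hg
    rw [Nat.card_units, Nat.card_eq_fintype_card] at ho
    obtain ⟨k, hk⟩ := hrq.trans hq2
    exact ⟨g ^ k, IsPrimitiveRoot.pow (show 0 < orderOf g from orderOf_pos g) (IsPrimitiveRoot.orderOf g)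
      (ho.trans (hk.trans (mul_comm r k)))⟩
  have hζq : ζ ^ (q + 1) = 1 := by
    obtain ⟨k, hk⟩ := hrq
    rw [hk, pow_mul, hζ.pow_eq_one, one_pow]
  let U := normOne K q
  have hUmem : ∀ a : U, (a : Kˣ) ^ (q + 1) = 1 := fun a => MonoidHom.mem_ker.1 a.2
  let sc : U →* Gu :=
    { toFun := fun a => ⟨scal n (a : Kˣ), scal_mem_GU hK (hUmem a)⟩
      map_one' := Subtype.ext scal_one
      map_mul' := fun a b => Subtype.ext (scal_mul _ _) }
  have hscC : ∀ a, sc a ∈ Subgroup.center Gu := fun a => Subgroup.mem_center_iff.2 fun g =>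
    Subtype.ext (commute_scal _ _).symm.eq
  have hmk : ∀ g : Gu, (g : Qu) = 1 ↔ ∃ a, g = sc a := by
    intro g
    rw [QuotientGroup.eq_one_iff]
    refine ⟨fun h => ?_, fun ⟨a, ha⟩ => ha ▸ hscC a⟩
    obtain ⟨a, ha, hga⟩ := exists_scal_of_mem_center hK hn h
    exact ⟨⟨a, MonoidHom.mem_ker.2 ha⟩, Subtype.ext hga⟩
  have hconjmk : ∀ g g' : Gu, IsConj (g : Qu) (g' : Qu) ↔ ∃ (e : Gu) (a : U), e * g * e⁻¹ = sc a * g' := by
    intro g g'
    rw [isConj_iff]
    constructor
    · rintro ⟨c, hc⟩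
      obtain ⟨e, rfl⟩ := QuotientGroup.mk_surjective c
      have h : ((e * g * e⁻¹ * g'⁻¹ : Gu) : Qu) = 1 := by
        rw [QuotientGroup.mk_mul, QuotientGroup.mk_mul, QuotientGroup.mk_mul, QuotientGroup.mk_inv,
          QuotientGroup.mk_inv, hc, mul_inv_cancel]
      obtain ⟨a, ha⟩ := (hmk _).1 h
      exact ⟨e, a, by rw [← ha, inv_mul_cancel_right]⟩
    · rintro ⟨e, a, h⟩
      refine ⟨(e : Qu), ?_⟩
      rw [← QuotientGroup.mk_inv, ← QuotientGroup.mk_mul, ← QuotientGroup.mk_mul, h, QuotientGroup.mk_mul,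
        (QuotientGroup.eq_one_iff _).2 (hscC a), one_mul]
  have hGU : ∀ g g' : Gu, (∃ e : GL (Fin n) K, e * g * e⁻¹ = (g' : GL (Fin n) K)) →
      ∃ e : Gu, e * g * e⁻¹ = g' := by
    rintro g g' h
    exact isConj_iff.1 ((CfsgLib.Classes.isConj_gu_iff hK g g').2 (isConj_iff.2 h))
  let R : Subgroup U := (powMonoidHom r : U →* U).range
  have hnoroot : ∀ c : U, (c : U ⧸ R) ≠ 1 → ∀ b : K, b ^ r ≠ ((c : Kˣ) : K) := by
    intro c hc b hb
    apply hc
    have hb0 : b ≠ 0 := by
      rintro rfl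
      rw [zero_pow hr.ne_zero] at hb
      exact (c : Kˣ).ne_zero hb.symm
    set B := Units.mk0 b hb0 with hB
    have hBr : B ^ r = (c : Kˣ) := Units.ext (by rw [Units.val_pow_eq_pow_val]; exact hb)
    have h1 : (B ^ (q + 1)) ^ r = 1 := by rw [← pow_mul, mul_comm, pow_mul, hBr, hUmem c]
    have h2 : (B ^ (q + 1)) ^ (q - 1) = 1 := by
      rw [← pow_mul, show (q + 1) * (q - 1) = Fintype.card K - 1 by
        rw [hK]; obtain ⟨t, rfl⟩ : ∃ t, q = t + 1 := ⟨q - 1, by omega⟩
        simp only [Nat.add_sub_cancel, sq]; ring_nf; omega, ← Fintype.card_units]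
      exact pow_card_eq_one
    have hgcd : Nat.gcd r (q - 1) = 1 := by
      refine (hr.coprime_iff_not_dvd).2 fun hd => hr2 ?_
      have h3 := Nat.dvd_sub hrq hd
      rw [show q + 1 - (q - 1) = 2 by omega] at h3
      exact (Nat.prime_dvd_prime_iff_eq hr Nat.prime_two).1 h3
    have h3 := pow_gcd_eq_one.2 ⟨h1, h2⟩
    rw [hgcd, pow_one] at h3
    rw [QuotientGroup.eq_one_iff]
    exact ⟨⟨B, MonoidHom.mem_ker.2 h3⟩, Subtype.ext hBr⟩
  have horder : ∀ g : Gu, (∃ c, g ^ r = sc c) → (¬ ∃ c, g = sc c) → orderOf (g : Qu) = r := by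
    intro g hp' hns
    refine orderOf_eq_prime ?_ fun h => hns ((hmk g).1 h)
    rw [← QuotientGroup.mk_pow, hmk]
    exact hp'
  let i₀ : Fin n := ⟨0, by omega⟩
  -- representatives
  let ex : NC r n → (Fin n → ZMod r) := fun m => (exists_enum m.1).choose
  have hex : ∀ m : NC r n, Finset.univ.val.map (ex m) = (m.1 : Multiset (ZMod r)) := fun m =>
    (exists_enum m.1).choose_spec
  let D : (Fin n → ZMod r) → Gu := fun v => ⟨diagElt ζ v, diagElt_mem_GU hK hζq v⟩
  have hDr : ∀ v, D v ^ r = sc 1 := fun v => Subtype.ext (by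
    rw [SubgroupClass.coe_pow, map_one, OneMemClass.coe_one]; exact diagElt_pow hζ v)
  have hDns : ∀ m : NC r n, ¬ ∃ c, D (ex m) = sc c := by
    rintro m ⟨c, hc⟩
    have hcst : ∀ i, ((chi ζ (ex m i) : Kˣ) : K) = ((c : Kˣ) : K) := fun i => by
      have := congrArg (fun g : Gu => ((g : GL (Fin n) K) : Matrix (Fin n) (Fin n) K) i i) hc
      simpa [D, sc, coe_diagElt, coe_scal] using this
    refine m.2 (ex m i₀) (Subtype.ext ?_)
    show (m.1 : Multiset (ZMod r)) = Multiset.replicate n (ex m i₀)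
    rw [← hex m]
    refine Multiset.eq_replicate.2 ⟨by simp, fun a ha => ?_⟩
    obtain ⟨i, -, rfl⟩ := Multiset.mem_map.1 ha
    exact chi_injective hζ (Units.ext ((hcst i).trans (hcst i₀).symm))
  have hco : ∀ {g : GL (Fin n) K} (c : Kˣ), g ^ r = scal n c → (orderOf g).Coprime p := fun c h =>
    coprime_order hcop hpq h
  have hDco : ∀ v : Fin n → ZMod r, (orderOf (diagElt ζ v : GL (Fin n) K)).Coprime p := fun v =>
    hco 1 (by rw [diagElt_pow hζ, scal_one])
  have hDconj : ∀ v w : Fin n → ZMod r,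
      (∃ e : Gu, e * D v * e⁻¹ = D w) ↔ Finset.univ.val.map v = Finset.univ.val.map w := by
    intro v w
    constructor
    · rintro ⟨e, he⟩
      have he' : (e : GL (Fin n) K) * diagElt ζ v * (e : GL (Fin n) K)⁻¹ = diagElt ζ w := congrArg Subtype.val he
      have h1 : (diagElt ζ w : Matrix (Fin n) (Fin n) K).charpoly = (diagElt ζ v : Matrix (Fin n) (Fin n) K).charpoly := by
        rw [← he', Units.val_mul, Units.val_mul, Matrix.coe_units_inv, Matrix.charpoly_units_conj]
      rw [charpoly_diagElt, charpoly_diagElt] at h1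
      have h2 := congrArg Polynomial.roots h1
      rw [roots_multiset_prod_X_sub_C, roots_multiset_prod_X_sub_C] at h2
      exact (Multiset.map_injective (f := fun a => ((chi ζ a : Kˣ) : K))
        (Units.val_injective.comp (chi_injective hζ)) h2).symm
    · intro h
      refine hGU (D v) (D w) ?_
      exact CfsgLib.SemisimpleClasses.exists_conj_GL p (diagElt ζ v) (diagElt ζ w) (hDco v) (hDco w)
        (by rw [charpoly_diagElt, charpoly_diagElt, h])
  have hB : ∀ κ : {κ : U ⧸ R // κ ≠ 1 ∧ r ∣ n}, ∃ g : Gu, g ^ r = sc κ.1.out := by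
    intro κ
    set c : Kˣ := ((κ.1.out : U) : Kˣ) with hcdef
    have hc : ∀ b : K, b ^ r ≠ (c : K) := hnoroot _ (by rw [QuotientGroup.out_eq']; exact κ.2.1)
    obtain ⟨g, hg⟩ := exists_pow_eq_scal (p := p) hr κ.2.2 hc
    set A := ((g : GL (Fin n) K) : Matrix (Fin n) (Fin n) K) with hA
    obtain ⟨φ, hφ, -⟩ := CfsgLib.Generators.exists_frobenius_half hK
    let τ : GL (Fin n) K →* GL (Fin n) K := Units.map φ.mapMatrix.toMonoidHom
    let d : GL (Fin n) K :=
      { val := (((τ g)⁻¹ : GL (Fin n) K) : Matrix (Fin n) (Fin n) K)ᵀ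
        inv := ((τ g : GL (Fin n) K) : Matrix (Fin n) (Fin n) K)ᵀ
        val_inv := by rw [← transpose_mul, Units.mul_inv, transpose_one]
        inv_val := by rw [← transpose_mul, Units.inv_mul, transpose_one] }
    have hd : d ^ r = scal n c := by
      apply Units.ext
      rw [Units.val_pow_eq_pow_val]
      show ((((τ g)⁻¹ : GL (Fin n) K) : Matrix (Fin n) (Fin n) K)ᵀ) ^ r = _
      rw [← transpose_pow, ← Units.val_pow_eq_pow_val, inv_pow, ← map_pow, hg,
        show (τ (scal n c))⁻¹ = scal n c from ?_, coe_scal, transpose_smul, transpose_one]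
      rw [inv_eq_iff_mul_eq_one]
      apply Units.ext
      show φ.mapMatrix ((scal n c : GL (Fin n) K) : Matrix (Fin n) (Fin n) K) * _ = 1
      rw [coe_scal, RingHom.mapMatrix_apply, Matrix.smul_one_eq_diagonal, Matrix.diagonal_map (map_zero φ),
        Matrix.diagonal_mul_diagonal, ← Matrix.diagonal_one]
      congr 1
      funext i
      rw [hφ, ← pow_succ, ← Units.val_pow_eq_pow_val, hUmem, Units.val_one]
    have hAd : ((A.map fun x : K => x ^ q)ᵀ)⁻¹ = (d : Matrix (Fin n) (Fin n) K) := by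
      refine Matrix.inv_eq_left_inv ?_
      show (((τ g)⁻¹ : GL (Fin n) K) : Matrix (Fin n) (Fin n) K)ᵀ * _ = 1
      have hτ : ((τ g : GL (Fin n) K) : Matrix (Fin n) (Fin n) K) = A.map fun x : K => x ^ q :=
        Matrix.ext fun i j => hφ _
      rw [← transpose_mul, ← hτ, Units.mul_inv, transpose_one]
    have hsim : IsConj A (((A.map fun x : K => x ^ q)ᵀ)⁻¹) := by
      obtain ⟨e, he⟩ := conj_of_pow_eq_scal (p := p) hr hcop hpq hc hg hd
      rw [hAd]
      exact (Units.coeHom (Matrix (Fin n) (Fin n) K)).map_isConj (isConj_iff.2 ⟨e, he⟩)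
    obtain ⟨B, hB⟩ := (Cfsg.Agent.S2588.result hK g).2 hsim
    obtain ⟨e, he⟩ := isConj_iff.1 hB
    refine ⟨B, Subtype.ext ?_⟩
    rw [SubgroupClass.coe_pow, ← he, conj_pow, hg, (commute_scal c e).symm.eq, mul_inv_cancel_right]
    rfl
  choose gB hgB using hB
  have hBns : ∀ κ, ¬ ∃ c, gB κ = sc c := by
    rintro κ ⟨c, hc⟩
    have := hgB κ
    rw [hc, ← map_pow] at this
    have h1 := congrArg (fun g : Gu => ((g : GL (Fin n) K) : Matrix (Fin n) (Fin n) K) i₀ i₀) this
    simp [sc, coe_scal, Matrix.diagonal_pow] at h1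
    exact hnoroot κ.1.out (by rw [QuotientGroup.out_eq']; exact κ.2.1) _ h1
  let T := Quotient (AddAction.orbitRel (ZMod r) (NC r n)) ⊕ {κ : U ⧸ R // κ ≠ 1 ∧ r ∣ n}
  let rep : T → Gu := Sum.elim (fun o => D (ex o.out)) gB
  have hrep : ∀ t, orderOf ((rep t : Gu) : Qu) = r := by
    rintro (o | κ)
    · exact horder _ ⟨1, hDr _⟩ (hDns _)
    · exact horder _ ⟨_, hgB κ⟩ (hBns κ)
  let Θ : T → {C : ConjClasses Qu // ∃ g : Qu, ConjClasses.mk g = C ∧ orderOf g = r} :=
    fun t => ⟨ConjClasses.mk ((rep t : Gu) : Qu), _, rfl, hrep t⟩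
  have hscinj : Function.Injective sc := fun a b h => by
    have h1 := congrArg (fun g : Gu => ((g : GL (Fin n) K) : Matrix (Fin n) (Fin n) K) i₀ i₀) h
    simp [sc, coe_scal] at h1
    exact Subtype.ext (Units.ext h1)
  have hcs : ∀ (a : U) (g : Gu), Commute (sc a) g := fun a g => (Subgroup.mem_center_iff.1 (hscC a) g).symm
  have hpowconj : ∀ (e g g' : Gu) (a c c' : U), g ^ r = sc c → g' ^ r = sc c' →
      e * g * e⁻¹ = sc a * g' → c = a ^ r * c' := by
    intro e g g' a c c' hg hg' h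
    apply hscinj
    have h1 := congrArg (· ^ r) h
    simp only [conj_pow, (hcs a g').mul_pow, hg, hg', ← map_pow, ← map_mul] at h1
    rwa [(hcs c e).symm.eq, mul_inv_cancel_right] at h1
  have hchiU : ∀ s : ZMod r, chi ζ s ∈ U := fun s => MonoidHom.mem_ker.2 (by
    show (ζ ^ s.val) ^ (q + 1) = 1
    rw [← pow_mul, mul_comm, pow_mul, hζq, one_pow])
  have hscD : ∀ (s : ZMod r) v, sc ⟨chi ζ s, hchiU s⟩ * D v = D (fun i => s + v i) := fun s v =>
    Subtype.ext (scal_mul_diagElt hζ s v)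
  have hinj : Function.Injective Θ := by
    intro t t' h
    obtain ⟨e, a, he⟩ := (hconjmk _ _).1 (ConjClasses.mk_eq_mk_iff_isConj.1 (congrArg Subtype.val h))
    rcases t with o | κ <;> rcases t' with o' | κ'
    · have ha := hpowconj e _ _ a 1 1 (hDr (ex o.out)) (hDr (ex o'.out)) he
      rw [mul_one] at ha
      have ha1 : ((a : Kˣ) : K) ^ r = 1 := by
        rw [← Units.val_pow_eq_pow_val, ← SubgroupClass.coe_pow, ← ha, OneMemClass.coe_one, Units.val_one]
      obtain ⟨i, hi, hai'⟩ := (hζ.map_of_injective (f := Units.coeHom K) Units.val_injective).eq_pow_of_pow_eq_one ha1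
      have hai : ζ ^ i = (a : Kˣ) := Units.ext (by rw [Units.val_pow_eq_pow_val]; exact hai')
      have hchi : (⟨chi ζ (i : ZMod r), hchiU _⟩ : U) = a := Subtype.ext (by
        show chi ζ (i : ZMod r) = a
        rw [chi, ZMod.val_natCast_of_lt hi, hai])
      simp only [rep, Sum.elim_inl] at he
      rw [← hchi, hscD] at he
      have hm := (hDconj _ _).1 ⟨e, he⟩
      rw [hex, ← Function.comp_def, ← Multiset.map_map, hex] at hm
      refine congrArg Sum.inl ?_
      rw [← Quotient.out_eq o, ← Quotient.out_eq o']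
      exact Quotient.sound ⟨(i : ZMod r), Subtype.ext (Subtype.ext hm.symm)⟩
    · exfalso
      have ha := hpowconj e _ _ a 1 _ (hDr (ex o.out)) (hgB κ') he
      apply κ'.2.1
      rw [← QuotientGroup.out_eq' κ'.1, QuotientGroup.eq_one_iff]
      exact ⟨a⁻¹, by simp [eq_inv_of_mul_eq_one_right ha.symm]⟩
    · exfalso
      have ha := hpowconj e _ _ a _ 1 (hgB κ) (hDr (ex o'.out)) he
      apply κ.2.1
      rw [← QuotientGroup.out_eq' κ.1, QuotientGroup.eq_one_iff]
      exact ⟨a, by rw [ha, mul_one]; rfl⟩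
    · have ha := hpowconj e _ _ a _ _ (hgB κ) (hgB κ') he
      refine congrArg Sum.inr (Subtype.ext ?_)
      rw [← QuotientGroup.out_eq' κ.1, ← QuotientGroup.out_eq' κ'.1, ha, QuotientGroup.mk_mul,
        (QuotientGroup.eq_one_iff _).2 (show a ^ r ∈ R from ⟨a, rfl⟩), one_mul]
  have hsurj : Function.Surjective Θ := by
    rintro ⟨C, x, rfl, hx⟩
    obtain ⟨g, rfl⟩ := QuotientGroup.mk_surjective x
    have hns : ¬ ∃ c, g = sc c := fun h => by
      rw [(hmk g).2 h, orderOf_one] at hx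
      exact hr.ne_one hx.symm
    obtain ⟨c, hc⟩ : ∃ c, g ^ r = sc c := (hmk _).1 (by
      rw [QuotientGroup.mk_pow, ← hx, pow_orderOf_eq_one])
    suffices hs : ∃ t e a, e * (rep t) * e⁻¹ = sc a * g by
      obtain ⟨t, e, a, h⟩ := hs
      exact ⟨t, Subtype.ext (ConjClasses.mk_eq_mk_iff_isConj.2 ((hconjmk _ _).2 ⟨e, a, h⟩))⟩
    by_cases hcR : (c : U ⧸ R) = 1
    · obtain ⟨a, ha⟩ := (QuotientGroup.eq_one_iff c).1 hcR
      rw [powMonoidHom_apply] at ha
      set g₁ := sc a⁻¹ * g with hg₁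
      have hg1 : g₁ ^ r = 1 := by
        rw [hg₁, (hcs _ g).mul_pow, hc, ← map_pow, ← map_mul, inv_pow, ha, inv_mul_cancel, map_one]
      have hg1' : (g₁ : GL (Fin n) K) ^ r = 1 := congrArg Subtype.val hg1
      have hζK := hζ.map_of_injective (f := Units.coeHom K) Units.val_injective
      have hann : aeval ((g₁ : GL (Fin n) K) : Matrix (Fin n) (Fin n) K)
          (∏ s ∈ nthRootsFinset r (1 : K), (X - C s)) = 0 := by
        rw [← X_pow_sub_one_eq_prod hr.pos hζK, map_sub, map_pow, aeval_X, map_one, ← Units.val_pow_eq_pow_val,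
          hg1', Units.val_one, sub_self]
      obtain ⟨b, d, hd, hb⟩ := CfsgLib.Omega.exists_eigenbasis _ _ hann
      have hdv : ∀ i, ∃ s : ZMod r, ((chi ζ s : Kˣ) : K) = d i := fun i => by
        have hdi : d i ^ r = 1 := (mem_nthRootsFinset hr.pos _).1 (hd i)
        obtain ⟨k, hk, hki⟩ := hζK.eq_pow_of_pow_eq_one hdi
        refine ⟨k, ?_⟩
        rw [chi, ZMod.val_natCast_of_lt hk, Units.val_pow_eq_pow_val]
        exact hki
      choose v hv using hdv
      have hchar : ((g₁ : GL (Fin n) K) : Matrix (Fin n) (Fin n) K).charpoly =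
          (diagElt ζ v : Matrix (Fin n) (Fin n) K).charpoly := by
        rw [← Matrix.charpoly_toLin', ← LinearMap.charpoly_toMatrix _ b, coe_diagElt]
        congr 1
        ext i j
        rw [LinearMap.toMatrix_apply, Matrix.toLin'_apply, hb, map_smul, Finsupp.smul_apply,
          Module.Basis.repr_self, Finsupp.single_apply, Matrix.diagonal_apply]
        by_cases hij : i = j
        · subst hij; simp [hv]
        · simp [hij, Ne.symm hij]
      obtain ⟨e₁, he₁⟩ := hGU (D v) g₁ (CfsgLib.SemisimpleClasses.exists_conj_GL p (diagElt ζ v)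
        (g₁ : GL (Fin n) K) (hDco v) (hco 1 (by rw [hg1', scal_one])) hchar.symm)
      let m : Sym (ZMod r) n := ⟨Finset.univ.val.map v, by simp⟩
      have hm : ∀ s, m ≠ Sym.replicate n s := by
        intro s hs
        apply hns
        refine ⟨a * ⟨chi ζ s, hchiU s⟩, ?_⟩
        have hall : ∀ i, v i = s := fun i => by
          have h1 : v i ∈ (m : Multiset (ZMod r)) :=
            show v i ∈ Finset.univ.val.map v from Multiset.mem_map_of_mem v (Finset.mem_univ i)
          rw [hs, Sym.coe_replicate] at h1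
          exact Multiset.eq_of_mem_replicate h1
        have hD : D v = sc ⟨chi ζ s, hchiU s⟩ := by
          apply Subtype.ext
          apply Units.ext
          show (diagElt ζ v : Matrix (Fin n) (Fin n) K) = ((scal n (chi ζ s) : GL (Fin n) K) : Matrix _ _ K)
          rw [coe_diagElt, coe_scal, Matrix.smul_one_eq_diagonal]
          simp [hall]
        rw [hD, (hcs _ e₁).symm.eq, mul_inv_cancel_right] at he₁
        rw [map_mul, he₁, hg₁, ← mul_assoc, ← map_mul, mul_inv_cancel, map_one, one_mul]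
      let mc : NC r n := ⟨m, hm⟩
      let o : Quotient (AddAction.orbitRel (ZMod r) (NC r n)) := Quotient.mk _ mc
      obtain ⟨s, hs⟩ : ∃ s : ZMod r, s +ᵥ mc = o.out :=
        Quotient.exact (Quotient.out_eq o)
      obtain ⟨e₂, he₂⟩ := (hDconj (ex o.out) (fun i => s + v i)).2 (by
        rw [hex, ← hs, vadd_val, Sym.coe_map]
        exact Multiset.map_map (fun x => s + x) v Finset.univ.val)
      refine ⟨Sum.inl o, e₁ * e₂, ⟨chi ζ s, hchiU s⟩ * a⁻¹, ?_⟩
      simp only [rep, Sum.elim_inl]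
      rw [show e₁ * e₂ * D (ex o.out) * (e₁ * e₂)⁻¹ = e₁ * (e₂ * D (ex o.out) * e₂⁻¹) * e₁⁻¹ by group,
        he₂, ← hscD, ← mul_assoc e₁, (hcs _ e₁).symm.eq, mul_assoc, mul_assoc, ← mul_assoc e₁, he₁, hg₁,
        map_mul, mul_assoc]
    · have hrn : r ∣ n := by
        have hπ := X_pow_sub_C_irreducible_of_prime hr (hnoroot c hcR)
        have hc' : ((g : GL (Fin n) K) : Matrix (Fin n) (Fin n) K) ^ r = ((c : Kˣ) : K) • 1 := by
          rw [← Units.val_pow_eq_pow_val, ← SubgroupClass.coe_pow, hc]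
          exact coe_scal _
        obtain ⟨k, -, hk⟩ := charpoly_eq_pow ((g : GL (Fin n) K) : Matrix (Fin n) (Fin n) K)
          (monic_X_pow_sub_C (((c : Kˣ) : K)) hr.ne_zero) hπ (by
          rw [map_sub, map_pow, aeval_X, aeval_C, ← map_pow, hc', map_smul,
            map_one, Algebra.algebraMap_eq_smul_one, sub_self])
        exact ⟨k, by rw [hk, natDegree_X_pow_sub_C, mul_comm]⟩
      let κ : {κ : U ⧸ R // κ ≠ 1 ∧ r ∣ n} := ⟨c, hcR, hrn⟩
      obtain ⟨a, ha⟩ : ∃ a : U, κ.1.out = a ^ r * c := by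
        have h1 : ((κ.1.out * c⁻¹ : U) : U ⧸ R) = 1 := by
          rw [QuotientGroup.mk_mul, QuotientGroup.out_eq', QuotientGroup.mk_inv, mul_inv_cancel]
        obtain ⟨a, ha⟩ := (QuotientGroup.eq_one_iff _).1 h1
        rw [powMonoidHom_apply] at ha
        exact ⟨a, by rw [ha, inv_mul_cancel_right]⟩
      have hgB' : (gB κ : GL (Fin n) K) ^ r = scal n ((κ.1.out : U) : Kˣ) := congrArg Subtype.val (hgB κ)
      have hag : ((sc a * g : Gu) : GL (Fin n) K) ^ r = scal n ((κ.1.out : U) : Kˣ) := by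
        refine congrArg Subtype.val (show (sc a * g) ^ r = sc κ.1.out from ?_)
        rw [(hcs _ g).mul_pow, hc, ← map_pow, ← map_mul, ha]
      obtain ⟨e, he⟩ := hGU (gB κ) (sc a * g) (conj_of_pow_eq_scal (p := p) hr hcop hpq
        (hnoroot κ.1.out (by rw [QuotientGroup.out_eq']; exact hcR)) hgB' hag)
      exact ⟨Sum.inr κ, e, a, he⟩
  rw [← Nat.card_congr (Equiv.ofBijective Θ ⟨hinj, hsurj⟩), Nat.card_sum]
  congr 1
  by_cases hd : r ∣ n
  · rw [if_pos hd, mul_one]
    have hidx : Nat.card (U ⧸ R) = r := by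
      show R.index = r
      rw [IsCyclic.index_powMonoidHom_range, hUcard]
      exact Nat.gcd_eq_right hrq
    haveI : Fintype (U ⧸ R) := Fintype.ofFinite _
    rw [Nat.card_eq_fintype_card] at hidx
    rw [Nat.card_congr (Equiv.subtypeEquivRight (q := fun κ : U ⧸ R => κ ≠ 1) fun κ => and_iff_left hd),
      Nat.card_eq_fintype_card, Fintype.card_subtype_compl, Fintype.card_subtype_eq, hidx]
  · rw [if_neg hd, mul_zero, Nat.card_eq_zero]
    exact Or.inl ⟨fun κ => hd κ.2.2⟩

end CfsgLib.Derangements.PGUPrime
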