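import Mathlib
import Cfsg.Prelude.Def_GeometricClasses
import Cfsg.Agent.Lib.Derangements.OrthTypeDisc
import Cfsg.Agent.Lib.Forms.Singular
import Cfsg.Agent.Lib.Omega.NonsingularPoint
import Cfsg.Agent.Lib.Classes.OmegaClasses

/-!
Non-degenerate subspaces of quadratic spaces over finite fields and their types.
-/

set_option autoImplicit false
set_option linter.unusedSectionVars false
set_option linter.style.haveILetI false

namespace CfsgLib.Derangements.Sub

open Module QuadraticMap CfsgLib.Derangements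

universe u v

variable {F : Type u} [Field F] {V : Type v} [AddCommGroup V] [Module F V]

/-- The restriction to a subspace. -/
def res (Q : QuadraticForm F V) (W : Submodule F V) : QuadraticForm F W := Q.comp W.subtype

@[simp] theorem res_apply (Q : QuadraticForm F V) (W : Submodule F V) (w : W) : res Q W w = Q w := rfl

theorem polar_res (Q : QuadraticForm F V) (W : Submodule F V) (u w : W) :
    polar (res Q W) u w = polar Q (u : V) (w : V) := rfl

/-- The subspace is non-degenerate. -/
def Nd (Q : QuadraticForm F V) (W : Submodule F V) : Prop :=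
  ∀ u ∈ W, (∀ w ∈ W, polar Q u w = 0) → u = 0

theorem nd_iff_res {Q : QuadraticForm F V} {W : Submodule F V} :
    Nd Q W ↔ (polarBilin (res Q W)).Nondegenerate := by
  constructor
  · intro h
    exact CfsgLib.Classes.nondegenerate_polarBilin _ fun u hu => Subtype.ext (h u u.2 fun w hw => hu ⟨w, hw⟩)
  · intro h u hu h0
    exact congrArg Subtype.val (h.1 ⟨u, hu⟩ fun w => h0 w w.2)

theorem nd_iff_isNondegenerateOn {ι : Type} {Q : QuadraticForm F (ι → F)} {W : Submodule F (ι → F)} :
    Nd Q W ↔ Cfsg.Geo.IsNondegenerateOn (polar ⇑Q) W := by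
  constructor
  · intro h u hu hu0
    obtain ⟨w, hw, hw0⟩ : ∃ w ∈ W, polar Q u w ≠ 0 := by
      by_contra hc
      push Not at hc
      exact hu0 (h u hu hc)
    exact ⟨⟨w, hw, by rwa [polar_comm]⟩, w, hw, hw0⟩
  · intro h u hu h0
    by_contra hu0
    obtain ⟨-, w, hw, hw0⟩ := h u hu hu0
    exact hw0 (h0 w hw)

theorem nd_top {Q : QuadraticForm F V} (hQ : (polarBilin Q).Nondegenerate) : Nd Q ⊤ :=
  fun u _ h => hQ.1 u fun w => h w trivial

theorem nd_bot {Q : QuadraticForm F V} : Nd Q ⊥ := fun _ hu _ => hu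

/-- The orthogonal of a subspace. -/
def perp (Q : QuadraticForm F V) (W : Submodule F V) : Submodule F V :=
  LinearMap.BilinForm.orthogonal (polarBilin Q) W

theorem mem_perp {Q : QuadraticForm F V} {W : Submodule F V} {v : V} :
    v ∈ perp Q W ↔ ∀ w ∈ W, polar Q w v = 0 := by
  simp [perp, LinearMap.BilinForm.mem_orthogonal_iff, LinearMap.BilinForm.isOrtho_def]

theorem isCompl_perp [FiniteDimensional F V] {Q : QuadraticForm F V} {W : Submodule F V} (hW : Nd Q W) :
    IsCompl W (perp Q W) :=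
  LinearMap.BilinForm.isCompl_orthogonal_of_restrict_nondegenerate
    (fun u w h => (polar_comm Q w u).trans h) (nd_iff_res.1 hW)

theorem finrank_perp [FiniteDimensional F V] {Q : QuadraticForm F V} {W : Submodule F V} (hW : Nd Q W) :
    finrank F W + finrank F (perp Q W) = finrank F V :=
  Submodule.finrank_add_eq_of_isCompl (isCompl_perp hW)

theorem nd_perp [FiniteDimensional F V] {Q : QuadraticForm F V} (hQ : (polarBilin Q).Nondegenerate)
    {W : Submodule F V} (hW : Nd Q W) : Nd Q (perp Q W) := by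
  intro u hu h
  refine hQ.1 u fun v => ?_
  obtain ⟨a, ha, b, hb, rfl⟩ := Submodule.mem_sup.1
    (show v ∈ W ⊔ perp Q W by rw [(isCompl_perp hW).sup_eq_top]; trivial)
  show polar Q u (a + b) = 0
  rw [polar_add_right, h b hb, add_zero, polar_comm]
  exact hu a ha

theorem perp_inv {Q : QuadraticForm F V} {W : Submodule F V} {g : Module.End F V}
    (hg : ∀ x, Q (g x) = Q x) (hsurj : ∀ w ∈ W, ∃ v ∈ W, g v = w) {v : V} (hv : v ∈ perp Q W) :
    g v ∈ perp Q W := by
  intro w hw
  obtain ⟨w', hw', rfl⟩ := hsurj w hw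
  show polar Q (g w') (g v) = 0
  rw [polar, ← map_add, hg, hg, hg]
  exact hv w' hw'

/-- An orthogonal sum of non-degenerate subspaces is non-degenerate. -/
theorem nd_sup {Q : QuadraticForm F V} {A B : Submodule F V} (hA : Nd Q A) (hB : Nd Q B)
    (ho : ∀ a ∈ A, ∀ b ∈ B, polar Q a b = 0) : Nd Q (A ⊔ B) := by
  intro u hu h
  obtain ⟨a, ha, b, hb, rfl⟩ := Submodule.mem_sup.1 hu
  have h1 : a = 0 := hA a ha fun w hw => by
    have := h w (Submodule.mem_sup_left hw)
    rwa [polar_add_left, polar_comm (⇑Q) b w, ho w hw b hb, add_zero] at this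
  have h2 : b = 0 := hB b hb fun w hw => by
    have := h w (Submodule.mem_sup_right hw)
    rwa [polar_add_left, ho a ha w hw, zero_add] at this
  rw [h1, h2, add_zero]

theorem disjoint_of_orth {Q : QuadraticForm F V} {A B : Submodule F V} (hA : Nd Q A)
    (ho : ∀ a ∈ A, ∀ b ∈ B, polar Q a b = 0) : Disjoint A B :=
  Submodule.disjoint_def.2 fun x hxA hxB => hA x hxA fun w hw => by rw [polar_comm]; exact ho w hw x hxB

theorem finrank_sup_orth [FiniteDimensional F V] {Q : QuadraticForm F V} {A B : Submodule F V} (hA : Nd Q A)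
    (ho : ∀ a ∈ A, ∀ b ∈ B, polar Q a b = 0) :
    finrank F ↥(A ⊔ B) = finrank F A + finrank F B := by
  have h := Submodule.finrank_sup_add_finrank_inf_eq A B
  rwa [(disjoint_of_orth hA ho).eq_bot, finrank_bot, add_zero] at h

/-- The orthogonal sum as a product. -/
theorem exists_prod_equiv [FiniteDimensional F V] {Q : QuadraticForm F V} {A B : Submodule F V} (hA : Nd Q A)
    (ho : ∀ a ∈ A, ∀ b ∈ B, polar Q a b = 0) :
    ∃ e : (A × B) ≃ₗ[F] ↥(A ⊔ B), (∀ x, res Q (A ⊔ B) (e x) = (res Q A).prod (res Q B) x) ∧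
      ∀ x : A × B, ((e x : ↥(A ⊔ B)) : V) = (x.1 : V) + (x.2 : V) := by
  let f : (A × B) →ₗ[F] ↥(A ⊔ B) :=
    (Submodule.inclusion le_sup_left).coprod (Submodule.inclusion le_sup_right)
  have hinj : Function.Injective f := by
    refine (injective_iff_map_eq_zero f).2 fun x hx => ?_
    have h : (x.1 : V) + (x.2 : V) = 0 := by simpa [f] using congrArg Subtype.val hx
    have h1 : (x.1 : V) ∈ B := by
      rw [eq_neg_of_add_eq_zero_left h]; exact B.neg_mem x.2.2
    have h0 : (x.1 : V) = 0 := Submodule.disjoint_def.1 (disjoint_of_orth hA ho) _ x.1.2 h1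
    have h2 : (x.2 : V) = 0 := by rwa [h0, zero_add] at h
    exact Prod.ext (Subtype.ext h0) (Subtype.ext h2)
  refine ⟨LinearEquiv.ofBijective f ⟨hinj, fun y => ?_⟩, fun x => ?_, fun x => rfl⟩
  · obtain ⟨a, ha, b, hb, hab⟩ := Submodule.mem_sup.1 y.2
    exact ⟨(⟨a, ha⟩, ⟨b, hb⟩), Subtype.ext (by simpa [f] using hab)⟩
  · show Q ((x.1 : V) + (x.2 : V)) = Q x.1 + Q x.2
    rw [QuadraticMap.map_add Q, ho _ x.1.2 _ x.2.2, add_zero]

section Types

variable [Finite F] [FiniteDimensional F V]

theorem hasDisc_sup {Q : QuadraticForm F V} {A B : Submodule F V} (hA : Nd Q A)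
    (ho : ∀ a ∈ A, ∀ b ∈ B, polar Q a b = 0) {DA DB : ℤ} (hDA : OrthType.HasDisc (res Q A) DA)
    (hDB : OrthType.HasDisc (res Q B) DB) : OrthType.HasDisc (res Q (A ⊔ B)) (DA * DB) := by
  obtain ⟨e, he, -⟩ := exists_prod_equiv hA ho
  haveI : Finite V := Module.finite_of_finite F
  exact (hDA.prod hDB).congr e he

/-- The subspace has dimension `2 l` and type `ε`. -/
def HasType (Q : QuadraticForm F V) (W : Submodule F V) (l : ℕ) (ε : ℤ) : Prop :=
  finrank F W = 2 * l ∧ OrthType.HasDisc (res Q W) (ε * (Nat.card F : ℤ) ^ l)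

theorem pow_card_ne_zero (l : ℕ) : (Nat.card F : ℤ) ^ l ≠ 0 :=
  pow_ne_zero _ (by exact_mod_cast Nat.card_pos.ne')

theorem HasType.unique {Q : QuadraticForm F V} {W : Submodule F V} {l l' : ℕ} {ε ε' : ℤ} (h : HasType Q W l ε)
    (h' : HasType Q W l' ε') : l = l' ∧ ε = ε' := by
  obtain rfl : l = l' := by have := h.1.symm.trans h'.1; omega
  exact ⟨rfl, mul_right_cancel₀ (pow_card_ne_zero l) (h.2.unique h'.2)⟩

theorem exists_hasType {Q : QuadraticForm F V} {W : Submodule F V} (hW : Nd Q W) {l : ℕ}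
    (hl : finrank F W = 2 * l) : ∃ ε : ℤ, (ε = 1 ∨ ε = -1) ∧ HasType Q W l ε := by
  rcases OrthType.exists_hasDisc hl (res Q W) (nd_iff_res.1 hW) with h | h
  · exact ⟨1, Or.inl rfl, hl, by rwa [one_mul]⟩
  · exact ⟨-1, Or.inr rfl, hl, by rwa [neg_one_mul]⟩

theorem hasType_bot (Q : QuadraticForm F V) : HasType Q (⊥ : Submodule F V) 0 1 := by
  refine ⟨finrank_bot F V, ?_⟩
  rcases OrthType.exists_hasDisc (m := 0) (finrank_bot F V) (res Q ⊥) (nd_iff_res.1 nd_bot) with h | h
  · simpa using h
  · exfalso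
    have h1 := h 1 one_ne_zero
    have e1 : OrthType.nval (res Q (⊥ : Submodule F V)) 1 = 0 :=
      Nat.card_eq_zero.2 (Or.inl ⟨fun x => one_ne_zero (x.2.symm.trans (by
        rw [Subsingleton.elim x.1 0, QuadraticMap.map_zero]))⟩)
    rw [e1, pow_zero] at h1
    have := Int.natCast_nonneg (OrthType.nval (res Q (⊥ : Submodule F V)) 0)
    omega

theorem HasType.sup {Q : QuadraticForm F V} {A B : Submodule F V} (hA : Nd Q A)
    (ho : ∀ a ∈ A, ∀ b ∈ B, polar Q a b = 0) {a b : ℕ} {εa εb : ℤ} (hTA : HasType Q A a εa)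
    (hTB : HasType Q B b εb) : HasType Q (A ⊔ B) (a + b) (εa * εb) := by
  refine ⟨by rw [finrank_sup_orth hA ho, hTA.1, hTB.1]; ring, ?_⟩
  have h := hasDisc_sup hA ho hTA.2 hTB.2
  rwa [show εa * εb * (Nat.card F : ℤ) ^ (a + b) =
    εa * (Nat.card F : ℤ) ^ a * (εb * (Nat.card F : ℤ) ^ b) by rw [pow_add]; ring]

theorem hasType_top_iff {Q : QuadraticForm F V} {l : ℕ} {ε : ℤ} :
    HasType Q (⊤ : Submodule F V) l ε ↔
      finrank F V = 2 * l ∧ OrthType.HasDisc Q (ε * (Nat.card F : ℤ) ^ l) := by
  have hfr : finrank F (⊤ : Submodule F V) = finrank F V := finrank_top F V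
  rw [HasType, hfr]
  refine and_congr_right fun _ => ⟨fun h => ?_, fun h => ?_⟩
  · exact h.congr Submodule.topEquiv fun x => rfl
  · exact h.congr Submodule.topEquiv.symm fun x => rfl

/-- Types of orthogonal complements. -/
theorem HasType.perp {Q : QuadraticForm F V} {W : Submodule F V} (hQ : (polarBilin Q).Nondegenerate)
    (hW : Nd Q W) {n l : ℕ} {εV ε : ℤ} (hε : ε = 1 ∨ ε = -1)
    (hV : HasType Q (⊤ : Submodule F V) n εV) (hT : HasType Q W l ε) :
    HasType Q (Sub.perp Q W) (n - l) (εV * ε) := by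
  have hfr := finrank_perp (Q := Q) hW
  have hn : finrank F V = 2 * n := (hasType_top_iff.1 hV).1
  obtain ⟨ε', hε', hT'⟩ := exists_hasType (nd_perp hQ hW) (l := n - l) (by rw [hT.1] at hfr; omega)
  have hsum := hT.sup hW (fun a ha b hb => mem_perp.1 hb a ha) hT'
  rw [(isCompl_perp hW).sup_eq_top] at hsum
  obtain ⟨-, rfl⟩ := hV.unique hsum
  rwa [show ε * ε' * ε = ε' by rcases hε with rfl | rfl <;> ring]

theorem hasType_map {V' : Type v} [AddCommGroup V'] [Module F V'] [FiniteDimensional F V']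
    {Q : QuadraticForm F V} {Q' : QuadraticForm F V'} (f : V →ₗ[F] V') (hf : Function.Injective f)
    (hfQ : ∀ x, Q' (f x) = Q x) {W : Submodule F V} :
    (Nd Q W → Nd Q' (W.map f)) ∧ ∀ l ε, HasType Q W l ε → HasType Q' (W.map f) l ε := by
  refine ⟨fun h => ?_, fun l ε h => ?_⟩
  · rintro _ ⟨u, hu, rfl⟩ h0
    have : u = 0 := h u hu fun w hw => by
      have := h0 (f w) ⟨w, hw, rfl⟩
      rwa [polar, ← map_add, hfQ, hfQ, hfQ] at this
    rw [this, map_zero]
  · let e : W ≃ₗ[F] W.map f := Submodule.equivMapOfInjective f hf W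
    exact ⟨by rw [← e.finrank_eq, h.1], h.2.congr e fun x => by
      show Q' (e x : V') = Q x
      rw [Submodule.coe_equivMapOfInjective_apply, hfQ]⟩

/-- Subspaces of any given type and smaller dimension. -/
theorem exists_le_type {Q : QuadraticForm F V} {U : Submodule F V} (hU : Nd Q U) {n : ℕ} {εU : ℤ}
    (hεU : εU = 1 ∨ εU = -1) (hT : HasType Q U n εU) {l : ℕ} (hl : 1 ≤ l) (hln : l < n) {ε : ℤ}
    (hε : ε = 1 ∨ ε = -1) : ∃ W ≤ U, Nd Q W ∧ HasType Q W l ε := by
  obtain ⟨κa, _, _, Qa, hca, hQa, hDa⟩ := OrthType.exists_form_of_disc (F := F) hl hε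
  obtain ⟨κb, _, _, Qb, hcb, hQb, hDb⟩ := OrthType.exists_form_of_disc (F := F) (l := n - l) (by omega)
    (ε := εU * ε) (by rcases hεU with rfl | rfl <;> rcases hε with rfl | rfl <;> simp)
  haveI : Finite V := Module.finite_of_finite F
  have hD : OrthType.HasDisc (Qa.prod Qb) (εU * (Nat.card F : ℤ) ^ n) := by
    have h := hDa.prod hDb
    rwa [show ε * (Nat.card F : ℤ) ^ l * (εU * ε * (Nat.card F : ℤ) ^ (n - l)) =
      εU * (Nat.card F : ℤ) ^ n * (ε * ε) by rw [show n = l + (n - l) by omega, pow_add]; simp; ring,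
      show ε * ε = 1 by rcases hε with rfl | rfl <;> rfl, mul_one] at h
  have hnd : (polarBilin (Qa.prod Qb)).Nondegenerate :=
    CfsgLib.Classes.nondegenerate_polarBilin _ fun x h => Prod.ext
      (hQa.1 _ fun y => by simpa using h (y, 0)) (hQb.1 _ fun y => by simpa using h (0, y))
  obtain ⟨E, hE⟩ := OrthType.exists_isometry (m := n)
    (by rw [Module.finrank_prod, Module.finrank_fintype_fun_eq_card, Module.finrank_fintype_fun_eq_card]; omega)
    hT.1 hnd (nd_iff_res.1 hU) hD hT.2
  let f : (κa → F) →ₗ[F] V := U.subtype ∘ₗ (E.toLinearMap ∘ₗ LinearMap.inl F _ _)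
  have hf : Function.Injective f :=
    Subtype.val_injective.comp (E.injective.comp LinearMap.inl_injective)
  have hfQ : ∀ x, Q (f x) = Qa x := fun x => by
    have := hE (x, 0)
    simpa [f] using this
  refine ⟨LinearMap.range f, ?_, ?_, ?_⟩
  · rintro _ ⟨x, rfl⟩; exact (E (x, 0)).2
  · rintro _ ⟨u, rfl⟩ h0
    have : u = 0 := hQa.1 u fun w => by
      show polar Qa u w = 0
      have := h0 (f w) ⟨w, rfl⟩
      rwa [polar, ← map_add, hfQ, hfQ, hfQ] at this
    rw [this, map_zero]
  · let e : (κa → F) ≃ₗ[F] LinearMap.range f := LinearEquiv.ofInjective f hf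
    exact ⟨by rw [← e.finrank_eq, Module.finrank_fintype_fun_eq_card, hca], hDa.congr e fun x => hfQ x⟩

end Types

/-- In odd characteristic every smaller non-degenerate form embeds. -/
theorem exists_le_isometric [Finite F] (h2 : (2 : F) ≠ 0) {V : Type v} [AddCommGroup V] [Module F V]
    [FiniteDimensional F V] (Q : QuadraticForm F V) :
    ∀ (k : ℕ) {U : Submodule F V}, Nd Q U → ∀ {A : Type v} [AddCommGroup A] [Module F A]
      [FiniteDimensional F A] (QA : QuadraticForm F A), (polarBilin QA).Nondegenerate → finrank F A = k →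
      k < finrank F U → ∃ f : A →ₗ[F] V, Function.Injective f ∧ (∀ x, f x ∈ U) ∧ ∀ x, Q (f x) = QA x := by
  intro k
  induction k with
  | zero =>
    intro U hU A _ _ _ QA hQA hA hlt
    haveI : Subsingleton A := Module.finrank_zero_iff.1 hA
    exact ⟨0, fun x y _ => Subsingleton.elim x y, fun x => U.zero_mem, fun x => by
      rw [LinearMap.zero_apply, QuadraticMap.map_zero, Subsingleton.elim x 0, QuadraticMap.map_zero]⟩
  | succ k ih =>
    intro U hU A _ _ _ QA hQA hA hlt
    haveI : Nontrivial A := Module.nontrivial_of_finrank_pos (R := F) (by omega)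
    haveI := Fintype.ofFinite F
    obtain ⟨a, ha⟩ := CfsgLib.Classes.exists_anisotropic_vector QA hQA
    have ha' : QA a ≠ 0 := by simpa using ha
    obtain ⟨u, huU, hu⟩ : ∃ u ∈ U, Q u = QA a := by
      let b := Module.finBasis F U
      let Q' : QuadraticForm F (Fin (finrank F U) → F) := (res Q U).comp b.equivFun.symm.toLinearMap
      have hQ' : (polarBilin Q').Nondegenerate := CfsgLib.Classes.nondegenerate_polarBilin _ fun y hy => by
        have := hU _ (b.equivFun.symm y).2 fun w hw => by
          have h := hy (b.equivFun ⟨w, hw⟩)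
          simp only [Q', polar, QuadraticMap.comp_apply, LinearEquiv.coe_coe, map_add,
            LinearEquiv.symm_apply_apply, res_apply] at h
          simpa [polar] using h
        exact b.equivFun.symm.injective (by rw [map_zero]; exact Subtype.ext this)
      obtain ⟨y, -, hy⟩ := CfsgLib.Classes.exists_value_mem (Q := Q') (⊤ : Submodule F _)
        ((Submodule.eq_bot_iff _).2 fun x hx => hQ'.1 x fun y => by
          show polar Q' x y = 0
          rw [polar_comm]; exact hx.2 y trivial)
        (by rw [finrank_top, Module.finrank_fintype_fun_eq_card, Fintype.card_fin]; omega) ha'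
      exact ⟨_, (b.equivFun.symm y).2, hy⟩
    have haN : Nd QA (F ∙ a) := by
      intro x hx h
      obtain ⟨t, rfl⟩ := Submodule.mem_span_singleton.1 hx
      have h0 := h a (Submodule.mem_span_singleton_self a)
      rw [polar_smul_left, polar_self, nsmul_eq_mul, smul_eq_mul, Nat.cast_ofNat] at h0
      rcases mul_eq_zero.1 h0 with h0 | h0
      · rw [h0, zero_smul]
      · exact absurd h0 (mul_ne_zero h2 ha')
    have huN : Nd Q (F ∙ u) := by
      intro x hx h
      obtain ⟨t, rfl⟩ := Submodule.mem_span_singleton.1 hx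
      have h0 := h u (Submodule.mem_span_singleton_self u)
      rw [polar_smul_left, polar_self, nsmul_eq_mul, smul_eq_mul, Nat.cast_ofNat, hu] at h0
      rcases mul_eq_zero.1 h0 with h0 | h0
      · rw [h0, zero_smul]
      · exact absurd h0 (mul_ne_zero h2 ha')
    have hu0 : u ≠ 0 := fun h => ha' (by rw [← hu, h, QuadraticMap.map_zero])
    have ha0 : a ≠ 0 := fun h => ha' (by rw [h, QuadraticMap.map_zero])
    set U' := U ⊓ perp Q (F ∙ u) with hU'
    have hsplit : ∀ x ∈ U, ∃ t : F, x - t • u ∈ U' := fun x hx => by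
      refine ⟨polar Q u x / (2 * QA a), U.sub_mem hx (U.smul_mem _ huU), mem_perp.2 fun w hw => ?_⟩
      obtain ⟨s, rfl⟩ := Submodule.mem_span_singleton.1 hw
      rw [polar_sub_right, polar_smul_left, polar_smul_left, polar_smul_right, polar_self, hu]
      simp only [nsmul_eq_mul, smul_eq_mul, Nat.cast_ofNat]
      field_simp
      ring
    have hU'N : Nd Q U' := by
      intro x hx h
      refine hU x hx.1 fun w hw => ?_
      obtain ⟨t, ht⟩ := hsplit w hw
      have h1 := h _ ht
      rw [polar_sub_right, polar_smul_right, polar_comm (⇑Q) x u,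
        mem_perp.1 hx.2 u (Submodule.mem_span_singleton_self u), smul_zero, sub_zero] at h1
      exact h1
    have hdim : finrank F U ≤ finrank F U' + 1 := by
      have hle : U ≤ U' ⊔ (F ∙ u) := fun x hx => by
        obtain ⟨t, ht⟩ := hsplit x hx
        have := Submodule.add_mem_sup ht (Submodule.smul_mem (F ∙ u) t (Submodule.mem_span_singleton_self u))
        rwa [sub_add_cancel] at this
      have h1 := Submodule.finrank_mono hle
      have h2 := Submodule.finrank_add_le_finrank_add_finrank U' (F ∙ u)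
      rw [finrank_span_singleton hu0] at h2
      omega
    have hA' : finrank F (perp QA (F ∙ a)) = k := by
      have := finrank_perp (Q := QA) haN
      rw [finrank_span_singleton ha0, hA] at this
      omega
    obtain ⟨f', hf', hf'U, hf'Q⟩ := ih hU'N (res QA (perp QA (F ∙ a))) (nd_iff_res.1 (nd_perp hQA haN)) hA'
      (by omega)
    have hcompl := isCompl_perp (Q := QA) haN
    let f : A →ₗ[F] V :=
      LinearMap.ofIsCompl hcompl (((LinearEquiv.coord F A a ha0).smulRight u)) f'
    have hf1 : ∀ t : F, f (t • a) = t • u := fun t => by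
      have := LinearMap.ofIsCompl_left_apply hcompl (φ := (LinearEquiv.coord F A a ha0).smulRight u) (ψ := f')
        ⟨t • a, Submodule.smul_mem _ t (Submodule.mem_span_singleton_self a)⟩
      simp only [f]
      rw [this, LinearMap.smulRight_apply]
      congr 1
      have h := LinearEquiv.coord_apply_smul F A a ha0 ⟨t • a, Submodule.smul_mem _ t (Submodule.mem_span_singleton_self a)⟩
      exact smul_left_injective F ha0 h
    have hf2 : ∀ x : perp QA (F ∙ a), f x = f' x := fun x => LinearMap.ofIsCompl_right_apply hcompl x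
    have hdec : ∀ x : A, ∃ t : F, ∃ y : perp QA (F ∙ a), x = t • a + (y : A) := fun x => by
      obtain ⟨p, hp, y, hy, rfl⟩ := Submodule.mem_sup.1
        (show x ∈ (F ∙ a) ⊔ perp QA (F ∙ a) by rw [hcompl.sup_eq_top]; trivial)
      obtain ⟨t, rfl⟩ := Submodule.mem_span_singleton.1 hp
      exact ⟨t, ⟨y, hy⟩, rfl⟩
    refine ⟨f, (injective_iff_map_eq_zero f).2 fun x hx => ?_, fun x => ?_, fun x => ?_⟩
    · obtain ⟨t, y, rfl⟩ := hdec x
      rw [map_add, hf1, hf2] at hx
      have h1 : t • u ∈ U' := by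
        rw [eq_neg_of_add_eq_zero_left hx]; exact U'.neg_mem (hf'U y)
      have h2 : t • u = 0 := huN _ (Submodule.smul_mem _ t (Submodule.mem_span_singleton_self u))
        fun w hw => by rw [polar_comm]; exact mem_perp.1 h1.2 w hw
      rw [h2, zero_add] at hx
      rw [(smul_eq_zero.1 h2).resolve_right hu0, zero_smul, zero_add,
        (injective_iff_map_eq_zero f').1 hf' y hx, Submodule.coe_zero]
    · obtain ⟨t, y, rfl⟩ := hdec x
      rw [map_add, hf1, hf2]
      exact U.add_mem (U.smul_mem t huU) (hf'U y).1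
    · obtain ⟨t, y, rfl⟩ := hdec x
      rw [map_add, hf1, hf2, QuadraticMap.map_add Q, QuadraticMap.map_add QA,
        mem_perp.1 (hf'U y).2 _ (Submodule.smul_mem _ t (Submodule.mem_span_singleton_self u)),
        mem_perp.1 y.2 _ (Submodule.smul_mem _ t (Submodule.mem_span_singleton_self a)),
        QuadraticMap.map_smul, QuadraticMap.map_smul, hu, hf'Q, res_apply]

end CfsgLib.Derangements.Sub
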