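import Mathlib
import Cfsg.Agent.Lib.Derangements.SubspaceTypes
import Cfsg.Agent.Lib.Derangements.OrthPrimeClasses
import Cfsg.Agent.Lib.Derangements.OrthPrimeArith

/-!
Invariant non-degenerate subspaces of isometries of odd prime order `r` in coprime characteristic: the fixed
part, and the fixed-point-free part, which consists of blocks of one dimension `2 h` and one type `η`.
-/

set_option autoImplicit false
set_option linter.unusedSectionVars false
set_option linter.style.haveILetI false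

namespace CfsgLib.Derangements.Sub

open Module QuadraticMap CfsgLib.Derangements

universe u v

variable {F : Type u} [Field F]

/-- The data attached to `r` and `q`: the blocks have dimension `2 h` and type `η`. -/
structure Params (F : Type u) [Field F] (r h : ℕ) (η : ℤ) : Prop where
  prime : r.Prime
  ne_two : r ≠ 2
  ne_zero : (r : F) ≠ 0
  pm : η = 1 ∨ η = -1
  pos : 0 < h
  pow : ((Nat.card F : ℕ) : ZMod r) ^ h = (η : ZMod r)
  order : ∀ [Fact r.Prime], ∃ uq : (ZMod r)ˣ, (uq : ZMod r) = ((Nat.card F : ℕ) : ZMod r) ∧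
    orderOf (OrthExpo.uu uq) = 2 * h

theorem params_exist [Fintype F] {p : ℕ} [Fact p.Prime] [CharP F p] {r : ℕ} (hr : r.Prime) (hr2 : r ≠ 2)
    (hrp : r ≠ p) {q i c : ℕ} (hq : Fintype.card F = q) (hi : i = orderOf (q : ZMod r))
    (hc : c = if Even i then i else 2 * i) :
    ∃ (h : ℕ) (η : ℤ), Params F r h η ∧ c = 2 * h ∧ (Even i → η = -1) ∧ (Odd i → η = 1) ∧ 0 < i ∧
      i ∣ r - 1 := by
  haveI : Fact r.Prime := ⟨hr⟩
  have hq0 : ((q : ℕ) : ZMod r) ≠ 0 := hq ▸ OrthExpo.card_cast_ne_zero (p := p) hr hrp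
  set uq : (ZMod r)ˣ := Units.mk0 _ hq0 with huq
  have hiu : orderOf uq = i := by rw [hi, ← orderOf_units]; rfl
  have hipos : 0 < i := hiu ▸ orderOf_pos uq
  have hdvd : i ∣ r - 1 := by
    rw [← hiu, ← ZMod.card_units r]
    exact orderOf_dvd_card
  have hrF := OrthExpo.cast_ne_zero_of_ne (F := F) (p := p) hr hrp
  have hqc : ((Nat.card F : ℕ) : ZMod r) = (q : ZMod r) := by rw [Nat.card_eq_fintype_card, hq]
  rcases Nat.even_or_odd i with he | ho
  · obtain ⟨k, hk⟩ := id he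
    refine ⟨k, -1, ⟨hr, hr2, hrF, Or.inr rfl, by omega, ?_, ⟨uq, hqc.symm, ?_⟩⟩, by rw [hc, if_pos he]; omega,
      fun _ => rfl, fun ho => absurd he (Nat.not_even_iff_odd.2 ho), hipos, hdvd⟩
    · rw [hqc]; push_cast
      exact OrthExpo.pow_half (uq := uq) (by omega)
    · rw [OrthExpo.orderOf_uu hr2, hiu, if_neg (Nat.not_odd_iff_even.2 he)]; omega
  · refine ⟨i, 1, ⟨hr, hr2, hrF, Or.inl rfl, hipos, ?_, ⟨uq, hqc.symm, ?_⟩⟩,
      by rw [hc, if_neg (Nat.not_even_iff_odd.2 ho)],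
      fun he => absurd he (Nat.not_even_iff_odd.2 ho), fun _ => rfl, hipos, hdvd⟩
    · rw [hqc, show (q : ZMod r) = (uq : ZMod r) from rfl, ← Units.val_pow_eq_pow_val, ← hiu, pow_orderOf_eq_one]
      simp
    · rw [OrthExpo.orderOf_uu hr2, hiu, if_pos ho]

variable {V : Type v} [AddCommGroup V] [Module F V]

/-- The fixed vectors in `U`. -/
def fixIn (g : Module.End F V) (U : Submodule F V) : Submodule F V := U ⊓ LinearMap.ker (g - 1)

/-- The moved part of `U`. -/
def movIn (g : Module.End F V) (U : Submodule F V) : Submodule F V := U.map (g - 1)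

theorem mem_fixIn {g : Module.End F V} {U : Submodule F V} {v : V} : v ∈ fixIn g U ↔ v ∈ U ∧ g v = v := by
  simp [fixIn, sub_eq_zero]

theorem fixIn_mono {g : Module.End F V} {U U' : Submodule F V} (h : U ≤ U') : fixIn g U ≤ fixIn g U' :=
  inf_le_inf_right _ h

theorem movIn_mono {g : Module.End F V} {U U' : Submodule F V} (h : U ≤ U') : movIn g U ≤ movIn g U' :=
  Submodule.map_mono h

section Decomp

variable [FiniteDimensional F V] {r : ℕ} {Q : QuadraticForm F V} {g : Module.End F V}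

theorem pow_fixed {v : V} (hv : g v = v) : ∀ k : ℕ, (g ^ k) v = v
  | 0 => rfl
  | k + 1 => by rw [pow_succ, Module.End.mul_apply, hv, pow_fixed hv k]

theorem pow_isometry (hgQ : ∀ x, Q (g x) = Q x) : ∀ (k : ℕ) (x : V), Q ((g ^ k) x) = Q x
  | 0, x => rfl
  | k + 1, x => by rw [pow_succ', Module.End.mul_apply, hgQ, pow_isometry hgQ k]

theorem polar_fixed (hgQ : ∀ x, Q (g x) = Q x) {a : V} (ha : g a = a) (k : ℕ) (w : V) :
    polar Q a ((g ^ k) w) = polar Q a w := by
  conv_lhs => rw [← pow_fixed ha k]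
  simp only [polar, ← map_add, pow_isometry hgQ]

theorem sum_pow_mem {U : Submodule F V} (hU : ∀ u ∈ U, g u ∈ U) {v : V} (hv : v ∈ U) (k : ℕ) :
    (g ^ k) v ∈ U := by
  induction k with
  | zero => exact hv
  | succ k ih => rw [pow_succ', Module.End.mul_apply]; exact hU _ ih

theorem surj_of_inv {U : Submodule F V} (hg : g ^ r = 1) (hr : r ≠ 0) (hU : ∀ u ∈ U, g u ∈ U) :
    ∀ w ∈ U, ∃ v ∈ U, g v = w := fun w hw => ⟨(g ^ (r - 1)) w, sum_pow_mem hU hw _, by
  rw [← Module.End.mul_apply, ← pow_succ', Nat.sub_add_cancel (Nat.one_le_iff_ne_zero.2 hr), hg]; rfl⟩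

/-- Splitting an invariant non-degenerate subspace. -/
theorem decomp (hrF : (r : F) ≠ 0) (hg : g ^ r = 1) (hgQ : ∀ x, Q (g x) = Q x) {U : Submodule F V}
    (hU : ∀ u ∈ U, g u ∈ U) (hUN : Nd Q U) :
    Nd Q (fixIn g U) ∧ Nd Q (movIn g U) ∧ movIn g U ≤ U ∧ fixIn g U ⊔ movIn g U = U ∧
      (∀ a ∈ fixIn g U, ∀ b ∈ movIn g U, polar Q a b = 0) ∧
      (∀ b ∈ movIn g U, g b ∈ movIn g U) ∧ ∀ b ∈ movIn g U, g b = b → b = 0 := by
  have hr : r ≠ 0 := fun h => hrF (by rw [h, Nat.cast_zero])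
  have hmovle : movIn g U ≤ U := by
    rintro _ ⟨v, hv, rfl⟩
    exact U.sub_mem (hU v hv) hv
  have ho : ∀ a ∈ fixIn g U, ∀ b ∈ movIn g U, polar Q a b = 0 := by
    rintro a ha _ ⟨v, -, rfl⟩
    rw [LinearMap.sub_apply, Module.End.one_apply, polar_sub_right]
    have := polar_fixed hgQ (mem_fixIn.1 ha).2 1 v
    rw [pow_one] at this
    rw [this, sub_self]
  -- the average
  let A : Module.End F V := (r : F)⁻¹ • ∑ k ∈ Finset.range r, g ^ k
  have hgA : ∀ v, g (A v) = A v := fun v => by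
    have h : (g - 1) * ∑ k ∈ Finset.range r, g ^ k = 0 := by rw [mul_geom_sum, hg, sub_self]
    have h2 := LinearMap.congr_fun h v
    rw [Module.End.mul_apply, LinearMap.sub_apply, Module.End.one_apply, LinearMap.zero_apply, sub_eq_zero] at h2
    simp only [A, LinearMap.smul_apply, map_smul, h2]
  have hAU : ∀ v ∈ U, A v ∈ U := fun v hv => by
    simp only [A, LinearMap.smul_apply, LinearMap.sum_apply]
    exact U.smul_mem _ (U.sum_mem fun k _ => sum_pow_mem hU hv k)
  have hAmem : ∀ v ∈ U, A v ∈ fixIn g U := fun v hv => mem_fixIn.2 ⟨hAU v hv, hgA v⟩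
  have hdiff : ∀ v ∈ U, v - A v ∈ movIn g U := by
    intro v hv
    have hk : ∀ k : ℕ, (g ^ k) v - v ∈ movIn g U := fun k => by
      induction k with
      | zero => simp
      | succ k ih =>
        have h1 : (g - 1) ((g ^ k) v) ∈ movIn g U := Submodule.mem_map_of_mem (sum_pow_mem hU hv k)
        rw [LinearMap.sub_apply, Module.End.one_apply, ← Module.End.mul_apply, ← pow_succ'] at h1
        have := Submodule.add_mem _ h1 ih
        rwa [sub_add_sub_cancel] at this
    have hs : ∑ k ∈ Finset.range r, ((g ^ k) v - v) ∈ movIn g U := Submodule.sum_mem _ fun k _ => hk k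
    rw [Finset.sum_sub_distrib, Finset.sum_const, Finset.card_range, ← LinearMap.sum_apply] at hs
    have := (movIn g U).smul_mem (-(r : F)⁻¹) hs
    convert this using 1
    simp only [A, LinearMap.smul_apply]
    rw [smul_sub, ← Nat.cast_smul_eq_nsmul F r v, smul_smul, neg_mul, inv_mul_cancel₀ hrF, neg_smul, neg_smul,
      one_smul]
    abel
  have hsup : fixIn g U ⊔ movIn g U = U := le_antisymm (sup_le inf_le_left hmovle) fun v hv => by
    have := Submodule.add_mem_sup (hAmem v hv) (hdiff v hv)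
    rwa [add_sub_cancel] at this
  have hfixN : Nd Q (fixIn g U) := fun a ha h => hUN a ha.1 fun w hw => by
    obtain ⟨x, hx, y, hy, rfl⟩ := Submodule.mem_sup.1 (hsup.symm ▸ hw : w ∈ fixIn g U ⊔ movIn g U)
    rw [polar_add_right, h x hx, ho a ha y hy, add_zero]
  have hmovN : Nd Q (movIn g U) := fun b hb h => hUN b (hmovle hb) fun w hw => by
    obtain ⟨x, hx, y, hy, rfl⟩ := Submodule.mem_sup.1 (hsup.symm ▸ hw : w ∈ fixIn g U ⊔ movIn g U)
    rw [polar_add_right, h y hy, polar_comm, ho x hx b hb, add_zero]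
  refine ⟨hfixN, hmovN, hmovle, hsup, ho, ?_, fun b hb hgb => ?_⟩
  · rintro _ ⟨v, hv, rfl⟩
    exact ⟨g v, hU v hv, by simp [map_sub]⟩
  · exact Submodule.disjoint_def.1 (disjoint_of_orth hfixN ho) b (mem_fixIn.2 ⟨hmovle hb, hgb⟩) hb

theorem finrank_decomp (hrF : (r : F) ≠ 0) (hg : g ^ r = 1) (hgQ : ∀ x, Q (g x) = Q x) {U : Submodule F V}
    (hU : ∀ u ∈ U, g u ∈ U) (hUN : Nd Q U) :
    finrank F U = finrank F (fixIn g U) + finrank F (movIn g U) := by
  obtain ⟨h1, -, -, hsup, ho, -, -⟩ := decomp hrF hg hgQ hU hUN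
  rw [← finrank_sup_orth h1 ho, hsup]

end Decomp

section Blocks

variable [Finite F] [FiniteDimensional F V] {r h : ℕ} {η : ℤ} (P : Params F r h η)
  {Q : QuadraticForm F V} {g : Module.End F V}

theorem Params.eta_pow (P : Params F r h η) (s : ℕ) : η ^ s = 1 ∨ η ^ s = -1 := by
  rcases P.pm with rfl | rfl
  · exact Or.inl (one_pow s)
  · exact neg_one_pow_eq_or ℤ s

theorem Params.eq_of_cast (P : Params F r h η) {a b : ℤ} (ha : a = 1 ∨ a = -1) (hb : b = 1 ∨ b = -1)
    (hab : (a : ZMod r) = b) : a = b := by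
  haveI : Fact r.Prime := ⟨P.prime⟩
  haveI : Fact (2 < r) := ⟨by have := P.prime.two_le; have := P.ne_two; omega⟩
  rcases ha with rfl | rfl <;> rcases hb with rfl | rfl <;> first | rfl | (exfalso; push_cast at hab)
  · exact ZMod.neg_one_ne_one hab.symm
  · exact ZMod.neg_one_ne_one hab

/-- The restriction of an isometry. -/
theorem restrict_data {U : Submodule F V} (hg : g ^ r = 1) (hgQ : ∀ x, Q (g x) = Q x) (hU : ∀ u ∈ U, g u ∈ U) :
    g.restrict hU ^ r = 1 ∧ ∀ x, res Q U (g.restrict hU x) = res Q U x :=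
  ⟨LinearMap.ext fun x => Subtype.ext (by rw [Module.End.pow_restrict]; simp [hg]), fun x => hgQ x⟩

include P in
/-- A fixed-point-free invariant subspace consists of blocks. -/
theorem exists_blocks (hg : g ^ r = 1) (hgQ : ∀ x, Q (g x) = Q x) {U : Submodule F V}
    (hU : ∀ u ∈ U, g u ∈ U) (hUN : Nd Q U) (hfree : ∀ u ∈ U, g u = u → u = 0) :
    ∃ s : ℕ, HasType Q U (h * s) (η ^ s) := by
  haveI := Fintype.ofFinite F
  haveI : Fact r.Prime := ⟨P.prime⟩
  obtain ⟨uq, huq, hord⟩ := P.order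
  rw [Nat.card_eq_fintype_card] at huq
  haveI : NeZero (r : AlgebraicClosure F) := ⟨fun h => P.ne_zero
    ((algebraMap F (AlgebraicClosure F)).injective (by rwa [map_natCast, map_zero]))⟩
  obtain ⟨ζ, hζ⟩ := HasEnoughRootsOfUnity.exists_primitiveRoot (AlgebraicClosure F) r
  obtain ⟨hgr, hgQ'⟩ := restrict_data hg hgQ hU
  have hfree' : ∀ x : U, g.restrict hU x = x → x = 0 := fun x hx =>
    Subtype.ext (hfree x x.2 (congrArg Subtype.val hx))
  obtain ⟨M, hM⟩ := OrthExpo.exists_expo hζ hgr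
  have h0 : (0 : ZMod r) ∉ M := by
    intro hmem
    have hroot : (g.restrict hU).charpoly.IsRoot 1 := by
      refine Polynomial.IsRoot.of_map (f := algebraMap F (AlgebraicClosure F)) ?_ (algebraMap F _).injective
      rw [hM, map_one, Polynomial.IsRoot, CfsgLib.Classes.GUPrime.expPoly, Polynomial.eval_multiset_prod]
      refine Multiset.prod_eq_zero (Multiset.mem_map.2 ⟨_, Multiset.mem_map_of_mem _ hmem, ?_⟩)
      simp
    obtain ⟨x, hx⟩ := ((Module.End.hasEigenvalue_iff_isRoot_charpoly _ _).2 hroot).exists_hasEigenvector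
    exact hx.2 (hfree' x (by rw [hx.apply_eq_smul, one_smul]))
  have hfix : OrthExpo.Fixes ((OrthExpo.uu uq : (ZMod r)ˣ) : ZMod r) M := by
    rw [OrthExpo.fixes_uu_iff]
    exact ⟨by rw [OrthExpo.Fixes, huq]; exact hM.map_card hζ, hM.map_neg hζ (nd_iff_res.1 hUN) hgr hgQ'⟩
  obtain ⟨s, hs⟩ := OrthExpo.orderOf_dvd_card_of_fixes _ M hfix h0
  rw [hord, hM.card] at hs
  obtain ⟨ε, hε, hT⟩ := exists_hasType hUN (l := h * s) (by rw [hs]; ring)
  have hd := OrthExpo.disc_of_fixedPointFree hT.2 hgr hgQ' hfree'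
  have : ε = η ^ s := by
    refine P.eq_of_cast hε (P.eta_pow s) ?_
    push_cast at hd ⊢
    rw [pow_mul, P.pow] at hd
    have h2 : ((η : ZMod r) ^ s) * ((η : ZMod r) ^ s) = 1 := by
      rw [← mul_pow]
      rcases P.pm with rfl | rfl <;> simp
    calc (ε : ZMod r) = (ε : ZMod r) * ((η : ZMod r) ^ s * (η : ZMod r) ^ s) := by rw [h2, mul_one]
      _ = _ := by rw [← mul_assoc, hd, one_mul]
  exact ⟨s, this ▸ hT⟩

end Blocks

end CfsgLib.Derangements.Sub
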