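import Mathlib
import Cfsg.Agent.Lib.Derangements.SubspaceFix

/-!
Existence of invariant subspaces and of isometries of order `r` with prescribed fixed space; counting of
subspaces modulo `r`.
-/

set_option autoImplicit false
set_option linter.unusedSectionVars false
set_option linter.style.haveILetI false

namespace CfsgLib.Derangements.Sub

open Module QuadraticMap CfsgLib.Derangements

universe u

/-- Closed submultisets with any smaller number of orbits. -/
theorem exists_sub_fixes {r : ℕ} [Fact r.Prime] (x : (ZMod r)ˣ) : ∀ (k : ℕ) (M : Multiset (ZMod r)),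
    OrthExpo.Fixes (x : ZMod r) M → (0 : ZMod r) ∉ M → orderOf x * k ≤ M.card →
    ∃ A B : Multiset (ZMod r), A + B = M ∧ OrthExpo.Fixes (x : ZMod r) A ∧ OrthExpo.Fixes (x : ZMod r) B ∧
      A.card = orderOf x * k := by
  intro k
  induction k with
  | zero => intro M hM _ _; exact ⟨0, M, zero_add M, by simp [OrthExpo.Fixes], hM, by simp⟩
  | succ k ih =>
    intro M hM h0 hle
    have hpos := orderOf_pos x
    obtain ⟨a, haM⟩ : ∃ a, a ∈ M := Multiset.card_pos_iff_exists_mem.1 (by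
      have : orderOf x ≤ orderOf x * (k + 1) := Nat.le_mul_of_pos_right _ (by omega)
      omega)
    have ha : a ≠ 0 := fun h => h0 (h ▸ haM)
    obtain ⟨N, hN⟩ := Multiset.le_iff_exists_add.1 (OrthExpo.orbit_le x ha hM haM)
    have hO : OrthExpo.Fixes (x : ZMod r) (OrthExpo.orbit x a) := by
      refine Multiset.eq_of_le_of_card_le ((Multiset.le_iff_subset
        ((OrthExpo.orbit_nodup x ha).map (mul_right_injective₀ x.ne_zero))).2 fun y hy => ?_) (by simp)
      obtain ⟨z, hz, rfl⟩ := Multiset.mem_map.1 hy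
      obtain ⟨j, -, rfl⟩ := Multiset.mem_map.1 hz
      refine Multiset.mem_map.2 ⟨(j + 1) % orderOf x, Finset.mem_range.2 (Nat.mod_lt _ hpos), ?_⟩
      rw [pow_mod_orderOf, pow_succ', Units.val_mul, mul_assoc]
    have hNF : OrthExpo.Fixes (x : ZMod r) N := by
      have h := hM
      rw [hN, OrthExpo.Fixes, Multiset.map_add, hO] at h
      exact add_left_cancel h
    obtain ⟨A, B, hAB, hA, hB, hAc⟩ := ih N hNF (fun h => h0 (hN ▸ Multiset.mem_add.2 (Or.inr h))) (by
      rw [hN, Multiset.card_add, OrthExpo.card_orbit, mul_add, mul_one] at hle; omega)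
    refine ⟨OrthExpo.orbit x a + A, B, by rw [add_assoc, hAB, hN], ?_, hB, ?_⟩
    · rw [OrthExpo.Fixes, Multiset.map_add, hO, hA]
    · rw [Multiset.card_add, OrthExpo.card_orbit, hAc]; ring

variable {F : Type u} [Field F] [Fintype F] {r h : ℕ} {η : ℤ} (P : Params F r h η)

include P in
theorem exists_root : ∃ ζ : AlgebraicClosure F, IsPrimitiveRoot ζ r := by
  haveI : Fact r.Prime := ⟨P.prime⟩
  haveI : NeZero (r : AlgebraicClosure F) := ⟨fun h => P.ne_zero
    ((algebraMap F (AlgebraicClosure F)).injective (by rwa [map_natCast, map_zero]))⟩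
  exact HasEnoughRootsOfUnity.exists_primitiveRoot (AlgebraicClosure F) r

variable [hr : Fact r.Prime]

include P in
/-- The model with given non-zero exponents is a sum of blocks. -/
theorem exists_model {uq : (ZMod r)ˣ} (huq : (uq : ZMod r) = (Fintype.card F : ZMod r))
    (hord : orderOf (OrthExpo.uu uq) = 2 * h) {ζ : AlgebraicClosure F} (hζ : IsPrimitiveRoot ζ r)
    {M : Multiset (ZMod r)} (hM : OrthExpo.Fixes ((OrthExpo.uu uq : (ZMod r)ˣ) : ZMod r) M)
    (h0 : (0 : ZMod r) ∉ M) {s : ℕ} (hs : M.card = 2 * (h * s)) :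
    ∃ (W : Type u) (_ : AddCommGroup W) (_ : Module F W) (_ : FiniteDimensional F W) (Q : QuadraticForm F W)
      (g : Module.End F W), (polarBilin Q).Nondegenerate ∧ g ^ r = 1 ∧ (∀ x, Q (g x) = Q x) ∧
      OrthExpo.Expo ζ g M ∧ (∀ x, g x = x → x = 0) ∧ finrank F W = 2 * (h * s) ∧
      OrthType.HasDisc Q (η ^ s * (Nat.card F : ℤ) ^ (h * s)) := by
  obtain ⟨W, _, _, _, Q, g, hQ, hg, hgQ, hgM⟩ := OrthExpo.good_of_fixes P.ne_two huq hζ M hM h0
  have hfree : ∀ x, g x = x → x = 0 := fun x hx => by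
    by_contra hx0
    exact h0 (hgM.zero_mem hζ hx0 hx)
  have hW : finrank F W = 2 * (h * s) := by rw [← hgM.card, hs]
  refine ⟨W, inferInstance, inferInstance, inferInstance, Q, g, hQ, hg, hgQ, hgM, hfree, hW, ?_⟩
  obtain ⟨s', hT⟩ := exists_blocks P hg hgQ (U := ⊤) (fun _ _ => trivial) (nd_top hQ) (fun u _ => hfree u)
  obtain ⟨h1, h2⟩ := hasType_top_iff.1 hT
  have hss : s' = s := Nat.eq_of_mul_eq_mul_left P.pos (by omega)
  rwa [hss] at h2

variable {V : Type u} [AddCommGroup V] [Module F V] [FiniteDimensional F V] {Q : QuadraticForm F V}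

include P in
/-- Inside blocks one finds any smaller number of blocks. -/
theorem exists_blocks_sub {g : Module.End F V} (hg : g ^ r = 1) (hgQ : ∀ x, Q (g x) = Q x) {U : Submodule F V}
    (hU : ∀ u ∈ U, g u ∈ U) (hUN : Nd Q U) (hfree : ∀ u ∈ U, g u = u → u = 0) {s k : ℕ}
    (hs : finrank F U = 2 * (h * s)) (hk : k ≤ s) :
    ∃ W ≤ U, Nd Q W ∧ (∀ w ∈ W, g w ∈ W) ∧ HasType Q W (h * k) (η ^ k) := by
  obtain ⟨uq, huq, hord⟩ := P.order
  rw [Nat.card_eq_fintype_card] at huq
  obtain ⟨ζ, hζ⟩ := exists_root P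
  obtain ⟨hgr, hgQ'⟩ := restrict_data (g := g) hg hgQ hU
  have hfree' : ∀ x : U, g.restrict hU x = x → x = 0 := fun x hx =>
    Subtype.ext (hfree x x.2 (congrArg Subtype.val hx))
  obtain ⟨M, hM⟩ := OrthExpo.exists_expo hζ hgr
  obtain ⟨s', hTU⟩ := exists_blocks P hg hgQ hU hUN hfree
  have hss : s' = s := Nat.eq_of_mul_eq_mul_left P.pos (by have := hTU.1; omega)
  rw [hss] at hTU
  have h0 : (0 : ZMod r) ∉ M := by
    intro hmem
    have hroot : (g.restrict hU).charpoly.IsRoot 1 := by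
      refine Polynomial.IsRoot.of_map (f := algebraMap F (AlgebraicClosure F)) ?_ (algebraMap F _).injective
      rw [hM, map_one, Polynomial.IsRoot, CfsgLib.Classes.GUPrime.expPoly, Polynomial.eval_multiset_prod]
      refine Multiset.prod_eq_zero (Multiset.mem_map.2 ⟨_, Multiset.mem_map_of_mem _ hmem, ?_⟩)
      simp
    obtain ⟨x, hx⟩ := ((Module.End.hasEigenvalue_iff_isRoot_charpoly _ _).2 hroot).exists_hasEigenvector
    exact hx.2 (hfree' x (by rw [hx.apply_eq_smul, one_smul]))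
  have hfix : OrthExpo.Fixes ((OrthExpo.uu uq : (ZMod r)ˣ) : ZMod r) M := by
    rw [OrthExpo.fixes_uu_iff]
    exact ⟨by rw [OrthExpo.Fixes, huq]; exact hM.map_card hζ, hM.map_neg hζ (nd_iff_res.1 hUN) hgr hgQ'⟩
  have hMc : M.card = 2 * (h * s) := by rw [hM.card, hs]
  obtain ⟨A, B, hAB, hA, hB, hAc⟩ := exists_sub_fixes (OrthExpo.uu uq) k M hfix h0 (by
    rw [hord, hMc, mul_assoc]; exact Nat.mul_le_mul_left 2 (Nat.mul_le_mul_left h hk))
  have hAc' : A.card = 2 * (h * k) := by rw [hAc, hord, mul_assoc]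
  have hBc : B.card = 2 * (h * (s - k)) := by
    have := congrArg Multiset.card hAB
    rw [Multiset.card_add, hAc', hMc] at this
    rw [Nat.mul_sub]
    omega
  obtain ⟨V₁, _, _, _, Q₁, g₁, hQ₁, hg₁, hg₁Q, hg₁M, -, hV₁, hD₁⟩ :=
    exists_model P huq hord hζ hA (fun hm => h0 (hAB ▸ Multiset.mem_add.2 (Or.inl hm))) hAc'
  obtain ⟨V₂, _, _, _, Q₂, g₂, hQ₂, hg₂, hg₂Q, hg₂M, -, hV₂, hD₂⟩ :=
    exists_model P huq hord hζ hB (fun hm => h0 (hAB ▸ Multiset.mem_add.2 (Or.inr hm))) hBc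
  haveI : Finite V₁ := Module.finite_of_finite F
  haveI : Finite V₂ := Module.finite_of_finite F
  have hD : OrthType.HasDisc (Q₁.prod Q₂) (η ^ s * (Nat.card F : ℤ) ^ (h * s)) := by
    have hp := hD₁.prod hD₂
    rwa [mul_mul_mul_comm, ← pow_add, ← pow_add, Nat.add_sub_cancel' hk, ← mul_add,
      Nat.add_sub_cancel' hk] at hp
  have hnd := OrthExpo.nondegenerate_prod hQ₁ hQ₂
  have hdim : finrank F (V₁ × V₂) = 2 * (h * s) := by
    rw [Module.finrank_prod, hV₁, hV₂, ← mul_add, ← mul_add, Nat.add_sub_cancel' hk]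
  obtain ⟨E, hE⟩ := OrthType.exists_isometry (m := h * s) hdim hs hnd (nd_iff_res.1 hUN) hD hTU.2
  set g' : Module.End F U := E.conj (LinearMap.prodMap g₁ g₂) with hg'
  have hg'r : g' ^ r = 1 := by
    rw [hg', OrthExpo.conj_pow_eq, OrthExpo.prodMap_pow, hg₁, hg₂]
    exact LinearMap.ext fun x => by simp [LinearEquiv.conj_apply]
  have hg'Q : ∀ x, res Q U (g' x) = res Q U x := fun x => by
    rw [hg', LinearEquiv.conj_apply_apply, hE]
    conv_rhs => rw [← E.apply_symm_apply x, hE]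
    simp [hg₁Q, hg₂Q]
  have hch : g'.charpoly = (g.restrict hU).charpoly := by
    refine Polynomial.map_injective _ (algebraMap F (AlgebraicClosure F)).injective ?_
    rw [hM, ← hAB]
    exact ((hg₁M.prodMap hg₂M).conj E)
  have hss1 : ∀ (f : Module.End F U), f ^ r = 1 → f.IsSemisimple := fun f hf =>
    Module.End.isSemisimple_of_squarefree_aeval_eq_zero
      (Polynomial.separable_X_pow_sub_C (1 : F) P.ne_zero one_ne_zero).squarefree (by simp [hf])
  obtain ⟨X, hX⟩ := CfsgLib.SemisimpleClasses.exists_equiv_of_charpoly_eq (finrank F U) g' (g.restrict hU)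
    (hss1 _ hg'r) (hss1 _ hgr) le_rfl hch
  obtain ⟨c, hcQ, hcx⟩ := CfsgLib.Classes.SemiConj.exists_quad_conj (nd_iff_res.1 hUN) P.ne_zero
    (hr.out.odd_of_ne_two P.ne_two) hg'r hgr hg'Q hgQ' X hX
  let f : V₁ →ₗ[F] V := U.subtype ∘ₗ c.toLinearMap ∘ₗ E.toLinearMap ∘ₗ LinearMap.inl F V₁ V₂
  have hf : Function.Injective f :=
    Subtype.val_injective.comp (c.injective.comp (E.injective.comp LinearMap.inl_injective))
  have hfQ : ∀ x, Q (f x) = Q₁ x := fun x => by
    have h1 := hcQ (E (x, 0))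
    have h2 := hE (x, 0)
    simp only [res_apply] at h1 h2
    show Q (c (E (x, 0)) : V) = _
    rw [h1, h2]; simp
  refine ⟨LinearMap.range f, ?_, ?_, ?_, ?_⟩
  · rintro _ ⟨x, rfl⟩; exact (c (E (x, 0))).2
  · rintro _ ⟨u, rfl⟩ h0'
    have : u = 0 := hQ₁.1 u fun w => by
      show polar Q₁ u w = 0
      have := h0' (f w) ⟨w, rfl⟩
      rwa [polar, ← map_add, hfQ, hfQ, hfQ] at this
    rw [this, map_zero]
  · rintro _ ⟨x, rfl⟩
    refine ⟨g₁ x, ?_⟩
    have h1 := hcx (E (x, 0))
    rw [hg', LinearEquiv.conj_apply_apply, E.symm_apply_apply] at h1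
    show (c (E (g₁ x, 0)) : V) = g (c (E (x, 0)) : V)
    have h2 : LinearMap.prodMap g₁ g₂ (x, 0) = (g₁ x, 0) := by simp
    rw [h2] at h1
    rw [h1]; rfl
  · let e : V₁ ≃ₗ[F] LinearMap.range f := LinearEquiv.ofInjective f hf
    exact ⟨by rw [← e.finrank_eq, hV₁], hD₁.congr e fun x => hfQ x⟩

include P in
/-- An isometry of order dividing `r` moving exactly a given subspace of blocks. -/
theorem exists_elt {U : Submodule F V} (hUN : Nd Q U) {s : ℕ} (hT : HasType Q U (h * s) (η ^ s)) :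
    ∃ g : Module.End F V, g ^ r = 1 ∧ (∀ x, Q (g x) = Q x) ∧ fixIn g ⊤ = perp Q U ∧ movIn g ⊤ = U := by
  obtain ⟨uq, huq, hord⟩ := P.order
  rw [Nat.card_eq_fintype_card] at huq
  obtain ⟨ζ, hζ⟩ := exists_root P
  have hO : OrthExpo.Fixes ((OrthExpo.uu uq : (ZMod r)ˣ) : ZMod r) (OrthExpo.orbit (OrthExpo.uu uq) 1) := by
    refine Multiset.eq_of_le_of_card_le ((Multiset.le_iff_subset
      ((OrthExpo.orbit_nodup _ one_ne_zero).map (mul_right_injective₀ (OrthExpo.uu uq).ne_zero))).2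
        fun y hy => ?_) (by simp)
    obtain ⟨z, hz, rfl⟩ := Multiset.mem_map.1 hy
    obtain ⟨j, -, rfl⟩ := Multiset.mem_map.1 hz
    refine Multiset.mem_map.2 ⟨(j + 1) % orderOf (OrthExpo.uu uq),
      Finset.mem_range.2 (Nat.mod_lt _ (orderOf_pos _)), ?_⟩
    rw [pow_mod_orderOf, pow_succ', Units.val_mul, mul_assoc]
  have hMs : OrthExpo.Fixes ((OrthExpo.uu uq : (ZMod r)ˣ) : ZMod r) (s • OrthExpo.orbit (OrthExpo.uu uq) 1) := by
    rw [OrthExpo.Fixes, Multiset.map_nsmul, hO]
  have h0 : (0 : ZMod r) ∉ s • OrthExpo.orbit (OrthExpo.uu uq) 1 := fun hm => by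
    obtain ⟨j, -, hj⟩ := Multiset.mem_map.1 (Multiset.mem_of_mem_nsmul hm)
    rw [mul_one] at hj
    exact Units.ne_zero _ hj
  obtain ⟨W, _, _, _, QW, gW, hQW, hgW, hgWQ, -, hfree, hW, hDW⟩ :=
    exists_model P huq hord hζ hMs h0 (s := s) (by rw [Multiset.card_nsmul, OrthExpo.card_orbit, hord]; ring)
  obtain ⟨E, hE⟩ := OrthType.exists_isometry (m := h * s) hW hT.1 hQW (nd_iff_res.1 hUN) hDW hT.2
  have hc := isCompl_perp (Q := Q) hUN
  let gU : Module.End F U := E.conj gW
  let g : Module.End F V := LinearMap.ofIsCompl hc (U.subtype ∘ₗ gU) (perp Q U).subtype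
  have hg1 : ∀ x : U, g x = (gU x : V) := fun x => LinearMap.ofIsCompl_apply_left hc x
  have hg2 : ∀ x : perp Q U, g x = (x : V) := fun x => LinearMap.ofIsCompl_apply_right hc x
  have hdec : ∀ v : V, ∃ (x : U) (y : perp Q U), v = (x : V) + (y : V) := fun v => by
    obtain ⟨a, ha, b, hb, rfl⟩ := Submodule.mem_sup.1
      (show v ∈ U ⊔ perp Q U by rw [hc.sup_eq_top]; trivial)
    exact ⟨⟨a, ha⟩, ⟨b, hb⟩, rfl⟩
  have hgUr : gU ^ r = 1 := by
    rw [OrthExpo.conj_pow_eq, hgW]; exact LinearEquiv.conj_id E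
  have hgUQ : ∀ x, res Q U (gU x) = res Q U x := fun x => by
    show res Q U (E.conj gW x) = _
    rw [LinearEquiv.conj_apply_apply, hE, hgWQ, ← hE, E.apply_symm_apply]
  have hpow : ∀ (k : ℕ) (x : U) (y : perp Q U),
      (g ^ k) ((x : V) + (y : V)) = ((gU ^ k) x : V) + (y : V) := fun k => by
    induction k with
    | zero => intro x y; simp
    | succ k ih =>
      intro x y
      rw [pow_succ', Module.End.mul_apply, ih, map_add, hg1, hg2, pow_succ', Module.End.mul_apply]
  have hgr : g ^ r = 1 := LinearMap.ext fun v => by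
    obtain ⟨x, y, rfl⟩ := hdec v
    rw [hpow, hgUr]; rfl
  have hgQ : ∀ v, Q (g v) = Q v := fun v => by
    obtain ⟨x, y, rfl⟩ := hdec v
    rw [map_add, hg1, hg2, QuadraticMap.map_add Q, QuadraticMap.map_add Q (x : V),
      mem_perp.1 y.2 _ (gU x).2, mem_perp.1 y.2 _ x.2]
    have := hgUQ x
    simp only [res_apply] at this
    rw [this]
  have hfix : fixIn g ⊤ = perp Q U := by
    ext v
    refine ⟨fun hv => ?_, fun hv => mem_fixIn.2 ⟨trivial, hg2 ⟨v, hv⟩⟩⟩
    obtain ⟨x, y, rfl⟩ := hdec v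
    have h1 := (mem_fixIn.1 hv).2
    rw [map_add, hg1, hg2, add_left_inj] at h1
    have h2 : gW (E.symm x) = E.symm x := E.injective (by
      rw [E.apply_symm_apply]
      exact Subtype.ext h1)
    have : x = 0 := E.symm.injective (by rw [map_zero]; exact hfree _ h2)
    rw [this, Submodule.coe_zero, zero_add]
    exact y.2
  refine ⟨g, hgr, hgQ, hfix, ?_⟩
  have hQtop : movIn g ⊤ ≤ U := by
    rintro _ ⟨v, -, rfl⟩
    obtain ⟨x, y, rfl⟩ := hdec v
    rw [LinearMap.sub_apply, Module.End.one_apply, map_add, hg1, hg2, add_sub_add_right_eq_sub]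
    exact U.sub_mem (gU x).2 x.2
  refine le_antisymm hQtop fun u hu => ?_
  have hinj : Function.Injective ((gU - 1 : Module.End F U)) := (injective_iff_map_eq_zero _).2 fun x hx => by
    rw [LinearMap.sub_apply, Module.End.one_apply, sub_eq_zero] at hx
    refine E.symm.injective ?_
    rw [map_zero]
    refine hfree _ (E.injective ?_)
    rw [E.apply_symm_apply]
    exact hx
  obtain ⟨x, hx⟩ := LinearMap.surjective_of_injective hinj ⟨u, hu⟩
  refine ⟨x, trivial, ?_⟩
  have := congrArg Subtype.val hx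
  simpa [hg1] using this

include P in
/-- The isometry group of a space too small for a block has order prime to `r`. -/
theorem not_dvd_card_isometries {U : Submodule F V} (hUN : Nd Q U)
    (hsmall : ∀ s : ℕ, 1 ≤ s → ∀ W ≤ U, Nd Q W → ¬ HasType Q W (h * s) (η ^ s)) :
    ¬ r ∣ Nat.card {e : U ≃ₗ[F] U // ∀ x, res Q U (e x) = res Q U x} := by
  let G : Subgroup (U ≃ₗ[F] U) :=
    { carrier := {e | ∀ x, res Q U (e x) = res Q U x}
      one_mem' := fun _ => rfl
      mul_mem' := fun {a b} ha hb x => (ha (b x)).trans (hb x)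
      inv_mem' := fun {a} ha x => by
        conv_rhs => rw [← a.apply_symm_apply x]
        exact (ha (a.symm x)).symm }
  haveI : Finite U := Module.finite_of_finite F
  haveI : Finite (U ≃ₗ[F] U) := Finite.of_injective (fun e => (e : U → U)) DFunLike.coe_injective
  intro hdvd
  obtain ⟨e, he⟩ := exists_prime_orderOf_dvd_card' (G := G) r hdvd
  have hd := nd_iff_res.1 hUN
  have hpow : ∀ (k : ℕ) (x : U), (e.1.toLinearMap ^ k : Module.End F U) x = (e.1 ^ k) x := fun k => by
    induction k with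
    | zero => intro x; rfl
    | succ k ih => intro x; rw [pow_succ', pow_succ', Module.End.mul_apply, ih]; rfl
  have hgr : (e.1.toLinearMap : Module.End F U) ^ r = 1 := LinearMap.ext fun x => by
    rw [hpow, ← SubgroupClass.coe_pow, ← he, pow_orderOf_eq_one]; rfl
  obtain ⟨hf, hmN, -, hsup, -, hinv, hfree⟩ := decomp (Q := res Q U) (g := e.1.toLinearMap) (U := ⊤)
    P.ne_zero hgr e.2 (fun _ _ => trivial) (nd_top hd)
  obtain ⟨s, hs⟩ := exists_blocks P hgr e.2 hinv hmN hfree
  have hs1 : 1 ≤ s := by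
    by_contra hs0
    have h0 : finrank F (movIn (e.1.toLinearMap : Module.End F U) ⊤) = 0 := by
      rw [hs.1, show s = 0 by omega]; simp
    rw [Submodule.finrank_eq_zero] at h0
    have : e = 1 := Subtype.ext (LinearEquiv.ext fun x => sub_eq_zero.1 (by
      have hm : (e.1.toLinearMap - 1 : Module.End F U) x ∈ movIn (e.1.toLinearMap : Module.End F U) ⊤ :=
        Submodule.mem_map_of_mem Submodule.mem_top
      rw [h0, Submodule.mem_bot] at hm
      exact hm))
    rw [this, orderOf_one] at he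
    exact P.prime.ne_one he.symm
  obtain ⟨hmap, hmapT⟩ := hasType_map (Q := res Q U) (Q' := Q) U.subtype Subtype.val_injective (fun _ => rfl)
    (W := movIn (e.1.toLinearMap : Module.End F U) ⊤)
  exact hsmall s hs1 _ (Submodule.map_subtype_le _ _) (hmap hmN) (hmapT _ _ hs)

end CfsgLib.Derangements.Sub
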