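import Mathlib
import Cfsg.Agent.Lib.Derangements.SubspaceBlocks
import Cfsg.Agent.Lib.Forms.WittQuadratic

/-!
Invariant non-degenerate subspaces of an element of order `r`, and the number of subspaces modulo `r`.
-/

set_option autoImplicit false
set_option linter.unusedSectionVars false
set_option linter.style.haveILetI false

namespace CfsgLib.Derangements.Sub

open Module QuadraticMap CfsgLib.Derangements

universe u

variable {F : Type u} [Field F] [Fintype F] {r h : ℕ} {η : ℤ} [hr : Fact r.Prime] (P : Params F r h η)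
  {V : Type u} [AddCommGroup V] [Module F V] [FiniteDimensional F V] {Q : QuadraticForm F V}

include P in
/-- The shape of an invariant non-degenerate subspace. -/
theorem invariant_shape (hQ : (polarBilin Q).Nondegenerate) {g : Module.End F V} (hg : g ^ r = 1)
    (hgQ : ∀ x, Q (g x) = Q x) {W : Submodule F V} (hW : ∀ w ∈ W, g w ∈ W) (hWN : Nd Q W) {s : ℕ}
    (hs : finrank F (movIn g ⊤) = 2 * (h * s)) :
    ∃ k ≤ s, Nd Q (fixIn g W) ∧ fixIn g W ≤ fixIn g ⊤ ∧ Nd Q (movIn g W) ∧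
      HasType Q (movIn g W) (h * k) (η ^ k) ∧ fixIn g W ⊔ movIn g W = W ∧
      (∀ a ∈ fixIn g W, ∀ b ∈ movIn g W, polar Q a b = 0) ∧
      finrank F W = finrank F (fixIn g W) + 2 * (h * k) := by
  obtain ⟨h1, h2, -, hsup, ho, h3, h4⟩ := decomp P.ne_zero hg hgQ hW hWN
  obtain ⟨k, hk⟩ := exists_blocks P hg hgQ h3 h2 h4
  have hle := Submodule.finrank_mono (movIn_mono (g := g) (le_top : W ≤ ⊤))
  rw [hk.1, hs] at hle
  refine ⟨k, Nat.le_of_mul_le_mul_left (by omega : h * k ≤ h * s) P.pos, h1, fixIn_mono le_top, h2, hk, hsup, ho, ?_⟩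
  rw [finrank_decomp P.ne_zero hg hgQ hW hWN, hk.1]

include P in
/-- Every shape allowed by the fixed space occurs. -/
theorem exists_invariant (hQ : (polarBilin Q).Nondegenerate) {g : Module.End F V} (hg : g ^ r = 1)
    (hgQ : ∀ x, Q (g x) = Q x) {A : Submodule F V} (hAN : Nd Q A) (hA : A ≤ fixIn g ⊤) {s k : ℕ}
    (hs : finrank F (movIn g ⊤) = 2 * (h * s)) (hk : k ≤ s) :
    ∃ B : Submodule F V, Nd Q B ∧ HasType Q B (h * k) (η ^ k) ∧ (∀ a ∈ A, ∀ b ∈ B, polar Q a b = 0) ∧
      Nd Q (A ⊔ B) ∧ ∀ w ∈ A ⊔ B, g w ∈ A ⊔ B := by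
  obtain ⟨-, h2, -, -, ho, h3, h4⟩ := decomp P.ne_zero hg hgQ (U := ⊤) (fun _ _ => trivial) (nd_top hQ)
  obtain ⟨B, hB, hBN, hBi, hBT⟩ := exists_blocks_sub P hg hgQ h3 h2 h4 hs hk
  have hab : ∀ a ∈ A, ∀ b ∈ B, polar Q a b = 0 := fun a ha b hb => ho a (hA ha) b (hB hb)
  refine ⟨B, hBN, hBT, hab, nd_sup hAN hBN hab, fun w hw => ?_⟩
  obtain ⟨a, ha, b, hb, rfl⟩ := Submodule.mem_sup.1 hw
  rw [map_add, (mem_fixIn.1 (hA ha)).2]
  exact Submodule.add_mem_sup ha (hBi b hb)

include P in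
/-- The moved part of the whole space. -/
theorem whole_shape (hQ : (polarBilin Q).Nondegenerate) {g : Module.End F V} (hg : g ^ r = 1)
    (hgQ : ∀ x, Q (g x) = Q x) :
    ∃ s : ℕ, HasType Q (movIn g ⊤) (h * s) (η ^ s) ∧ Nd Q (fixIn g ⊤) ∧
      perp Q (movIn g ⊤) = fixIn g ⊤ ∧ finrank F V = finrank F (fixIn g ⊤) + 2 * (h * s) ∧
      (1 ≤ s ↔ g ≠ 1) := by
  obtain ⟨h1, h2, -, -, ho, h3, h4⟩ := decomp P.ne_zero hg hgQ (U := ⊤) (fun _ _ => trivial) (nd_top hQ)
  obtain ⟨s, hs⟩ := exists_blocks P hg hgQ h3 h2 h4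
  have hdim := finrank_decomp P.ne_zero hg hgQ (U := ⊤) (fun _ _ => trivial) (nd_top hQ)
  rw [finrank_top, hs.1] at hdim
  refine ⟨s, hs, h1, ?_, hdim, ?_⟩
  · refine (Submodule.eq_of_le_of_finrank_le (fun v hv => mem_perp.2 fun w hw => ?_) ?_).symm
    · rw [polar_comm]; exact ho v hv w hw
    · have := finrank_perp (Q := Q) h2
      rw [hs.1] at this
      omega
  · constructor
    · intro hs1 hg1
      have h0 : movIn g (⊤ : Submodule F V) = ⊥ := by simp [movIn, hg1]
      have := hs.1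
      rw [h0, finrank_bot] at this
      have := Nat.mul_pos P.pos hs1
      omega
    · intro hg1
      by_contra hs0
      have h0 : finrank F (movIn g (⊤ : Submodule F V)) = 0 := by rw [hs.1, show s = 0 by omega]; simp
      rw [Submodule.finrank_eq_zero] at h0
      refine hg1 (LinearMap.ext fun v => sub_eq_zero.1 ?_)
      have : (g - 1) v ∈ movIn g (⊤ : Submodule F V) := Submodule.mem_map_of_mem Submodule.mem_top
      rwa [h0, Submodule.mem_bot] at this

omit hr in
/-- Subspaces modulo `r`: only the invariant ones count. -/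
theorem card_modEq_fixed (hr : r.Prime) {g : Module.End F V} (hg : g ^ r = 1) (p : Submodule F V → Prop)
    (hp : ∀ W, p W → p (W.map g)) :
    Nat.card {W : Submodule F V // p W} ≡ Nat.card {W : Submodule F V // p W ∧ W.map g = W} [MOD r] := by
  classical
  haveI := Fact.mk hr
  haveI : Finite V := Module.finite_of_finite F
  haveI : Finite (Submodule F V) := Finite.of_injective (fun W => (W : Set V)) SetLike.coe_injective
  haveI := Fintype.ofFinite {W : Submodule F V // p W}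
  let f : Function.End {W : Submodule F V // p W} := fun W => ⟨W.1.map g, hp _ W.2⟩
  have hit : ∀ (k : ℕ) (W : {W : Submodule F V // p W}),
      ((show {W : Submodule F V // p W} → {W : Submodule F V // p W} from f ^ k) W).1 = W.1.map (g ^ k) := fun k => by
    induction k with
    | zero => intro W; rw [pow_zero, pow_zero, Module.End.one_eq_id, Submodule.map_id]; rfl
    | succ k ih =>
      intro W
      rw [pow_succ' g k, Module.End.mul_eq_comp, Submodule.map_comp, ← ih W, pow_succ' f k]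
      rfl
  have hfr : f ^ r ^ 1 = 1 := by
    rw [pow_one]
    refine funext fun W => Subtype.ext ?_
    rw [hit, hg, Module.End.one_eq_id, Submodule.map_id]; rfl
  have hmod := Equiv.Perm.card_fixedPoints_modEq (f := f) (p := r) (n := 1) hfr
  rw [← Nat.card_eq_fintype_card, ← Nat.card_eq_fintype_card] at hmod
  refine hmod.trans (congrArg (· % r) (Nat.card_congr ?_))
  exact { toFun := fun x => ⟨x.1.1, x.1.2, congrArg Subtype.val x.2⟩
          invFun := fun x => ⟨⟨x.1, x.2.1⟩, Subtype.ext x.2.2⟩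
          left_inv := fun x => rfl
          right_inv := fun x => rfl }

include P in
/-- If some element moves all members not inside a small space, `r` does not divide their number. -/
theorem not_dvd_card {g : Module.End F V} (hg : g ^ r = 1) {U : Submodule F V} (hU : ∀ u ∈ U, g u = u)
    (hUN : Nd Q U) (hsmall : ∀ s : ℕ, 1 ≤ s → ∀ W ≤ U, Nd Q W → ¬ HasType Q W (h * s) (η ^ s))
    (p : Submodule F V → Prop) (hp : ∀ W, p W → p (W.map g))
    (hin : ∀ W, p W → W.map g = W → W ≤ U)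
    (hex : ∃ W ≤ U, p W)
    (hiso : ∀ W W', W ≤ U → W' ≤ U → p W → p W' → ∃ e : W ≃ₗ[F] W', ∀ w : W, Q (e w : V) = Q (w : V))
    (hpU : ∀ (e : U ≃ₗ[F] U), (∀ x, res Q U (e x) = res Q U x) → ∀ W, W ≤ U → p W →
      p ((W.comap U.subtype).map ((U.subtype).comp e.toLinearMap))) :
    ¬ r ∣ Nat.card {W : Submodule F V // p W} := by
  classical
  haveI : Finite V := Module.finite_of_finite F
  haveI : Finite U := Module.finite_of_finite F
  haveI : Finite (Submodule F V) := Finite.of_injective (fun W => (W : Set V)) SetLike.coe_injective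
  rw [Nat.dvd_iff_mod_eq_zero, card_modEq_fixed P.prime hg p hp, ← Nat.dvd_iff_mod_eq_zero]
  have heq : Nat.card {W : Submodule F V // p W ∧ W.map g = W} = Nat.card {W : Submodule F V // p W ∧ W ≤ U} := by
    refine Nat.card_congr (Equiv.subtypeEquivRight fun W => and_congr_right fun hW => ⟨hin W hW, fun hle => ?_⟩)
    ext v
    exact ⟨fun ⟨w, hw, hwv⟩ => by rw [← hwv, hU w (hle hw)]; exact hw, fun hv => ⟨v, hv, hU v (hle hv)⟩⟩
  rw [heq]
  let G := {e : U ≃ₗ[F] U // ∀ x, res Q U (e x) = res Q U x}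
  let X := {W : Submodule F V // p W ∧ W ≤ U}
  let im : G → Submodule F V → Submodule F V :=
    fun e W => (W.comap U.subtype).map ((U.subtype).comp e.1.toLinearMap)
  have him : ∀ (e : G) (W : X), p (im e W.1) ∧ im e W.1 ≤ U := fun e W =>
    ⟨hpU e.1 e.2 W.1 W.2.2 W.2.1, by rintro _ ⟨x, -, rfl⟩; exact (e.1 x).2⟩
  obtain ⟨W₁, hW₁U, hW₁⟩ := hex
  let x₁ : X := ⟨W₁, hW₁, hW₁U⟩
  let φ : G → X := fun e => ⟨im e W₁, him e x₁⟩
  have hsurj : Function.Surjective φ := by
    rintro ⟨W, hW, hWU⟩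
    obtain ⟨e, he⟩ := hiso W₁ W hW₁U hWU hW₁ hW
    let j : W₁.comap U.subtype →ₗ[F] U :=
      (Submodule.inclusion hWU) ∘ₗ e.toLinearMap ∘ₗ
        ((U.subtype ∘ₗ (W₁.comap U.subtype).subtype).codRestrict W₁ fun x => x.2)
    have hj : Function.Injective j := fun a b hab => by
      have h1 := e.injective (Subtype.ext (congrArg (fun z : U => (z : V)) hab))
      exact Subtype.ext (Subtype.ext (congrArg (fun z : W₁ => (z : V)) h1))
    have hjQ : ∀ x, res Q U (j x) = res Q U (x : U) := fun x => he _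
    obtain ⟨E, hEQ, hE⟩ := CfsgLib.Forms.witt_extension_quadratic (res Q U) (nd_iff_res.1 hUN) _ j hj hjQ
    refine ⟨⟨E, hEQ⟩, Subtype.ext (le_antisymm ?_ fun w hw => ?_)⟩
    · rintro _ ⟨x, hx, rfl⟩
      show (E x : V) ∈ W
      rw [hE ⟨x, hx⟩]
      exact (e ⟨(x : V), hx⟩).2
    · obtain ⟨a, ha⟩ := e.surjective ⟨w, hw⟩
      refine ⟨⟨(a : V), hW₁U a.2⟩, a.2, ?_⟩
      show (E ⟨(a : V), hW₁U a.2⟩ : V) = w
      rw [hE ⟨⟨(a : V), hW₁U a.2⟩, a.2⟩]
      show (e ⟨(a : V), a.2⟩ : V) = w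
      rw [show (⟨(a : V), a.2⟩ : W₁) = a from rfl, ha]
  obtain ⟨σ, hσ⟩ := hsurj.hasRightInverse
  let mulG : G → G → G := fun a b => ⟨b.1.trans a.1, fun x => (a.2 (b.1 x)).trans (b.2 x)⟩
  let invG : G → G := fun a => ⟨a.1.symm, fun x => by
    conv_rhs => rw [← a.1.apply_symm_apply x]
    exact (a.2 (a.1.symm x)).symm⟩
  have him_mul : ∀ (a b : G) (W : Submodule F V), W ≤ U → im (mulG a b) W = im a (im b W) := fun a b W hW => by
    ext v
    constructor
    · rintro ⟨x, hx, rfl⟩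
      exact ⟨b.1 x, ⟨x, hx, rfl⟩, rfl⟩
    · rintro ⟨y, ⟨x, hx, hxy⟩, rfl⟩
      refine ⟨x, hx, ?_⟩
      show (a.1 (b.1 x) : V) = (a.1 y : V)
      rw [show b.1 x = y from Subtype.ext hxy]
  have him_one : ∀ (a : G) (W : Submodule F V), W ≤ U → im (invG a) (im a W) = W := fun a W hW => by
    rw [← him_mul _ _ _ hW]
    ext v
    constructor
    · rintro ⟨x, hx, rfl⟩
      show (a.1.symm (a.1 x) : V) ∈ W
      rw [a.1.symm_apply_apply]; exact hx
    · intro hv
      exact ⟨⟨v, hW hv⟩, hv, by show (a.1.symm (a.1 ⟨v, hW hv⟩) : V) = v; rw [a.1.symm_apply_apply]⟩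
  let e : G ≃ X × {a : G // φ a = x₁} :=
    { toFun := fun a => (φ a, ⟨mulG (invG (σ (φ a))) a, Subtype.ext (by
        show im _ W₁ = W₁
        rw [him_mul _ _ _ hW₁U, show im a W₁ = im (σ (φ a)) W₁ from (congrArg Subtype.val (hσ (φ a))).symm,
          him_one _ _ hW₁U])⟩)
      invFun := fun x => mulG (σ x.1) x.2.1
      left_inv := fun a => Subtype.ext (LinearEquiv.ext fun v => by simp [mulG, invG])
      right_inv := fun x => by
        have h1 : φ (mulG (σ x.1) x.2.1) = x.1 := Subtype.ext (by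
          show im _ W₁ = _
          rw [him_mul _ _ _ hW₁U, show im x.2.1 W₁ = W₁ from congrArg Subtype.val x.2.2]
          exact congrArg Subtype.val (hσ x.1))
        refine Prod.ext h1 (Subtype.ext (Subtype.ext (LinearEquiv.ext fun v => ?_)))
        show (σ (φ (mulG (σ x.1) x.2.1))).1.symm ((σ x.1).1 (x.2.1.1 v)) = x.2.1.1 v
        rw [h1, LinearEquiv.symm_apply_apply] }
  intro hd
  refine not_dvd_card_isometries P hUN hsmall ?_
  have hcard : Nat.card G = Nat.card X * Nat.card {a : G // φ a = x₁} := by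
    rw [Nat.card_congr e, Nat.card_prod]
  exact hd.trans (hcard ▸ Dvd.intro _ rfl)

end CfsgLib.Derangements.Sub
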