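import Mathlib
import Cfsg.Agent.Lib.Derangements.SimilarityOrthCases
import Cfsg.Agent.Lib.Derangements.SubspaceCriterion
import Cfsg.Agent.Lib.Derangements.FixedSubspacesArith
import Cfsg.Agent.Lib.Parabolic.POmegaSimilar
import Cfsg.Agent.Lib.FieldExtOrth.Index
import Cfsg.Agent.Lib.ClassicalLinear.Card

/-!
Odd primes `r` prime to `q (q - 1)` dividing the index of the similarities in the special linear group: some
element of order `r` has no similar conjugate.
-/

set_option autoImplicit false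
set_option linter.unusedSectionVars false
set_option linter.style.haveILetI false

namespace CfsgLib.Derangements.SimOrth

open Matrix QuadraticMap Module
open CfsgLib.ClassicalForms CfsgLib.Geometric.Orth
open scoped Matrix

universe u

variable {F : Type u} [Field F]

/-- `∏_{j<n} (q^(j+1) - 1)`. -/
def factors (q : ℤ) (n : ℕ) : ℤ := ∏ j ∈ Finset.range n, (q ^ (j + 1) - 1)

theorem exists_pow_factors (q : ℤ) (n : ℕ) :
    ∃ a : ℕ, ∏ i : Fin n, (q ^ n - q ^ (i : ℕ)) = q ^ a * factors q n := by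
  refine ⟨∑ i ∈ Finset.range n, i, ?_⟩
  rw [Fin.prod_univ_eq_prod_range (fun i => q ^ n - q ^ i), factors, ← Finset.prod_pow_eq_pow_sum,
    ← Finset.prod_range_reflect (fun j => q ^ (j + 1) - 1) n, ← Finset.prod_mul_distrib]
  refine Finset.prod_congr rfl fun i hi => ?_
  have hi' := Finset.mem_range.1 hi
  rw [mul_sub, mul_one, ← pow_add, show i + (n - 1 - i + 1) = n by omega]

/-- An odd prime dividing the index divides the quotient of the orders. -/
theorem dvd_of_relIndex [Fintype F] {n r : ℕ} (hn : 0 < n) (Q : (Fin n → F) → F)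
    (hQ : Cfsg.Geo.IsNondegenerateQuadraticForm Q)
    (hΩ : r ∣ (Cfsg.Geo.quadSimilarityGroup Q).relIndex (Cfsg.Geo.specialLinear (Fin n) F)) :
    ∃ a k : ℕ, (r : ℤ) * Nat.card (orth (toQF hQ)) * k =
      2 * ((Fintype.card F : ℤ) ^ a * factors (Fintype.card F) n) := by
  classical
  haveI : Nonempty (Fin n) := ⟨⟨0, hn⟩⟩
  set S := Cfsg.Geo.specialLinear (Fin n) F with hS
  set H := Cfsg.Geo.quadSimilarityGroup Q with hH
  set K := Cfsg.isometryGroup F Q with hK
  have hcardK : Nat.card K = Nat.card (orth (toQF hQ)) :=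
    CfsgLib.Parabolic.POmegaAut.card_orth_eq (toQF hQ) fun _ => rfl
  -- the subgroups of determinant one
  have h1 : H.relIndex S * Nat.card (H.subgroupOf S) = Nat.card S := Subgroup.index_mul_card _
  have h2 : Nat.card (K.subgroupOf S) ∣ Nat.card (H.subgroupOf S) := by
    refine Subgroup.card_dvd_of_le fun g hg => ?_
    exact ⟨1, fun v => by rw [Units.val_one, one_mul]; exact hg v v⟩
  let δ : K →* Fˣ := (Matrix.GeneralLinearGroup.det : GL (Fin n) F →* Fˣ).comp K.subtype
  have h3 : Nat.card δ.ker = Nat.card (K.subgroupOf S) :=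
    Nat.card_congr ⟨fun g => ⟨⟨g.1.1, g.2⟩, g.1.2⟩, fun g => ⟨⟨g.1.1, g.2⟩, g.1.2⟩, fun g => rfl, fun g => rfl⟩
  have h4 : Nat.card δ.range ∣ 2 := by
    have hle : δ.range ≤ (powMonoidHom 2 : Fˣ →* Fˣ).ker := by
      rintro _ ⟨g, rfl⟩
      rw [MonoidHom.mem_ker, powMonoidHom_apply]
      refine Units.ext ?_
      have hG : (LinearMap.BilinForm.toMatrix (Pi.basisFun F (Fin n)) (polarBilin (toQF hQ))).det ≠ 0 :=
        (LinearMap.BilinForm.nondegenerate_iff_det_ne_zero _).1 (SimOrth.polarBilin_toQF hQ)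
      have hB : LinearMap.BilinForm.comp (polarBilin (toQF hQ)) (Matrix.toLin' (g.1 : Matrix (Fin n) (Fin n) F))
          (Matrix.toLin' (g.1 : Matrix (Fin n) (Fin n) F)) = polarBilin (toQF hQ) := by
        refine LinearMap.ext fun u => LinearMap.ext fun v => ?_
        show polar Q ((g.1 : Matrix (Fin n) (Fin n) F) *ᵥ u) ((g.1 : Matrix (Fin n) (Fin n) F) *ᵥ v) = polar Q u v
        have hg : ∀ w, Q ((g.1 : Matrix (Fin n) (Fin n) F) *ᵥ w) = Q w := fun w => g.2 w w
        simp only [polar, ← Matrix.mulVec_add, hg]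
      have h5 := congrArg (fun B => (LinearMap.BilinForm.toMatrix (Pi.basisFun F (Fin n)) B).det) hB
      rw [LinearMap.BilinForm.toMatrix_comp (Pi.basisFun F (Fin n)) (Pi.basisFun F (Fin n)), Matrix.det_mul,
        Matrix.det_mul, Matrix.det_transpose, LinearMap.det_toMatrix, LinearMap.det_toLin'] at h5
      show ((g.1 : Matrix (Fin n) (Fin n) F).det) ^ 2 = 1
      exact mul_right_cancel₀ hG (by linear_combination h5)
    refine (Subgroup.card_dvd_of_le hle).trans ?_
    rw [IsCyclic.card_powMonoidHom_ker]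
    exact Nat.gcd_dvd_right _ _
  have h5 : Nat.card K = Nat.card δ.range * Nat.card δ.ker := by
    rw [← Subgroup.index_ker, Subgroup.index_mul_card]
  obtain ⟨k₁, hk₁⟩ := hΩ
  obtain ⟨k₂, hk₂⟩ := h2
  obtain ⟨k₃, hk₃⟩ := h4
  obtain ⟨a, ha⟩ := exists_pow_factors (Fintype.card F : ℤ) n
  refine ⟨a, k₁ * k₂ * k₃ * (Fintype.card F - 1), ?_⟩
  have hSL : Nat.card S = Nat.card (Matrix.SpecialLinearGroup (Fin n) F) := by
    rw [hS, Cfsg.Geo.specialLinear, ← CfsgLib.ClassicalLinear.toGL_range_eq_ker_det]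
    exact (Nat.card_congr (MonoidHom.ofInjective
      (f := (Matrix.SpecialLinearGroup.toGL : Matrix.SpecialLinearGroup (Fin n) F →* GL (Fin n) F))
      Matrix.SpecialLinearGroup.toGL_injective).toEquiv).symm
  have h6 := CfsgLib.ClassicalLinear.card_SL (ι := Fin n) (F := F)
  rw [Fin.prod_univ_eq_prod_range (fun i => Fintype.card F ^ Fintype.card (Fin n) - Fintype.card F ^ i),
    Fintype.card_fin, ← hSL] at h6
  rw [Fin.prod_univ_eq_prod_range (fun i => (Fintype.card F : ℤ) ^ n - (Fintype.card F : ℤ) ^ i)] at ha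
  replace h6 : ((Fintype.card F - 1 : ℕ) : ℤ) * (Nat.card S : ℤ) =
      (Fintype.card F : ℤ) ^ a * factors (Fintype.card F) n := by
    rw [← ha, ← Nat.cast_mul, h6, Nat.cast_prod]
    refine Finset.prod_congr rfl fun i hi => ?_
    rw [Nat.cast_sub (Nat.pow_le_pow_right Fintype.card_pos (Finset.mem_range.1 hi).le), Nat.cast_pow, Nat.cast_pow]
  rw [← h6, ← h1, ← hcardK, h5, h3, hk₁, hk₂]
  have hk3' : (2 : ℤ) = (Nat.card δ.range : ℤ) * k₃ := by exact_mod_cast hk₃
  push_cast
  rw [hk3']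
  ring

theorem factor_of_dvd {q : ℤ} {n r : ℕ} [Fact r.Prime] (h : ((factors q n : ℤ) : ZMod r) = 0) :
    ∃ j < n, (q : ZMod r) ^ (j + 1) = 1 := by
  rw [factors, Int.cast_prod, Finset.prod_eq_zero_iff] at h
  obtain ⟨j, hj, h0⟩ := h
  exact ⟨j, Finset.mem_range.1 hj, by simpa [sub_eq_zero] using h0⟩

/-- What the divisibility of the index says for `r` prime to `q (q - 1)`. -/
theorem index_shape [Fintype F] {p n r : ℕ} [Fact p.Prime] [CharP F p] [Fact r.Prime] (hr2 : r ≠ 2) (hrp : r ≠ p)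
    (h2 : (2 : F) ≠ 0) (hn : 0 < n) (Q : (Fin n → F) → F) (hQ : Cfsg.Geo.IsNondegenerateQuadraticForm Q)
    (hΩ : r ∣ (Cfsg.Geo.quadSimilarityGroup Q).relIndex (Cfsg.Geo.specialLinear (Fin n) F)) :
    orderOf (Fintype.card F : ZMod r) ≤ n ∧ (Even (orderOf (Fintype.card F : ZMod r)) →
      ∃ m D, n = 2 * m ∧ orderOf (Fintype.card F : ZMod r) ∣ n ∧
        CfsgLib.Derangements.OrthType.HasDisc (toQF hQ) D ∧ (D : ZMod r) = -1) := by
  classical
  have hr : r.Prime := Fact.out
  obtain ⟨a, k, hk⟩ := dvd_of_relIndex hn Q hQ hΩ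
  set q : ℤ := (Fintype.card F : ℤ) with hq
  set u : ZMod r := (Fintype.card F : ZMod r) with hu
  have hu0 : u ≠ 0 := CfsgLib.Derangements.OrthExpo.card_cast_ne_zero (p := p) hr hrp
  have hqu : (q : ZMod r) = u := by rw [hq, Int.cast_natCast]
  have htwo : (2 : ZMod r) ≠ 0 := fun h => hr2 ((Nat.prime_dvd_prime_iff_eq hr Nat.prime_two).1
    ((ZMod.natCast_eq_zero_iff 2 r).1 (by exact_mod_cast h)))
  have hr0 : ((r : ℤ) : ZMod r) = 0 := by simp
  refine ⟨?_, fun he => ?_⟩
  · have h1 := congrArg (fun z : ℤ => (z : ZMod r)) hk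
    simp only [Int.cast_mul, hr0, zero_mul, Int.cast_pow, hqu, Int.cast_ofNat] at h1
    obtain ⟨j, hj, hj1⟩ := factor_of_dvd
      ((mul_eq_zero.1 ((mul_eq_zero.1 h1.symm).resolve_left htwo)).resolve_left (pow_ne_zero a hu0))
    rw [hqu] at hj1
    have := Nat.le_of_dvd (Nat.succ_pos j) (orderOf_dvd_of_pow_eq_one hj1)
    omega
  · have hoddne : ∀ l : ℕ, ((∏ j ∈ Finset.range l, (q ^ (2 * j + 1) - 1) : ℤ) : ZMod r) ≠ 0 := fun l => by
      rw [Int.cast_prod, Finset.prod_ne_zero_iff]
      intro j _ h0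
      rw [Int.cast_sub, Int.cast_pow, Int.cast_one, hqu, sub_eq_zero] at h0
      have hd := orderOf_dvd_of_pow_eq_one h0
      obtain ⟨t, ht⟩ := (even_iff_two_dvd.1 he).trans hd
      omega
    have hq0 : q ≠ 0 := by rw [hq]; exact_mod_cast Fintype.card_pos.ne'
    have hqN : (Nat.card F : ℤ) = q := by rw [Nat.card_eq_fintype_card]
    have hEne : ∀ l : ℕ, (∏ j ∈ Finset.range l, (q ^ (2 * (j + 1)) - 1)) ≠ 0 := fun l => by
      rw [Finset.prod_ne_zero_iff]
      intro j _
      have : 1 < q := by rw [hq]; exact_mod_cast Fintype.one_lt_card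
      have := one_lt_pow₀ this (show 2 * (j + 1) ≠ 0 by omega)
      omega
    rcases Nat.even_or_odd' n with ⟨m, rfl | rfl⟩
    · obtain ⟨M, rfl⟩ : ∃ M, m = M + 1 := ⟨m - 1, by omega⟩
      -- the order of the isometry group and the discriminant
      obtain ⟨ε, b, hε, hc, hD⟩ : ∃ (ε : ℤ) (b : ℕ), (ε = 1 ∨ ε = -1) ∧
          (Nat.card (orth (toQF hQ)) : ℤ) = 2 * q ^ b * (q ^ (M + 1) - ε) *
            ∏ j ∈ Finset.range M, (q ^ (2 * (j + 1)) - 1) ∧
          CfsgLib.Derangements.OrthType.HasDisc (toQF hQ) (ε * q ^ (M + 1)) := by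
        rcases CfsgLib.Classes.exists_equiv_even (m := M + 1) (by omega)
          (show Module.finrank F (Fin (2 * (M + 1)) → F) = 2 * (M + 1) from Module.finrank_fin_fun F)
          (toQF hQ) (SimOrth.polarBilin_toQF hQ) with ⟨E, hE⟩ | ⟨E, ζ, hζ, hE⟩
        · have hE' : ∀ v, qPlus (M + 1) F (E v) = toQF hQ v := fun v => by rw [qPlus_apply, hE]
          refine ⟨1, (M + 1) * M, Or.inl rfl, ?_, ?_⟩
          · rw [Nat.card_congr (orthCongr E hE').toEquiv, card_orth_qPlus (M + 1) (by omega), hqN,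
              Nat.add_sub_cancel]
          · rw [one_mul, ← hqN]
            exact (CfsgLib.Derangements.OrthType.hasDisc_qPlus (M + 1)).congr E.symm
              fun x => by rw [hE, E.apply_symm_apply, qPlus_apply]
        · have hE' : ∀ v, qMinus M F 1 ζ (E v) = toQF hQ v := fun v => by rw [qMinus_apply, hE]; rfl
          have han := CfsgLib.Derangements.OrthType.aniso_of_noroot hζ
          refine ⟨-1, (M + 1) * M, Or.inr rfl, ?_, ?_⟩
          · rw [sub_neg_eq_add]
            exact (congrArg (fun c : ℕ => (c : ℤ)) (Nat.card_congr (orthCongr E hE').toEquiv)).trans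
              ((card_orth_qMinus han M).trans (by rw [hqN]))
          · rw [neg_one_mul, ← hqN]
            exact (CfsgLib.Derangements.OrthType.hasDisc_qMinus han M).congr E.symm
              fun x => by rw [← hE', E.apply_symm_apply]
      have hfac : factors q (2 * (M + 1)) =
          (∏ j ∈ Finset.range M, (q ^ (2 * (j + 1)) - 1)) * (q ^ (M + 1) - ε) * (q ^ (M + 1) + ε) *
            ∏ j ∈ Finset.range (M + 1), (q ^ (2 * j + 1) - 1) := by
        rw [factors, CfsgLib.FieldExtOrth.prod_range_two_mul (fun j => q ^ j - 1), Finset.prod_range_succ,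
          pow_mul, ← pow_mul]
        rcases hε with rfl | rfl <;> ring
      have hne : q ^ (M + 1) - ε ≠ 0 := by
        have : 1 < q := by rw [hq]; exact_mod_cast Fintype.one_lt_card
        have := one_lt_pow₀ this (show M + 1 ≠ 0 by omega)
        rcases hε with rfl | rfl <;> omega
      have hcancel : (r : ℤ) * (q ^ b * k) =
          q ^ a * ((q ^ (M + 1) + ε) * ∏ j ∈ Finset.range (M + 1), (q ^ (2 * j + 1) - 1)) := by
        rw [hc, hfac] at hk
        refine mul_left_cancel₀ (mul_ne_zero (mul_ne_zero (show (2 : ℤ) ≠ 0 by norm_num) hne) (hEne M)) ?_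
        linear_combination hk
      have h1 := congrArg (fun z : ℤ => (z : ZMod r)) hcancel
      simp only [Int.cast_mul, hr0, zero_mul] at h1
      rw [Int.cast_pow, hqu] at h1
      have h3 := (mul_eq_zero.1 ((mul_eq_zero.1 h1.symm).resolve_left (pow_ne_zero a hu0))).resolve_right
        (hoddne (M + 1))
      have hεu : ((ε : ℤ) : ZMod r) * (ε : ZMod r) = 1 := by
        rcases hε with rfl | rfl <;> simp
      rw [Int.cast_add, Int.cast_pow, hqu] at h3
      refine ⟨M + 1, ε * q ^ (M + 1), rfl, orderOf_dvd_of_pow_eq_one ?_, hD, ?_⟩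
      · rw [mul_comm 2, pow_mul]
        linear_combination (u ^ (M + 1) - (ε : ZMod r)) * h3 + hεu
      · rw [Int.cast_mul, Int.cast_pow, hqu]
        linear_combination (ε : ZMod r) * h3 - hεu
    · exfalso
      obtain ⟨E, c, h2', hc0, hE⟩ := CfsgLib.Classes.exists_equiv_odd
        (show Module.finrank F (Fin (2 * m + 1) → F) = 2 * m + 1 from Module.finrank_fin_fun F)
        (toQF hQ) (SimOrth.polarBilin_toQF hQ)
      let w : Unit ⊕ (Fin m ⊕ Fin m) → Fˣ := Sum.elim 1 (Sum.elim (fun _ => (Units.mk0 c hc0)⁻¹) 1)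
      let g : (Unit ⊕ (Fin m ⊕ Fin m) → F) ≃ₗ[F] (Unit ⊕ (Fin m ⊕ Fin m) → F) :=
        LinearEquiv.piCongrRight fun i => LinearEquiv.smulOfUnit (w i)
      have hE' : ∀ v, (c • qOdd m F) ((E.trans g) v) = toQF hQ v := fun v => by
        rw [_root_.smul_apply, qOdd_apply, hE]
        simp only [Cfsg.quadFormOdd, LinearEquiv.trans_apply, g, w, LinearEquiv.piCongrRight_apply,
          LinearEquiv.smulOfUnit, DistribMulAction.toLinearEquiv_apply, Units.smul_def, Sum.elim_inl, Sum.elim_inr,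
          Pi.one_apply, one_smul, smul_eq_mul]
        rw [mul_add, Finset.mul_sum]
        congr 1
        refine Finset.sum_congr rfl fun i _ => ?_
        rw [Units.val_inv_eq_inv_val, Units.val_mk0]
        field_simp
      have hcard : (Nat.card (orth (toQF hQ)) : ℤ) = 2 * q ^ (m ^ 2) *
          ∏ j ∈ Finset.range m, (q ^ (2 * (j + 1)) - 1) := by
        rw [Nat.card_congr (orthCongr _ hE').toEquiv, CfsgLib.FieldExtOrth.card_orth_smul hc0,
          card_orth_qOdd h2, hqN]
      have hfac : factors q (2 * m + 1) = (∏ j ∈ Finset.range m, (q ^ (2 * (j + 1)) - 1)) *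
          ∏ j ∈ Finset.range (m + 1), (q ^ (2 * j + 1) - 1) := by
        rw [factors]
        exact CfsgLib.FieldExtOrth.prod_range_two_mul_succ (fun j => q ^ j - 1) m
      have hcancel : (r : ℤ) * (q ^ (m ^ 2) * k) = q ^ a * ∏ j ∈ Finset.range (m + 1), (q ^ (2 * j + 1) - 1) := by
        rw [hcard, hfac] at hk
        refine mul_left_cancel₀ (mul_ne_zero (show (2 : ℤ) ≠ 0 by norm_num) (hEne m)) ?_
        linear_combination hk
      have h1 := congrArg (fun z : ℤ => (z : ZMod r)) hcancel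
      simp only [Int.cast_mul, hr0, zero_mul] at h1
      rw [Int.cast_pow, hqu] at h1
      exact hoddne (m + 1) ((mul_eq_zero.1 h1.symm).resolve_left (pow_ne_zero a hu0))

/-- For `r` prime to `q (q - 1)` the property fails. -/
theorem coprime_neg [Fintype F] {p n r : ℕ} [Fact p.Prime] [CharP F p] [Fact r.Prime] (hr2 : r ≠ 2) (hrp : r ≠ p)
    (hrq : ¬ r ∣ Fintype.card F - 1) (h2 : (2 : F) ≠ 0) (hn : 3 ≤ n) (Q : (Fin n → F) → F)
    (hQ : Cfsg.Geo.IsNondegenerateQuadraticForm Q)
    (hΩ : r ∣ (Cfsg.Geo.quadSimilarityGroup Q).relIndex (Cfsg.Geo.specialLinear (Fin n) F)) : ¬ AllFix Q r := by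
  classical
  have hr : r.Prime := Fact.out
  obtain ⟨hin, heven⟩ := index_shape (p := p) hr2 hrp h2 (by omega) Q hQ hΩ
  set i := orderOf (Fintype.card F : ZMod r) with hi
  obtain ⟨h, η, P, -, -, -, hipos, -⟩ := Sub.params_exist (F := F) (p := p) hr hr2 hrp rfl hi rfl
  have hone : ∀ a : F, a ^ r = 1 → a = 1 := fun a ha => by
    have ha0 : a ≠ 0 := fun h0 => by rw [h0, zero_pow hr.ne_zero] at ha; exact zero_ne_one ha
    have h1 : orderOf (Units.mk0 a ha0) ∣ r := orderOf_dvd_of_pow_eq_one (Units.ext (by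
      rw [Units.val_pow_eq_pow_val]; exact ha))
    have h3 : orderOf (Units.mk0 a ha0) ∣ Fintype.card F - 1 := by
      rw [← Fintype.card_units]; exact orderOf_dvd_card
    rcases hr.eq_one_or_self_of_dvd _ h1 with e | e
    · exact congrArg Units.val (orderOf_eq_one_iff.1 e)
    · exact absurd (e ▸ h3) hrq
  intro hall
  -- the test element
  have test : ∀ k l : ℕ, n = k + l * i → k < n →
      ∃ y : Module.End F (Fin n → F), y ^ r = 1 ∧ (∀ v, toQF hQ (y v) = toQF hQ v) ∧
        Module.finrank F (LinearMap.ker (y - 1)) = k := by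
    intro k l hkl hk
    obtain ⟨T, hT, hker⟩ := CfsgLib.Derangements.SubFix.exists_free_witness (F := F) (r := r) P.ne_zero
      (V := Fin n → F) (k := k) (l := l) (by rw [Module.finrank_fin_fun, Nat.card_eq_fintype_card]; exact hkl)
    set A := LinearMap.toMatrixAlgEquiv' T with hA
    have hAr : A ^ r = 1 := by rw [hA, ← map_pow, hT, map_one]
    have hd : A.det = 1 := hone _ (by rw [← Matrix.det_pow, hAr, Matrix.det_one])
    let x : GL (Fin n) F := Matrix.GeneralLinearGroup.mkOfDetNeZero A (by rw [hd]; exact one_ne_zero)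
    obtain ⟨g, -, c, hc⟩ := hall x (by rw [CfsgLib.Omega.mem_specialLinear]; exact hd) ⟨1, by
      rw [Units.val_pow_eq_pow_val, one_smul]; exact hAr⟩ fun z hz => by
        have hz' : A = z • (1 : Matrix (Fin n) (Fin n) F) := hz
        have h3 := hAr
        rw [hz', smul_pow, one_pow] at h3
        have h4 := congrFun₂ h3 ⟨0, by omega⟩ ⟨0, by omega⟩
        rw [Matrix.smul_apply, Matrix.one_apply_eq, smul_eq_mul, mul_one] at h4
        rw [hone z h4, one_smul, hA, ← map_one (LinearMap.toMatrixAlgEquiv' : Module.End F (Fin n → F) ≃ₐ[F] _)] at hz'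
        rw [(LinearMap.toMatrixAlgEquiv').injective hz', sub_self, LinearMap.ker_zero, finrank_top,
          Module.finrank_fin_fun] at hker
        omega
    set y : Module.End F (Fin n → F) :=
      Matrix.toLinAlgEquiv' ((g⁻¹ * x * g : GL (Fin n) F) : Matrix (Fin n) (Fin n) F) with hy
    have hyr : y ^ r = 1 := by
      rw [hy, ← map_pow, ← Units.val_pow_eq_pow_val]
      have hxr : x ^ r = 1 := Units.ext (by rw [Units.val_pow_eq_pow_val, Units.val_one]; exact hAr)
      have hconj : (g⁻¹ * x * g) ^ r = 1 := by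
        rw [show g⁻¹ * x * g = g⁻¹ * x * g⁻¹⁻¹ by rw [inv_inv], conj_pow, hxr, mul_one, mul_inv_cancel]
      rw [hconj, Units.val_one, map_one]
    have hyQ : ∀ v, toQF hQ (y v) = (c : F) * toQF hQ v := fun v => hc v
    obtain ⟨v₀, hv₀⟩ : ∃ v, toQF hQ v ≠ 0 := by
      by_contra! h0
      have h1 := nondeg_toQF hQ (Pi.single ⟨0, by omega⟩ 1) fun w => by simp [polar, h0]
      have h3 := congrFun h1 ⟨0, by omega⟩
      simp at h3
    have hiter : ∀ j v, toQF hQ ((y ^ j) v) = (c : F) ^ j * toQF hQ v := by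
      intro j
      induction j with
      | zero => intro v; simp
      | succ j ih => intro v; rw [pow_succ', Module.End.mul_apply, hyQ, ih]; ring
    have hc1 : (c : F) = 1 := hone _ (mul_right_cancel₀ hv₀ (by
      rw [one_mul, ← hiter, hyr]; rfl))
    refine ⟨y, hyr, fun v => by rw [hyQ, hc1, one_mul], ?_⟩
    let L : (Fin n → F) ≃ₗ[F] (Fin n → F) := Matrix.toLin'OfInv
      (M := ((g : GL (Fin n) F) : Matrix (Fin n) (Fin n) F)) (M' := ((g⁻¹ : GL (Fin n) F) : Matrix (Fin n) (Fin n) F))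
      g.mul_inv g.inv_mul
    have hyT : ∀ v, y (L v) = L (T v) := fun v => by
      show ((g⁻¹ * x * g : GL (Fin n) F) : Matrix (Fin n) (Fin n) F) *ᵥ (((g⁻¹ : GL (Fin n) F) : Matrix (Fin n) (Fin n) F) *ᵥ v) =
        ((g⁻¹ : GL (Fin n) F) : Matrix (Fin n) (Fin n) F) *ᵥ (T v)
      rw [Matrix.mulVec_mulVec, ← Units.val_mul, mul_inv_cancel_right, Units.val_mul, ← Matrix.mulVec_mulVec]
      congr 1
      show A *ᵥ v = T v
      exact LinearMap.toMatrix'_mulVec T v
    rw [← hker, ← LinearEquiv.finrank_map_eq L (LinearMap.ker (T - 1))]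
    refine congrArg (fun W : Submodule F (Fin n → F) => finrank F W) (Submodule.ext fun w => ?_)
    rw [Submodule.mem_map_equiv, LinearMap.mem_ker, LinearMap.sub_apply, sub_eq_zero, Module.End.one_apply,
      LinearMap.mem_ker, LinearMap.sub_apply, sub_eq_zero, Module.End.one_apply]
    constructor
    · intro h1
      refine L.injective ?_
      rw [← hyT, L.apply_symm_apply, h1]
    · intro h1
      rw [← L.apply_symm_apply w, hyT, h1]
  rcases Nat.even_or_odd i with he | ho
  · obtain ⟨m, D, hnm, hdvd, hD, hD1⟩ := heven he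
    obtain ⟨l, hl⟩ := hdvd
    obtain ⟨y, hyr, hyQ, hyk⟩ := test 0 l (by rw [zero_add, hl, mul_comm]) (by omega)
    have h1 := CfsgLib.Derangements.OrthExpo.disc_of_fixedPointFree (r := r) hD hyr hyQ fun v hv => by
      have hv' : v ∈ LinearMap.ker (y - 1) := by
        rw [LinearMap.mem_ker, LinearMap.sub_apply, Module.End.one_apply, hv, sub_self]
      rwa [Submodule.finrank_eq_zero.1 hyk, Submodule.mem_bot] at hv'
    rw [hD1] at h1
    haveI : Fact (2 < r) := ⟨by have := hr.two_le; omega⟩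
    exact ZMod.neg_one_ne_one h1
  · obtain ⟨y, hyr, hyQ, hyk⟩ := test (n - i) 1 (by omega) (by omega)
    obtain ⟨s, -, -, -, hfr, -⟩ := Sub.whole_shape P (SimOrth.polarBilin_toQF hQ) hyr hyQ
    rw [show Sub.fixIn y ⊤ = LinearMap.ker (y - 1) from top_inf_eq _, hyk, Module.finrank_fin_fun] at hfr
    have hh : h = i := by
      obtain ⟨uq, huq, hord⟩ := P.order
      have hiu : orderOf uq = i := by
        rw [← orderOf_units, huq, Nat.card_eq_fintype_card]
      rw [CfsgLib.Derangements.OrthExpo.orderOf_uu hr2, hiu, if_pos ho] at hord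
      omega

    rcases Nat.eq_zero_or_pos s with rfl | hs
    · omega
    · have := Nat.le_mul_of_pos_right h hs
      omega

end CfsgLib.Derangements.SimOrth
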