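import Mathlib
import Cfsg.Agent.Lib.Derangements.SubspaceTypes

/-!
The number of totally singular subspaces of a given dimension below half the dimension is `1` modulo the
characteristic.
-/

set_option autoImplicit false
set_option linter.unusedSectionVars false
set_option linter.style.haveILetI false

namespace CfsgLib.Derangements.Sub

open Module QuadraticMap

universe u v

variable {F : Type u} [Field F]

/-- The quadratic form vanishes on the subspace. -/
def Ts {V : Type v} [AddCommGroup V] [Module F V] (Q : QuadraticForm F V) (W : Submodule F V) : Prop :=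
  ∀ w ∈ W, Q w = 0

section Basic

variable {V : Type v} [AddCommGroup V] [Module F V] {Q : QuadraticForm F V}

theorem Ts.polar_eq {W : Submodule F V} (h : Ts Q W) {x y : V} (hx : x ∈ W) (hy : y ∈ W) : polar Q x y = 0 := by
  rw [polar, h _ (W.add_mem hx hy), h x hx, h y hy, sub_zero, sub_zero]

theorem Ts.mono {W W' : Submodule F V} (h : Ts Q W) (hle : W' ≤ W) : Ts Q W' := fun w hw => h w (hle hw)

theorem ts_bot : Ts Q (⊥ : Submodule F V) := fun w hw => by
  rw [(Submodule.mem_bot F).1 hw, QuadraticMap.map_zero]

theorem Ts.sup {W W' : Submodule F V} (h : Ts Q W) (h' : Ts Q W') (ho : ∀ a ∈ W, ∀ b ∈ W', polar Q a b = 0) :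
    Ts Q (W ⊔ W') := fun w hw => by
  obtain ⟨a, ha, b, hb, rfl⟩ := Submodule.mem_sup.1 hw
  rw [QuadraticMap.map_add Q, h a ha, h' b hb, ho a ha b hb, add_zero, add_zero]

/-- A totally singular subspace of a non-degenerate one has at most half its dimension. -/
theorem Ts.two_mul_le [FiniteDimensional F V] {W U : Submodule F V} (h : Ts Q W) (hU : Nd Q U) (hWU : W ≤ U) :
    2 * finrank F W ≤ finrank F U := by
  have hN := nd_iff_res.1 hU
  set B : LinearMap.BilinForm F U := polarBilin (res Q U) with hB
  set W' := W.comap U.subtype with hW'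
  have hle : W' ≤ B.orthogonal W' := fun x hx y hy => by
    show polar (res Q U) y x = 0
    rw [polar_res]
    exact h.polar_eq hy hx
  have h1 := LinearMap.BilinForm.finrank_orthogonal hN W'
  have h2 := Submodule.finrank_mono hle
  have h3 : finrank F W' = finrank F W := (Submodule.comapSubtypeEquivOfLe hWU).finrank_eq
  rw [h1] at h2
  omega

end Basic

section Count

variable [Finite F] {V : Type v} [AddCommGroup V] [Module F V] [FiniteDimensional F V] (Q : QuadraticForm F V)
  {e : V}

/-- The Siegel transformation. -/
noncomputable def siegel (e : V) (v : V) : Module.End F V :=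
  LinearMap.id + (polarBilin Q e).smulRight v - (polarBilin Q v).smulRight e
    - (Q v • polarBilin Q e).smulRight e

theorem siegel_apply (v x : V) :
    siegel Q e v x = x + polar Q e x • v - polar Q v x • e - (Q v * polar Q e x) • e := by
  simp [siegel]

variable {Q}

theorem siegel_mul (he : Q e = 0) {v w : V} (hv : polar Q e v = 0) (hw : polar Q e w = 0) (x : V) :
    siegel Q e v (siegel Q e w x) = siegel Q e (v + w) x := by
  have hee : polar Q e e = 0 := by rw [polar_self, he, smul_zero]
  have hve : polar Q v e = 0 := by rw [polar_comm]; exact hv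
  simp only [siegel_apply, polar_sub_right, polar_add_right, polar_smul_right, hee, hw, hve, smul_eq_mul,
    polar_add_left, QuadraticMap.map_add Q v w]
  module

theorem siegel_zero (x : V) : siegel Q e 0 x = x := by simp [siegel_apply]

theorem siegel_iso (he : Q e = 0) {v : V} (hv : polar Q e v = 0) (x : V) : Q (siegel Q e v x) = Q x := by
  rw [siegel_apply, sub_sub, ← add_smul, sub_eq_add_neg, ← neg_smul, QuadraticMap.map_add Q,
    QuadraticMap.map_add Q x, QuadraticMap.map_smul, QuadraticMap.map_smul, he, polar_add_left, polar_smul_right,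
    polar_smul_right, polar_smul_right, polar_smul_left, polar_comm (⇑Q) x v, polar_comm (⇑Q) x e,
    polar_comm (⇑Q) v e, hv]
  simp only [smul_eq_mul]
  ring

variable (Q) in
/-- The group of the Siegel transformations with given singular vector. -/
noncomputable def siegelEquiv (he : Q e = 0) (v : perp Q (F ∙ e)) : V ≃ₗ[F] V :=
  have hv : ∀ v : perp Q (F ∙ e), polar Q e v = 0 := fun v =>
    mem_perp.1 v.2 e (Submodule.mem_span_singleton_self e)
  LinearEquiv.ofLinearMap (siegel Q e (v : V)) (siegel Q e ((-v : perp Q (F ∙ e)) : V))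
    (LinearMap.ext fun x => by
      rw [LinearMap.comp_apply, siegel_mul he (hv v) (hv (-v)), ← Submodule.coe_add, add_neg_cancel,
        Submodule.coe_zero, siegel_zero]; rfl)
    (LinearMap.ext fun x => by
      rw [LinearMap.comp_apply, siegel_mul he (hv (-v)) (hv v), ← Submodule.coe_add, neg_add_cancel,
        Submodule.coe_zero, siegel_zero]; rfl)

/-- Only the subspaces through `e` are fixed, so the count is theirs modulo `p`. -/
theorem card_singular_modEq_through {p : ℕ} [hp : Fact p.Prime] [CharP F p]
    (hQ : (polarBilin Q).Nondegenerate) (he0 : e ≠ 0) (he : Q e = 0) {f : V} (hef : polar Q e f = 1) {m : ℕ}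
    (hm : 1 ≤ m) (hmn : 2 * m < finrank F V) :
    Nat.card {W : Submodule F V // finrank F W = m ∧ Ts Q W} ≡
      Nat.card {W : Submodule F V // finrank F W = m ∧ Ts Q W ∧ e ∈ W} [MOD p] := by
  classical
  haveI : Finite V := Module.finite_of_finite F
  haveI : Finite (Submodule F V) := Finite.of_injective (fun W => (W : Set V)) SetLike.coe_injective
  let E := perp Q (F ∙ e)
  have hv : ∀ v : E, polar Q e v = 0 := fun v => mem_perp.1 v.2 e (Submodule.mem_span_singleton_self e)
  let X := {W : Submodule F V // finrank F W = m ∧ Ts Q W}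
  letI : MulAction (Multiplicative E) X :=
    { smul := fun v W => ⟨W.1.map (siegelEquiv Q he v.toAdd).toLinearMap, by
        rw [LinearEquiv.finrank_map_eq]
        refine ⟨W.2.1, ?_⟩
        rintro _ ⟨w, hw, rfl⟩
        exact (siegel_iso he (hv v.toAdd) w).trans (W.2.2 w hw)⟩
      one_smul := fun W => Subtype.ext (by
        show W.1.map _ = W.1
        conv_rhs => rw [← Submodule.map_id W.1]
        congr 1
        ext x
        exact siegel_zero x)
      mul_smul := fun v w W => Subtype.ext (by
        show W.1.map _ = (W.1.map _).map _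
        rw [← Submodule.map_comp]
        congr 1
        ext x
        exact (siegel_mul he (hv v.toAdd) (hv w.toAdd) x).symm) }
  have hP : IsPGroup p (Multiplicative E) := fun v => ⟨1, by
    rw [pow_one]
    refine Multiplicative.toAdd.injective ?_
    rw [toAdd_pow, toAdd_one, ← Nat.cast_smul_eq_nsmul F, CharP.cast_eq_zero, zero_smul]⟩
  refine (hP.card_modEq_card_fixedPoints X).trans ?_
  refine congrArg (· % p) ?_
  have hee : polar Q e e = 0 := by rw [polar_self, he, smul_zero]
  have key : ∀ W : X, W ∈ MulAction.fixedPoints (Multiplicative E) X ↔ e ∈ W.1 := by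
    intro W
    constructor
    · intro hW
      by_contra heW
      have hmem : ∀ (v : E), ∀ w ∈ W.1, siegel Q e (v : V) w ∈ W.1 := fun v w hw => by
        have h := congrArg Subtype.val (hW (Multiplicative.ofAdd v))
        exact h.le ⟨w, hw, rfl⟩
      by_cases hall : ∀ w ∈ W.1, polar Q e w = 0
      · -- then every member is proportional to `e`
        refine heW ?_
        obtain ⟨w, hw, hw0⟩ := Submodule.exists_mem_ne_zero_of_ne_bot
          (show W.1 ≠ ⊥ from fun h => by have := W.2.1; rw [h, finrank_bot] at this; omega)
        have horth : ∀ v : E, polar Q (v : V) w = 0 := fun v => by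
          by_contra hvw
          have h := W.1.sub_mem hw (hmem v w hw)
          rw [siegel_apply, hall w hw, mul_zero, zero_smul, zero_smul, add_zero, sub_zero, sub_sub_cancel] at h
          exact heW ((W.1.smul_mem_iff hvw).1 h)
        have hwe : w - polar Q w f • e = 0 := hQ.1 _ fun x => by
          show polar Q (w - polar Q w f • e) x = 0
          have hx : x - polar Q e x • f ∈ E := mem_perp.2 fun y hy => by
            obtain ⟨c, rfl⟩ := Submodule.mem_span_singleton.1 hy
            simp [polar_sub_right, polar_smul_left, polar_smul_right, hef, mul_comm]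
          have h := horth ⟨_, hx⟩
          rw [polar_comm, polar_sub_right, polar_smul_right, sub_eq_zero] at h
          rw [polar_sub_left, polar_smul_left, h, smul_eq_mul, smul_eq_mul, mul_comm, sub_self]
        rw [sub_eq_zero] at hwe
        have hc : polar Q w f ≠ 0 := fun h => hw0 (by rw [hwe, h, zero_smul])
        exact (W.1.smul_mem_iff hc).1 (hwe ▸ hw)
      · -- then the orthogonal of `e` would be totally singular
        push Not at hall
        obtain ⟨w, hw, hwe⟩ := hall
        have hE : Ts Q E := fun v hv' => by
          have h := W.1.sub_mem (hmem ⟨v, hv'⟩ w hw) hw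
          rw [siegel_apply] at h
          set a := polar Q v w + Q v * polar Q e w with ha
          have h1 : polar Q e w • v - a • e ∈ W.1 := by
            have e1 : w + polar Q e w • v - polar Q v w • e - (Q v * polar Q e w) • e - w =
                polar Q e w • v - a • e := by rw [ha]; module
            rw [← e1]; exact h
          have h2 := W.2.2 _ h1
          rw [sub_eq_add_neg, ← neg_smul, QuadraticMap.map_add Q, QuadraticMap.map_smul, QuadraticMap.map_smul,
            he, smul_zero, add_zero, polar_smul_left, polar_smul_right, polar_comm (⇑Q) v e, hv ⟨v, hv'⟩,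
            smul_zero, smul_zero, add_zero, smul_eq_mul] at h2
          exact (mul_eq_zero.1 h2).resolve_left (mul_ne_zero hwe hwe)
        have h1 := hE.two_mul_le (nd_top hQ) le_top
        have hle : (⊤ : Submodule F V) ≤ E ⊔ (F ∙ f) := fun x _ => by
          have hx : x - polar Q e x • f ∈ E := mem_perp.2 fun y hy => by
            obtain ⟨c, rfl⟩ := Submodule.mem_span_singleton.1 hy
            simp [polar_sub_right, polar_smul_left, polar_smul_right, hef, mul_comm]
          have := Submodule.add_mem_sup hx (Submodule.smul_mem (F ∙ f) (polar Q e x)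
            (Submodule.mem_span_singleton_self f))
          rwa [sub_add_cancel] at this
        have h3 := (Submodule.finrank_mono hle).trans (Submodule.finrank_add_le_finrank_add_finrank E (F ∙ f))
        rw [finrank_span_singleton (fun h0 => by
          rw [h0, polar_zero_right] at hef; exact zero_ne_one hef)] at h3
        rw [finrank_top] at h1 h3
        omega
    · intro heW v
      refine Subtype.ext (Submodule.eq_of_le_of_finrank_le ?_ (by
        rw [(v • W).2.1]; exact W.2.1.le))
      rintro _ ⟨w, hw, rfl⟩
      show siegel Q e (v.toAdd : V) w ∈ W.1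
      rw [siegel_apply, W.2.2.polar_eq heW hw, mul_zero, zero_smul, zero_smul, add_zero, sub_zero]
      exact W.1.sub_mem hw (W.1.smul_mem _ heW)
  refine Nat.card_congr ?_
  exact
    { toFun := fun W => ⟨W.1.1, W.1.2.1, W.1.2.2, (key W.1).1 W.2⟩
      invFun := fun W => ⟨⟨W.1, W.2.1, W.2.2.1⟩, (key _).2 W.2.2.2⟩
      left_inv := fun W => rfl
      right_inv := fun W => rfl }

/-- The number of totally singular subspaces below half the dimension is `1` modulo `p`. -/
theorem card_singular_modEq_one (p : ℕ) [hp : Fact p.Prime] [CharP F p] :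
    ∀ (m : ℕ) {V : Type v} [AddCommGroup V] [Module F V] [FiniteDimensional F V] (Q : QuadraticForm F V),
      (polarBilin Q).Nondegenerate → 2 * m < finrank F V →
      (∃ W : Submodule F V, finrank F W = m ∧ Ts Q W) →
      Nat.card {W : Submodule F V // finrank F W = m ∧ Ts Q W} ≡ 1 [MOD p] := by
  intro m
  induction m with
  | zero =>
    intro V _ _ _ Q _ _ _
    have : Nat.card {W : Submodule F V // finrank F W = 0 ∧ Ts Q W} = 1 :=
      Nat.card_eq_one_iff_unique.2 ⟨⟨fun a b => Subtype.ext
        ((Submodule.finrank_eq_zero.1 a.2.1).trans (Submodule.finrank_eq_zero.1 b.2.1).symm)⟩,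
        ⟨⟨⊥, finrank_bot F V, ts_bot⟩⟩⟩
    rw [this]
  | succ m ih =>
    intro V _ _ _ Q hQ hn hex
    obtain ⟨W₀, hW₀, hW₀T⟩ := hex
    obtain ⟨e, heW, he0⟩ := Submodule.exists_mem_ne_zero_of_ne_bot
      (show W₀ ≠ ⊥ from fun h => by rw [h, finrank_bot] at hW₀; omega)
    have he : Q e = 0 := hW₀T e heW
    obtain ⟨g, hg⟩ : ∃ g : V, polar Q e g ≠ 0 := by
      by_contra hc
      push Not at hc
      exact he0 (hQ.1 e hc)
    obtain ⟨g', hg'⟩ : ∃ g' : V, polar Q e g' = 1 :=
      ⟨(polar Q e g)⁻¹ • g, by rw [polar_smul_right, smul_eq_mul, inv_mul_cancel₀ hg]⟩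
    let f : V := g' - Q g' • e
    have hee : polar Q e e = 0 := by rw [polar_self, he, smul_zero]
    have hef : polar Q e f = 1 := by
      show polar Q e (g' - Q g' • e) = 1
      rw [polar_sub_right, polar_smul_right, hee, smul_zero, sub_zero, hg']
    have hff : Q f = 0 := by
      show Q (g' - Q g' • e) = 0
      rw [sub_eq_add_neg, ← neg_smul, QuadraticMap.map_add Q, QuadraticMap.map_smul, he, smul_zero, add_zero,
        polar_smul_right, polar_comm, hg', smul_eq_mul, mul_one, add_neg_cancel]
    have hfe : polar Q f e = 1 := by rw [polar_comm, hef]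
    refine (card_singular_modEq_through hQ he0 he hef (by omega) hn).trans ?_
    set C : Submodule F V := LinearMap.ker (polarBilin Q e) ⊓ LinearMap.ker (polarBilin Q f) with hC
    have hmemC : ∀ x, x ∈ C ↔ polar Q e x = 0 ∧ polar Q f x = 0 := fun x => by simp [hC]
    have hproj : ∀ x, x - polar Q e x • f - polar Q f x • e ∈ C := fun x => by
      have hff' : polar Q f f = 0 := by rw [polar_self, hff, smul_zero]
      rw [hmemC]
      constructor <;> simp only [polar_sub_right, polar_smul_right, hee, hef, hfe, hff', smul_eq_mul] <;> ring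
    have hCN : Nd Q C := fun x hx h => hQ.1 x fun y => by
      show polar Q x y = 0
      have h1 := h _ (hproj y)
      rw [polar_sub_right, polar_sub_right, polar_smul_right, polar_smul_right, polar_comm (⇑Q) x f,
        polar_comm (⇑Q) x e, ((hmemC x).1 hx).1, ((hmemC x).1 hx).2, smul_zero, smul_zero, sub_zero, sub_zero]
        at h1
      exact h1
    have hdim : finrank F V ≤ finrank F C + 2 := by
      have hle : (⊤ : Submodule F V) ≤ C ⊔ ((F ∙ f) ⊔ (F ∙ e)) := fun x _ => by
        have := Submodule.add_mem_sup (hproj x) (Submodule.add_mem_sup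
          (Submodule.smul_mem (F ∙ f) (polar Q e x) (Submodule.mem_span_singleton_self f))
          (Submodule.smul_mem (F ∙ e) (polar Q f x) (Submodule.mem_span_singleton_self e)))
        have e1 : x = x - polar Q e x • f - polar Q f x • e + (polar Q e x • f + polar Q f x • e) := by abel
        rw [e1]; exact this
      have h1 := (Submodule.finrank_mono hle).trans (Submodule.finrank_add_le_finrank_add_finrank C _)
      have h2 := Submodule.finrank_add_le_finrank_add_finrank (F ∙ f) (F ∙ e)
      rw [finrank_top] at h1
      rw [finrank_span_singleton (fun h0 => by rw [h0, polar_zero_right] at hef; exact zero_ne_one hef),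
        finrank_span_singleton he0] at h2
      omega
    -- subspaces through `e` and subspaces of `C`
    have hdec : ∀ W : Submodule F V, Ts Q W → e ∈ W → W = (F ∙ e) ⊔ (W ⊓ C) := by
      intro W hW hWe
      refine le_antisymm (fun w hw => ?_) (sup_le ((Submodule.span_singleton_le_iff_mem _ _).2 hWe) inf_le_left)
      have h1 : w - polar Q f w • e ∈ W ⊓ C := ⟨W.sub_mem hw (W.smul_mem _ hWe), by
        have := hproj w
        rwa [hW.polar_eq hWe hw, zero_smul, sub_zero] at this⟩
      have := Submodule.add_mem_sup (Submodule.smul_mem (F ∙ e) (polar Q f w)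
        (Submodule.mem_span_singleton_self e)) h1
      rwa [add_sub_cancel] at this
    have hdisj : ∀ W' : Submodule F V, W' ≤ C → (F ∙ e) ⊓ W' = ⊥ := fun W' hW' => by
      refine (Submodule.eq_bot_iff _).2 fun x hx => ?_
      obtain ⟨c, rfl⟩ := Submodule.mem_span_singleton.1 hx.1
      have := ((hmemC _).1 (hW' hx.2)).2
      rw [polar_smul_right, hfe, smul_eq_mul, mul_one] at this
      rw [this, zero_smul]
    have hrank : ∀ W' : Submodule F V, W' ≤ C → finrank F ↥((F ∙ e) ⊔ W') = finrank F W' + 1 := fun W' hW' => by
      have h := Submodule.finrank_sup_add_finrank_inf_eq (F ∙ e) W'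
      rw [hdisj W' hW', finrank_bot, finrank_span_singleton he0] at h
      omega
    let toC : {W : Submodule F V // finrank F W = m + 1 ∧ Ts Q W ∧ e ∈ W} →
        {W : Submodule F C // finrank F W = m ∧ Ts (res Q C) W} := fun W =>
      ⟨(W.1 ⊓ C).comap C.subtype, by
        rw [(Submodule.comapSubtypeEquivOfLe inf_le_right).finrank_eq]
        have := hrank (W.1 ⊓ C) inf_le_right
        rw [← hdec W.1 W.2.2.1 W.2.2.2, W.2.1] at this
        omega, fun x hx => W.2.2.1 _ hx.1⟩
    let ofC : {W : Submodule F C // finrank F W = m ∧ Ts (res Q C) W} →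
        {W : Submodule F V // finrank F W = m + 1 ∧ Ts Q W ∧ e ∈ W} := fun W =>
      ⟨(F ∙ e) ⊔ W.1.map C.subtype, by
        rw [hrank _ (Submodule.map_subtype_le C W.1), Submodule.finrank_map_subtype_eq, W.2.1], by
        refine Ts.sup ?_ ?_ ?_
        · intro x hx
          obtain ⟨c, rfl⟩ := Submodule.mem_span_singleton.1 hx
          rw [QuadraticMap.map_smul, he, smul_zero]
        · rintro _ ⟨x, hx, rfl⟩
          exact W.2.2 x hx
        · rintro a ha _ ⟨x, -, rfl⟩
          obtain ⟨c, rfl⟩ := Submodule.mem_span_singleton.1 ha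
          rw [polar_smul_left, Submodule.subtype_apply, ((hmemC _).1 x.2).1, smul_zero],
        Submodule.mem_sup_left (Submodule.mem_span_singleton_self e)⟩
    have hbij : Nat.card {W : Submodule F V // finrank F W = m + 1 ∧ Ts Q W ∧ e ∈ W} =
        Nat.card {W : Submodule F C // finrank F W = m ∧ Ts (res Q C) W} := Nat.card_congr
      { toFun := toC
        invFun := ofC
        left_inv := fun W => Subtype.ext (by
          show (F ∙ e) ⊔ ((W.1 ⊓ C).comap C.subtype).map C.subtype = W.1
          rw [Submodule.map_comap_subtype, inf_comm W.1 C, ← inf_assoc, inf_idem, inf_comm C W.1,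
            ← hdec W.1 W.2.2.1 W.2.2.2])
        right_inv := fun W => Subtype.ext (by
          show (((F ∙ e) ⊔ W.1.map C.subtype) ⊓ C).comap C.subtype = W.1
          have h : ((F ∙ e) ⊔ W.1.map C.subtype) ⊓ C = W.1.map C.subtype := by
            rw [sup_comm, sup_inf_assoc_of_le _ (Submodule.map_subtype_le C W.1), hdisj C le_rfl, sup_bot_eq]
          rw [h, Submodule.comap_map_eq_of_injective C.injective_subtype]) }
    rw [hbij]
    refine ih (res Q C) (nd_iff_res.1 hCN) (by omega) ⟨(toC ⟨W₀, hW₀, hW₀T, heW⟩).1, (toC ⟨W₀, hW₀, hW₀T, heW⟩).2⟩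

end Count

end CfsgLib.Derangements.Sub
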