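import Mathlib
import Cfsg.Agent.Lib.Derangements.OrthExpo
import Cfsg.Agent.Lib.Derangements.SingularCount

/-!
Exponents of an isometry of order prime to the characteristic on a totally singular invariant subspace: they
occur together with their negatives.
-/

set_option autoImplicit false
set_option linter.unusedSectionVars false
set_option linter.style.haveILetI false

namespace CfsgLib.Derangements.Sub

open Module QuadraticMap CfsgLib.Derangements

universe u v

variable {F : Type u} [Field F] [Fintype F] {L : Type u} [Field L] [Algebra F L] {r : ℕ} [hr : Fact r.Prime]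
  {ζ : L} {V : Type v} [AddCommGroup V] [Module F V] [FiniteDimensional F V]

theorem isSemisimple_of_pow (hrF : (r : F) ≠ 0) {W : Type*} [AddCommGroup W] [Module F W]
    [FiniteDimensional F W] {g : Module.End F W} (hg : g ^ r = 1) : g.IsSemisimple :=
  Module.End.isSemisimple_of_squarefree_aeval_eq_zero
    (Polynomial.separable_X_pow_sub_C (1 : F) hrF one_ne_zero).squarefree (by simp [hg])

theorem restrict_pow {g : Module.End F V} {U : Submodule F V} (hg : g ^ r = 1) (hU : ∀ u ∈ U, g u ∈ U) :
    g.restrict hU ^ r = 1 :=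
  LinearMap.ext fun x => Subtype.ext (by rw [Module.End.pow_restrict]; simp [hg])

/-- The exponents of a map with two complementary invariant subspaces. -/
theorem expo_split {g : Module.End F V} {A B : Submodule F V} (hAB : IsCompl A B) (hA : ∀ a ∈ A, g a ∈ A)
    (hB : ∀ b ∈ B, g b ∈ B) {MA MB : Multiset (ZMod r)} (hMA : OrthExpo.Expo ζ (g.restrict hA) MA)
    (hMB : OrthExpo.Expo ζ (g.restrict hB) MB) : OrthExpo.Expo ζ g (MA + MB) := by
  have h := (hMA.prodMap hMB).conj (Submodule.prodEquivOfIsCompl A B hAB)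
  convert h using 1
  refine LinearMap.ext fun v => ?_
  obtain ⟨⟨x, y⟩, rfl⟩ := (Submodule.prodEquivOfIsCompl A B hAB).surjective v
  rw [LinearEquiv.conj_apply_apply, LinearEquiv.symm_apply_apply]
  simp

/-- Subspaces in perfect pairing carry negated exponents. -/
theorem expo_neg_of_pairing (hζ : IsPrimitiveRoot ζ r) {W C : Type*} [AddCommGroup W] [Module F W]
    [FiniteDimensional F W] [AddCommGroup C] [Module F C] [FiniteDimensional F C] {gW : Module.End F W}
    {gC : Module.End F C} (hgW : gW ^ r = 1) (e : C ≃ₗ[F] Module.Dual F W)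
    (he : ∀ c w, e (gC c) (gW w) = e c w) {A : Multiset (ZMod r)} (hA : OrthExpo.Expo ζ gW A) :
    OrthExpo.Expo ζ gC (A.map ((-1 : ZMod r) * ·)) := by
  have h1 := hA.pow hζ hgW (r - 1)
  have hcast : (((r - 1 : ℕ)) : ZMod r) = -1 := by
    rw [Nat.cast_sub hr.out.one_le, ZMod.natCast_self, Nat.cast_one, zero_sub]
  rw [hcast] at h1
  set f : Module.End F W := gW ^ (r - 1) with hf
  have hd : OrthExpo.Expo ζ (Module.Dual.transpose (R := F) f) (A.map ((-1 : ZMod r) * ·)) := by
    unfold OrthExpo.Expo at h1 ⊢
    rw [← h1]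
    congr 1
    let b := Module.finBasis F W
    rw [← LinearMap.charpoly_toMatrix (Module.Dual.transpose (R := F) f) b.dualBasis,
      LinearMap.toMatrix_transpose, Matrix.charpoly_transpose, LinearMap.charpoly_toMatrix]
  have hgC : gC = e.symm.conj (Module.Dual.transpose (R := F) f) := by
    refine LinearMap.ext fun c => e.injective ?_
    rw [LinearEquiv.conj_apply_apply, LinearEquiv.symm_symm, e.apply_symm_apply]
    refine LinearMap.ext fun w => ?_
    rw [Module.Dual.transpose_apply, LinearMap.comp_apply]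
    have h2 : gW (f w) = w := by
      rw [hf, ← Module.End.mul_apply, ← pow_succ', Nat.sub_add_cancel hr.out.one_le, hgW]; rfl
    conv_lhs => rw [← h2]
    exact he c (f w)
  rw [hgC]
  exact hd.conj e.symm

/-- The exponents on a totally singular invariant subspace and their negatives are exponents of the whole. -/
theorem exists_expo_singular (hrF : (r : F) ≠ 0) (hζ : IsPrimitiveRoot ζ r) {Q : QuadraticForm F V}
    (hQ : (polarBilin Q).Nondegenerate) {g : Module.End F V} (hg : g ^ r = 1) (hgQ : ∀ x, Q (g x) = Q x)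
    {M : Multiset (ZMod r)} (hM : OrthExpo.Expo ζ g M) {W : Submodule F V} (hW : ∀ w ∈ W, g w ∈ W)
    (hWT : Ts Q W) :
    ∃ A : Multiset (ZMod r), A.card = finrank F W ∧ A.map ((Fintype.card F : ZMod r) * ·) = A ∧
      A + A.map ((-1 : ZMod r) * ·) ≤ M := by
  classical
  have hpol : ∀ x y, polar Q (g x) (g y) = polar Q x y := fun x y => by simp only [polar, ← map_add, hgQ]
  set B : LinearMap.BilinForm F V := polarBilin Q with hB
  set P := B.orthogonal W with hP
  have hmemP : ∀ x, x ∈ P ↔ ∀ w ∈ W, polar Q w x = 0 := fun x => Iff.rfl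
  have hWP : W ≤ P := fun x hx => (hmemP x).2 fun w hw => hWT.polar_eq hw hx
  have hPinv : ∀ x ∈ P, g x ∈ P := fun x hx => (hmemP _).2 fun w hw => by
    have hsur : ∃ w' ∈ W, g w' = w := by
      refine ⟨(g ^ (r - 1)) w, ?_, ?_⟩
      · exact Module.End.pow_apply_mem_of_forall_mem (r - 1) hW w hw
      · rw [← Module.End.mul_apply, ← pow_succ', Nat.sub_add_cancel hr.out.one_le, hg]; rfl
    obtain ⟨w', hw', rfl⟩ := hsur
    rw [hpol]; exact (hmemP x).1 hx w' hw'
  obtain ⟨C, hC, hPC⟩ := Module.End.isSemisimple_iff.1 (isSemisimple_of_pow hrF hg) P hPinv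
  have hCinv : ∀ c ∈ C, g c ∈ C := hC
  have hgP := restrict_pow hg hPinv
  let W' := W.comap P.subtype
  have hW'inv : ∀ x ∈ W', g.restrict hPinv x ∈ W' := fun x hx => hW _ hx
  obtain ⟨D, hD, hWD⟩ := Module.End.isSemisimple_iff.1 (isSemisimple_of_pow hrF hgP) W' hW'inv
  have hDinv : ∀ x ∈ D, g.restrict hPinv x ∈ D := hD
  obtain ⟨A, hA⟩ := OrthExpo.exists_expo hζ (restrict_pow hg hW)
  obtain ⟨MD, hMD⟩ := OrthExpo.exists_expo hζ (restrict_pow hgP hDinv)
  have hA' : OrthExpo.Expo ζ ((g.restrict hPinv).restrict hW'inv) A := by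
    have h := hA.conj (Submodule.comapSubtypeEquivOfLe hWP).symm
    convert h using 1
    refine LinearMap.ext fun x => ?_
    rw [LinearEquiv.conj_apply_apply]
    rfl
  have hMP := expo_split hWD hW'inv hDinv hA' hMD
  -- the pairing of `C` with `W`
  let φ : C →ₗ[F] Module.Dual F W := (LinearMap.lcomp F F W.subtype).comp ((polarBilin Q).comp C.subtype)
  have hφ : ∀ (c : C) (w : W), φ c w = polar Q (c : V) (w : V) := fun c w => rfl
  have hφi : Function.Injective φ := (injective_iff_map_eq_zero φ).2 fun c hc => by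
    have hcP : (c : V) ∈ P := (hmemP _).2 fun w hw => by
      have := LinearMap.congr_fun hc ⟨w, hw⟩
      rw [hφ, LinearMap.zero_apply] at this
      rw [polar_comm]; exact this
    exact Subtype.ext (Submodule.disjoint_def.1 hPC.disjoint _ hcP c.2)
  have hCdim : finrank F C = finrank F (Module.Dual F W) := by
    have h1 := LinearMap.BilinForm.finrank_orthogonal (B := B) hQ W
    have h2 := Submodule.finrank_add_eq_of_isCompl hPC
    have h3 := Submodule.finrank_le W
    rw [Subspace.dual_finrank_eq]
    rw [← hP] at h1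
    omega
  let e : C ≃ₗ[F] Module.Dual F W :=
    LinearEquiv.ofBijective φ ⟨hφi, (LinearMap.injective_iff_surjective_of_finrank_eq_finrank hCdim).1 hφi⟩
  have hMC := expo_neg_of_pairing hζ (restrict_pow hg hW) (gC := g.restrict hCinv) e
    (fun c w => by
      show φ (g.restrict hCinv c) (g.restrict hW w) = φ c w
      rw [hφ, hφ]
      exact hpol _ _) hA
  have hall := expo_split hPC hPinv hCinv hMP hMC
  refine ⟨A, hA.card, hA.map_card hζ, ?_⟩
  rw [hM.unique hζ hall, add_right_comm]
  exact le_add_right le_rfl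

end CfsgLib.Derangements.Sub
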