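import Mathlib
import Cfsg.Agent.Lib.Derangements.SubspaceCriterion
import Cfsg.Agent.Lib.Omega.OrthUnipotent

/-!
From matrices in `omegaGL` to endomorphisms, types of subspaces in the vocabulary of the statements, and the
general criterion for an element of odd prime order to fix a subspace of even dimension in odd dimension.
-/

set_option autoImplicit false
set_option linter.unusedSectionVars false
set_option linter.style.haveILetI false

namespace CfsgLib.Derangements.Sub

open Module QuadraticMap CfsgLib.Derangements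
open scoped Matrix

universe u v

variable {F : Type u} [Field F]

/-- An isometry of odd order lies in Ω, in any characteristic. -/
theorem mem_omegaGL_of_odd {ι : Type} [Fintype ι] [DecidableEq ι] {Q : QuadraticForm F (ι → F)}
    (hQ : (polarBilin Q).Nondegenerate) (hex : (∃ c : F, c ≠ 0 ∧ c ≠ 1) ∨ Fintype.card ι ≠ 4) (x : GL ι F)
    (hx : ∀ v, Q ((x : Matrix ι ι F) *ᵥ v) = Q v) {p : ℕ} (hp : Odd p) (hxp : x ^ p = 1) :
    x ∈ Cfsg.Geo.omegaGL (⇑Q) := by
  classical
  let X : Cfsg.isometryGroup F (⇑Q) := ⟨x, fun v _ => hx v⟩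
  have htop : Forms.reflClosure Q = ⊤ := Forms.reflClosure_eq_top hQ hex
  have hsq : ∀ g : Cfsg.isometryGroup F (⇑Q), Abelianization.of g * Abelianization.of g = 1 := by
    intro g
    have hg : g ∈ Forms.reflClosure Q := by rw [htop]; trivial
    induction hg using Subgroup.closure_induction with
    | mem y hy =>
      obtain ⟨v, hv, rfl⟩ := hy
      rw [← map_mul, OrthGen.refl_mul_self, map_one]
    | one => rw [map_one, one_mul]
    | mul a b _ _ ha hb => rw [map_mul, mul_mul_mul_comm, ha, hb, one_mul]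
    | inv a _ ha => rw [map_inv, ← mul_inv_rev, ha, inv_one]
  have hX : X ^ p = 1 := Subtype.ext hxp
  have h1 : Abelianization.of X = 1 := by
    obtain ⟨k, rfl⟩ := hp
    have h := congrArg Abelianization.of hX
    rwa [map_pow, map_one, pow_succ, pow_mul, pow_two, hsq, one_pow, one_mul] at h
  exact ⟨X, (QuotientGroup.eq_one_iff X).1 h1, rfl⟩

theorem isometry_of_mem_omegaGL {ι : Type} [Fintype ι] [DecidableEq ι] {f : (ι → F) → F} {x : GL ι F}
    (hx : x ∈ Cfsg.Geo.omegaGL f) (v : ι → F) : f ((x : Matrix ι ι F) *ᵥ v) = f v := by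
  obtain ⟨X, -, rfl⟩ := hx
  exact X.2 v v

theorem map_le_iff_invariant {ι : Type} [Fintype ι] [DecidableEq ι] {g : Module.End F (ι → F)}
    {W : Submodule F (ι → F)} : W.map g ≤ W ↔ ∀ w ∈ W, g w ∈ W :=
  ⟨fun h w hw => h ⟨w, hw, rfl⟩, fun h => by rintro _ ⟨w, hw, rfl⟩; exact h w hw⟩

/-- An endomorphism of odd order preserving the form as an element of `omegaGL`. -/
theorem exists_matrix {ι : Type} [Fintype ι] [DecidableEq ι] {Q : QuadraticForm F (ι → F)}
    (hQ : (polarBilin Q).Nondegenerate) (hex : (∃ c : F, c ≠ 0 ∧ c ≠ 1) ∨ Fintype.card ι ≠ 4)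
    {g : Module.End F (ι → F)} {r : ℕ} (hr : Odd r) (hgr : g ^ r = 1) (hgQ : ∀ v, Q (g v) = Q v) :
    ∃ x : GL ι F, x ∈ Cfsg.Geo.omegaGL (⇑Q) ∧ x ^ r = 1 ∧ (g ≠ 1 → x ≠ 1) ∧
      Matrix.toLin' (x : Matrix ι ι F) = g := by
  classical
  have hM : LinearMap.toMatrix' g ^ r = 1 := by
    refine Matrix.toLinAlgEquiv'.injective ?_
    rw [map_pow, map_one]
    show (Matrix.toLin' (LinearMap.toMatrix' g) : Module.End F (ι → F)) ^ r = 1
    rw [Matrix.toLin'_toMatrix', hgr]
  have hu : IsUnit (LinearMap.toMatrix' g) := IsUnit.of_pow_eq_one hM hr.pos.ne'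
  refine ⟨hu.unit, mem_omegaGL_of_odd hQ hex _ (fun v => ?_) hr (Units.ext (by simpa using hM)),
    Units.ext (by simpa using hM), fun hg h => hg ?_, by rw [IsUnit.unit_spec, Matrix.toLin'_toMatrix']⟩
  · rw [IsUnit.unit_spec, LinearMap.toMatrix'_mulVec, hgQ]
  · have h1 : LinearMap.toMatrix' g = 1 := by rw [← hu.unit_spec, h]; rfl
    rw [← Matrix.toLin'_toMatrix' g, h1, Matrix.toLin'_one]; rfl

/-- An element of Ω of order `r` in the projective sense is an isometry of order dividing `r` up to sign. -/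
theorem exists_end {ι : Type} [Fintype ι] [DecidableEq ι] [Nonempty ι] {Q : QuadraticForm F (ι → F)}
    (hQ : (polarBilin Q).Nondegenerate) {r : ℕ} (hr : Odd r) {x : GL ι F}
    (hx : x ∈ Cfsg.Geo.omegaGL (⇑Q))
    (hz : ∃ z : F, ((x ^ r : GL ι F) : Matrix ι ι F) = z • (1 : Matrix ι ι F))
    (hns : ∀ z : F, (x : Matrix ι ι F) ≠ z • (1 : Matrix ι ι F)) :
    ∃ g : Module.End F (ι → F), g ^ r = 1 ∧ (∀ v, Q (g v) = Q v) ∧ g ≠ 1 ∧
      ∀ W : Submodule F (ι → F), W.map (Matrix.toLin' (x : Matrix ι ι F)) ≤ W ↔ ∀ w ∈ W, g w ∈ W := by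
  obtain ⟨z, hz⟩ := hz
  have hiso : ∀ v, Q ((x : Matrix ι ι F) *ᵥ v) = Q v := isometry_of_mem_omegaGL hx
  set g₀ : Module.End F (ι → F) := Matrix.toLin' (x : Matrix ι ι F) with hg₀
  have hg₀Q : ∀ v, Q (g₀ v) = Q v := hiso
  have hg₀r : g₀ ^ r = z • 1 := by
    rw [hg₀, ← Matrix.toLin'_pow, ← Units.val_pow_eq_pow_val, hz, map_smul, Matrix.toLin'_one]; rfl
  have hpowQ : ∀ (k : ℕ) v, Q ((g₀ ^ k) v) = Q v := pow_isometry hg₀Q
  haveI : Nontrivial (ι → F) := Module.nontrivial_of_finrank_pos (R := F) (by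
    rw [Module.finrank_fintype_fun_eq_card]; exact Fintype.card_pos)
  obtain ⟨v, hv⟩ := CfsgLib.Classes.exists_anisotropic_vector Q hQ
  have hz2 : z * z = 1 := by
    have h := hpowQ r v
    rw [hg₀r, LinearMap.smul_apply, Module.End.one_apply, QuadraticMap.map_smul, smul_eq_mul] at h
    exact mul_right_cancel₀ hv (h.trans (one_mul _).symm)
  have hz0 : z ≠ 0 := fun h => by simp [h] at hz2
  have hzr : z ^ r = z := by
    obtain ⟨k, rfl⟩ := hr
    rw [pow_succ, pow_mul, pow_two, hz2, one_pow, one_mul]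
  refine ⟨z • g₀, ?_, fun w => ?_, fun h => hns z ?_, fun W => ?_⟩
  · rw [smul_pow, hg₀r, smul_smul, hzr, hz2, one_smul]
  · rw [LinearMap.smul_apply, QuadraticMap.map_smul, hz2, one_smul, hg₀Q]
  · refine Matrix.toLin'.injective ?_
    rw [map_smul, Matrix.toLin'_one, ← hg₀, ← show z • (1 : Module.End F (ι → F)) = z • LinearMap.id from rfl, ← h,
      smul_smul, hz2, one_smul]
  · rw [map_le_iff_invariant]
    refine forall₂_congr fun w hw => ?_
    rw [LinearMap.smul_apply, W.smul_mem_iff hz0]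

section Types

variable [Finite F]

/-- Plus type, in the vocabulary of the statements. -/
theorem isPlusTypeOn_iff {ι : Type} [Fintype ι] {Q : QuadraticForm F (ι → F)} {W : Submodule F (ι → F)}
    (hW : Nd Q W) {l : ℕ} {ε : ℤ} (hε : ε = 1 ∨ ε = -1) (hT : HasType Q W l ε) :
    Cfsg.Geo.IsPlusTypeOn (⇑Q) W ↔ ε = 1 := by
  constructor
  · rintro ⟨U, hUW, hUs, hU2⟩
    by_contra hne
    obtain rfl : ε = -1 := hε.resolve_left hne
    rcases Nat.eq_zero_or_pos l with rfl | hl
    · have h0 : W = ⊥ := Submodule.finrank_eq_zero.1 (by rw [hT.1])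
      subst h0
      exact absurd (hT.unique (hasType_bot Q)).2 (by norm_num)
    obtain ⟨k, rfl⟩ : ∃ k, l = k + 1 := ⟨l - 1, by omega⟩
    obtain ⟨ζ, hζ⟩ := OrthType.exists_noroot (F := F)
    have hab := OrthType.aniso_of_noroot hζ
    obtain ⟨E, hE⟩ := OrthType.exists_isometry (m := k + 1) hT.1
      (by rw [Module.finrank_fintype_fun_eq_card]; simp; omega) (nd_iff_res.1 hW)
      (CfsgLib.ClassicalForms.nondeg_iff_polarBilin.2 (CfsgLib.ClassicalForms.nondeg_qMinus hab k))
      hT.2 (by rw [neg_one_mul]; exact OrthType.hasDisc_qMinus hab k)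
    have h := CfsgLib.Omega.finrank_singular_qMinus_le hab k ((U.comap W.subtype).map E.toLinearMap) (by
      rintro _ ⟨u, hu, rfl⟩
      rw [LinearEquiv.coe_coe, hE, res_apply]
      exact hUs _ hu)
    rw [LinearEquiv.finrank_map_eq E (U.comap W.subtype),
      (Submodule.comapSubtypeEquivOfLe hUW).finrank_eq] at h
    rw [hT.1] at hU2
    omega
  · rintro rfl
    obtain ⟨E, hE⟩ := OrthType.exists_isometry (m := l)
      (show Module.finrank F (Fin l ⊕ Fin l → F) = 2 * l by rw [Module.finrank_fintype_fun_eq_card]; simp; omega)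
      hT.1 (CfsgLib.ClassicalForms.nondeg_iff_polarBilin.2 (CfsgLib.ClassicalForms.nondeg_qPlus l))
      (nd_iff_res.1 hW) (OrthType.hasDisc_qPlus l) (by rw [← one_mul ((Nat.card F : ℤ) ^ l)]; exact hT.2)
    let f : (Fin l → F) →ₗ[F] (ι → F) :=
      W.subtype ∘ₗ E.toLinearMap ∘ₗ
        { toFun := fun a => Sum.elim a 0
          map_add' := fun a b => by ext (i | i) <;> simp
          map_smul' := fun t a => by ext (i | i) <;> simp }
    have hf : Function.Injective f := fun a b hab => by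
      have h1 := E.injective (Subtype.val_injective hab)
      exact funext fun i => congrFun h1 (Sum.inl i)
    refine ⟨LinearMap.range f, ?_, ?_, ?_⟩
    · rintro _ ⟨a, rfl⟩; exact (E _).2
    · rintro _ ⟨a, rfl⟩
      have := hE (Sum.elim a 0)
      rw [res_apply, CfsgLib.ClassicalForms.qPlus_apply, Cfsg.quadFormPlus] at this
      simpa [f] using this
    · rw [LinearMap.finrank_range_of_inj hf, hT.1, Module.finrank_fintype_fun_eq_card, Fintype.card_fin]

/-- Subspaces of any type of even dimension below the dimension of an odd-dimensional space. -/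
theorem exists_type_le_odd (h2 : (2 : F) ≠ 0) {V : Type u} [AddCommGroup V] [Module F V] [FiniteDimensional F V]
    (Q : QuadraticForm F V) {U : Submodule F V} (hU : Nd Q U) {l : ℕ} (hl : 2 * l < finrank F U) {ε : ℤ}
    (hε : ε = 1 ∨ ε = -1) (h0 : l = 0 → ε = 1) : ∃ W ≤ U, Nd Q W ∧ HasType Q W l ε := by
  rcases Nat.eq_zero_or_pos l with rfl | hlp
  · rw [h0 rfl]
    exact ⟨⊥, bot_le, nd_bot, hasType_bot Q⟩
  obtain ⟨κ, _, _, QA, hκ, hQA, hDA⟩ := OrthType.exists_form_of_disc (F := F) hlp hε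
  obtain ⟨f, hf, hfU, hfQ⟩ := exists_le_isometric h2 Q (2 * l) hU QA hQA
    (by rw [Module.finrank_fintype_fun_eq_card, hκ]) hl
  refine ⟨LinearMap.range f, ?_, ?_, ?_⟩
  · rintro _ ⟨a, rfl⟩; exact hfU a
  · rintro _ ⟨u, rfl⟩ h
    have : u = 0 := hQA.1 u fun w => by
      show polar QA u w = 0
      have := h (f w) ⟨w, rfl⟩
      rwa [polar, ← map_add, hfQ, hfQ, hfQ] at this
    rw [this, map_zero]
  · let e := LinearEquiv.ofInjective f hf
    exact ⟨by rw [← e.finrank_eq, Module.finrank_fintype_fun_eq_card, hκ], hDA.congr e fun x => hfQ x⟩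

end Types

section Odd

variable [Fintype F] {r h : ℕ} {η : ℤ} [hr : Fact r.Prime] (P : Params F r h η)
  {V : Type u} [AddCommGroup V] [Module F V] [FiniteDimensional F V] {Q : QuadraticForm F V}

/-- The numerical condition for `s` blocks to leave room for a subspace of dimension `2 l` and type `ε`. -/
def RoomOdd (d h l s : ℕ) (η ε : ℤ) : Prop :=
  ∃ k ≤ s, h * k ≤ l ∧ l + h * s ≤ d + h * k ∧ (h * k = l → ε = η ^ k)

include P in
theorem invariant_odd_iff (h2 : (2 : F) ≠ 0) (hQ : (polarBilin Q).Nondegenerate) {d : ℕ}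
    (hn : finrank F V = 2 * d + 1) {g : Module.End F V} (hg : g ^ r = 1) (hgQ : ∀ x, Q (g x) = Q x) {s : ℕ}
    (hs : HasType Q (movIn g ⊤) (h * s) (η ^ s)) (hfix : finrank F (fixIn g ⊤) + 2 * (h * s) = 2 * d + 1)
    {l : ℕ} {ε : ℤ} (hε : ε = 1 ∨ ε = -1) :
    (∃ W : Submodule F V, Nd Q W ∧ HasType Q W l ε ∧ ∀ w ∈ W, g w ∈ W) ↔ RoomOdd d h l s η ε := by
  constructor
  · rintro ⟨W, hWN, hWT, hWi⟩
    obtain ⟨k, hk, hfN, hfle, hmN, hmT, hsup, ho, hdim⟩ := invariant_shape P hQ hg hgQ hWi hWN hs.1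
    have hle := Submodule.finrank_mono hfle
    rw [hWT.1] at hdim
    refine ⟨k, hk, by omega, by omega, fun hkl => ?_⟩
    have h0 : fixIn g W = ⊥ := Submodule.finrank_eq_zero.1 (by rw [hkl] at hdim; omega)
    have h1 := hmT
    have e : movIn g W = W := by conv_rhs => rw [← hsup, h0, bot_sup_eq]
    rw [e] at h1
    exact ((hWT.unique h1).2)
  · rintro ⟨k, hk, hkl, hle, htype⟩
    obtain ⟨A, hA, hAN, hAT⟩ := exists_type_le_odd h2 Q (U := fixIn g ⊤)
      (decomp P.ne_zero hg hgQ (U := ⊤) (fun _ _ => trivial) (nd_top hQ)).1 (l := l - h * k) (by omega)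
      (ε := ε * η ^ k) (by rcases hε with rfl | rfl <;> rcases P.eta_pow k with e | e <;> rw [e] <;> norm_num)
      (fun h0 => by
        rw [htype (by omega), ← mul_pow]
        rcases P.pm with rfl | rfl <;> simp)
    obtain ⟨B, hBN, hBT, hab, hN, hinv⟩ := exists_invariant P hQ hg hgQ hAN hA hs.1 hk
    refine ⟨A ⊔ B, hN, ?_, hinv⟩
    have h := hAT.sup hAN hab hBT
    rwa [Nat.sub_add_cancel hkl, mul_assoc, ← mul_pow,
      show (η * η) ^ k = 1 by rcases P.pm with rfl | rfl <;> simp, mul_one] at h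

include P in
theorem forall_odd_iff (h2 : (2 : F) ≠ 0) (hQ : (polarBilin Q).Nondegenerate) {d : ℕ}
    (hn : finrank F V = 2 * d + 1) {l : ℕ} {ε : ℤ} (hε : ε = 1 ∨ ε = -1) :
    (∀ g : Module.End F V, g ^ r = 1 → (∀ x, Q (g x) = Q x) → g ≠ 1 →
      ∃ W : Submodule F V, Nd Q W ∧ HasType Q W l ε ∧ ∀ w ∈ W, g w ∈ W) ↔
    ∀ s, 1 ≤ s → h * s ≤ d → RoomOdd d h l s η ε := by
  constructor
  · intro H s hs1 hsd
    obtain ⟨U, -, hUN, hUT⟩ := exists_type_le_odd h2 Q (nd_top hQ) (l := h * s)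
      (by rw [finrank_top, hn]; omega) (P.eta_pow s) (fun h0 => by
        rcases Nat.mul_eq_zero.1 h0 with e | e
        · exact absurd e P.pos.ne'
        · simp [e])
    obtain ⟨g, hg, hgQ, hfix, hmov⟩ := exists_elt P hUN hUT
    have hg1 : g ≠ 1 := by
      rintro rfl
      have h0 : movIn (1 : Module.End F V) (⊤ : Submodule F V) = ⊥ := by simp [movIn]
      rw [h0] at hmov
      have := hUT.1
      rw [← hmov, finrank_bot] at this
      have := Nat.mul_pos P.pos hs1
      omega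
    obtain ⟨W, hW⟩ := H g hg hgQ hg1
    refine (invariant_odd_iff P h2 hQ hn hg hgQ (by rw [hmov]; exact hUT) ?_ hε).1 ⟨W, hW⟩
    have := finrank_perp (Q := Q) hUN
    rw [hfix]
    rw [hn, hUT.1] at this
    omega
  · intro H g hg hgQ hg1
    obtain ⟨s, hs, -, -, hdim, hiff⟩ := whole_shape P hQ hg hgQ
    rw [hn] at hdim
    exact (invariant_odd_iff P h2 hQ hn hg hgQ hs hdim.symm hε).2 (H s (hiff.2 hg1) (by omega))

include P in
/-- A space too small for blocks. -/
theorem small_of_lt {U : Submodule F V} (hU : finrank F U < 2 * h) :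
    ∀ s : ℕ, 1 ≤ s → ∀ W ≤ U, Nd Q W → ¬ HasType Q W (h * s) (η ^ s) := by
  intro s hs W hW _ hT
  have := Submodule.finrank_mono hW
  rw [hT.1] at this
  have : h ≤ h * s := Nat.le_mul_of_pos_right _ hs
  omega

include P in
/-- With room in a fixed space too small for blocks, `r` does not divide the number of subspaces. -/
theorem not_dvd_card_odd (h2 : (2 : F) ≠ 0) (hQ : (polarBilin Q).Nondegenerate) {d : ℕ}
    (hn : finrank F V = 2 * d + 1) {l : ℕ} (hl : 1 ≤ l) (hlh : l < h)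
    (hlk : 2 * l < (2 * d + 1) % (2 * h)) {ε : ℤ} (hε : ε = 1 ∨ ε = -1) :
    ¬ r ∣ Nat.card {W : Submodule F V // Nd Q W ∧ HasType Q W l ε} := by
  set N := (2 * d + 1) / (2 * h)
  have hdiv := Nat.div_add_mod (2 * d + 1) (2 * h)
  have hmod := Nat.mod_lt (2 * d + 1) (show 2 * h > 0 by omega)
  have hN2 : 2 * (h * N) + (2 * d + 1) % (2 * h) = 2 * d + 1 := by rw [← mul_assoc]; exact hdiv
  obtain ⟨U, -, hUN, hUT⟩ := exists_type_le_odd h2 Q (nd_top hQ) (l := h * N)
    (by rw [finrank_top, hn]; omega) (P.eta_pow N) (fun h0 => by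
      rcases Nat.mul_eq_zero.1 h0 with e | e
      · exact absurd e P.pos.ne'
      · simp [e])
  obtain ⟨g, hg, hgQ, hfix, hmov⟩ := exists_elt P hUN hUT
  have hperp := finrank_perp (Q := Q) hUN
  rw [hn, hUT.1] at hperp
  have hfd : finrank F (fixIn g (⊤ : Submodule F V)) = (2 * d + 1) % (2 * h) := by rw [hfix]; omega
  have hfixN := (decomp P.ne_zero hg hgQ (U := ⊤) (fun _ _ => trivial) (nd_top hQ)).1
  have hbij : Function.Injective g := fun a b hab => by
    have := congrArg (g ^ (r - 1)) hab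
    rwa [← Module.End.mul_apply, ← Module.End.mul_apply, ← pow_succ, Nat.sub_add_cancel hr.out.one_le, hg,
      Module.End.one_apply, Module.End.one_apply] at this
  refine not_dvd_card P hg (U := fixIn g ⊤) (fun u hu => (mem_fixIn.1 hu).2) hfixN
    (small_of_lt P (by omega)) _ (fun W hW => ?_) (fun W hW hWg => ?_) ?_ (fun W W' _ _ hW hW' => ?_)
    (fun e he W hle hW => ?_)
  · obtain ⟨h1, h2'⟩ := hasType_map (Q := Q) (Q' := Q) g hbij hgQ (W := W)
    exact ⟨h1 hW.1, h2' _ _ hW.2⟩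
  · have hinv : ∀ w ∈ W, g w ∈ W := fun w hw => hWg ▸ Submodule.mem_map_of_mem hw
    obtain ⟨k, -, -, hfle, -, -, hsup, -, hdim⟩ := invariant_shape P hQ hg hgQ hinv hW.1 (s := N)
      (by rw [hmov, hUT.1])
    rw [hW.2.1] at hdim
    obtain rfl : k = 0 := by
      by_contra hk
      have : h ≤ h * k := Nat.le_mul_of_pos_right _ (Nat.pos_of_ne_zero hk)
      omega
    rw [← Submodule.eq_of_le_of_finrank_le (inf_le_left : fixIn g W ≤ W) (by
      show finrank F W ≤ finrank F (fixIn g W)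
      rw [hW.2.1]; omega)]
    exact hfle
  · obtain ⟨W, hle, hWN, hWT⟩ := exists_type_le_odd h2 Q hfixN (by rw [hfd]; exact hlk) hε (fun h0 => by omega)
    exact ⟨W, hle, hWN, hWT⟩
  · obtain ⟨e, he⟩ := OrthType.exists_isometry (m := l) hW.2.1 hW'.2.1 (nd_iff_res.1 hW.1) (nd_iff_res.1 hW'.1)
      hW.2.2 hW'.2.2
    exact ⟨e, he⟩
  · obtain ⟨h1, h2'⟩ := hasType_map (Q := res Q (fixIn g ⊤)) (Q' := Q)
      ((fixIn g (⊤ : Submodule F V)).subtype ∘ₗ e.toLinearMap) (Subtype.val_injective.comp e.injective)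
      (fun x => he x) (W := W.comap (fixIn g (⊤ : Submodule F V)).subtype)
    let j := Submodule.comapSubtypeEquivOfLe hle
    have hN : Nd (res Q (fixIn g (⊤ : Submodule F V))) (W.comap (fixIn g (⊤ : Submodule F V)).subtype) :=
      fun u hu h => Subtype.ext (hW.1 u hu fun w hw => h ⟨w, hle hw⟩ hw)
    exact ⟨h1 hN, h2' _ _ ⟨by rw [j.finrank_eq, hW.2.1], hW.2.2.congr j.symm fun x => rfl⟩⟩

end Odd

end CfsgLib.Derangements.Sub
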