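import Mathlib
import Cfsg.Agent.Lib.Derangements.SingularExpo
import Cfsg.Agent.Lib.Derangements.SubspaceBridge
import Cfsg.Agent.Lib.Derangements.FixedSubspaces

/-!
Invariant totally singular subspaces inside the moved part of an isometry of odd prime order: each step has
dimension the order of `q`, and when that order is even a repeated block is needed for every step.
-/

set_option autoImplicit false
set_option linter.unusedSectionVars false
set_option linter.style.haveILetI false

namespace CfsgLib.Derangements.Sub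

open Module QuadraticMap CfsgLib.Derangements

universe u

variable {F : Type u} [Field F] [Fintype F] {r h : ℕ} {η : ℤ} [hr : Fact r.Prime] (P : Params F r h η)
  {V : Type u} [AddCommGroup V] [Module F V] [FiniteDimensional F V] {Q : QuadraticForm F V}

/-- A totally singular subspace of each dimension below half the dimension. -/
theorem exists_singular_le (h2 : (2 : F) ≠ 0) {U : Submodule F V} (hU : Nd Q U) {k : ℕ}
    (hk : 2 * k < finrank F U) : ∃ W ≤ U, finrank F W = k ∧ Ts Q W := by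
  obtain ⟨W, hWU, hWN, hW⟩ := exists_type_le_odd h2 Q hU hk (ε := 1) (Or.inl rfl) fun _ => rfl
  obtain ⟨E, hE⟩ := OrthType.exists_isometry (m := k)
    (show Module.finrank F (Fin k ⊕ Fin k → F) = 2 * k by rw [Module.finrank_fintype_fun_eq_card]; simp; omega)
    hW.1 (CfsgLib.ClassicalForms.nondeg_iff_polarBilin.2 (CfsgLib.ClassicalForms.nondeg_qPlus k))
    (nd_iff_res.1 hWN) (OrthType.hasDisc_qPlus k) (by rw [← one_mul ((Nat.card F : ℤ) ^ k)]; exact hW.2)
  let f : (Fin k → F) →ₗ[F] V :=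
    W.subtype ∘ₗ E.toLinearMap ∘ₗ
      { toFun := fun a => Sum.elim a 0
        map_add' := fun a b => by ext (i | i) <;> simp
        map_smul' := fun t a => by ext (i | i) <;> simp }
  have hf : Function.Injective f := fun a b hab => by
    have h1 := E.injective (Subtype.val_injective hab)
    exact funext fun i => congrFun h1 (Sum.inl i)
  refine ⟨LinearMap.range f, ?_, ?_, ?_⟩
  · rintro _ ⟨a, rfl⟩; exact hWU (E _).2
  · rw [LinearMap.finrank_range_of_inj hf, Module.finrank_fintype_fun_eq_card, Fintype.card_fin]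
  · rintro _ ⟨a, rfl⟩
    have := hE (Sum.elim a 0)
    rw [res_apply, CfsgLib.ClassicalForms.qPlus_apply, Cfsg.quadFormPlus] at this
    simpa [f] using this

/-- The orthogonal complement of a totally singular invariant subspace splits off. -/
theorem exists_complement {g : Module.End F V} (hrF : (r : F) ≠ 0) (hg : g ^ r = 1)
    (hgQ : ∀ x, Q (g x) = Q x) {U : Submodule F V} (hU : ∀ u ∈ U, g u ∈ U) (hUN : Nd Q U) {W : Submodule F V}
    (hWU : W ≤ U) (hWT : Ts Q W) (hW : ∀ w ∈ W, g w ∈ W) :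
    ∃ C ≤ U, Nd Q C ∧ (∀ c ∈ C, g c ∈ C) ∧ (∀ a ∈ W, ∀ c ∈ C, polar Q a c = 0) ∧ Disjoint W C ∧
      finrank F U = finrank F C + 2 * finrank F W := by
  have hpol : ∀ x y, polar Q (g x) (g y) = polar Q x y := fun x y => by simp only [polar, ← map_add, hgQ]
  set K : Submodule F V := U ⊓ perp Q W with hK
  have hWK : W ≤ K := le_inf hWU fun x hx => mem_perp.2 fun w hw => hWT.polar_eq hw hx
  have hKinv : ∀ x ∈ K, g x ∈ K := fun x hx => ⟨hU x hx.1, mem_perp.2 fun w hw => by
    obtain ⟨w', hw', rfl⟩ := surj_of_inv hg hr.out.ne_zero hW w hw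
    rw [hpol]; exact mem_perp.1 hx.2 w' hw'⟩
  obtain ⟨C₀, hC₀, hC₀i⟩ := SubFix.exists_inv_compl (c := (1 : F)) one_ne_zero hrF (by rw [one_smul]; exact hg)
    (A := W) hW
  set C := C₀ ⊓ K with hC
  have hsup : W ⊔ C = K := by
    rw [hC, ← sup_inf_assoc_of_le C₀ hWK, hC₀.sup_eq_top, top_inf_eq]
  have hdisj : Disjoint W C := hC₀.disjoint.mono_right inf_le_left
  have hperp : ∀ a ∈ W, ∀ c ∈ C, polar Q a c = 0 := fun a ha c hc => mem_perp.1 hc.2.2 a ha
  have hKC : finrank F K = finrank F W + finrank F C := by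
    have h := Submodule.finrank_sup_add_finrank_inf_eq W C
    rw [hsup, hdisj.eq_bot, finrank_bot] at h
    omega
  have hN := nd_iff_res.1 hUN
  set B : LinearMap.BilinForm F U := polarBilin (res Q U) with hB
  set W' := W.comap U.subtype with hW'
  have hrefl : B.IsRefl := fun x y hxy => by
    show polar (res Q U) y x = 0
    rw [polar_comm]; exact hxy
  have hW'dim : finrank F W' = finrank F W := (Submodule.comapSubtypeEquivOfLe hWU).finrank_eq
  have horth : B.orthogonal W' = K.comap U.subtype := by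
    ext x
    constructor
    · intro hx
      exact ⟨x.2, mem_perp.2 fun w hw => hx ⟨w, hWU hw⟩ hw⟩
    · intro hx w hw
      show polar (res Q U) w x = 0
      rw [polar_res]
      exact mem_perp.1 hx.2 _ hw
  have hdimK : finrank F K + finrank F W = finrank F U := by
    have h1 := LinearMap.BilinForm.finrank_orthogonal (B := B) hN W'
    rw [horth, (Submodule.comapSubtypeEquivOfLe (inf_le_left : K ≤ U)).finrank_eq, hW'dim] at h1
    rw [h1]
    exact Nat.sub_add_cancel (Submodule.finrank_mono hWU)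
  refine ⟨C, inf_le_right.trans inf_le_left, fun x hx hx0 => ?_, fun c hc => ⟨hC₀i hc.1, hKinv c hc.2⟩, hperp,
    hdisj, by omega⟩
  have hK' : ∀ y ∈ K, polar Q x y = 0 := fun y hy => by
    obtain ⟨a, ha, c, hc, rfl⟩ := Submodule.mem_sup.1 (hsup.symm ▸ hy : y ∈ W ⊔ C)
    rw [polar_add_right, hx0 c hc, polar_comm, hperp a ha x hx, add_zero]
  have hxU : x ∈ U := hx.2.1
  have hx' : (⟨x, hxU⟩ : U) ∈ B.orthogonal (B.orthogonal W') := fun y hy => by
    show polar (res Q U) y _ = 0
    rw [polar_res, polar_comm]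
    exact hK' _ (horth ▸ hy : y ∈ K.comap U.subtype)
  rw [LinearMap.BilinForm.orthogonal_orthogonal hN hrefl W'] at hx'
  exact Submodule.disjoint_def.1 hdisj x hx' hx

include P in
/-- Models with the same exponents embed equivariantly. -/
theorem exists_isometry_expo {ζ : AlgebraicClosure F} {W : Type u} [AddCommGroup W] [Module F W]
    [FiniteDimensional F W] {QW : QuadraticForm F W} {gW : Module.End F W} (hQW : (polarBilin QW).Nondegenerate)
    (hgW : gW ^ r = 1) (hgWQ : ∀ x, QW (gW x) = QW x) (hWfree : ∀ x, gW x = x → x = 0)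
    {M : Multiset (ZMod r)} (hWM : OrthExpo.Expo ζ gW M) {g : Module.End F V} (hg : g ^ r = 1)
    (hgQ : ∀ x, Q (g x) = Q x) {U : Submodule F V} (hU : ∀ u ∈ U, g u ∈ U) (hUN : Nd Q U)
    (hfree : ∀ u ∈ U, g u = u → u = 0) (hUM : OrthExpo.Expo ζ (g.restrict hU) M) :
    ∃ f : W →ₗ[F] V, Function.Injective f ∧ (∀ x, f x ∈ U) ∧ (∀ x, Q (f x) = QW x) ∧
      ∀ x, g (f x) = f (gW x) := by
  obtain ⟨sW, hTW⟩ := exists_blocks P hgW hgWQ (U := ⊤) (fun _ _ => trivial) (nd_top hQW) (fun u _ => hWfree u)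
  obtain ⟨sU, hTU⟩ := exists_blocks P hg hgQ hU hUN hfree
  obtain ⟨hW, hDW⟩ := hasType_top_iff.1 hTW
  have hss : sW = sU := Nat.eq_of_mul_eq_mul_left P.pos (by
    have h1 := hWM.card
    have h2 := hUM.card
    rw [hW] at h1
    rw [hTU.1] at h2
    omega)
  subst hss
  obtain ⟨hgr, hgQ'⟩ := restrict_data (g := g) hg hgQ hU
  obtain ⟨E, hE⟩ := OrthType.exists_isometry (m := h * sW) hW hTU.1 hQW (nd_iff_res.1 hUN) hDW hTU.2
  set g' : Module.End F U := E.conj gW with hg'
  have hg'r : g' ^ r = 1 := by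
    rw [hg', OrthExpo.conj_pow_eq, hgW]
    exact LinearMap.ext fun x => by simp [LinearEquiv.conj_apply]
  have hg'Q : ∀ x, res Q U (g' x) = res Q U x := fun x => by
    rw [hg', LinearEquiv.conj_apply_apply, hE, hgWQ, ← hE, E.apply_symm_apply]
  have hch : g'.charpoly = (g.restrict hU).charpoly := by
    refine Polynomial.map_injective _ (algebraMap F (AlgebraicClosure F)).injective ?_
    rw [hUM]
    exact hWM.conj E
  obtain ⟨X, hX⟩ := CfsgLib.SemisimpleClasses.exists_equiv_of_charpoly_eq (finrank F U) g' (g.restrict hU)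
    (isSemisimple_of_pow P.ne_zero hg'r) (isSemisimple_of_pow P.ne_zero hgr) le_rfl hch
  obtain ⟨c, hcQ, hcx⟩ := CfsgLib.Classes.SemiConj.exists_quad_conj (nd_iff_res.1 hUN) P.ne_zero
    (hr.out.odd_of_ne_two P.ne_two) hg'r hgr hg'Q hgQ' X hX
  refine ⟨U.subtype ∘ₗ c.toLinearMap ∘ₗ E.toLinearMap, Subtype.val_injective.comp (c.injective.comp E.injective),
    fun x => (c (E x)).2, fun x => ?_, fun x => ?_⟩
  · have h1 := hcQ (E x)
    have h2 := hE x
    simp only [res_apply] at h1 h2
    show Q (c (E x) : V) = _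
    rw [h1, h2]
  · have h1 := hcx (E x)
    rw [hg', LinearEquiv.conj_apply_apply, E.symm_apply_apply] at h1
    show g (c (E x) : V) = (c (E (gW x)) : V)
    rw [h1]; rfl

include P in
/-- For odd order of `q` every non-zero space of blocks contains a totally singular one. -/
theorem exists_block_odd {g : Module.End F V} (hg : g ^ r = 1) (hgQ : ∀ x, Q (g x) = Q x) {U : Submodule F V}
    (hU : ∀ u ∈ U, g u ∈ U) (hUN : Nd Q U) (hfree : ∀ u ∈ U, g u = u → u = 0) (hpos : 0 < finrank F U)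
    (hih : orderOf ((Nat.card F : ℕ) : ZMod r) = h) :
    ∃ S ≤ U, (∀ v ∈ S, g v ∈ S) ∧ Ts Q S ∧ finrank F S = h := by
  have hbot : (⊥ : Submodule F V) < U := bot_lt_iff_ne_bot.2 fun h => by rw [h, finrank_bot] at hpos; omega
  obtain ⟨S, hS0, hSU, hS, hSd⟩ := SubFix.exists_step hg P.ne_zero (SubFix.inv_bot g) (K := U)
    (fun u hu => hU u hu) hbot
  rw [finrank_bot, zero_add, hih] at hSd
  have hSi : ∀ v ∈ S, g v ∈ S := hS
  have hdvd := SubFix.dvd_finrank_of_free hg hS fun v hv => hfree v (hSU hv)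
  rw [hih] at hdvd
  have hSpos : 0 < finrank F S := by
    have := Submodule.finrank_lt_finrank_of_lt hS0
    omega
  have hSh : finrank F S = h := le_antisymm hSd (Nat.le_of_dvd hSpos hdvd)
  refine ⟨S, hSU, hSi, ?_, hSh⟩
  -- the radical of `S` is invariant, so everything or nothing
  set R : Submodule F V := S ⊓ perp Q S with hR
  have hpol : ∀ x y, polar Q (g x) (g y) = polar Q x y := fun x y => by simp only [polar, ← map_add, hgQ]
  have hRi : SubFix.Inv g R := fun x hx => ⟨hS hx.1, mem_perp.2 fun w hw => by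
    obtain ⟨w', hw', rfl⟩ := surj_of_inv hg hr.out.ne_zero hSi w hw
    rw [hpol]; exact mem_perp.1 hx.2 w' hw'⟩
  have hRd := SubFix.dvd_finrank_of_free hg hRi fun v hv => hfree v (hSU hv.1)
  rw [hih] at hRd
  rcases Nat.eq_zero_or_pos (finrank F R) with h0 | h0
  · exfalso
    rw [Submodule.finrank_eq_zero] at h0
    have hSN : Nd Q S := fun u hu hu0 => (Submodule.mem_bot F).1 (h0 ▸
      (⟨hu, mem_perp.2 fun w hw => by rw [polar_comm]; exact hu0 w hw⟩ : u ∈ R))
    obtain ⟨k, hk⟩ := exists_blocks P hg hgQ hSi hSN fun v hv => hfree v (hSU hv)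
    have h1 := hk.1
    rw [hSh] at h1
    rcases Nat.eq_zero_or_pos k with rfl | hk0
    · omega
    · have := Nat.le_mul_of_pos_right h hk0
      omega
  · have hle : S ≤ R := by
      rw [← Submodule.eq_of_le_of_finrank_le (inf_le_left : R ≤ S) (by
        show finrank F S ≤ finrank F R
        rw [hSh]; exact Nat.le_of_dvd h0 hRd)]
    intro v hv
    have h1 := mem_perp.1 (hle hv).2 v hv
    have hodd : (2 : F) • Q v = 0 := by rwa [two_smul, ← two_nsmul, ← polar_self]
    by_cases h2 : (2 : F) = 0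
    · -- in characteristic two the form is additive on `S`
      have hadd : ∀ x ∈ S, ∀ y ∈ S, Q (x + y) = Q x + Q y := fun x hx y hy => by
        rw [QuadraticMap.map_add Q, mem_perp.1 (hle hy).2 x hx, add_zero]
      have hsum : ∀ n : ℕ, Q (∑ k ∈ Finset.range n, (g ^ k) v) = (n : F) * Q v := fun n => by
        induction n with
        | zero => simp
        | succ n ih =>
          rw [Finset.sum_range_succ, hadd _ (S.sum_mem fun k _ => sum_pow_mem hSi hv k) _ (sum_pow_mem hSi hv n),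
            ih, pow_isometry hgQ]
          push_cast; ring
      have hfix : g (∑ k ∈ Finset.range r, (g ^ k) v) = ∑ k ∈ Finset.range r, (g ^ k) v := by
        have h3 : (g - 1) * ∑ k ∈ Finset.range r, g ^ k = 0 := by rw [mul_geom_sum, hg, sub_self]
        have h4 := LinearMap.congr_fun h3 v
        rwa [Module.End.mul_apply, LinearMap.sub_apply, Module.End.one_apply, LinearMap.zero_apply, sub_eq_zero,
          LinearMap.sum_apply] at h4
      have h5 := hsum r
      rw [hfree _ (hSU (S.sum_mem fun k _ => sum_pow_mem hSi hv k)) hfix, QuadraticMap.map_zero] at h5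
      exact (mul_eq_zero.1 h5.symm).resolve_left P.ne_zero
    · exact (smul_eq_zero.1 hodd).resolve_left h2

include P in
/-- For even order of `q` a totally singular block needs a repeated orbit, forced by too many blocks. -/
theorem exists_block_even {g : Module.End F V} (hg : g ^ r = 1) (hgQ : ∀ x, Q (g x) = Q x) {U : Submodule F V}
    (hU : ∀ u ∈ U, g u ∈ U) (hUN : Nd Q U) (hfree : ∀ u ∈ U, g u = u → u = 0) {s : ℕ}
    (hs : finrank F U = 2 * (h * s)) (hts : r - 1 < 2 * (h * s)) :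
    ∃ S ≤ U, (∀ v ∈ S, g v ∈ S) ∧ Ts Q S ∧ finrank F S = 2 * h := by
  classical
  obtain ⟨uq, huq, hord⟩ := P.order
  rw [Nat.card_eq_fintype_card] at huq
  obtain ⟨ζ, hζ⟩ := exists_root P
  obtain ⟨hgr, hgQ'⟩ := restrict_data (g := g) hg hgQ hU
  obtain ⟨M, hM⟩ := OrthExpo.exists_expo hζ hgr
  have h0 : (0 : ZMod r) ∉ M := by
    intro hmem
    have hroot : (g.restrict hU).charpoly.IsRoot 1 := by
      refine Polynomial.IsRoot.of_map (f := algebraMap F (AlgebraicClosure F)) ?_ (algebraMap F _).injective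
      rw [hM, map_one, Polynomial.IsRoot, CfsgLib.Classes.GUPrime.expPoly, Polynomial.eval_multiset_prod]
      refine Multiset.prod_eq_zero (Multiset.mem_map.2 ⟨_, Multiset.mem_map_of_mem _ hmem, ?_⟩)
      simp
    obtain ⟨x, hx⟩ := ((Module.End.hasEigenvalue_iff_isRoot_charpoly _ _).2 hroot).exists_hasEigenvector
    exact hx.2 (Subtype.ext (hfree x x.2 (congrArg Subtype.val (hx.apply_eq_smul.trans (one_smul F x)))))
  have hfix : OrthExpo.Fixes ((OrthExpo.uu uq : (ZMod r)ˣ) : ZMod r) M := by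
    rw [OrthExpo.fixes_uu_iff]
    exact ⟨by rw [OrthExpo.Fixes, huq]; exact hM.map_card hζ, hM.map_neg hζ (nd_iff_res.1 hUN) hgr hgQ'⟩
  have hMc : M.card = 2 * (h * s) := by rw [hM.card, hs]
  obtain ⟨a, ha2⟩ : ∃ a, 2 ≤ M.count a := by
    by_contra hc
    push Not at hc
    have hnd : M.Nodup := Multiset.nodup_iff_count_le_one.2 fun a => Nat.le_of_lt_succ (hc a)
    have h1 : M.toFinset ⊆ Finset.univ.erase (0 : ZMod r) := fun x hx =>
      Finset.mem_erase.2 ⟨fun e => h0 (e ▸ Multiset.mem_toFinset.1 hx), Finset.mem_univ x⟩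
    have h2 := Finset.card_le_card h1
    rw [Multiset.toFinset_card_of_nodup hnd, hMc, Finset.card_erase_of_mem (Finset.mem_univ _), Finset.card_univ,
      ZMod.card] at h2
    omega
  have haM : a ∈ M := Multiset.count_pos.1 (by omega)
  have ha : a ≠ 0 := fun h => h0 (h ▸ haM)
  set O := OrthExpo.orbit (OrthExpo.uu uq) a with hO
  have hOc : O.card = 2 * (h * 1) := by rw [hO, OrthExpo.card_orbit, hord, mul_one]
  have hOfix : OrthExpo.Fixes ((OrthExpo.uu uq : (ZMod r)ˣ) : ZMod r) O := by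
    refine Multiset.eq_of_le_of_card_le ((Multiset.le_iff_subset
      ((OrthExpo.orbit_nodup _ ha).map (mul_right_injective₀ (OrthExpo.uu uq).ne_zero))).2 fun y hy => ?_) (by simp)
    obtain ⟨z, hz, rfl⟩ := Multiset.mem_map.1 hy
    obtain ⟨j, -, rfl⟩ := Multiset.mem_map.1 hz
    refine Multiset.mem_map.2 ⟨(j + 1) % orderOf (OrthExpo.uu uq),
      Finset.mem_range.2 (Nat.mod_lt _ (orderOf_pos _)), ?_⟩
    rw [pow_mod_orderOf, pow_succ', Units.val_mul, mul_assoc]
  have hO0 : (0 : ZMod r) ∉ O := fun hm => h0 (Multiset.mem_of_le (OrthExpo.orbit_le _ ha hfix haM) hm)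
  have hcount : ∀ x ∈ O, M.count x = M.count a := fun x hx => by
    obtain ⟨j, -, rfl⟩ := Multiset.mem_map.1 hx
    conv_lhs => rw [← hfix.pow j, ← Units.val_pow_eq_pow_val]
    exact Multiset.count_map_eq_count' _ _ (mul_right_injective₀ (Units.ne_zero _)) _
  obtain ⟨R, hR⟩ := Multiset.le_iff_exists_add.1 (show O + O ≤ M from Multiset.le_iff_count.2 fun x => by
    by_cases hx : x ∈ O
    · rw [Multiset.count_add, hcount x hx, Multiset.count_eq_one_of_mem (OrthExpo.orbit_nodup _ ha) hx]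
      omega
    · rw [Multiset.count_add, Multiset.count_eq_zero.2 hx]; omega)
  have hRfix : OrthExpo.Fixes ((OrthExpo.uu uq : (ZMod r)ˣ) : ZMod r) R := by
    have h := hfix
    rw [hR, OrthExpo.Fixes, Multiset.map_add, Multiset.map_add, hOfix] at h
    exact add_left_cancel h
  have hR0 : (0 : ZMod r) ∉ R := fun hm => h0 (hR ▸ Multiset.mem_add.2 (Or.inr hm))
  have hRc : R.card = 2 * (h * (s - 2)) := by
    have h1 := congrArg Multiset.card hR
    rw [Multiset.card_add, Multiset.card_add, hOc, hMc] at h1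
    rw [Nat.mul_sub]
    omega
  obtain ⟨W₀, _, _, _, Q₀, g₀, hQ₀, hg₀, hg₀Q, hg₀M, hfree₀, hW₀, -⟩ :=
    exists_model P huq hord hζ hOfix hO0 hOc
  obtain ⟨W₁, _, _, _, Q₁, g₁, hQ₁, hg₁, hg₁Q, hg₁M, hfree₁, -, -⟩ :=
    exists_model P huq hord hζ hRfix hR0 hRc
  have hneg : (polarBilin (-Q₀)).Nondegenerate := by
    refine CfsgLib.Classes.nondegenerate_polarBilin _ fun x hx => hQ₀.1 x fun y => ?_
    show polar Q₀ x y = 0
    have := hx y
    rwa [FunLike.coe_neg, polar_neg, neg_eq_zero] at this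
  have hQW := OrthExpo.nondegenerate_prod (OrthExpo.nondegenerate_prod hQ₀ hneg) hQ₁
  obtain ⟨f, hf, hfU, hfQ, hfg⟩ := exists_isometry_expo P (M := M) hQW
    (gW := LinearMap.prodMap (LinearMap.prodMap g₀ g₀) g₁)
    (by rw [OrthExpo.prodMap_pow, OrthExpo.prodMap_pow, hg₀, hg₁]; exact LinearMap.ext fun x => rfl)
    (fun x => by simp [hg₀Q, hg₁Q])
    (fun x hx => Prod.ext (Prod.ext (hfree₀ _ (congrArg (fun z => z.1.1) hx))
      (hfree₀ _ (congrArg (fun z => z.1.2) hx))) (hfree₁ _ (congrArg (fun z => z.2) hx)))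
    (ζ := ζ) (by rw [hR]; exact (hg₀M.prodMap hg₀M).prodMap hg₁M) hg hgQ hU hUN hfree hM
  let δ : W₀ →ₗ[F] (W₀ × W₀) × W₁ :=
    (LinearMap.inl F (W₀ × W₀) W₁) ∘ₗ (LinearMap.id.prod LinearMap.id)
  have hδ : Function.Injective δ := fun x y hxy => congrArg (fun z => z.1.1) hxy
  refine ⟨LinearMap.range (f ∘ₗ δ), ?_, ?_, ?_, ?_⟩
  · rintro _ ⟨x, rfl⟩; exact hfU _
  · rintro _ ⟨x, rfl⟩
    refine ⟨g₀ x, ?_⟩
    show f (δ (g₀ x)) = g (f (δ x))
    rw [hfg]
    congr 1
    simp [δ]
  · rintro _ ⟨x, rfl⟩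
    show Q (f (δ x)) = 0
    rw [hfQ]
    simp [δ]
  · rw [LinearMap.finrank_range_of_inj (show Function.Injective (f ∘ₗ δ) from hf.comp hδ), hW₀, mul_one]

end CfsgLib.Derangements.Sub
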