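import Mathlib
import Cfsg.Agent.Lib.Derangements.OrthPrimeClasses

/-!
Multisets of exponents without room for many totally singular blocks.
-/

set_option autoImplicit false
set_option linter.unusedSectionVars false
set_option linter.style.haveILetI false

namespace CfsgLib.Derangements.Sub

open CfsgLib.Derangements

variable {r : ℕ} [hr : Fact r.Prime]

theorem orbit_fixes (u : (ZMod r)ˣ) {a : ZMod r} (ha : a ≠ 0) :
    OrthExpo.Fixes (u : ZMod r) (OrthExpo.orbit u a) := by
  refine Multiset.eq_of_le_of_card_le ((Multiset.le_iff_subset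
    ((OrthExpo.orbit_nodup u ha).map (mul_right_injective₀ u.ne_zero))).2 fun y hy => ?_) (by simp)
  obtain ⟨z, hz, rfl⟩ := Multiset.mem_map.1 hy
  obtain ⟨j, -, rfl⟩ := Multiset.mem_map.1 hz
  refine Multiset.mem_map.2 ⟨(j + 1) % orderOf u, Finset.mem_range.2 (Nat.mod_lt _ (orderOf_pos u)), ?_⟩
  rw [pow_mod_orderOf, pow_succ', Units.val_mul, mul_assoc]

theorem zero_not_mem_orbit (u : (ZMod r)ˣ) {a : ZMod r} (ha : a ≠ 0) : (0 : ZMod r) ∉ OrthExpo.orbit u a :=
  fun hm => by
    obtain ⟨j, -, hj⟩ := Multiset.mem_map.1 hm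
    exact mul_ne_zero (Units.ne_zero _) ha hj

theorem fixes_nsmul {x : ZMod r} {M : Multiset (ZMod r)} (h : OrthExpo.Fixes x M) (k : ℕ) :
    OrthExpo.Fixes x (k • M) := by
  rw [OrthExpo.Fixes, Multiset.map_nsmul, h]

/-- All non-zero residues. -/
theorem fixes_units (u : (ZMod r)ˣ) :
    OrthExpo.Fixes (u : ZMod r) ((Finset.univ.erase (0 : ZMod r)).val) := by
  refine Multiset.eq_of_le_of_card_le ((Multiset.le_iff_subset
    ((Finset.univ.erase (0 : ZMod r)).nodup.map (mul_right_injective₀ u.ne_zero))).2 fun y hy => ?_) (by simp)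
  obtain ⟨z, hz, rfl⟩ := Multiset.mem_map.1 hy
  exact Finset.mem_erase.2 ⟨mul_ne_zero u.ne_zero (Finset.mem_erase.1 hz).1, Finset.mem_univ _⟩

/-- A submultiset with at most `k` orbits. -/
theorem fixes_exists_le (u : (ZMod r)ˣ) : ∀ (k : ℕ) (M : Multiset (ZMod r)),
    OrthExpo.Fixes (u : ZMod r) M → (0 : ZMod r) ∉ M → orderOf u * k ≤ M.card →
    ∃ A ≤ M, OrthExpo.Fixes (u : ZMod r) A ∧ A.card = orderOf u * k := by
  intro k
  induction k with
  | zero => intro M _ _ _; exact ⟨0, Multiset.zero_le _, by simp [OrthExpo.Fixes], by simp⟩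
  | succ k ih =>
    intro M hM h0 hle
    obtain ⟨a, haM⟩ : ∃ a, a ∈ M := Multiset.card_pos_iff_exists_mem.1 (by
      have := orderOf_pos u
      have : orderOf u ≤ orderOf u * (k + 1) := Nat.le_mul_of_pos_right _ (by omega)
      omega)
    have ha : a ≠ 0 := fun h => h0 (h ▸ haM)
    obtain ⟨N, hN⟩ := Multiset.le_iff_exists_add.1 (OrthExpo.orbit_le u ha hM haM)
    have hO := orbit_fixes u ha
    have hNF : OrthExpo.Fixes (u : ZMod r) N := by
      have h := hM
      rw [hN, OrthExpo.Fixes, Multiset.map_add, hO] at h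
      exact add_left_cancel h
    obtain ⟨A, hA, hAF, hAc⟩ := ih N hNF (fun h => h0 (hN ▸ Multiset.mem_add.2 (Or.inr h))) (by
      rw [hN, Multiset.card_add, OrthExpo.card_orbit, mul_add, mul_one] at hle; omega)
    refine ⟨OrthExpo.orbit u a + A, hN ▸ add_le_add le_rfl hA, ?_, ?_⟩
    · rw [OrthExpo.Fixes, Multiset.map_add, hO, hAF]
    · rw [Multiset.card_add, OrthExpo.card_orbit, hAc]; ring

/-- With `t` orbits in all, `s` of them can be chosen so that at most `(s + 1 - t) / 2` pair up. -/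
theorem exists_worst (u : (ZMod r)ˣ) {d t : ℕ} (hd : orderOf u = d) (hdt : d * t = r - 1) (s : ℕ) :
    ∃ M : Multiset (ZMod r), OrthExpo.Fixes (u : ZMod r) M ∧ (0 : ZMod r) ∉ M ∧ M.card = d * s ∧
      ∀ A : Multiset (ZMod r), A + A ≤ M → A.card ≤ d * ((s + 1 - t) / 2) := by
  classical
  set Z : Multiset (ZMod r) := (Finset.univ.erase (0 : ZMod r)).val with hZ
  have hZc : Z.card = r - 1 := by
    rw [hZ, ← Finset.card_def, Finset.card_erase_of_mem (Finset.mem_univ _), Finset.card_univ, ZMod.card]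
  have hZ0 : (0 : ZMod r) ∉ Z := fun h => (Finset.mem_erase.1 h).1 rfl
  have hZn : Z.Nodup := (Finset.univ.erase (0 : ZMod r)).nodup
  rcases Nat.lt_or_ge s t with hst | hts
  · obtain ⟨M, hMZ, hMF, hMc⟩ := fixes_exists_le u s Z (fixes_units u) hZ0 (by
      rw [hd, hZc, ← hdt]; exact Nat.mul_le_mul_left d hst.le)
    refine ⟨M, hMF, fun h => hZ0 (Multiset.mem_of_le hMZ h), hMc.trans (by rw [hd]), fun A hA => ?_⟩
    have : A = 0 := Multiset.eq_zero_of_forall_notMem fun x hx => by
      have h1 := Multiset.le_iff_count.1 (hA.trans hMZ) x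
      have h2 := Multiset.nodup_iff_count_le_one.1 hZn x
      have h3 := Multiset.count_pos.2 hx
      rw [Multiset.count_add] at h1
      omega
    simp [this]
  · refine ⟨Z + (s - t) • OrthExpo.orbit u 1, ?_, ?_, ?_, fun A hA => ?_⟩
    · rw [OrthExpo.Fixes, Multiset.map_add, fixes_units u, fixes_nsmul (orbit_fixes u one_ne_zero)]
    · intro h
      rcases Multiset.mem_add.1 h with h | h
      · exact hZ0 h
      · exact zero_not_mem_orbit u one_ne_zero (Multiset.mem_of_mem_nsmul h)
    · rw [Multiset.card_add, Multiset.card_nsmul, OrthExpo.card_orbit, hd, hZc, ← hdt, mul_comm (s - t), ← mul_add,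
        Nat.add_sub_cancel' hts]
    · have hle : A ≤ ((s + 1 - t) / 2) • OrthExpo.orbit u 1 := Multiset.le_iff_count.2 fun x => by
        have h1 := Multiset.le_iff_count.1 hA x
        have h2 := Multiset.nodup_iff_count_le_one.1 hZn x
        rw [Multiset.count_add, Multiset.count_add, Multiset.count_nsmul] at h1
        rw [Multiset.count_nsmul]
        by_cases hx : x ∈ OrthExpo.orbit u 1
        · rw [Multiset.count_eq_one_of_mem (OrthExpo.orbit_nodup u one_ne_zero) hx, mul_one] at h1 ⊢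
          omega
        · rw [Multiset.count_eq_zero.2 hx, mul_zero] at h1 ⊢
          omega
      refine (Multiset.card_le_card hle).trans (le_of_eq ?_)
      rw [Multiset.card_nsmul, OrthExpo.card_orbit, hd, mul_comm]

end CfsgLib.Derangements.Sub
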