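import Mathlib
import Cfsg.Agent.Lib.Derangements.SubspaceBridge

/-!
Involutions of determinant one in odd dimension fix non-degenerate subspaces of every even dimension and type.
-/

set_option autoImplicit false
set_option linter.unusedSectionVars false
set_option linter.style.haveILetI false

namespace CfsgLib.Derangements.Sub

open Module QuadraticMap CfsgLib.Derangements
open scoped Matrix

universe u

variable {F : Type u} [Field F] [Finite F] {V : Type u} [AddCommGroup V] [Module F V] [FiniteDimensional F V]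

/-- The two eigenspaces of an involutory isometry. -/
theorem involution_split (h2 : (2 : F) ≠ 0) {Q : QuadraticForm F V} (hQ : (polarBilin Q).Nondegenerate)
    {g : Module.End F V} (hg : g * g = 1) (hgQ : ∀ x, Q (g x) = Q x) :
    ∃ A B : Submodule F V, Nd Q A ∧ Nd Q B ∧ perp Q A = B ∧ (∀ a ∈ A, g a = a) ∧ (∀ b ∈ B, g b = -b) ∧
      finrank F A + finrank F B = finrank F V ∧ LinearMap.det g = (-1) ^ finrank F B := by
  let A : Submodule F V := LinearMap.ker (g - 1)
  let B : Submodule F V := LinearMap.ker (g + 1)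
  have hA : ∀ a ∈ A, g a = a := fun a ha => by simpa [A, sub_eq_zero] using ha
  have hB : ∀ b ∈ B, g b = -b := fun b hb => by
    have h0 : g b + b = 0 := by simpa [B] using hb
    exact eq_neg_of_add_eq_zero_left h0
  have hgg : ∀ v, g (g v) = v := fun v => LinearMap.congr_fun hg v
  have ho : ∀ a ∈ A, ∀ b ∈ B, polar Q a b = 0 := fun a ha b hb => by
    have h : polar Q (g a) (g b) = polar Q a b := by simp only [polar, ← map_add, hgQ]
    rw [hA a ha, hB b hb, polar_neg_right] at h
    exact (mul_eq_zero.1 (show (2 : F) * polar Q a b = 0 by linear_combination -h)).resolve_left h2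
  have hsup : A ⊔ B = ⊤ := eq_top_iff.2 fun v _ => by
    have h1 : (2 : F)⁻¹ • (v + g v) ∈ A := by
      simp only [A, LinearMap.mem_ker, LinearMap.sub_apply, Module.End.one_apply, map_smul, map_add, hgg]
      module
    have h1' : (2 : F)⁻¹ • (v - g v) ∈ B := by
      simp only [B, LinearMap.mem_ker, LinearMap.add_apply, Module.End.one_apply, map_smul, map_sub, hgg]
      module
    have := Submodule.add_mem_sup h1 h1'
    rwa [← smul_add, show v + g v + (v - g v) = (2 : F) • v by rw [two_smul]; abel, smul_smul,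
      inv_mul_cancel₀ h2, one_smul] at this
  have hAN : Nd Q A := fun a ha h => hQ.1 a fun w => by
    obtain ⟨x, hx, y, hy, rfl⟩ := Submodule.mem_sup.1 (show w ∈ A ⊔ B by rw [hsup]; trivial)
    show polar Q a (x + y) = 0
    rw [polar_add_right, h x hx, ho a ha y hy, add_zero]
  have hdisj : IsCompl A B := ⟨disjoint_of_orth hAN ho, codisjoint_iff.2 hsup⟩
  have hdim : finrank F A + finrank F B = finrank F V := Submodule.finrank_add_eq_of_isCompl hdisj
  have hperp : perp Q A = B := (Submodule.eq_of_le_of_finrank_le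
    (fun b hb => mem_perp.2 fun a ha => ho a ha b hb) (by have := finrank_perp (Q := Q) hAN; omega)).symm
  refine ⟨A, B, hAN, hperp ▸ nd_perp hQ hAN, hperp, hA, hB, hdim, ?_⟩
  have he : g = (Submodule.prodEquivOfIsCompl A B hdisj).conj
      (LinearMap.prodMap (1 : Module.End F A) (-1 : Module.End F B)) := LinearMap.ext fun v => by
    obtain ⟨⟨x, y⟩, rfl⟩ := (Submodule.prodEquivOfIsCompl A B hdisj).surjective v
    rw [LinearEquiv.conj_apply_apply, LinearEquiv.symm_apply_apply]
    simp [hA _ x.2, hB _ y.2]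
  rw [he, LinearEquiv.conj_apply, LinearMap.comp_assoc, LinearMap.det_conj, LinearMap.det_prodMap, map_one,
    one_mul, show (-1 : Module.End F B) = (-1 : F) • 1 from (neg_one_smul F _).symm, LinearMap.det_smul,
    map_one, mul_one]

/-- An involution of determinant one in odd dimension fixes subspaces of every even dimension and type. -/
theorem involution_fixes_odd (h2 : (2 : F) ≠ 0) {Q : QuadraticForm F V} (hQ : (polarBilin Q).Nondegenerate)
    {d : ℕ} (hn : finrank F V = 2 * d + 1) {g : Module.End F V} (hg : g * g = 1) (hgQ : ∀ x, Q (g x) = Q x)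
    (hdet : LinearMap.det g = 1) {l : ℕ} (hl : 1 ≤ l) (hld : l ≤ d) {ε : ℤ} (hε : ε = 1 ∨ ε = -1) :
    ∃ W : Submodule F V, Nd Q W ∧ HasType Q W l ε ∧ ∀ w ∈ W, g w ∈ W := by
  haveI := Fintype.ofFinite F
  obtain ⟨A, B, hAN, hBN, hperp, hA, hB, hdim, hd⟩ := involution_split h2 hQ hg hgQ
  rw [hdet] at hd
  have hbe : Even (finrank F B) := by
    rcases Nat.even_or_odd (finrank F B) with he | ho
    · exact he
    · rw [ho.neg_one_pow] at hd
      exact absurd hd fun h => h2 (by linear_combination h)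
  obtain ⟨b, hb⟩ := hbe
  have hab : ∀ x ∈ A, ∀ y ∈ B, polar Q x y = 0 := fun x hx y hy => mem_perp.1 (hperp ▸ hy) x hx
  have glue : ∀ {A' B' : Submodule F V}, A' ≤ A → B' ≤ B → ∀ w ∈ A' ⊔ B', g w ∈ A' ⊔ B' := by
    intro A' B' hA' hB' w hw
    obtain ⟨x, hx, y, hy, rfl⟩ := Submodule.mem_sup.1 hw
    rw [map_add, hA x (hA' hx), hB y (hB' hy)]
    exact Submodule.add_mem_sup hx (B'.neg_mem hy)
  set a := finrank F A with ha
  by_cases h1 : 2 * l < a
  · obtain ⟨W, hW, hWN, hWT⟩ := exists_type_le_odd h2 Q hAN h1 hε (fun h => by omega)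
    exact ⟨W, hWN, hWT, fun w hw => by rw [hA w (hW hw)]; exact hw⟩
  by_cases h3 : a = 1
  swap
  · -- a proper piece of `A` carries the type
    obtain ⟨la, hla⟩ : ∃ la, a = 2 * la + 1 := ⟨a / 2, by omega⟩
    have hlb : l - la ≤ b := by omega
    obtain ⟨B', hB', hB'N, εb, hεb, hB'T⟩ : ∃ B' ≤ B, Nd Q B' ∧ ∃ εb : ℤ, (εb = 1 ∨ εb = -1) ∧
        HasType Q B' (l - la) εb := by
      rcases eq_or_lt_of_le hlb with he | hlt
      · obtain ⟨εb, hεb, hT⟩ := exists_hasType hBN (l := l - la) (by omega)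
        exact ⟨B, le_rfl, hBN, εb, hεb, hT⟩
      · obtain ⟨εB, hεB, hT⟩ := exists_hasType hBN (l := b) (by omega)
        rcases Nat.eq_zero_or_pos (l - la) with h0 | h0
        · exact ⟨⊥, bot_le, nd_bot, 1, Or.inl rfl, by rw [h0]; exact hasType_bot Q⟩
        · obtain ⟨W, hW, hWN, hWT⟩ := exists_le_type hBN hεB hT h0 hlt (ε := 1) (Or.inl rfl)
          exact ⟨W, hW, hWN, 1, Or.inl rfl, hWT⟩
    obtain ⟨A', hA', hA'N, hA'T⟩ := exists_type_le_odd h2 Q hAN (l := la) (by omega) (ε := ε * εb)
      (by rcases hε with rfl | rfl <;> rcases hεb with rfl | rfl <;> norm_num) (fun h => by omega)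
    have ho : ∀ x ∈ A', ∀ y ∈ B', polar Q x y = 0 := fun x hx y hy => hab x (hA' hx) y (hB' hy)
    refine ⟨A' ⊔ B', nd_sup hA'N hB'N ho, ?_, glue hA' hB'⟩
    have h := hA'T.sup hA'N ho hB'T
    rwa [show la + (l - la) = l by omega, mul_assoc,
      show εb * εb = 1 by rcases hεb with rfl | rfl <;> rfl, mul_one] at h
  by_cases h4 : l < b
  · obtain ⟨εB, hεB, hT⟩ := exists_hasType hBN (l := b) (by omega)
    obtain ⟨W, hW, hWN, hWT⟩ := exists_le_type hBN hεB hT hl h4 hε
    exact ⟨W, hWN, hWT, fun w hw => by rw [hB w (hW hw)]; exact W.neg_mem hw⟩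
  -- `A` is a line and `2 l = 2 d`: take the orthogonal of a vector in `B`
  have hlb : l = d := by omega
  obtain ⟨W', -, hW'N, hW'T⟩ := exists_type_le_odd h2 Q (nd_top hQ) (l := l)
    (by rw [finrank_top, hn]; omega) hε (fun h => by omega)
  obtain ⟨f, hf, hfB, hfQ⟩ := exists_le_isometric h2 Q 1 hBN (res Q (perp Q W'))
    (nd_iff_res.1 (nd_perp hQ hW'N))
    (by have := finrank_perp (Q := Q) hW'N; rw [hn, hW'T.1] at this; omega) (by omega)
  obtain ⟨E, hEQ, hE⟩ := CfsgLib.Forms.witt_extension_quadratic Q hQ (perp Q W') f hf fun x => hfQ x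
  refine ⟨W'.map E.toLinearMap, (hasType_map E.toLinearMap E.injective hEQ).1 hW'N,
    (hasType_map E.toLinearMap E.injective hEQ).2 _ _ hW'T, ?_⟩
  have horth : ∀ v ∈ perp Q W', ∀ w ∈ W'.map E.toLinearMap, polar Q (E v) w = 0 := by
    rintro v hv _ ⟨w, hw, rfl⟩
    show polar Q (E v) (E w) = 0
    have h5 : polar Q (E v) (E w) = polar Q v w := by simp only [polar, ← map_add, hEQ]
    rw [h5, polar_comm]
    exact mem_perp.1 hv w hw
  have hWE : W'.map E.toLinearMap = perp Q ((perp Q W').map E.toLinearMap) := by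
    refine Submodule.eq_of_le_of_finrank_le (fun w hw => mem_perp.2 ?_) ?_
    · rintro _ ⟨v, hv, rfl⟩
      exact horth v hv w hw
    · have hN : Nd Q ((perp Q W').map E.toLinearMap) :=
        (hasType_map E.toLinearMap E.injective hEQ).1 (nd_perp hQ hW'N)
      have e1 := finrank_perp (Q := Q) hN
      have e2 := finrank_perp (Q := Q) hW'N
      have e3 := LinearEquiv.finrank_map_eq E (perp Q W')
      have e4 := LinearEquiv.finrank_map_eq E W'
      omega
  intro w hw
  rw [hWE] at hw ⊢
  refine mem_perp.2 ?_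
  rintro _ ⟨v, hv, rfl⟩
  have hEv : g (E v) = -(E v) := hB _ (by rw [show E v = f ⟨v, hv⟩ from hE ⟨v, hv⟩]; exact hfB _)
  show polar Q (E v) (g w) = 0
  have h : polar Q (g (E v)) (g w) = polar Q (E v) w := by simp only [polar, ← map_add, hgQ]
  rw [hEv, polar_neg_left, mem_perp.1 hw (E v) ⟨v, hv, rfl⟩] at h
  exact neg_eq_zero.1 h

omit [Finite F] in
/-- The members of Ω have determinant one. -/
theorem det_eq_one_of_mem_omegaGL {ι : Type} [Fintype ι] [DecidableEq ι] {f : (ι → F) → F} {x : GL ι F}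
    (hx : x ∈ Cfsg.Geo.omegaGL f) : LinearMap.det (Matrix.toLin' (x : Matrix ι ι F)) = 1 := by
  obtain ⟨X, hX, rfl⟩ := hx
  rw [LinearMap.det_toLin']
  let D : Cfsg.isometryGroup F f →* Fˣ := Matrix.GeneralLinearGroup.det.comp (Cfsg.isometryGroup F f).subtype
  have h : D X = 1 := MonoidHom.mem_ker.1 (Abelianization.commutator_subset_ker D hX)
  exact congrArg Units.val h

end CfsgLib.Derangements.Sub
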