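import Mathlib
import Cfsg.Agent.Lib.Derangements.SubspaceBridge
import Cfsg.Agent.Lib.Derangements.SubspaceInvolution
import Cfsg.Agent.Lib.ClassicalForms.Ortho.Standard

/-!
Elements of prime order of `Ω_{2d+1}(q)` fixing a non-degenerate subspace of given even dimension and type.
-/

set_option autoImplicit false
set_option linter.unusedSectionVars false
set_option linter.style.haveILetI false

namespace CfsgLib.Derangements.Sub

open Module QuadraticMap CfsgLib.Derangements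
open scoped Matrix

universe u

theorem two_ne_zero_of_odd_card {F : Type u} [Field F] [Fintype F] (hq : Odd (Fintype.card F)) : (2 : F) ≠ 0 := by
  obtain ⟨p, hp⟩ := CharP.exists F
  haveI : Fact p.Prime := ⟨CharP.char_is_prime F p⟩
  obtain ⟨f, -, hf⟩ := FiniteField.card F p
  intro h
  have hp2 : p = 2 := (Nat.prime_dvd_prime_iff_eq Fact.out Nat.prime_two).1
    ((CharP.cast_eq_zero_iff F p 2).1 (by exact_mod_cast h))
  rw [hf, hp2] at hq
  exact Nat.not_odd_iff_even.2 (Nat.even_pow.2 ⟨even_two, f.pos.ne'⟩) hq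

/-- The arithmetic of odd dimension. -/
theorem room_odd_arith {h d l : ℕ} {η ε : ℤ} (hh : 0 < h) (hld : l ≤ d)
    (hex : ¬ (l < h ∧ 2 * l < (2 * d + 1) % (2 * h))) :
    (∀ s, 1 ≤ s → h * s ≤ d → RoomOdd d h l s η ε) ↔
      h ≤ l ∧ l % h ≤ d % h ∧ (l % h = 0 → ε = η ^ (l / h)) := by
  have hd := Nat.div_add_mod d h
  have hl := Nat.div_add_mod l h
  have hdm := Nat.mod_lt d hh
  have hlm := Nat.mod_lt l hh
  have hmod : (2 * d + 1) % (2 * h) = 2 * (d % h) + 1 := by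
    conv_lhs => rw [show 2 * d + 1 = 2 * (d % h) + 1 + 2 * h * (d / h) by rw [mul_assoc]; omega]
    rw [Nat.add_mul_mod_self_left, Nat.mod_eq_of_lt (by omega)]
  rw [hmod] at hex
  have hAN : l / h ≤ d / h := Nat.div_le_div_right hld
  have hkA : ∀ k, h * k ≤ l → k ≤ l / h := fun k hk => (Nat.le_div_iff_mul_le hh).2 (by rwa [mul_comm])
  constructor
  · intro H
    by_cases hN : d / h = 0
    · rw [hN, Nat.mul_zero] at hd
      exact absurd ⟨by omega, by omega⟩ hex
    obtain ⟨k, hk, hkl, hle, ht⟩ := H (d / h) (Nat.pos_of_ne_zero hN) (by omega)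
    have hkA' := hkA k hkl
    have hk' : k = l / h := by
      by_contra hne
      have h1 : h * (k + 1) ≤ h * (l / h) := Nat.mul_le_mul_left h (by omega)
      rw [mul_add, mul_one] at h1
      omega
    subst hk'
    have h2 : l % h ≤ d % h := by omega
    refine ⟨?_, h2, fun h0 => ht (by omega)⟩
    by_contra hlt
    have hmd : l % h = l := Nat.mod_eq_of_lt (by omega)
    exact hex ⟨by omega, by omega⟩
  · rintro ⟨hhl, hlk, ht⟩ s hs hsd
    have hsN : s ≤ d / h := (Nat.le_div_iff_mul_le hh).2 (by rwa [mul_comm])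
    rcases Nat.lt_or_ge s (l / h) with hlt | hge
    · have h1 : h * (s + 1) ≤ h * (l / h) := Nat.mul_le_mul_left h hlt
      rw [mul_add, mul_one] at h1
      exact ⟨s, le_rfl, by omega, by omega, fun e => by omega⟩
    · have h1 : h * s ≤ h * (d / h) := Nat.mul_le_mul_left h hsN
      exact ⟨l / h, hge, by omega, by omega, fun e => ht (by omega)⟩

variable {F : Type u} [Field F] [Fintype F]

/-- Subspaces of dimension `2 l` of plus type, or of minus type. -/
def Spec {ι : Type} [Fintype ι] (f : (ι → F) → F) (l : ℕ) (plus : Bool) (W : Submodule F (ι → F)) : Prop :=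
  finrank F W = 2 * l ∧ Cfsg.Geo.IsNondegenerateOn (polar f) W ∧
    (plus = true ↔ Cfsg.Geo.IsPlusTypeOn f W)

/-- The sign of a type. -/
def sgn (plus : Bool) : ℤ := if plus then 1 else -1

theorem sgn_cases (plus : Bool) : sgn plus = 1 ∨ sgn plus = -1 := by cases plus <;> simp [sgn]

theorem spec_iff {ι : Type} [Fintype ι] {Q : QuadraticForm F (ι → F)} {f : (ι → F) → F} (hf : ⇑Q = f) (l : ℕ)
    (plus : Bool) (W : Submodule F (ι → F)) :
    Spec f l plus W ↔ Nd Q W ∧ HasType Q W l (sgn plus) := by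
  subst hf
  constructor
  · rintro ⟨h1, h2, h3⟩
    have hN := nd_iff_isNondegenerateOn.2 h2
    obtain ⟨ε, hε, hT⟩ := exists_hasType hN h1
    refine ⟨hN, ?_⟩
    have hi := isPlusTypeOn_iff hN hε hT
    rw [hi] at h3
    have : ε = sgn plus := by
      rcases hε with rfl | rfl <;> cases plus <;> simp_all [sgn]
    rwa [← this]
  · rintro ⟨hN, hT⟩
    refine ⟨hT.1, nd_iff_isNondegenerateOn.1 hN, ?_⟩
    rw [isPlusTypeOn_iff hN (sgn_cases plus) hT]
    cases plus <;> simp [sgn]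

variable {p : ℕ} [Fact p.Prime] [CharP F p]

/-- The criterion for odd `r` prime to `q`. -/
theorem odd_main {q : ℕ} (hq : Fintype.card F = q) (hqodd : Odd q) (d l : ℕ) (hl : 1 ≤ l) (hld : l ≤ d)
    (plus : Bool) (r : ℕ) [Fact r.Prime] (hr2 : r ≠ 2) (hrp : r ≠ p)
    (hrΩ : r ∣ Nat.card {W : Submodule F (Unit ⊕ (Fin d ⊕ Fin d) → F) // Spec (Cfsg.quadFormOdd d F) l plus W})
    {h : ℕ} {η : ℤ} (P : Params F r h η) :
    (∀ x : GL (Unit ⊕ (Fin d ⊕ Fin d)) F, x ∈ Cfsg.Geo.omegaGL (Cfsg.quadFormOdd d F) → orderOf x = r →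
      ∃ W : Submodule F (Unit ⊕ (Fin d ⊕ Fin d) → F), Spec (Cfsg.quadFormOdd d F) l plus W ∧
        W.map (Matrix.toLin' (x : Matrix (Unit ⊕ (Fin d ⊕ Fin d)) (Unit ⊕ (Fin d ⊕ Fin d)) F)) ≤ W) ↔
    h ≤ l ∧ l % h ≤ d % h ∧ (l % h = 0 → sgn plus = η ^ (l / h)) := by
  classical
  have h2 : (2 : F) ≠ 0 := two_ne_zero_of_odd_card (hq ▸ hqodd)
  set Q := CfsgLib.ClassicalForms.qOdd d F with hQdef
  have hfun : ⇑Q = Cfsg.quadFormOdd d F := funext fun v => CfsgLib.ClassicalForms.qOdd_apply d v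
  have hQ : (polarBilin Q).Nondegenerate :=
    CfsgLib.ClassicalForms.nondeg_iff_polarBilin.2 (CfsgLib.ClassicalForms.nondeg_qOdd h2 d)
  have hn : finrank F (Unit ⊕ (Fin d ⊕ Fin d) → F) = 2 * d + 1 := by
    rw [Module.finrank_fintype_fun_eq_card]; simp; omega
  have hodd : Odd r := (Fact.out : r.Prime).odd_of_ne_two hr2
  have hex : ¬ (l < h ∧ 2 * l < (2 * d + 1) % (2 * h)) := fun hc => by
    refine not_dvd_card_odd P h2 hQ hn hl hc.1 hc.2 (sgn_cases plus) ?_
    rwa [Nat.card_congr (Equiv.subtypeEquivRight fun W => (spec_iff hfun l plus W).symm)]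
  rw [← room_odd_arith P.pos hld hex, ← forall_odd_iff P h2 hQ hn (sgn_cases plus)]
  constructor
  · intro H g hg hgQ hg1
    obtain ⟨x, hx, hxr, hxne, hxg⟩ := exists_matrix hQ (Or.inl ⟨-1, neg_ne_zero.2 one_ne_zero,
      fun e => h2 (by linear_combination -e)⟩) hodd hg hgQ
    rw [hfun] at hx
    obtain ⟨W, hW, hWx⟩ := H x hx (orderOf_eq_prime hxr (hxne hg1))
    rw [hxg, map_le_iff_invariant] at hWx
    obtain ⟨h1, h2'⟩ := (spec_iff hfun l plus W).1 hW
    exact ⟨W, h1, h2', hWx⟩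
  · intro H x hx hord
    have hiso : ∀ v, Q ((x : Matrix _ _ F) *ᵥ v) = Q v := fun v => by
      rw [hfun]; exact isometry_of_mem_omegaGL hx v
    set g : Module.End F (Unit ⊕ (Fin d ⊕ Fin d) → F) :=
      Matrix.toLin' (x : Matrix (Unit ⊕ (Fin d ⊕ Fin d)) (Unit ⊕ (Fin d ⊕ Fin d)) F) with hgdef
    have hgr : g ^ r = 1 := by
      rw [hgdef, ← Matrix.toLin'_pow, ← Units.val_pow_eq_pow_val, ← hord, pow_orderOf_eq_one, Units.val_one,
        Matrix.toLin'_one]; rfl
    have hg1 : g ≠ 1 := fun e => by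
      have : x = 1 := Units.ext (Matrix.toLin'.injective (by rw [Units.val_one, Matrix.toLin'_one]; exact e))
      rw [this, orderOf_one] at hord
      exact (Fact.out : r.Prime).ne_one hord.symm
    obtain ⟨W, hWN, hWT, hWi⟩ := H g hgr hiso hg1
    exact ⟨W, (spec_iff hfun l plus W).2 ⟨hWN, hWT⟩, map_le_iff_invariant.2 hWi⟩

/-- Involutions of Ω in odd dimension. -/
theorem odd_two {q : ℕ} (hq : Fintype.card F = q) (hqodd : Odd q) (d l : ℕ) (hl : 1 ≤ l) (hld : l ≤ d)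
    (plus : Bool) (x : GL (Unit ⊕ (Fin d ⊕ Fin d)) F) (hx : x ∈ Cfsg.Geo.omegaGL (Cfsg.quadFormOdd d F))
    (hord : orderOf x = 2) :
      ∃ W : Submodule F (Unit ⊕ (Fin d ⊕ Fin d) → F), Spec (Cfsg.quadFormOdd d F) l plus W ∧
        W.map (Matrix.toLin' (x : Matrix (Unit ⊕ (Fin d ⊕ Fin d)) (Unit ⊕ (Fin d ⊕ Fin d)) F)) ≤ W := by
  classical
  have h2 : (2 : F) ≠ 0 := two_ne_zero_of_odd_card (hq ▸ hqodd)
  set Q := CfsgLib.ClassicalForms.qOdd d F with hQdef
  have hfun : ⇑Q = Cfsg.quadFormOdd d F := funext fun v => CfsgLib.ClassicalForms.qOdd_apply d v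
  have hQ : (polarBilin Q).Nondegenerate :=
    CfsgLib.ClassicalForms.nondeg_iff_polarBilin.2 (CfsgLib.ClassicalForms.nondeg_qOdd h2 d)
  have hn : finrank F (Unit ⊕ (Fin d ⊕ Fin d) → F) = 2 * d + 1 := by
    rw [Module.finrank_fintype_fun_eq_card]; simp; omega
  set g : Module.End F (Unit ⊕ (Fin d ⊕ Fin d) → F) :=
    Matrix.toLin' (x : Matrix (Unit ⊕ (Fin d ⊕ Fin d)) (Unit ⊕ (Fin d ⊕ Fin d)) F) with hgdef
  have hxx : x * x = 1 := by rw [← pow_two, ← hord, pow_orderOf_eq_one]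
  have hgg : g * g = 1 := by
    rw [hgdef, Module.End.mul_eq_comp, ← Matrix.toLin'_mul, ← Units.val_mul, hxx, Units.val_one,
      Matrix.toLin'_one]; rfl
  obtain ⟨W, hWN, hWT, hWi⟩ := involution_fixes_odd h2 hQ hn hgg (fun v => by
    rw [hfun]; exact isometry_of_mem_omegaGL hx v) (det_eq_one_of_mem_omegaGL hx) hl hld (sgn_cases plus)
  exact ⟨W, (spec_iff hfun l plus W).2 ⟨hWN, hWT⟩, map_le_iff_invariant.2 hWi⟩

end CfsgLib.Derangements.Sub
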