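import Mathlib
import Cfsg.Agent.Lib.Derangements.SingularBlocks
import Cfsg.Agent.Lib.Derangements.SingularMultiset
import Cfsg.Agent.Lib.Derangements.SubspaceOdd

/-!
Elements of odd prime order of `Ω_{2d+1}(q)` fixing a totally singular subspace of given dimension.
-/

set_option autoImplicit false
set_option linter.unusedSectionVars false
set_option linter.style.haveILetI false

namespace CfsgLib.Derangements.Sub

open Module QuadraticMap CfsgLib.Derangements
open scoped Matrix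

universe u

section General

variable {F : Type u} [Field F] [Fintype F] {r h : ℕ} {η : ℤ} [hr : Fact r.Prime] (P : Params F r h η)
  {V : Type u} [AddCommGroup V] [Module F V] [FiniteDimensional F V] {Q : QuadraticForm F V}

/-- Gluing totally singular invariant steps. -/
theorem exists_moved {g : Module.End F V} (hrF : (r : F) ≠ 0) (hg : g ^ r = 1) (hgQ : ∀ x, Q (g x) = Q x)
    {U : Submodule F V} (hU : ∀ u ∈ U, g u ∈ U) (hUN : Nd Q U) {e b : ℕ}
    (hstep : ∀ C ≤ U, (∀ c ∈ C, g c ∈ C) → Nd Q C → b < finrank F C →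
      ∃ S ≤ C, (∀ v ∈ S, g v ∈ S) ∧ Ts Q S ∧ finrank F S = e) :
    ∀ j : ℕ, (∀ j' < j, b + 2 * (e * j') < finrank F U) →
      ∃ W ≤ U, (∀ w ∈ W, g w ∈ W) ∧ Ts Q W ∧ finrank F W = e * j := by
  intro j
  induction j with
  | zero =>
    intro _
    exact ⟨⊥, bot_le, fun w hw => by rw [(Submodule.mem_bot F).1 hw, map_zero]; exact Submodule.zero_mem _,
      ts_bot, by simp⟩
  | succ j ih =>
    intro hj
    obtain ⟨W, hWU, hWi, hWT, hWd⟩ := ih fun j' hj' => hj j' (by omega)
    obtain ⟨C, hCU, hCN, hCi, ho, hdisj, hdim⟩ := exists_complement hrF hg hgQ hU hUN hWU hWT hWi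
    obtain ⟨S, hSC, hSi, hST, hSd⟩ := hstep C hCU hCi hCN (by have := hj j (Nat.lt_succ_self j); omega)
    refine ⟨W ⊔ S, sup_le hWU (hSC.trans hCU), fun w hw => ?_, hWT.sup hST fun a ha c hc => ho a ha c (hSC hc), ?_⟩
    · obtain ⟨x, hx, y, hy, rfl⟩ := Submodule.mem_sup.1 hw
      rw [map_add]
      exact Submodule.add_mem_sup (hWi x hx) (hSi y hy)
    · have h1 := Submodule.finrank_sup_add_finrank_inf_eq W S
      rw [(hdisj.mono_right hSC).eq_bot, finrank_bot, hWd, hSd] at h1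
      rw [mul_add, mul_one]
      omega

include P in
/-- Room in the fixed space completes the moved part. -/
theorem exists_fixed_singular (h2 : (2 : F) ≠ 0) (hQ : (polarBilin Q).Nondegenerate) {g : Module.End F V}
    (hg : g ^ r = 1) (hgQ : ∀ x, Q (g x) = Q x) {W : Submodule F V} (hWU : W ≤ movIn g ⊤)
    (hW : ∀ w ∈ W, g w ∈ W) (hWT : Ts Q W) {m : ℕ} (hle : finrank F W ≤ m)
    (hroom : 2 * (m - finrank F W) < finrank F (fixIn g (⊤ : Submodule F V))) :
    ∃ W' : Submodule F V, finrank F W' = m ∧ Ts Q W' ∧ ∀ w ∈ W', g w ∈ W' := by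
  obtain ⟨h1, -, -, -, ho, -, -⟩ := decomp P.ne_zero hg hgQ (U := ⊤) (fun _ _ => trivial) (nd_top hQ)
  obtain ⟨A, hA, hAd, hAT⟩ := exists_singular_le h2 h1 hroom
  have hdisj : Disjoint A W := (disjoint_of_orth h1 ho).mono hA hWU
  refine ⟨A ⊔ W, ?_, hAT.sup hWT fun a ha c hc => ho a (hA ha) c (hWU hc), fun w hw => ?_⟩
  · have h := Submodule.finrank_sup_add_finrank_inf_eq A W
    rw [hdisj.eq_bot, finrank_bot, hAd] at h
    omega
  · obtain ⟨a, ha, b, hb, rfl⟩ := Submodule.mem_sup.1 hw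
    rw [map_add, (mem_fixIn.1 (hA ha)).2]
    exact Submodule.add_mem_sup ha (hW b hb)

include P in
/-- With room in a fixed space too small for a block, `r` does not divide the number of subspaces. -/
theorem not_dvd_card_singular (h2 : (2 : F) ≠ 0) (hQ : (polarBilin Q).Nondegenerate) {d : ℕ}
    (hn : finrank F V = 2 * d + 1) {m : ℕ} (hm : m ≤ d % h)
    (hih : h ≤ orderOf ((Nat.card F : ℕ) : ZMod r)) :
    ¬ r ∣ Nat.card {W : Submodule F V // finrank F W = m ∧ Ts Q W} := by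
  have hdiv := Nat.div_add_mod d h
  have hmod := Nat.mod_lt d P.pos
  set N := d / h
  obtain ⟨U, -, hUN, hUT⟩ := exists_type_le_odd h2 Q (nd_top hQ) (l := h * N)
    (by rw [finrank_top, hn]; omega) (P.eta_pow N) (fun h0 => by
      rcases Nat.mul_eq_zero.1 h0 with e | e
      · exact absurd e P.pos.ne'
      · simp [e])
  obtain ⟨g, hg, hgQ, hfix, hmov⟩ := exists_elt P hUN hUT
  have hperp := finrank_perp (Q := Q) hUN
  rw [hn, hUT.1] at hperp
  have hfd : finrank F (fixIn g (⊤ : Submodule F V)) = 2 * (d % h) + 1 := by rw [hfix]; omega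
  obtain ⟨hfixN, -, -, -, -, -, hfree⟩ := decomp P.ne_zero hg hgQ (U := ⊤) (fun _ _ => trivial) (nd_top hQ)
  refine not_dvd_card P hg (U := fixIn g ⊤) (fun u hu => (mem_fixIn.1 hu).2) hfixN ?_ _ (fun W hW => ?_)
    (fun W hW hWg => ?_) ?_ (fun W W' _ _ hW hW' => ?_) (fun e he W hle hW => ?_)
  · intro s hs W hW _ hT
    have := Submodule.finrank_mono hW
    rw [hT.1, hfd] at this
    have : h ≤ h * s := Nat.le_mul_of_pos_right _ hs
    omega
  · have hbij : Function.Injective g := fun a b hab => by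
      have := congrArg (g ^ (r - 1)) hab
      rwa [← Module.End.mul_apply, ← Module.End.mul_apply, ← pow_succ, Nat.sub_add_cancel hr.out.one_le, hg,
        Module.End.one_apply, Module.End.one_apply] at this
    refine ⟨by rw [← (Submodule.equivMapOfInjective g hbij W).finrank_eq]; exact hW.1, ?_⟩
    rintro _ ⟨w, hw, rfl⟩
    rw [hgQ]; exact hW.2 w hw
  · have hinv : ∀ w ∈ W, g w ∈ W := fun w hw => hWg ▸ Submodule.mem_map_of_mem hw
    obtain ⟨l, hl⟩ := SubFix.finrank_split hg P.ne_zero (A := W) hinv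
    rw [hW.1] at hl
    obtain rfl : l = 0 := by
      by_contra hl0
      have h1 : orderOf ((Nat.card F : ℕ) : ZMod r) ≤ l * orderOf ((Nat.card F : ℕ) : ZMod r) :=
        Nat.le_mul_of_pos_left _ (Nat.pos_of_ne_zero hl0)
      omega
    rw [zero_mul, add_zero] at hl
    intro w hw
    have he : W ⊓ LinearMap.ker (g - 1) = W :=
      Submodule.eq_of_le_of_finrank_le inf_le_left (by rw [hW.1, ← hl])
    rw [← he] at hw
    exact mem_fixIn.2 ⟨trivial, sub_eq_zero.1 (by simpa using hw.2)⟩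
  · obtain ⟨W, hle, hWd, hWT⟩ := exists_singular_le h2 hfixN (k := m) (by omega)
    exact ⟨W, hle, hWd, hWT⟩
  · exact ⟨LinearEquiv.ofFinrankEq W W' (by rw [hW.1, hW'.1]), fun w => by
      rw [hW.2 _ w.2, hW'.2 _ (LinearEquiv.ofFinrankEq W W' (by rw [hW.1, hW'.1]) w).2]⟩
  · refine ⟨?_, ?_⟩
    · rw [← (Submodule.equivMapOfInjective ((fixIn g (⊤ : Submodule F V)).subtype ∘ₗ e.toLinearMap)
        (Subtype.val_injective.comp e.injective) _).finrank_eq, (Submodule.comapSubtypeEquivOfLe hle).finrank_eq,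
        hW.1]
    · rintro _ ⟨x, hx, rfl⟩
      show Q (e x : V) = 0
      have := he x
      rw [res_apply, res_apply] at this
      rw [this]; exact hW.2 _ hx

end General

variable {F : Type u} [Field F] [Fintype F] {r h : ℕ} {η : ℤ} [hr : Fact r.Prime] (P : Params F r h η)

/-- Blocks `s`, totally singular steps of dimension `e`, at most `J s` of them. -/
def SingRoom (d m h e : ℕ) (J : ℕ → ℕ) : Prop :=
  ∀ s, 1 ≤ s → h * s ≤ d → ∃ j ≤ J s, e * j ≤ m ∧ m + h * s ≤ e * j + d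

theorem sing_room_odd {d m h : ℕ} (hh : 0 < h) (hmd : m ≤ d) (hex : ¬ m ≤ d % h) :
    SingRoom d m h h (fun s => s) ↔ h ≤ m ∧ m % h ≤ d % h := by
  have hd := Nat.div_add_mod d h
  have hl := Nat.div_add_mod m h
  have hdm := Nat.mod_lt d hh
  have hlm := Nat.mod_lt m hh
  constructor
  · intro H
    have hN : 1 ≤ d / h := Nat.pos_of_ne_zero fun e => by rw [e, Nat.mul_zero] at hd; omega
    obtain ⟨j, -, hj, hle⟩ := H (d / h) hN (by omega)
    have hjA : j ≤ m / h := (Nat.le_div_iff_mul_le hh).2 (by rwa [mul_comm])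
    have hj' : j = m / h := by
      by_contra hne
      have h1 : h * (j + 1) ≤ h * (m / h) := Nat.mul_le_mul_left h (by omega)
      rw [mul_add, mul_one] at h1
      omega
    subst hj'
    refine ⟨?_, by omega⟩
    by_contra hlt
    have hmd' : m % h = m := Nat.mod_eq_of_lt (by omega)
    omega
  · rintro ⟨hhm, hle⟩ s hs hsd
    rcases Nat.lt_or_ge s (m / h) with hlt | hge
    · have h1 : h * (s + 1) ≤ h * (m / h) := Nat.mul_le_mul_left h hlt
      rw [mul_add, mul_one] at h1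
      exact ⟨s, le_rfl, by omega, by omega⟩
    · have hsN : s ≤ d / h := (Nat.le_div_iff_mul_le hh).2 (by rwa [mul_comm])
      have h1 : h * s ≤ h * (d / h) := Nat.mul_le_mul_left h hsN
      exact ⟨m / h, hge, by omega, by omega⟩

theorem sing_room_even {d m h t : ℕ} (hh : 0 < h) (ht : 1 ≤ t) (hmd : m ≤ d) (hex : ¬ m ≤ d % h) :
    SingRoom d m h (2 * h) (fun s => (s + 1 - t) / 2) ↔
      2 * h ≤ m ∧ m % (2 * h) ≤ d % h ∧ t + 2 * (m / (2 * h)) ≤ d / h := by
  have hd := Nat.div_add_mod d h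
  have hl := Nat.div_add_mod m (2 * h)
  have hdm := Nat.mod_lt d hh
  have hlm := Nat.mod_lt m (show 2 * h > 0 by omega)
  constructor
  · intro H
    have hN : 1 ≤ d / h := Nat.pos_of_ne_zero fun e => by rw [e, Nat.mul_zero] at hd; omega
    obtain ⟨j, hjJ, hj, hle⟩ := H (d / h) hN (by omega)
    have hjA : j ≤ m / (2 * h) := (Nat.le_div_iff_mul_le (by omega)).2 (by rwa [mul_comm])
    have hj' : j = m / (2 * h) := by
      by_contra hne
      have h1 : 2 * h * (j + 1) ≤ 2 * h * (m / (2 * h)) := Nat.mul_le_mul_left _ (by omega)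
      rw [mul_add, mul_one] at h1
      omega
    subst hj'
    have hA : 1 ≤ m / (2 * h) := Nat.pos_of_ne_zero fun e => by rw [e, Nat.mul_zero] at hl hle; omega
    refine ⟨?_, by omega, ?_⟩
    · have := Nat.le_mul_of_pos_right (2 * h) hA
      omega
    · by_contra hlt
      have hts : t + 2 * (m / (2 * h)) = d / h + 1 := by
        simp only at hjJ
        omega
      -- one block fewer fails
      have hsub : h * (d / h - 1) + h = h * (d / h) := by
        conv_lhs => rhs; rw [← mul_one h]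
        rw [← mul_add, Nat.sub_add_cancel hN]
      obtain ⟨k, hkJ, hk, hkle⟩ := H (d / h - 1) (by omega) (by omega)
      simp only at hkJ
      have hk' : k + 1 ≤ m / (2 * h) := by omega
      have h2 : 2 * h * (k + 1) ≤ 2 * h * (m / (2 * h)) := Nat.mul_le_mul_left _ hk'
      rw [mul_add, mul_one] at h2
      omega
  · rintro ⟨hhm, hle, hN⟩ s hs hsd
    simp only
    have hsN : s ≤ d / h := (Nat.le_div_iff_mul_le hh).2 (by rwa [mul_comm])
    rcases Nat.lt_or_ge ((s + 1 - t) / 2) (m / (2 * h)) with hlt | hge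
    · set J := (s + 1 - t) / 2 with hJ
      refine ⟨J, le_rfl, ?_, ?_⟩
      · have h1 := Nat.mul_le_mul_left (2 * h) hlt.le
        omega
      · have hst : 2 * (m / (2 * h)) + s ≤ 2 * J + d / h := by omega
        have h1 := Nat.mul_le_mul_left h hst
        rw [mul_add, mul_add, ← mul_assoc, mul_comm h 2, ← mul_assoc, mul_comm h 2] at h1
        omega
    · have h1 : h * s ≤ h * (d / h) := Nat.mul_le_mul_left h hsN
      exact ⟨m / (2 * h), hge, by omega, by omega⟩

/-- The data of the criterion: the size of a step and the bound on the number of steps. -/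
structure Steps (F : Type u) [Field F] [Fintype F] (r h i : ℕ) (J : ℕ → ℕ) : Prop where
  /-- the shape of the orbits -/
  shape : (i = h ∧ Odd i ∧ ∀ s, J s = s) ∨ (i = 2 * h ∧ ∀ s, J s = (s + 1 - (r - 1) / i) / 2)
  /-- the order of `q` -/
  order : orderOf ((Fintype.card F : ℕ) : ZMod r) = i

include P in
/-- The lower bound. -/
theorem Steps.exists_invariant {i : ℕ} {J : ℕ → ℕ} (S : Steps F r h i J) {V : Type u} [AddCommGroup V]
    [Module F V] [FiniteDimensional F V] {Q : QuadraticForm F V} (h2 : (2 : F) ≠ 0)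
    (hQ : (polarBilin Q).Nondegenerate) {d : ℕ} (hn : finrank F V = 2 * d + 1) {g : Module.End F V}
    (hg : g ^ r = 1) (hgQ : ∀ x, Q (g x) = Q x) (hg1 : g ≠ 1) {m : ℕ} (H : SingRoom d m h i J) :
    ∃ W : Submodule F V, finrank F W = m ∧ Ts Q W ∧ ∀ w ∈ W, g w ∈ W := by
  obtain ⟨s, hs, -, -, hdim, hiff⟩ := whole_shape P hQ hg hgQ
  rw [hn] at hdim
  obtain ⟨j, hjJ, hj1, hj2⟩ := H s (hiff.2 hg1) (by omega)
  obtain ⟨-, hUN, -, -, -, hUi, hfree⟩ := decomp P.ne_zero hg hgQ (U := ⊤) (fun _ _ => trivial) (nd_top hQ)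
  have hord : orderOf ((Nat.card F : ℕ) : ZMod r) = i := by rw [Nat.card_eq_fintype_card]; exact S.order
  obtain ⟨W, hWU, hWi, hWT, hWd⟩ : ∃ W ≤ movIn g (⊤ : Submodule F V),
      (∀ w ∈ W, g w ∈ W) ∧ Ts Q W ∧ finrank F W = i * j := by
    rcases S.shape with ⟨rfl, -, hJ⟩ | ⟨rfl, hJ⟩
    · refine exists_moved P.ne_zero hg hgQ hUi hUN (b := 0)
        (fun C hC hCi hCN hC0 => exists_block_odd P hg hgQ hCi hCN (fun c hc => hfree c (hC hc)) hC0 hord) j
        fun j' hj' => ?_
      rw [hJ] at hjJ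
      rw [hs.1, zero_add]
      have := (Nat.mul_lt_mul_left P.pos).2 (show j' < s by omega)
      omega
    · refine exists_moved P.ne_zero hg hgQ hUi hUN (b := r - 1) (fun C hC hCi hCN hC0 => ?_) j fun j' hj' => ?_
      · obtain ⟨sC, hsC⟩ := exists_blocks P hg hgQ hCi hCN fun c hc => hfree c (hC hc)
        exact exists_block_even P hg hgQ hCi hCN (fun c hc => hfree c (hC hc)) hsC.1 (hsC.1 ▸ hC0)
      · rw [hJ] at hjJ
        rw [hs.1]
        have hdvd : 2 * h ∣ r - 1 := by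
          rw [← hord]
          haveI := hr
          refine ZMod.orderOf_dvd_card_sub_one fun h0 => ?_
          rw [h0, orderOf_zero] at hord
          have := P.pos
          omega
        have ht := Nat.mul_div_cancel' hdvd
        set t := (r - 1) / (2 * h)
        have hlt : t + 2 * j' < s := by omega
        have := (Nat.mul_lt_mul_left (show 0 < 2 * h by have := P.pos; omega)).2 hlt
        rw [mul_add, ht] at this
        have e1 : 2 * h * (2 * j') = 2 * (2 * h * j') := by ring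
        have e2 : 2 * h * s = 2 * (h * s) := by ring
        omega
  exact exists_fixed_singular P h2 hQ hg hgQ hWU hWi hWT (by omega) (by omega)

include P in
/-- The upper bound: some isometry allows no more. -/
theorem Steps.exists_elt {i : ℕ} {J : ℕ → ℕ} (S : Steps F r h i J) (h2 : (2 : F) ≠ 0) {d s : ℕ} (hs : 1 ≤ s)
    (hsd : h * s ≤ d) :
    ∃ g : Module.End F (Unit ⊕ (Fin d ⊕ Fin d) → F), g ^ r = 1 ∧
      (∀ x, CfsgLib.ClassicalForms.qOdd d F (g x) = CfsgLib.ClassicalForms.qOdd d F x) ∧ g ≠ 1 ∧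
      ∀ W : Submodule F (Unit ⊕ (Fin d ⊕ Fin d) → F), (∀ w ∈ W, g w ∈ W) →
        Ts (CfsgLib.ClassicalForms.qOdd d F) W →
        ∃ j ≤ J s, i * j ≤ finrank F W ∧ finrank F W + h * s ≤ i * j + d := by
  classical
  obtain ⟨uq, huq, hord⟩ := P.order
  rw [Nat.card_eq_fintype_card] at huq
  obtain ⟨ζ, hζ⟩ := exists_root P
  have hiu : orderOf uq = i := by rw [← S.order, ← huq, orderOf_units]
  -- the exponents
  obtain ⟨M, hMF, hM0, hMc, hMA⟩ : ∃ M : Multiset (ZMod r),
      OrthExpo.Fixes ((OrthExpo.uu uq : (ZMod r)ˣ) : ZMod r) M ∧ (0 : ZMod r) ∉ M ∧ M.card = 2 * (h * s) ∧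
      ∀ A : Multiset (ZMod r), OrthExpo.Fixes (uq : ZMod r) A → (0 : ZMod r) ∉ A →
        A + A.map ((-1 : ZMod r) * ·) ≤ M → A.card ≤ i * J s := by
    rcases S.shape with ⟨hih, -, hJ⟩ | ⟨hih, hJ⟩
    · refine ⟨s • OrthExpo.orbit (OrthExpo.uu uq) 1, fixes_nsmul (orbit_fixes _ one_ne_zero) s,
        fun hm => zero_not_mem_orbit _ one_ne_zero (Multiset.mem_of_mem_nsmul hm), ?_, fun A _ _ hA => ?_⟩
      · rw [Multiset.card_nsmul, OrthExpo.card_orbit, hord]; ring
      · have hc := Multiset.card_le_card hA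
        rw [Multiset.card_add, Multiset.card_map, Multiset.card_nsmul, OrthExpo.card_orbit, hord] at hc
        rw [hJ, hih]
        linarith
    · have hdvd : i ∣ r - 1 := by
        rw [← hiu, ← ZMod.card_units r]
        exact orderOf_dvd_card
      obtain ⟨M, hMF, hM0, hMc, hMA⟩ := exists_worst (OrthExpo.uu uq) (d := i) (hord.trans hih.symm)
        (Nat.mul_div_cancel' hdvd) s
      refine ⟨M, hMF, hM0, hMc.trans (by rw [hih, mul_assoc]), fun A hA _ hle => ?_⟩
      have hneg : A.map ((-1 : ZMod r) * ·) = A := by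
        have h1 := hA.pow h
        rwa [OrthExpo.pow_half (show orderOf uq = 2 * h by rw [hiu, hih])] at h1
      rw [hneg] at hle
      rw [hJ]
      exact hMA A hle
  set n := 2 * d + 1
  set M₀ := M + Multiset.replicate (n - 2 * (h * s)) (0 : ZMod r) with hM₀
  have hM₀c : M₀.card = 2 * d + 1 := by
    rw [hM₀, Multiset.card_add, Multiset.card_replicate, hMc]; omega
  have hM₀F : OrthExpo.Fixes ((OrthExpo.uu uq : (ZMod r)ˣ) : ZMod r) M₀ := by
    rw [OrthExpo.Fixes, hM₀, Multiset.map_add, hMF, OrthExpo.fixes_replicate_zero]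
  obtain ⟨g, hg, hgQ, hgM⟩ := (OrthExpo.realised_iff_odd P.ne_two hζ h2 huq M₀ hM₀c).2 hM₀F
  have hcount : M₀.count 0 = n - 2 * (h * s) := by
    rw [hM₀, Multiset.count_add, Multiset.count_eq_zero.2 hM0, zero_add, Multiset.count_replicate_self]
  refine ⟨g, hg, hgQ, ?_, fun W hW hWT => ?_⟩
  · rintro rfl
    have h1 := congrArg (Multiset.count 0) (hgM.unique hζ OrthExpo.expo_one)
    rw [hcount, Multiset.count_replicate_self, Module.finrank_fintype_fun_eq_card] at h1
    have := Nat.mul_pos P.pos hs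
    simp only [Fintype.card_sum, Fintype.card_unit, Fintype.card_fin] at h1
    omega
  have hQ : (polarBilin (CfsgLib.ClassicalForms.qOdd d F)).Nondegenerate :=
    CfsgLib.ClassicalForms.nondeg_iff_polarBilin.2 (CfsgLib.ClassicalForms.nondeg_qOdd h2 d)
  obtain ⟨A, hAc, hAq, hAM⟩ := exists_expo_singular P.ne_zero hζ hQ hg hgQ hgM hW hWT
  rw [← huq] at hAq
  set A₁ := A.filter (fun a => ¬ a = 0) with hA₁
  have hsplit : Multiset.replicate (A.count 0) (0 : ZMod r) + A₁ = A := OrthExpo.split_zero A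
  have hA₁0 : (0 : ZMod r) ∉ A₁ := fun h => (Multiset.mem_filter.1 h).2 rfl
  have hA₁F : OrthExpo.Fixes (uq : ZMod r) A₁ := OrthExpo.fixes_filter hAq
  obtain ⟨j, hj⟩ := OrthExpo.orderOf_dvd_card_of_fixes uq A₁ hA₁F hA₁0
  rw [hiu] at hj
  have hneg0 : (A.map ((-1 : ZMod r) * ·)).count 0 = A.count 0 := by
    conv_lhs => rw [← mul_zero (-1 : ZMod r)]
    exact Multiset.count_map_eq_count' _ _ (mul_right_injective₀ (neg_ne_zero.2 one_ne_zero)) _
  have hz : 2 * A.count 0 ≤ n - 2 * (h * s) := by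
    have h1 := Multiset.le_iff_count.1 hAM 0
    rw [Multiset.count_add, hneg0, hcount] at h1
    omega
  have hA₁M : A₁ + A₁.map ((-1 : ZMod r) * ·) ≤ M := by
    have h1 := Multiset.filter_le_filter (fun a => ¬ a = 0) hAM
    rw [Multiset.filter_add, hM₀, Multiset.filter_add, Multiset.filter_map] at h1
    rw [show Multiset.filter (fun a => ¬ a = 0) M = M from Multiset.filter_eq_self.2 (fun a ha (e : a = 0) => hM0 (e ▸ ha)),
      Multiset.filter_eq_nil.2 (fun a ha => not_not.2 (Multiset.eq_of_mem_replicate ha)), add_zero] at h1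
    refine le_trans ?_ h1
    refine add_le_add le_rfl (le_of_eq ?_)
    rw [hA₁]
    congr 1
    exact Multiset.filter_congr fun a _ => by simp
  have hb := hMA A₁ hA₁F hA₁0 hA₁M
  rw [hj] at hb
  have hcard : A.card = A.count 0 + i * j := by
    conv_lhs => rw [← hsplit, Multiset.card_add, Multiset.card_replicate, hj]
  refine ⟨j, Nat.le_of_mul_le_mul_left hb (by rw [← hiu]; exact orderOf_pos uq), by omega, by omega⟩

variable {p : ℕ} [Fact p.Prime] [CharP F p]

/-- From the elements of `Ω` to isometries, for odd `r`. -/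
theorem forall_omega_iff (h2 : (2 : F) ≠ 0) (hr2 : r ≠ 2) (d : ℕ)
    (p : Submodule F (Unit ⊕ (Fin d ⊕ Fin d) → F) → Prop) :
    (∀ x : GL (Unit ⊕ (Fin d ⊕ Fin d)) F, x ∈ Cfsg.Geo.omegaGL (Cfsg.quadFormOdd d F) → orderOf x = r →
      ∃ W : Submodule F (Unit ⊕ (Fin d ⊕ Fin d) → F), p W ∧
        W.map (Matrix.toLin' (x : Matrix (Unit ⊕ (Fin d ⊕ Fin d)) (Unit ⊕ (Fin d ⊕ Fin d)) F)) ≤ W) ↔
    ∀ g : Module.End F (Unit ⊕ (Fin d ⊕ Fin d) → F), g ^ r = 1 →
      (∀ x, CfsgLib.ClassicalForms.qOdd d F (g x) = CfsgLib.ClassicalForms.qOdd d F x) → g ≠ 1 →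
      ∃ W, p W ∧ ∀ w ∈ W, g w ∈ W := by
  classical
  set Q := CfsgLib.ClassicalForms.qOdd d F with hQdef
  have hfun : ⇑Q = Cfsg.quadFormOdd d F := funext fun v => CfsgLib.ClassicalForms.qOdd_apply d v
  have hQ : (polarBilin Q).Nondegenerate :=
    CfsgLib.ClassicalForms.nondeg_iff_polarBilin.2 (CfsgLib.ClassicalForms.nondeg_qOdd h2 d)
  have hodd : Odd r := (Fact.out : r.Prime).odd_of_ne_two hr2
  constructor
  · intro H g hg hgQ hg1
    obtain ⟨x, hx, hxr, hxne, hxg⟩ := exists_matrix hQ (Or.inl ⟨-1, neg_ne_zero.2 one_ne_zero,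
      fun e => h2 (by linear_combination -e)⟩) hodd hg hgQ
    rw [hfun] at hx
    obtain ⟨W, hW, hWx⟩ := H x hx (orderOf_eq_prime hxr (hxne hg1))
    rw [hxg, map_le_iff_invariant] at hWx
    exact ⟨W, hW, hWx⟩
  · intro H x hx hord
    have hiso : ∀ v, Q ((x : Matrix _ _ F) *ᵥ v) = Q v := fun v => by
      rw [hfun]; exact isometry_of_mem_omegaGL hx v
    set g : Module.End F (Unit ⊕ (Fin d ⊕ Fin d) → F) :=
      Matrix.toLin' (x : Matrix (Unit ⊕ (Fin d ⊕ Fin d)) (Unit ⊕ (Fin d ⊕ Fin d)) F) with hgdef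
    have hgr : g ^ r = 1 := by
      rw [hgdef, ← Matrix.toLin'_pow, ← Units.val_pow_eq_pow_val, ← hord, pow_orderOf_eq_one, Units.val_one,
        Matrix.toLin'_one]; rfl
    have hg1 : g ≠ 1 := fun e => by
      have : x = 1 := Units.ext (Matrix.toLin'.injective (by rw [Units.val_one, Matrix.toLin'_one]; exact e))
      rw [this, orderOf_one] at hord
      exact (Fact.out : r.Prime).ne_one hord.symm
    obtain ⟨W, hW, hWi⟩ := H g hgr hiso hg1
    exact ⟨W, hW, map_le_iff_invariant.2 hWi⟩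

include P in
/-- The criterion. -/
theorem Steps.main {i : ℕ} {J : ℕ → ℕ} (S : Steps F r h i J) (h2 : (2 : F) ≠ 0) (d m : ℕ) :
    (∀ x : GL (Unit ⊕ (Fin d ⊕ Fin d)) F, x ∈ Cfsg.Geo.omegaGL (Cfsg.quadFormOdd d F) → orderOf x = r →
      ∃ W : Submodule F (Unit ⊕ (Fin d ⊕ Fin d) → F), (finrank F W = m ∧ ∀ w ∈ W, Cfsg.quadFormOdd d F w = 0) ∧
        W.map (Matrix.toLin' (x : Matrix (Unit ⊕ (Fin d ⊕ Fin d)) (Unit ⊕ (Fin d ⊕ Fin d)) F)) ≤ W) ↔
    SingRoom d m h i J := by
  rw [forall_omega_iff h2 P.ne_two d]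
  have hQ : (polarBilin (CfsgLib.ClassicalForms.qOdd d F)).Nondegenerate :=
    CfsgLib.ClassicalForms.nondeg_iff_polarBilin.2 (CfsgLib.ClassicalForms.nondeg_qOdd h2 d)
  have hn : finrank F (Unit ⊕ (Fin d ⊕ Fin d) → F) = 2 * d + 1 := by
    rw [Module.finrank_fintype_fun_eq_card]; simp; omega
  constructor
  · intro H s hs hsd
    obtain ⟨g, hg, hgQ, hg1, hb⟩ := Steps.exists_elt P S h2 hs hsd
    obtain ⟨W, ⟨hWd, hWT⟩, hWi⟩ := H g hg hgQ hg1
    rw [← hWd]
    exact hb W hWi fun w hw => by rw [CfsgLib.ClassicalForms.qOdd_apply]; exact hWT w hw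
  · intro H g hg hgQ hg1
    obtain ⟨W, hWd, hWT, hWi⟩ := Steps.exists_invariant P S h2 hQ hn hg hgQ hg1 H
    exact ⟨W, ⟨hWd, fun w hw => by rw [← CfsgLib.ClassicalForms.qOdd_apply]; exact hWT w hw⟩, hWi⟩

end CfsgLib.Derangements.Sub
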