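import Mathlib
import Cfsg.Agent.Lib.Derangements.SubspaceOdd

/-!
Elements fixing non-degenerate subspaces of odd dimension and given isometry class in even-dimensional quadratic
spaces of odd characteristic.
-/

set_option autoImplicit false
set_option linter.unusedSectionVars false
set_option linter.style.haveILetI false

namespace CfsgLib.Derangements.Sub

open Module QuadraticMap CfsgLib.Derangements
open scoped Matrix

universe u

variable {F : Type u} [Field F]

/-- A subspace isometric to a given one. -/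
def Iso {V : Type u} [AddCommGroup V] [Module F V] (Q : QuadraticForm F V) (W₀ W : Submodule F V) : Prop :=
  Nd Q W ∧ ∃ e : W ≃ₗ[F] W₀, ∀ w : W, Q (e w : V) = Q (w : V)

theorem Iso.finrank_eq {V : Type u} [AddCommGroup V] [Module F V] {Q : QuadraticForm F V} {W₀ W : Submodule F V}
    (h : Iso Q W₀ W) : finrank F W = finrank F W₀ := by
  obtain ⟨-, e, -⟩ := h
  exact e.finrank_eq

theorem Iso.map {V : Type u} [AddCommGroup V] [Module F V] [Finite F] [FiniteDimensional F V] {Q : QuadraticForm F V}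
    {W₀ W : Submodule F V} (h : Iso Q W₀ W) (f : V →ₗ[F] V) (hf : Function.Injective f)
    (hfQ : ∀ x, Q (f x) = Q x) : Iso Q W₀ (W.map f) := by
  obtain ⟨hN, e, he⟩ := h
  refine ⟨(hasType_map f hf hfQ).1 hN, (Submodule.equivMapOfInjective f hf W).symm.trans e, fun w => ?_⟩
  obtain ⟨x, rfl⟩ := (Submodule.equivMapOfInjective f hf W).surjective w
  rw [LinearEquiv.trans_apply, LinearEquiv.symm_apply_apply, he, Submodule.coe_equivMapOfInjective_apply, hfQ]

variable [Finite F] {V : Type u} [AddCommGroup V] [Module F V] [FiniteDimensional F V] {Q : QuadraticForm F V}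

/-- Completing a subspace to one isometric to a given one. -/
theorem exists_glue (h2 : (2 : F) ≠ 0) {W₀ U B : Submodule F V} (hW₀ : Nd Q W₀) (hB : Nd Q B)
    (hU : Nd Q U) (ho : ∀ a ∈ U, ∀ b ∈ B, polar Q a b = 0) (hBW : finrank F B < finrank F W₀)
    (hroom : finrank F W₀ < finrank F U + finrank F B) :
    ∃ A ≤ U, Nd Q A ∧ Iso Q W₀ (A ⊔ B) := by
  obtain ⟨f₁, hf₁, hf₁W, hf₁Q⟩ := exists_le_isometric h2 Q (finrank F B) hW₀ (res Q B) (nd_iff_res.1 hB) rfl hBW
  set B₁ := LinearMap.range f₁ with hB₁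
  have hB₁le : B₁ ≤ W₀ := by rintro _ ⟨x, rfl⟩; exact hf₁W x
  have hB₁N : Nd Q B₁ := by
    rintro _ ⟨u, rfl⟩ h
    have : u = 0 := (nd_iff_res.1 hB).1 u fun w => by
      show polar (res Q B) u w = 0
      have := h (f₁ w) ⟨w, rfl⟩
      rwa [polar, ← map_add, hf₁Q, hf₁Q, hf₁Q] at this
    rw [this, map_zero]
  set C := W₀ ⊓ perp Q B₁ with hC
  have hoC : ∀ a ∈ B₁, ∀ c ∈ C, polar Q a c = 0 := fun a ha c hc => mem_perp.1 hc.2 a ha
  have hsplit : ∀ x ∈ W₀, ∃ b ∈ B₁, x - b ∈ C := fun x hx => by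
    obtain ⟨b, hb, y, hy, rfl⟩ := Submodule.mem_sup.1
      (show x ∈ B₁ ⊔ perp Q B₁ by rw [(isCompl_perp hB₁N).sup_eq_top]; trivial)
    exact ⟨b, hb, W₀.sub_mem hx (hB₁le hb), by rw [add_sub_cancel_left]; exact hy⟩
  have hCN : Nd Q C := fun x hx h => hW₀ x hx.1 fun y hy => by
    obtain ⟨b, hb, hyb⟩ := hsplit y hy
    have h1 := h _ hyb
    rwa [polar_sub_right, polar_comm (⇑Q) x b, mem_perp.1 hx.2 b hb, sub_zero] at h1
  have hsup : B₁ ⊔ C = W₀ := le_antisymm (sup_le hB₁le inf_le_left) fun x hx => by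
    obtain ⟨b, hb, hxb⟩ := hsplit x hx
    have := Submodule.add_mem_sup hb hxb
    rwa [add_sub_cancel] at this
  have hdimB : finrank F B₁ = finrank F B := LinearMap.finrank_range_of_inj hf₁
  have hdimC : finrank F C + finrank F B = finrank F W₀ := by
    rw [← hsup, finrank_sup_orth hB₁N hoC, hdimB]; ring
  obtain ⟨f₂, hf₂, hf₂U, hf₂Q⟩ := exists_le_isometric h2 Q (finrank F C) hU (res Q C) (nd_iff_res.1 hCN) rfl
    (by omega)
  set A := LinearMap.range f₂ with hA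
  have hAle : A ≤ U := by rintro _ ⟨x, rfl⟩; exact hf₂U x
  have hAN : Nd Q A := by
    rintro _ ⟨u, rfl⟩ h
    have : u = 0 := (nd_iff_res.1 hCN).1 u fun w => by
      show polar (res Q C) u w = 0
      have := h (f₂ w) ⟨w, rfl⟩
      rwa [polar, ← map_add, hf₂Q, hf₂Q, hf₂Q] at this
    rw [this, map_zero]
  have hoAB : ∀ a ∈ A, ∀ b ∈ B, polar Q a b = 0 := fun a ha b hb => ho a (hAle ha) b hb
  obtain ⟨e₁, he₁, -⟩ := exists_prod_equiv hAN hoAB
  obtain ⟨e₂, he₂, -⟩ := exists_prod_equiv hB₁N hoC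
  refine ⟨A, hAle, hAN, nd_sup hAN hB hoAB, ?_⟩
  let ea : A ≃ₗ[F] C := (LinearEquiv.ofInjective f₂ hf₂).symm
  let eb : B ≃ₗ[F] B₁ := LinearEquiv.ofInjective f₁ hf₁
  let sw : (A × B) ≃ₗ[F] (B₁ × C) := (ea.prodCongr eb).trans (LinearEquiv.prodComm F C B₁)
  refine ⟨((e₁.symm.trans sw).trans e₂).trans (LinearEquiv.ofEq _ _ hsup), fun w => ?_⟩
  obtain ⟨⟨a, b⟩, rfl⟩ := e₁.surjective w
  have h1 := he₁ (a, b)
  simp only [res_apply, QuadraticMap.prod_apply] at h1
  obtain ⟨c, hc⟩ := (LinearEquiv.ofInjective f₂ hf₂).surjective a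
  simp only [LinearEquiv.trans_apply, LinearEquiv.symm_apply_apply, LinearEquiv.coe_ofEq_apply]
  have h2' := he₂ (sw (a, b))
  simp only [res_apply, QuadraticMap.prod_apply] at h2'
  rw [h2', h1]
  have hqa : Q ((sw (a, b)).2 : V) = Q (a : V) := by
    rw [← hc]
    simp only [sw, ea, LinearEquiv.trans_apply, LinearEquiv.prodCongr_apply, LinearEquiv.prodComm_apply,
      Prod.swap_prod_mk, LinearEquiv.symm_apply_apply, LinearEquiv.ofInjective_apply]
    rw [hf₂Q, res_apply]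
  have hqb : Q ((sw (a, b)).1 : V) = Q (b : V) := by
    simp only [sw, eb, LinearEquiv.trans_apply, LinearEquiv.prodCongr_apply, LinearEquiv.prodComm_apply,
      Prod.swap_prod_mk]
    show Q (f₁ b) = _
    rw [hf₁Q, res_apply]
  rw [hqa, hqb, add_comm]

section Crit

variable {r h : ℕ} {η : ℤ} [hr : Fact r.Prime]

/-- Room for an odd-dimensional subspace beside `s` blocks. -/
def RoomEO (d h l s : ℕ) : Prop := ∃ k ≤ s, h * k ≤ l ∧ l + h * s < d + h * k

theorem invariant_evenodd_iff [Fintype F] (P : Params F r h η) (h2 : (2 : F) ≠ 0)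
    (hQ : (polarBilin Q).Nondegenerate) {d : ℕ} {g : Module.End F V} (hg : g ^ r = 1)
    (hgQ : ∀ x, Q (g x) = Q x) {s : ℕ} (hs : HasType Q (movIn g ⊤) (h * s) (η ^ s))
    (hfix : finrank F (fixIn g ⊤) + 2 * (h * s) = 2 * d) {W₀ : Submodule F V} (hW₀ : Nd Q W₀) {l : ℕ}
    (hl : finrank F W₀ = 2 * l + 1) :
    (∃ W : Submodule F V, Iso Q W₀ W ∧ ∀ w ∈ W, g w ∈ W) ↔ RoomEO d h l s := by
  constructor
  · rintro ⟨W, hW, hWi⟩
    obtain ⟨k, hk, -, hfle, -, -, -, -, hdim⟩ := invariant_shape P hQ hg hgQ hWi hW.1 hs.1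
    have hle := Submodule.finrank_mono hfle
    rw [hW.finrank_eq, hl] at hdim
    exact ⟨k, hk, by omega, by omega⟩
  · rintro ⟨k, hk, hkl, hle⟩
    obtain ⟨hfN, hmN, -, -, ho, h3, h4⟩ := decomp P.ne_zero hg hgQ (U := ⊤) (fun _ _ => trivial) (nd_top hQ)
    obtain ⟨B, hB, hBN, hBi, hBT⟩ := exists_blocks_sub P hg hgQ h3 hmN h4 hs.1 hk
    obtain ⟨A, hA, -, hIso⟩ := exists_glue h2 hW₀ hBN hfN (fun a ha b hb => ho a ha b (hB hb))
      (by rw [hBT.1, hl]; omega) (by rw [hBT.1, hl]; omega)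
    refine ⟨A ⊔ B, hIso, fun w hw => ?_⟩
    obtain ⟨a, ha, b, hb, rfl⟩ := Submodule.mem_sup.1 hw
    rw [map_add, (mem_fixIn.1 (hA ha)).2]
    exact Submodule.add_mem_sup ha (hBi b hb)

/-- Numbers of blocks that occur. -/
def AdmEven (d h : ℕ) (η εV : ℤ) (s : ℕ) : Prop := 1 ≤ s ∧ (h * s < d ∨ (h * s = d ∧ εV = η ^ s))

theorem hasType_blocks_le (P : Params F r h η) (hQ : (polarBilin Q).Nondegenerate) {d : ℕ} {εV : ℤ} (hεV : εV = 1 ∨ εV = -1)
    (hV : HasType Q (⊤ : Submodule F V) d εV) {s : ℕ} (hs : h * s < d ∨ (h * s = d ∧ εV = η ^ s)) :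
    ∃ U : Submodule F V, Nd Q U ∧ HasType Q U (h * s) (η ^ s) := by
  rcases hs with hlt | ⟨he, hε⟩
  · rcases Nat.eq_zero_or_pos (h * s) with h0 | h0
    · refine ⟨⊥, nd_bot, ?_⟩
      have : s = 0 := (Nat.mul_eq_zero.1 h0).resolve_left P.pos.ne'
      rw [h0, this, pow_zero]
      exact hasType_bot Q
    · obtain ⟨U, -, hUN, hUT⟩ := exists_le_type (nd_top hQ) hεV hV h0 hlt (P.eta_pow s)
      exact ⟨U, hUN, hUT⟩
  · exact ⟨⊤, nd_top hQ, by rw [he, ← hε]; exact hV⟩

theorem adm_of_element [Fintype F] (P : Params F r h η) (hQ : (polarBilin Q).Nondegenerate) {d : ℕ} {εV : ℤ}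
    (hεV : εV = 1 ∨ εV = -1) (hV : HasType Q (⊤ : Submodule F V) d εV) {g : Module.End F V} (hg : g ^ r = 1)
    (hgQ : ∀ x, Q (g x) = Q x) (hg1 : g ≠ 1) :
    ∃ s, AdmEven d h η εV s ∧ HasType Q (movIn g ⊤) (h * s) (η ^ s) ∧
      finrank F (fixIn g ⊤) + 2 * (h * s) = 2 * d := by
  obtain ⟨s, hs, hfN, hperp, hdim, hiff⟩ := whole_shape P hQ hg hgQ
  rw [(hasType_top_iff.1 hV).1] at hdim
  refine ⟨s, ⟨hiff.2 hg1, ?_⟩, hs, hdim.symm⟩
  rcases lt_or_ge (h * s) d with hlt | hge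
  · exact Or.inl hlt
  · refine Or.inr ⟨by omega, ?_⟩
    have htop : movIn g (⊤ : Submodule F V) = ⊤ :=
      Submodule.eq_top_of_finrank_eq (by rw [hs.1, (hasType_top_iff.1 hV).1]; omega)
    rw [htop] at hs
    exact (hV.unique hs).2

theorem element_of_adm [Fintype F] (P : Params F r h η) (hQ : (polarBilin Q).Nondegenerate) {d : ℕ} {εV : ℤ}
    (hεV : εV = 1 ∨ εV = -1) (hV : HasType Q (⊤ : Submodule F V) d εV) {s : ℕ} (hs : AdmEven d h η εV s) :
    ∃ g : Module.End F V, g ^ r = 1 ∧ (∀ x, Q (g x) = Q x) ∧ g ≠ 1 ∧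
      HasType Q (movIn g ⊤) (h * s) (η ^ s) ∧ finrank F (fixIn g ⊤) + 2 * (h * s) = 2 * d := by
  obtain ⟨U, hUN, hUT⟩ := hasType_blocks_le P hQ hεV hV hs.2
  obtain ⟨g, hg, hgQ, hfix, hmov⟩ := exists_elt P hUN hUT
  refine ⟨g, hg, hgQ, ?_, by rw [hmov]; exact hUT, ?_⟩
  · rintro rfl
    have h0 : movIn (1 : Module.End F V) (⊤ : Submodule F V) = ⊥ := by simp [movIn]
    rw [h0] at hmov
    have := hUT.1
    rw [← hmov, finrank_bot] at this
    have := Nat.mul_pos P.pos hs.1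
    omega
  · have := finrank_perp (Q := Q) hUN
    rw [(hasType_top_iff.1 hV).1, hUT.1] at this
    rw [hfix]
    omega

theorem forall_evenodd_iff [Fintype F] (P : Params F r h η) (h2 : (2 : F) ≠ 0) (hQ : (polarBilin Q).Nondegenerate)
    {d : ℕ} {εV : ℤ} (hεV : εV = 1 ∨ εV = -1) (hV : HasType Q (⊤ : Submodule F V) d εV)
    {W₀ : Submodule F V} (hW₀ : Nd Q W₀) {l : ℕ} (hl : finrank F W₀ = 2 * l + 1) :
    (∀ g : Module.End F V, g ^ r = 1 → (∀ x, Q (g x) = Q x) → g ≠ 1 →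
      ∃ W : Submodule F V, Iso Q W₀ W ∧ ∀ w ∈ W, g w ∈ W) ↔
    ∀ s, AdmEven d h η εV s → RoomEO d h l s := by
  constructor
  · intro H s hs
    obtain ⟨g, hg, hgQ, hg1, hmov, hfix⟩ := element_of_adm P hQ hεV hV hs
    exact (invariant_evenodd_iff P h2 hQ hg hgQ hmov hfix hW₀ hl).1 (H g hg hgQ hg1)
  · intro H g hg hgQ hg1
    obtain ⟨s, hadm, hs, hfix⟩ := adm_of_element P hQ hεV hV hg hgQ hg1
    exact (invariant_evenodd_iff P h2 hQ hg hgQ hs hfix hW₀ hl).2 (H s hadm)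

/-- Half the dimension of the smallest fixed space. -/
noncomputable def minFix (d h : ℕ) (η εV : ℤ) : ℕ := by
  classical exact if d % h = 0 ∧ εV ≠ η ^ (d / h) then h else d % h

theorem minFix_spec {d h : ℕ} {η εV : ℤ} (hh : 0 < h) (hd : 0 < d) :
    ∃ S, h * S + minFix d h η εV = d ∧ minFix d h η εV ≤ h ∧
      (minFix d h η εV = h → εV ≠ η ^ (S + 1)) ∧ (minFix d h η εV = 0 → εV = η ^ S) := by
  classical
  have hdm := Nat.div_add_mod d h
  have := Nat.mod_lt d hh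
  unfold minFix
  split_ifs with hc
  · have hN : 1 ≤ d / h := by
      by_contra h0
      have hz : d / h = 0 := Nat.eq_zero_of_not_pos h0
      rw [hz, Nat.mul_zero] at hdm
      omega
    refine ⟨d / h - 1, ?_, le_rfl, fun _ => by rw [Nat.sub_add_cancel hN]; exact hc.2, fun h0 => by omega⟩
    obtain ⟨t, ht⟩ : ∃ t, d / h = t + 1 := ⟨d / h - 1, by omega⟩
    rw [ht, mul_add, mul_one] at hdm
    rw [ht, Nat.add_sub_cancel]
    omega
  · refine ⟨d / h, hdm, by omega, fun e => by omega, fun h0 => ?_⟩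
    by_contra hne
    exact hc ⟨h0, hne⟩

/-- A fixed space too small for a block of the right type. -/
theorem small_fixed {η : ℤ} (P : Params F r h η) {U : Submodule F V} {E : ℕ} {εU : ℤ} (hUT : HasType Q U E εU)
    (hE : E ≤ h) (hεU : E = h → εU ≠ η) :
    ∀ s : ℕ, 1 ≤ s → ∀ W ≤ U, Nd Q W → ¬ HasType Q W (h * s) (η ^ s) := by
  intro s hs W hW _ hT
  have h1 := Submodule.finrank_mono hW
  rw [hT.1, hUT.1] at h1
  have h2' : h ≤ h * s := Nat.le_mul_of_pos_right _ hs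
  have hEh : E = h := by omega
  have hs1 : s = 1 := by
    by_contra hs2
    have : h * 2 ≤ h * s := Nat.mul_le_mul_left h (by omega)
    have := P.pos
    omega
  subst hs1
  have hWU : W = U := Submodule.eq_of_le_of_finrank_le hW (by rw [hT.1, hUT.1]; omega)
  rw [hWU, pow_one] at hT
  exact hεU hEh (hUT.unique hT).2

theorem exists_min_element [Fintype F] (P : Params F r h η) (hQ : (polarBilin Q).Nondegenerate) {d : ℕ} (hd : 0 < d)
    {εV : ℤ} (hεV : εV = 1 ∨ εV = -1) (hV : HasType Q (⊤ : Submodule F V) d εV) :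
    ∃ (g : Module.End F V) (S : ℕ) (εU : ℤ), g ^ r = 1 ∧ (∀ x, Q (g x) = Q x) ∧
      finrank F (movIn g (⊤ : Submodule F V)) = 2 * (h * S) ∧ h * S + minFix d h η εV = d ∧
      (εU = 1 ∨ εU = -1) ∧ εU = εV * η ^ S ∧ HasType Q (fixIn g ⊤) (minFix d h η εV) εU ∧
      ∀ s : ℕ, 1 ≤ s → ∀ W ≤ fixIn g ⊤, Nd Q W → ¬ HasType Q W (h * s) (η ^ s) := by
  obtain ⟨S, hS, hle, hmax, hzero⟩ := minFix_spec (η := η) (εV := εV) P.pos hd
  have hcase : h * S < d ∨ (h * S = d ∧ εV = η ^ S) := by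
    rcases Nat.eq_zero_or_pos (minFix d h η εV) with h0 | h0
    · exact Or.inr ⟨by omega, hzero h0⟩
    · exact Or.inl (by omega)
  obtain ⟨U, hUN, hUT⟩ := hasType_blocks_le P hQ hεV hV hcase
  obtain ⟨g, hg, hgQ, hfix, hmov⟩ := exists_elt P hUN hUT
  have hperp := HasType.perp hQ hUN (P.eta_pow S) hV hUT
  rw [show d - h * S = minFix d h η εV by omega, ← hfix] at hperp
  have hεU : εV * η ^ S = 1 ∨ εV * η ^ S = -1 := by
    rcases hεV with rfl | rfl <;> rcases P.eta_pow S with e | e <;> rw [e] <;> norm_num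
  refine ⟨g, S, _, hg, hgQ, by rw [hmov, hUT.1], hS, hεU, rfl, hperp, small_fixed P hperp hle fun e => ?_⟩
  intro heq
  refine hmax e ?_
  rw [pow_succ]
  calc εV = εV * (η ^ S * η ^ S) := by
        rw [← mul_pow]; rcases P.pm with rfl | rfl <;> simp
    _ = εV * η ^ S * η ^ S := (mul_assoc _ _ _).symm
    _ = η ^ S * η := by rw [heq, mul_comm]

theorem not_dvd_card_evenodd [Fintype F] (P : Params F r h η) (h2 : (2 : F) ≠ 0) (hQ : (polarBilin Q).Nondegenerate)
    {d : ℕ} (hd : 0 < d) {εV : ℤ} (hεV : εV = 1 ∨ εV = -1) (hV : HasType Q (⊤ : Submodule F V) d εV)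
    {W₀ : Submodule F V} (hW₀ : Nd Q W₀) {l : ℕ} (hl : finrank F W₀ = 2 * l + 1) (hlh : l < h)
    (hlE : l < minFix d h η εV) : ¬ r ∣ Nat.card {W : Submodule F V // Iso Q W₀ W} := by
  obtain ⟨g, S, εU, hg, hgQ, hmov, hS, -, -, hfT, hsmall⟩ := exists_min_element P hQ hd hεV hV
  have hbij : Function.Injective g := fun a b hab => by
    have := congrArg (g ^ (r - 1)) hab
    rwa [← Module.End.mul_apply, ← Module.End.mul_apply, ← pow_succ, Nat.sub_add_cancel hr.out.one_le, hg,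
      Module.End.one_apply, Module.End.one_apply] at this
  have hfN := (decomp P.ne_zero hg hgQ (U := ⊤) (fun _ _ => trivial) (nd_top hQ)).1
  refine not_dvd_card P hg (U := fixIn g ⊤) (fun u hu => (mem_fixIn.1 hu).2) hfN hsmall _
    (fun W hW => hW.map g hbij hgQ) (fun W hW hWg => ?_) ?_ (fun W W' _ _ hW hW' => ?_) (fun e he W hle hW => ?_)
  · have hinv : ∀ w ∈ W, g w ∈ W := fun w hw => hWg ▸ Submodule.mem_map_of_mem hw
    obtain ⟨k, -, -, hfle, -, -, -, -, hdim⟩ := invariant_shape P hQ hg hgQ hinv hW.1 hmov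
    rw [hW.finrank_eq, hl] at hdim
    obtain rfl : k = 0 := by
      by_contra hk
      have : h ≤ h * k := Nat.le_mul_of_pos_right _ (Nat.pos_of_ne_zero hk)
      omega
    rw [← Submodule.eq_of_le_of_finrank_le (inf_le_left : fixIn g W ≤ W) (by
      show finrank F W ≤ finrank F (fixIn g W)
      rw [hW.finrank_eq, hl]; omega)]
    exact hfle
  · obtain ⟨A, hA, -, hI⟩ := exists_glue h2 hW₀ (U := fixIn g ⊤) (B := ⊥) nd_bot hfN
      (fun a _ b hb => by rw [(Submodule.mem_bot F).1 hb, polar_zero_right])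
      (by rw [finrank_bot, hl]; omega) (by rw [finrank_bot, hl, hfT.1]; omega)
    rw [sup_bot_eq] at hI
    exact ⟨A, hA, hI⟩
  · obtain ⟨-, a, ha⟩ := hW
    obtain ⟨-, b, hb⟩ := hW'
    refine ⟨a.trans b.symm, fun w => ?_⟩
    have := hb (b.symm (a w))
    rw [b.apply_symm_apply] at this
    rw [LinearEquiv.trans_apply, ← this, ha]
  · obtain ⟨hN, a, ha⟩ := hW
    set j := ((fixIn g (⊤ : Submodule F V)).subtype ∘ₗ e.toLinearMap) with hj
    have hjinj : Function.Injective j := Subtype.val_injective.comp e.injective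
    let c := Submodule.comapSubtypeEquivOfLe hle
    refine ⟨(hasType_map (Q := res Q (fixIn g ⊤)) (Q' := Q) j hjinj (fun x => he x)
        (W := W.comap (fixIn g (⊤ : Submodule F V)).subtype)).1
      (fun u hu h => Subtype.ext (hN u hu fun w hw => h ⟨w, hle hw⟩ hw)), ?_⟩
    refine ⟨((Submodule.equivMapOfInjective j hjinj _).symm.trans c).trans a, fun w => ?_⟩
    obtain ⟨x, rfl⟩ := (Submodule.equivMapOfInjective j hjinj _).surjective w
    rw [LinearEquiv.trans_apply, LinearEquiv.trans_apply, LinearEquiv.symm_apply_apply, ha,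
      Submodule.coe_equivMapOfInjective_apply]
    exact (he x.1).symm

/-- The arithmetic. -/
theorem room_evenodd_arith {d l : ℕ} {η εV : ℤ} (hh : 0 < h) (hld : l < d)
    (hex : ¬ (l < h ∧ l < minFix d h η εV)) :
    (∀ s, AdmEven d h η εV s → RoomEO d h l s) ↔
      (d % h = 0 ∧ εV ≠ η ^ (d / h)) ∨ (h ≤ l ∧ l % h < d % h) := by
  classical
  obtain ⟨S, hS, hEle, -, hE0⟩ := minFix_spec (η := η) (εV := εV) hh (show 0 < d by omega)
  have hl := Nat.div_add_mod l h
  have hlm := Nat.mod_lt l hh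
  have hdh := Nat.div_add_mod d h
  have hdm := Nat.mod_lt d hh
  constructor
  · intro H
    by_contra hcon
    push Not at hcon
    have hmE : minFix d h η εV = d % h := by
      unfold minFix; rw [if_neg fun hc => hc.2 (hcon.1 hc.1)]
    rcases Nat.eq_zero_or_pos S with hS0 | hS0
    · subst hS0
      exact hex ⟨by omega, by omega⟩
    obtain ⟨k, hk, hkl, hlt⟩ := H S ⟨hS0, by
      rcases Nat.eq_zero_or_pos (minFix d h η εV) with h0 | h0
      · exact Or.inr ⟨by omega, hE0 h0⟩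
      · exact Or.inl (by omega)⟩
    have hkA : k ≤ l / h := (Nat.le_div_iff_mul_le hh).2 (by rwa [mul_comm])
    have hk' : k = l / h := by
      by_contra hne
      have h1 : h * (k + 1) ≤ h * (l / h) := Nat.mul_le_mul_left h (by omega)
      rw [mul_add, mul_one] at h1
      omega
    subst hk'
    rcases Nat.eq_zero_or_pos (l / h) with hA | hA
    · rw [hA, Nat.mul_zero] at hl hlt
      exact hex ⟨by omega, by omega⟩
    · have h1 : h ≤ h * (l / h) := Nat.le_mul_of_pos_right _ hA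
      have := hcon.2 (by omega)
      omega
  · rintro hR s ⟨hs, hsd⟩
    rcases Nat.lt_or_ge s (l / h) with hlt | hge
    · have h1 : h * (s + 1) ≤ h * (l / h) := Nat.mul_le_mul_left h hlt
      rw [mul_add, mul_one] at h1
      exact ⟨s, le_rfl, by omega, by omega⟩
    refine ⟨l / h, hge, by omega, ?_⟩
    rcases hR with ⟨h0, hne⟩ | ⟨hhl, hlk⟩
    · have hslt : s < d / h := by
        rcases hsd with h1 | ⟨h1, h2⟩
        · by_contra hc
          have := Nat.mul_le_mul_left h (not_lt.1 hc)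
          omega
        · exfalso
          apply hne
          rwa [← h1, Nat.mul_div_cancel_left _ hh]
      have h1 : h * (s + 1) ≤ h * (d / h) := Nat.mul_le_mul_left h hslt
      rw [mul_add, mul_one] at h1
      omega
    · have hsN : s ≤ d / h := (Nat.le_div_iff_mul_le hh).2 (by
        rw [mul_comm]; rcases hsd with h1 | ⟨h1, -⟩ <;> omega)
      have h1 : h * s ≤ h * (d / h) := Nat.mul_le_mul_left h hsN
      omega

end Crit

end CfsgLib.Derangements.Sub
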