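import Mathlib
import Cfsg.Agent.Lib.Derangements.SingularOdd
import Cfsg.Agent.Lib.Derangements.SubspaceEvenOdd
import Cfsg.Agent.Lib.Omega.OrthUnipotent

/-!
Elements of odd prime order fixing totally singular subspaces in even-dimensional quadratic spaces, in any
characteristic.
-/

set_option autoImplicit false
set_option linter.unusedSectionVars false
set_option linter.style.haveILetI false

namespace CfsgLib.Derangements.Sub

open Module QuadraticMap CfsgLib.Derangements
open scoped Matrix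

universe u

variable {F : Type u} [Field F] [Fintype F] {V : Type u} [AddCommGroup V] [Module F V] [FiniteDimensional F V]
  {Q : QuadraticForm F V}

omit [Fintype F] in
/-- Totally singular subspaces of the standard model. -/
theorem exists_singular_qPlus (k : ℕ) :
    ∃ W : Submodule F (Fin k ⊕ Fin k → F), finrank F W = k ∧ Ts (CfsgLib.ClassicalForms.qPlus k F) W := by
  let f : (Fin k → F) →ₗ[F] (Fin k ⊕ Fin k → F) :=
    { toFun := fun a => Sum.elim a 0
      map_add' := fun a b => by ext (i | i) <;> simp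
      map_smul' := fun t a => by ext (i | i) <;> simp }
  have hf : Function.Injective f := fun a b hab => funext fun i => congrFun hab (Sum.inl i)
  refine ⟨LinearMap.range f, by rw [LinearMap.finrank_range_of_inj hf, Module.finrank_fintype_fun_eq_card,
    Fintype.card_fin], ?_⟩
  rintro _ ⟨a, rfl⟩
  rw [CfsgLib.ClassicalForms.qPlus_apply, Cfsg.quadFormPlus]
  simp [f]

/-- Totally singular subspaces of a space of given type. -/
theorem exists_singular_type {U : Submodule F V} (hU : Nd Q U) {E : ℕ} {εU : ℤ} (hεU : εU = 1 ∨ εU = -1)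
    (hT : HasType Q U E εU) {k : ℕ} (hk : k < E ∨ (k = E ∧ εU = 1)) :
    ∃ W ≤ U, finrank F W = k ∧ Ts Q W := by
  rcases Nat.eq_zero_or_pos k with rfl | hk0
  · exact ⟨⊥, bot_le, finrank_bot F V, ts_bot⟩
  obtain ⟨U', hU'le, hU'N, hU'T⟩ : ∃ W ≤ U, Nd Q W ∧ HasType Q W k 1 := by
    rcases hk with hlt | ⟨rfl, rfl⟩
    · exact exists_le_type hU hεU hT hk0 hlt (Or.inl rfl)
    · exact ⟨U, le_rfl, hU, hT⟩
  obtain ⟨E', hE'⟩ := OrthType.exists_isometry (m := k)
    (show Module.finrank F (Fin k ⊕ Fin k → F) = 2 * k by rw [Module.finrank_fintype_fun_eq_card]; simp; omega)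
    hU'T.1 (CfsgLib.ClassicalForms.nondeg_iff_polarBilin.2 (CfsgLib.ClassicalForms.nondeg_qPlus k))
    (nd_iff_res.1 hU'N) (OrthType.hasDisc_qPlus k) (by rw [← one_mul ((Nat.card F : ℤ) ^ k)]; exact hU'T.2)
  obtain ⟨W, hW, hWT⟩ := exists_singular_qPlus (F := F) k
  let f : (Fin k ⊕ Fin k → F) →ₗ[F] V := U'.subtype ∘ₗ E'.toLinearMap
  have hf : Function.Injective f := Subtype.val_injective.comp E'.injective
  refine ⟨W.map f, ?_, by rw [← (Submodule.equivMapOfInjective f hf W).finrank_eq]; exact hW, ?_⟩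
  · rintro _ ⟨a, -, rfl⟩; exact hU'le (E' a).2
  · rintro _ ⟨a, ha, rfl⟩
    have := hE' a
    rw [res_apply, hWT a ha] at this
    exact this

/-- The largest totally singular subspaces of a space of given type. -/
theorem singular_le_type {U : Submodule F V} (hU : Nd Q U) {E : ℕ} {εU : ℤ} (hεU : εU = 1 ∨ εU = -1)
    (hT : HasType Q U E εU) {W : Submodule F V} (hWU : W ≤ U) (hW : Ts Q W) :
    finrank F W ≤ E ∧ (finrank F W = E → εU = 1) := by
  have hle := hW.two_mul_le hU hWU
  rw [hT.1] at hle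
  refine ⟨by omega, fun hWE => ?_⟩
  rcases hεU with rfl | rfl
  · rfl
  exfalso
  obtain ⟨k, rfl⟩ : ∃ k, E = k + 1 := by
    refine ⟨E - 1, (Nat.sub_add_cancel (Nat.one_le_iff_ne_zero.2 fun h => ?_)).symm⟩
    subst h
    have hb : U = ⊥ := Submodule.finrank_eq_zero.1 (by rw [hT.1])
    subst hb
    exact absurd (hT.unique (hasType_bot Q)).2 (by norm_num)
  obtain ⟨ζ, hζ⟩ := OrthType.exists_noroot (F := F)
  have hab := OrthType.aniso_of_noroot hζ
  obtain ⟨E', hE'⟩ := OrthType.exists_isometry (m := k + 1) hT.1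
    (by rw [Module.finrank_fintype_fun_eq_card]; simp; omega) (nd_iff_res.1 hU)
    (CfsgLib.ClassicalForms.nondeg_iff_polarBilin.2 (CfsgLib.ClassicalForms.nondeg_qMinus hab k))
    hT.2 (by rw [neg_one_mul]; exact OrthType.hasDisc_qMinus hab k)
  have h := CfsgLib.Omega.finrank_singular_qMinus_le hab k ((W.comap U.subtype).map E'.toLinearMap) (by
    rintro _ ⟨u, hu, rfl⟩
    rw [LinearEquiv.coe_coe, hE', res_apply]
    exact hW _ hu)
  rw [LinearEquiv.finrank_map_eq E' (W.comap U.subtype),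
    (Submodule.comapSubtypeEquivOfLe hWU).finrank_eq] at h
  omega

variable {r h : ℕ} {η : ℤ} [hr : Fact r.Prime]

/-- An invariant subspace splits into its fixed and moved parts. -/
theorem finrank_invariant_le (hrF : (r : F) ≠ 0) {g : Module.End F V} (hg : g ^ r = 1) {W : Submodule F V}
    (hW : ∀ w ∈ W, g w ∈ W) :
    finrank F W ≤ finrank F (W ⊓ fixIn g ⊤ : Submodule F V) + finrank F (W ⊓ movIn g ⊤ : Submodule F V) := by
  let A : Module.End F V := (r : F)⁻¹ • ∑ k ∈ Finset.range r, g ^ k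
  have hgA : ∀ v, g (A v) = A v := fun v => by
    have h : (g - 1) * ∑ k ∈ Finset.range r, g ^ k = 0 := by rw [mul_geom_sum, hg, sub_self]
    have h2 := LinearMap.congr_fun h v
    rw [Module.End.mul_apply, LinearMap.sub_apply, Module.End.one_apply, LinearMap.zero_apply, sub_eq_zero] at h2
    simp only [A, LinearMap.smul_apply, map_smul, h2]
  have hle : W ≤ (W ⊓ fixIn g ⊤) ⊔ (W ⊓ movIn g ⊤) := fun w hw => by
    have hAW : A w ∈ W := by
      simp only [A, LinearMap.smul_apply, LinearMap.sum_apply]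
      exact W.smul_mem _ (W.sum_mem fun k _ => sum_pow_mem hW hw k)
    have hk : ∀ k : ℕ, (g ^ k) w - w ∈ movIn g (⊤ : Submodule F V) := fun k => by
      induction k with
      | zero => simp
      | succ k ih =>
        have h1 : (g - 1) ((g ^ k) w) ∈ movIn g (⊤ : Submodule F V) := Submodule.mem_map_of_mem Submodule.mem_top
        rw [LinearMap.sub_apply, Module.End.one_apply, ← Module.End.mul_apply, ← pow_succ'] at h1
        have := Submodule.add_mem _ h1 ih
        rwa [sub_add_sub_cancel] at this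
    have hd : w - A w ∈ movIn g (⊤ : Submodule F V) := by
      have hs : ∑ k ∈ Finset.range r, ((g ^ k) w - w) ∈ movIn g (⊤ : Submodule F V) :=
        Submodule.sum_mem _ fun k _ => hk k
      rw [Finset.sum_sub_distrib, Finset.sum_const, Finset.card_range, ← LinearMap.sum_apply] at hs
      have := (movIn g (⊤ : Submodule F V)).smul_mem (-(r : F)⁻¹) hs
      convert this using 1
      simp only [A, LinearMap.smul_apply]
      rw [smul_sub, ← Nat.cast_smul_eq_nsmul F r w, smul_smul, neg_mul, inv_mul_cancel₀ hrF, neg_smul, neg_smul,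
        one_smul]
      abel
    have := Submodule.add_mem_sup (show A w ∈ W ⊓ fixIn g ⊤ from ⟨hAW, mem_fixIn.2 ⟨trivial, hgA w⟩⟩)
      (show w - A w ∈ W ⊓ movIn g ⊤ from ⟨W.sub_mem hw hAW, hd⟩)
    rwa [add_sub_cancel] at this
  exact (Submodule.finrank_mono hle).trans (Submodule.finrank_add_le_finrank_add_finrank _ _)

variable (P : Params F r h η)

include P in
/-- An isometry moving exactly a given subspace of blocks, with given exponents. -/
theorem exists_elt_expo {uq : (ZMod r)ˣ} (huq : (uq : ZMod r) = (Fintype.card F : ZMod r))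
    (hord : orderOf (OrthExpo.uu uq) = 2 * h) {ζ : AlgebraicClosure F} (hζ : IsPrimitiveRoot ζ r)
    {U : Submodule F V} (hUN : Nd Q U) {s : ℕ} (hT : HasType Q U (h * s) (η ^ s)) {M : Multiset (ZMod r)}
    (hMF : OrthExpo.Fixes ((OrthExpo.uu uq : (ZMod r)ˣ) : ZMod r) M) (h0 : (0 : ZMod r) ∉ M)
    (hMc : M.card = 2 * (h * s)) :
    ∃ g : Module.End F V, g ^ r = 1 ∧ (∀ x, Q (g x) = Q x) ∧ fixIn g ⊤ = perp Q U ∧ movIn g ⊤ = U ∧
      ∀ hU : ∀ u ∈ U, g u ∈ U, OrthExpo.Expo ζ (g.restrict hU) M := by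
  obtain ⟨W, _, _, _, QW, gW, hQW, hgW, hgWQ, hgWM, hfree, hW, hDW⟩ := exists_model P huq hord hζ hMF h0 hMc
  obtain ⟨E, hE⟩ := OrthType.exists_isometry (m := h * s) hW hT.1 hQW (nd_iff_res.1 hUN) hDW hT.2
  have hc := isCompl_perp (Q := Q) hUN
  let gU : Module.End F U := E.conj gW
  let g : Module.End F V := LinearMap.ofIsCompl hc (U.subtype ∘ₗ gU) (perp Q U).subtype
  have hg1 : ∀ x : U, g x = (gU x : V) := fun x => LinearMap.ofIsCompl_apply_left hc x
  have hg2 : ∀ x : perp Q U, g x = (x : V) := fun x => LinearMap.ofIsCompl_apply_right hc x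
  have hdec : ∀ v : V, ∃ (x : U) (y : perp Q U), v = (x : V) + (y : V) := fun v => by
    obtain ⟨a, ha, b, hb, rfl⟩ := Submodule.mem_sup.1
      (show v ∈ U ⊔ perp Q U by rw [hc.sup_eq_top]; trivial)
    exact ⟨⟨a, ha⟩, ⟨b, hb⟩, rfl⟩
  have hgUr : gU ^ r = 1 := by
    rw [OrthExpo.conj_pow_eq, hgW]; exact LinearEquiv.conj_id E
  have hgUQ : ∀ x, res Q U (gU x) = res Q U x := fun x => by
    show res Q U (E.conj gW x) = _
    rw [LinearEquiv.conj_apply_apply, hE, hgWQ, ← hE, E.apply_symm_apply]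
  have hpow : ∀ (k : ℕ) (x : U) (y : perp Q U),
      (g ^ k) ((x : V) + (y : V)) = ((gU ^ k) x : V) + (y : V) := fun k => by
    induction k with
    | zero => intro x y; simp
    | succ k ih =>
      intro x y
      rw [pow_succ', Module.End.mul_apply, ih, map_add, hg1, hg2, pow_succ', Module.End.mul_apply]
  have hgr : g ^ r = 1 := LinearMap.ext fun v => by
    obtain ⟨x, y, rfl⟩ := hdec v
    rw [hpow, hgUr]; rfl
  have hgQ : ∀ v, Q (g v) = Q v := fun v => by
    obtain ⟨x, y, rfl⟩ := hdec v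
    rw [map_add, hg1, hg2, QuadraticMap.map_add Q, QuadraticMap.map_add Q (x : V),
      mem_perp.1 y.2 _ (gU x).2, mem_perp.1 y.2 _ x.2]
    have := hgUQ x
    simp only [res_apply] at this
    rw [this]
  have hfix : fixIn g ⊤ = perp Q U := by
    ext v
    refine ⟨fun hv => ?_, fun hv => mem_fixIn.2 ⟨trivial, hg2 ⟨v, hv⟩⟩⟩
    obtain ⟨x, y, rfl⟩ := hdec v
    have h1 := (mem_fixIn.1 hv).2
    rw [map_add, hg1, hg2, add_left_inj] at h1
    have h2 : gW (E.symm x) = E.symm x := E.injective (by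
      rw [E.apply_symm_apply]
      exact Subtype.ext h1)
    have : x = 0 := E.symm.injective (by rw [map_zero]; exact hfree _ h2)
    rw [this, Submodule.coe_zero, zero_add]
    exact y.2
  have hQtop : movIn g ⊤ ≤ U := by
    rintro _ ⟨v, -, rfl⟩
    obtain ⟨x, y, rfl⟩ := hdec v
    rw [LinearMap.sub_apply, Module.End.one_apply, map_add, hg1, hg2, add_sub_add_right_eq_sub]
    exact U.sub_mem (gU x).2 x.2
  refine ⟨g, hgr, hgQ, hfix, le_antisymm hQtop fun u hu => ?_, fun hU => ?_⟩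
  · have hinj : Function.Injective ((gU - 1 : Module.End F U)) := (injective_iff_map_eq_zero _).2 fun x hx => by
      rw [LinearMap.sub_apply, Module.End.one_apply, sub_eq_zero] at hx
      have h2 : gW (E.symm x) = E.symm x := E.injective (by
        rw [E.apply_symm_apply]
        exact hx)
      exact E.symm.injective (by rw [map_zero]; exact hfree _ h2)
    obtain ⟨x, hx⟩ := LinearMap.injective_iff_surjective.1 hinj ⟨u, hu⟩
    refine ⟨(x : V), trivial, ?_⟩
    rw [LinearMap.sub_apply, Module.End.one_apply, hg1]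
    have := congrArg Subtype.val hx
    simpa using this
  · have : g.restrict hU = E.conj gW := LinearMap.ext fun x => Subtype.ext (hg1 x)
    rw [this]
    exact hgWM.conj E

/-- Room for a totally singular subspace of dimension `m` beside `s` blocks. -/
def SingRoomEven (d m h e : ℕ) (J : ℕ → ℕ) (η εV : ℤ) (s : ℕ) : Prop :=
  ∃ j ≤ J s, e * j ≤ m ∧ (m + h * s < e * j + d ∨ (m + h * s = e * j + d ∧ εV = η ^ s))

include P in
theorem Steps.exists_moved_singular {i : ℕ} {J : ℕ → ℕ} (S : Steps F r h i J) {g : Module.End F V}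
    (hg : g ^ r = 1) (hgQ : ∀ x, Q (g x) = Q x) {U : Submodule F V} (hU : ∀ u ∈ U, g u ∈ U) (hUN : Nd Q U)
    (hfree : ∀ u ∈ U, g u = u → u = 0) {s j : ℕ} (hs : finrank F U = 2 * (h * s)) (hjJ : j ≤ J s) :
    ∃ W ≤ U, (∀ w ∈ W, g w ∈ W) ∧ Ts Q W ∧ finrank F W = i * j := by
  have hord : orderOf ((Nat.card F : ℕ) : ZMod r) = i := by rw [Nat.card_eq_fintype_card]; exact S.order
  rcases S.shape with ⟨rfl, -, hJ⟩ | ⟨rfl, hJ⟩
  · refine exists_moved P.ne_zero hg hgQ hU hUN (b := 0)
      (fun C hC hCi hCN hC0 => exists_block_odd P hg hgQ hCi hCN (fun c hc => hfree c (hC hc)) hC0 hord) j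
      fun j' hj' => ?_
    rw [hJ] at hjJ
    rw [hs, zero_add]
    have := (Nat.mul_lt_mul_left P.pos).2 (show j' < s by omega)
    omega
  · refine exists_moved P.ne_zero hg hgQ hU hUN (b := r - 1) (fun C hC hCi hCN hC0 => ?_) j fun j' hj' => ?_
    · obtain ⟨sC, hsC⟩ := exists_blocks P hg hgQ hCi hCN fun c hc => hfree c (hC hc)
      exact exists_block_even P hg hgQ hCi hCN (fun c hc => hfree c (hC hc)) hsC.1 (hsC.1 ▸ hC0)
    · rw [hJ] at hjJ
      rw [hs]
      have hdvd : 2 * h ∣ r - 1 := by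
        rw [← hord]
        haveI := hr
        refine ZMod.orderOf_dvd_card_sub_one fun h0 => ?_
        rw [h0, orderOf_zero] at hord
        have := P.pos
        omega
      have ht := Nat.mul_div_cancel' hdvd
      set t := (r - 1) / (2 * h)
      have hlt : t + 2 * j' < s := by omega
      have := (Nat.mul_lt_mul_left (show 0 < 2 * h by have := P.pos; omega)).2 hlt
      rw [mul_add, ht] at this
      have e1 : 2 * h * (2 * j') = 2 * (2 * h * j') := by ring
      have e2 : 2 * h * s = 2 * (h * s) := by ring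
      omega

include P in
/-- The exponents allowing the fewest steps. -/
theorem Steps.exists_exponents {i : ℕ} {J : ℕ → ℕ} (S : Steps F r h i J) (s : ℕ) {uq : (ZMod r)ˣ}
    (huq : (uq : ZMod r) = (Fintype.card F : ZMod r)) (hord : orderOf (OrthExpo.uu uq) = 2 * h) :
    ∃ M : Multiset (ZMod r),
      OrthExpo.Fixes ((OrthExpo.uu uq : (ZMod r)ˣ) : ZMod r) M ∧ (0 : ZMod r) ∉ M ∧ M.card = 2 * (h * s) ∧
      ∀ A : Multiset (ZMod r), OrthExpo.Fixes (uq : ZMod r) A →
        A + A.map ((-1 : ZMod r) * ·) ≤ M → A.card ≤ i * J s := by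
  classical
  have hiu : orderOf uq = i := by rw [← S.order, ← huq, orderOf_units]
  rcases S.shape with ⟨hih, -, hJ⟩ | ⟨hih, hJ⟩
  · refine ⟨s • OrthExpo.orbit (OrthExpo.uu uq) 1, fixes_nsmul (orbit_fixes _ one_ne_zero) s,
      fun hm => zero_not_mem_orbit _ one_ne_zero (Multiset.mem_of_mem_nsmul hm), ?_, fun A _ hA => ?_⟩
    · rw [Multiset.card_nsmul, OrthExpo.card_orbit, hord]; ring
    · have hc := Multiset.card_le_card hA
      rw [Multiset.card_add, Multiset.card_map, Multiset.card_nsmul, OrthExpo.card_orbit, hord] at hc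
      rw [hJ, hih]
      linarith
  · have hdvd : i ∣ r - 1 := by
      rw [← hiu, ← ZMod.card_units r]
      exact orderOf_dvd_card
    obtain ⟨M, hMF, hM0, hMc, hMA⟩ := exists_worst (OrthExpo.uu uq) (d := i) (hord.trans hih.symm)
      (Nat.mul_div_cancel' hdvd) s
    refine ⟨M, hMF, hM0, hMc.trans (by rw [hih, mul_assoc]), fun A hA hle => ?_⟩
    have hneg : A.map ((-1 : ZMod r) * ·) = A := by
      have h1 := hA.pow h
      rwa [OrthExpo.pow_half (show orderOf uq = 2 * h by rw [hiu, hih])] at h1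
    rw [hneg] at hle
    rw [hJ]
    exact hMA A hle

include P in
/-- The criterion in even dimension. -/
theorem Steps.forall_singular_iff {i : ℕ} {J : ℕ → ℕ} (S : Steps F r h i J)
    (hQ : (polarBilin Q).Nondegenerate) {d : ℕ} {εV : ℤ} (hεV : εV = 1 ∨ εV = -1)
    (hV : HasType Q (⊤ : Submodule F V) d εV) (m : ℕ) :
    (∀ g : Module.End F V, g ^ r = 1 → (∀ x, Q (g x) = Q x) → g ≠ 1 →
      ∃ W : Submodule F V, finrank F W = m ∧ Ts Q W ∧ ∀ w ∈ W, g w ∈ W) ↔
    ∀ s, AdmEven d h η εV s → SingRoomEven d m h i J η εV s := by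
  have hn : finrank F V = 2 * d := (hasType_top_iff.1 hV).1
  have hsq : ∀ s : ℕ, η ^ s * η ^ s = 1 := fun s => by rcases P.eta_pow s with e | e <;> rw [e] <;> rfl
  have hfixT : ∀ {g : Module.End F V} {s : ℕ}, g ^ r = 1 → (∀ x, Q (g x) = Q x) →
      HasType Q (movIn g ⊤) (h * s) (η ^ s) → Nd Q (fixIn g (⊤ : Submodule F V)) ∧
        HasType Q (fixIn g (⊤ : Submodule F V)) (d - h * s) (εV * η ^ s) := fun {g} {s} hg hgQ hs => by
    obtain ⟨hfN, hmN, -, -, -, -, -⟩ := decomp P.ne_zero hg hgQ (U := ⊤) (fun _ _ => trivial) (nd_top hQ)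
    obtain ⟨s', -, -, hperp, -, -⟩ := whole_shape P hQ hg hgQ
    exact ⟨hfN, hperp ▸ HasType.perp hQ hmN (P.eta_pow s) hV hs⟩
  have hsgn : ∀ s : ℕ, εV * η ^ s = 1 ∨ εV * η ^ s = -1 := fun s => by
    rcases hεV with rfl | rfl <;> rcases P.eta_pow s with e | e <;> rw [e] <;> norm_num
  have hone : ∀ s : ℕ, εV * η ^ s = 1 ↔ εV = η ^ s := fun s => by
    rcases hεV with rfl | rfl <;> rcases P.eta_pow s with e | e <;> rw [e] <;> norm_num
  constructor
  · intro H s hs
    obtain ⟨uq, huq, hord⟩ := P.order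
    rw [Nat.card_eq_fintype_card] at huq
    obtain ⟨ζ, hζ⟩ := exists_root P
    obtain ⟨M, hMF, hM0, hMc, hMA⟩ := Steps.exists_exponents P S s huq hord
    obtain ⟨U, hUN, hUT⟩ := hasType_blocks_le P hQ hεV hV hs.2
    obtain ⟨g, hg, hgQ, hfix, hmov, hexp⟩ := exists_elt_expo P huq hord hζ hUN hUT hMF hM0 hMc
    have hg1 : g ≠ 1 := by
      rintro rfl
      have h0 : movIn (1 : Module.End F V) (⊤ : Submodule F V) = ⊥ := by simp [movIn]
      rw [h0] at hmov
      have := hUT.1
      rw [← hmov, finrank_bot] at this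
      have := Nat.mul_pos P.pos hs.1
      omega
    obtain ⟨W, hWd, hWT, hWi⟩ := H g hg hgQ hg1
    obtain ⟨hfN, hfT⟩ := hfixT hg hgQ (hmov ▸ hUT)
    obtain ⟨-, -, -, -, -, hmi, hfree⟩ := decomp P.ne_zero hg hgQ (U := ⊤) (fun _ _ => trivial) (nd_top hQ)
    rw [hmov] at hmi hfree
    have hA := singular_le_type hfN (hsgn s) hfT (inf_le_right : W ⊓ fixIn g ⊤ ≤ _) (hWT.mono inf_le_left)
    have hsum := finrank_invariant_le P.ne_zero hg hWi
    rw [hmov] at hsum
    set B := W ⊓ U
    have hBi : ∀ w ∈ B, g w ∈ B := fun w hw => ⟨hWi w hw.1, hmi w hw.2⟩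
    obtain ⟨hgr, hgQ'⟩ := restrict_data (g := g) hg hgQ hmi
    obtain ⟨A, hAc, hAq, hAM⟩ := exists_expo_singular P.ne_zero hζ (nd_iff_res.1 hUN) hgr hgQ' (hexp hmi)
      (W := B.comap U.subtype) (fun w hw => hBi _ hw) (fun w hw => hWT _ hw.1)
    rw [(Submodule.comapSubtypeEquivOfLe (inf_le_right : B ≤ U)).finrank_eq] at hAc
    rw [← huq] at hAq
    have hb := hMA A hAq hAM
    obtain ⟨j, hj⟩ := SubFix.dvd_finrank_of_free hg (A := B) hBi fun v hv => hfree v hv.2
    rw [Nat.card_eq_fintype_card, S.order] at hj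
    have hipos : 0 < i := by
      rcases S.shape with ⟨e, -, -⟩ | ⟨e, -⟩ <;> rw [e] <;> have := P.pos <;> omega
    rw [hAc, hj] at hb
    have hBW : finrank F B ≤ finrank F W := Submodule.finrank_mono inf_le_left
    refine ⟨j, Nat.le_of_mul_le_mul_left hb hipos, by omega, ?_⟩
    have hsd : h * s ≤ d := by rcases hs.2 with e | ⟨e, -⟩ <;> omega
    rcases lt_or_eq_of_le (show m + h * s ≤ i * j + d by omega) with hlt | heq
    · exact Or.inl hlt
    · exact Or.inr ⟨heq, (hone s).1 (hA.2 (by omega))⟩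
  · intro H g hg hgQ hg1
    obtain ⟨s, hadm, hs, hfix⟩ := adm_of_element P hQ hεV hV hg hgQ hg1
    obtain ⟨j, hjJ, hjm, hroom⟩ := H s hadm
    obtain ⟨-, hUN, -, -, ho, hUi, hfree⟩ := decomp P.ne_zero hg hgQ (U := ⊤) (fun _ _ => trivial) (nd_top hQ)
    obtain ⟨W, hWU, hWi, hWT, hWd⟩ := Steps.exists_moved_singular P S hg hgQ hUi hUN hfree hs.1 hjJ
    obtain ⟨hfN, hfT⟩ := hfixT hg hgQ hs
    obtain ⟨A, hA, hAd, hAT⟩ := exists_singular_type hfN (hsgn s) hfT (k := m - i * j) (by
      rcases hroom with h1 | ⟨h1, h2⟩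
      · exact Or.inl (by omega)
      · exact Or.inr ⟨by omega, (hone s).2 h2⟩)
    have hdisj : Disjoint A W := (disjoint_of_orth hfN ho).mono hA hWU
    refine ⟨A ⊔ W, ?_, hAT.sup hWT fun a ha c hc => ho a (hA ha) c (hWU hc), fun w hw => ?_⟩
    · have h := Submodule.finrank_sup_add_finrank_inf_eq A W
      rw [hdisj.eq_bot, finrank_bot, hAd, hWd] at h
      omega
    · obtain ⟨a, ha, b, hb, rfl⟩ := Submodule.mem_sup.1 hw
      rw [map_add, (mem_fixIn.1 (hA ha)).2]
      exact Submodule.add_mem_sup ha (hWi b hb)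

include P in
/-- With room in a small fixed space, `r` does not divide the number of subspaces. -/
theorem not_dvd_card_singular_even (hQ : (polarBilin Q).Nondegenerate) {d : ℕ} (hd : 0 < d) {εV : ℤ}
    (hεV : εV = 1 ∨ εV = -1) (hV : HasType Q (⊤ : Submodule F V) d εV) {m : ℕ}
    (hmi : m < orderOf ((Nat.card F : ℕ) : ZMod r))
    (hfit : m < minFix d h η εV ∨
      (m = minFix d h η εV ∧ ∀ S, h * S + minFix d h η εV = d → εV = η ^ S)) :
    ¬ r ∣ Nat.card {W : Submodule F V // finrank F W = m ∧ Ts Q W} := by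
  obtain ⟨g, S, εU, hg, hgQ, hmov, hS, hεU, hεUeq, hfT, hsmall⟩ := exists_min_element P hQ hd hεV hV
  have hfN := (decomp P.ne_zero hg hgQ (U := ⊤) (fun _ _ => trivial) (nd_top hQ)).1
  refine not_dvd_card P hg (U := fixIn g ⊤) (fun u hu => (mem_fixIn.1 hu).2) hfN hsmall _
    (fun W hW => ?_) (fun W hW hWg => ?_) ?_ (fun W W' _ _ hW hW' => ?_) (fun e he W hle hW => ?_)
  · have hbij : Function.Injective g := fun a b hab => by
      have := congrArg (g ^ (r - 1)) hab
      rwa [← Module.End.mul_apply, ← Module.End.mul_apply, ← pow_succ, Nat.sub_add_cancel hr.out.one_le, hg,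
        Module.End.one_apply, Module.End.one_apply] at this
    refine ⟨by rw [← (Submodule.equivMapOfInjective g hbij W).finrank_eq]; exact hW.1, ?_⟩
    rintro _ ⟨w, hw, rfl⟩
    rw [hgQ]; exact hW.2 w hw
  · have hinv : ∀ w ∈ W, g w ∈ W := fun w hw => hWg ▸ Submodule.mem_map_of_mem hw
    obtain ⟨l, hl⟩ := SubFix.finrank_split hg P.ne_zero (A := W) hinv
    rw [hW.1] at hl
    obtain rfl : l = 0 := by
      by_contra hl0
      have h1 : orderOf ((Nat.card F : ℕ) : ZMod r) ≤ l * orderOf ((Nat.card F : ℕ) : ZMod r) :=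
        Nat.le_mul_of_pos_left _ (Nat.pos_of_ne_zero hl0)
      omega
    rw [zero_mul, add_zero] at hl
    intro w hw
    have he : W ⊓ LinearMap.ker (g - 1) = W :=
      Submodule.eq_of_le_of_finrank_le inf_le_left (by rw [hW.1, ← hl])
    rw [← he] at hw
    exact mem_fixIn.2 ⟨trivial, sub_eq_zero.1 (by simpa using hw.2)⟩
  · obtain ⟨W, hle, hWd, hWT⟩ := exists_singular_type hfN hεU hfT (k := m) (by
      rcases hfit with h1 | ⟨h1, h1'⟩
      · exact Or.inl h1
      · refine Or.inr ⟨h1, ?_⟩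
        rw [hεUeq, h1' S hS]
        rcases P.eta_pow S with e | e <;> rw [e] <;> rfl)
    exact ⟨W, hle, hWd, hWT⟩
  · exact ⟨LinearEquiv.ofFinrankEq W W' (by rw [hW.1, hW'.1]), fun w => by
      rw [hW.2 _ w.2, hW'.2 _ (LinearEquiv.ofFinrankEq W W' (by rw [hW.1, hW'.1]) w).2]⟩
  · refine ⟨?_, ?_⟩
    · rw [← (Submodule.equivMapOfInjective ((fixIn g (⊤ : Submodule F V)).subtype ∘ₗ e.toLinearMap)
        (Subtype.val_injective.comp e.injective) _).finrank_eq, (Submodule.comapSubtypeEquivOfLe hle).finrank_eq,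
        hW.1]
    · rintro _ ⟨x, hx, rfl⟩
      show Q (e x : V) = 0
      have := he x
      rw [res_apply, res_apply] at this
      rw [this]; exact hW.2 _ hx

/-- The arithmetic for steps of twice the block size. -/
theorem sing_room_twice {d m h t E S : ℕ} (hh : 0 < h) (hm : 1 ≤ m) (hmd : m < d) (ht : 1 ≤ t)
    (hS : h * S + E = d) (hE : E ≤ h) (hEh : E = h → Even S) (hE0 : E = 0 → Even S)
    (hex : ¬ (m < 2 * h ∧ (m < E ∨ (m = E ∧ Even S)))) :
    (∀ s, AdmEven d h (-1) 1 s → SingRoomEven d m h (2 * h) (fun s => (s + 1 - t) / 2) (-1) 1 s) ↔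
      2 * h ≤ m ∧ t + 2 * (m / (2 * h)) ≤ S ∧ (m % (2 * h) < E ∨ (m % (2 * h) = E ∧ Even S)) := by
  have hl := Nat.div_add_mod m (2 * h)
  have hlm := Nat.mod_lt m (show 2 * h > 0 by omega)
  set M := m / (2 * h)
  set l := m % (2 * h)
  have hev : ∀ n : ℕ, (1 : ℤ) = (-1) ^ n ↔ Even n := fun n => by
    rw [eq_comm]; exact neg_one_pow_eq_one_iff_even (by norm_num)
  have hM : M = 0 ∧ m = l ∨ 1 ≤ M ∧ 2 * h ≤ m := by
    rcases Nat.eq_zero_or_pos M with h0 | h0
    · left; rw [h0, Nat.mul_zero] at hl; omega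
    · right; have := Nat.le_mul_of_pos_right (2 * h) h0; omega
  constructor
  · intro H
    have hS1 : 1 ≤ S := by
      by_contra h0
      have hS0 : S = 0 := by omega
      rw [hS0, Nat.mul_zero] at hS
      exact hex ⟨by omega, Or.inl (by omega)⟩
    obtain ⟨j, hjJ, hjm, hroom⟩ := H S ⟨hS1, by
      rcases Nat.eq_zero_or_pos E with h0 | h0
      · exact Or.inr ⟨by omega, (hev S).2 (hE0 h0)⟩
      · exact Or.inl (by omega)⟩
    simp only [hev] at hroom hjJ
    have hjM : j ≤ M := (Nat.le_div_iff_mul_le (by omega)).2 (by rwa [mul_comm])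
    have hj : j = M := by
      by_contra hne
      have h1 : 2 * h * (j + 1) ≤ 2 * h * M := Nat.mul_le_mul_left _ (by omega)
      rw [mul_add, mul_one] at h1
      rcases hroom with h2 | ⟨h2, -⟩ <;> omega
    subst hj
    have hlE : l < E ∨ (l = E ∧ Even S) := by
      rcases hroom with h2 | ⟨h2, h3⟩
      · exact Or.inl (by omega)
      · exact Or.inr ⟨by omega, h3⟩
    obtain ⟨hM1, hhm⟩ : 1 ≤ M ∧ 2 * h ≤ m := by
      rcases hM with ⟨-, hml⟩ | h1
      · exact absurd ⟨by omega, by rw [hml]; exact hlE⟩ hex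
      · exact h1
    refine ⟨hhm, ?_, hlE⟩
    by_contra hlt
    have hts : t + 2 * M = S + 1 := by omega
    obtain ⟨S', rfl⟩ : ∃ S', S = S' + 1 := ⟨S - 1, by omega⟩
    rw [mul_add, mul_one] at hS
    obtain ⟨k, hkJ, hkm, hk⟩ := H S' ⟨by omega, Or.inl (by omega)⟩
    simp only [hev] at hk hkJ
    have h2 : 2 * h * (k + 1) ≤ 2 * h * M := Nat.mul_le_mul_left _ (by omega)
    rw [mul_add, mul_one] at h2
    rcases hk with hk | ⟨hk, hk'⟩
    · omega
    · have hEh' := hEh (by omega)
      rw [Nat.even_add_one] at hEh'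
      exact hEh' hk'
  · rintro ⟨hhm, hN, hlE⟩ s ⟨hs, hsd⟩
    simp only [hev] at hsd
    simp only [SingRoomEven, hev]
    have hsS : s ≤ S := by
      by_contra hc
      have h1 : h * (S + 1) ≤ h * s := Nat.mul_le_mul_left h (not_le.1 hc)
      rw [mul_add, mul_one] at h1
      rcases hsd with h2 | ⟨h2, h3⟩
      · omega
      · have hEeq : E = h := by omega
        have : s = S + 1 := Nat.eq_of_mul_eq_mul_left hh (by rw [mul_add, mul_one]; omega)
        rw [this, Nat.even_add_one] at h3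
        exact h3 (hEh hEeq)
    set J := (s + 1 - t) / 2 with hJ
    obtain ⟨j, hjJ, hjm, hle, heq⟩ : ∃ j ≤ J, 2 * h * j ≤ 2 * h * M ∧ 2 * M + s ≤ 2 * j + S ∧
        (2 * M + s = 2 * j + S → (Even S → Even s)) := by
      rcases Nat.lt_or_ge J M with hlt | hge
      · exact ⟨J, le_rfl, Nat.mul_le_mul_left _ hlt.le, by omega, fun e he => by
          rw [Nat.even_iff] at he ⊢; omega⟩
      · exact ⟨M, hge, le_rfl, by omega, fun e he => by rw [Nat.even_iff] at he ⊢; omega⟩
    refine ⟨j, hjJ, by omega, ?_⟩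
    have h1 := Nat.mul_le_mul_left h hle
    rw [mul_add, mul_add, ← mul_assoc, ← mul_assoc, mul_comm h 2] at h1
    rcases hlE with hlt | ⟨hlE, hSe⟩
    · exact Or.inl (by omega)
    · rcases lt_or_eq_of_le hle with h2 | h2
      · have h3 := (Nat.mul_lt_mul_left hh).2 h2
        rw [mul_add, mul_add, ← mul_assoc, ← mul_assoc, mul_comm h 2] at h3
        exact Or.inl (by omega)
      · have h3 := congrArg (h * ·) h2
        simp only [mul_add, ← mul_assoc, mul_comm h 2] at h3
        exact Or.inr ⟨by omega, heq h2 hSe⟩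

end CfsgLib.Derangements.Sub
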