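import Mathlib
import Cfsg.Agent.Lib.Derangements.SubspaceEvenOdd

/-!
Elements of odd prime order fixing non-degenerate subspaces of even dimension and given type in even-dimensional
quadratic spaces, in any characteristic.
-/

set_option autoImplicit false
set_option linter.unusedSectionVars false
set_option linter.style.haveILetI false

namespace CfsgLib.Derangements.Sub

open Module QuadraticMap CfsgLib.Derangements
open scoped Matrix

universe u

variable {F : Type u} [Field F] [Finite F] [Fintype F] {V : Type u} [AddCommGroup V] [Module F V]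
  [FiniteDimensional F V] {Q : QuadraticForm F V} {r h : ℕ} {η : ℤ} [hr : Fact r.Prime]

/-- Room for a subspace of dimension `2 l` and type `ε` beside `s` blocks. -/
def RoomEll (d h l s : ℕ) (η εV ε : ℤ) : Prop :=
  ∃ k ≤ s, h * k ≤ l ∧ l + h * s ≤ d + h * k ∧ (h * k = l → ε = η ^ k) ∧
    (l + h * s = d + h * k → ε = εV * η ^ (s + k))

theorem hasType_fix (P : Params F r h η) (hQ : (polarBilin Q).Nondegenerate) {d : ℕ} {εV : ℤ}
    (hV : HasType Q (⊤ : Submodule F V) d εV) {g : Module.End F V} (hg : g ^ r = 1) (hgQ : ∀ x, Q (g x) = Q x)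
    {s : ℕ} (hs : HasType Q (movIn g ⊤) (h * s) (η ^ s)) :
    HasType Q (fixIn g ⊤) (d - h * s) (εV * η ^ s) := by
  obtain ⟨s', hs', -, hperp, -, -⟩ := whole_shape P hQ hg hgQ
  rw [← hperp]
  exact HasType.perp hQ (decomp P.ne_zero hg hgQ (U := ⊤) (fun _ _ => trivial) (nd_top hQ)).2.1 (P.eta_pow s) hV hs

theorem invariant_ee_iff (P : Params F r h η) (hQ : (polarBilin Q).Nondegenerate) {d : ℕ} {εV : ℤ}
    (hεV : εV = 1 ∨ εV = -1) (hV : HasType Q (⊤ : Submodule F V) d εV) {g : Module.End F V} (hg : g ^ r = 1)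
    (hgQ : ∀ x, Q (g x) = Q x) {s : ℕ} (hs : HasType Q (movIn g ⊤) (h * s) (η ^ s))
    (hfix : finrank F (fixIn g ⊤) + 2 * (h * s) = 2 * d) {l : ℕ} {ε : ℤ} (hε : ε = 1 ∨ ε = -1) :
    (∃ W : Submodule F V, (Nd Q W ∧ HasType Q W l ε) ∧ ∀ w ∈ W, g w ∈ W) ↔ RoomEll d h l s η εV ε := by
  have hfT := hasType_fix P hQ hV hg hgQ hs
  have hfN := (decomp P.ne_zero hg hgQ (U := ⊤) (fun _ _ => trivial) (nd_top hQ)).1
  have hsq : ∀ k : ℕ, η ^ k * η ^ k = 1 := fun k => by rcases P.eta_pow k with e | e <;> rw [e] <;> norm_num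
  constructor
  · rintro ⟨W, ⟨hWN, hWT⟩, hWi⟩
    obtain ⟨k, hk, hfWN, hfle, hmN, hmT, hsup, ho, hdim⟩ := invariant_shape P hQ hg hgQ hWi hWN hs.1
    have hle := Submodule.finrank_mono hfle
    rw [hWT.1] at hdim
    rw [hfT.1] at hle
    refine ⟨k, hk, by omega, by omega, fun hkl => ?_, fun hkd => ?_⟩
    · have h0 : fixIn g W = ⊥ := Submodule.finrank_eq_zero.1 (by rw [hkl] at hdim; omega)
      have e : movIn g W = W := by conv_rhs => rw [← hsup, h0, bot_sup_eq]
      rw [e] at hmT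
      exact (hWT.unique hmT).2
    · have e : fixIn g W = fixIn g (⊤ : Submodule F V) :=
        Submodule.eq_of_le_of_finrank_le hfle (by rw [hfT.1]; omega)
      rw [e] at hsup ho
      have h' := hfT.sup hfN ho hmT
      rw [hsup] at h'
      rw [(hWT.unique h').2, pow_add]
      ring
  · rintro ⟨k, hk, hkl, hle, ht1, ht2⟩
    obtain ⟨A, hA, hAN, hAT⟩ : ∃ A ≤ fixIn g (⊤ : Submodule F V), Nd Q A ∧ HasType Q A (l - h * k) (ε * η ^ k) := by
      rcases eq_or_lt_of_le hkl with he | hlt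
      · refine ⟨⊥, bot_le, nd_bot, ?_⟩
        rw [he, Nat.sub_self, ht1 he, hsq]
        exact hasType_bot Q
      rcases eq_or_lt_of_le hle with he | hlt'
      · refine ⟨fixIn g ⊤, le_rfl, hfN, ?_⟩
        rw [show l - h * k = d - h * s by omega, ht2 he, pow_add, mul_assoc, mul_assoc, hsq, mul_one]
        exact hfT
      · exact exists_le_type hfN (by rcases hεV with rfl | rfl <;> rcases P.eta_pow s with e | e <;> rw [e] <;> norm_num)
          hfT (by omega) (by omega) (by rcases hε with rfl | rfl <;> rcases P.eta_pow k with e | e <;> rw [e] <;> norm_num)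
    obtain ⟨B, hBN, hBT, hab, hN, hinv⟩ := exists_invariant P hQ hg hgQ hAN hA hs.1 hk
    refine ⟨A ⊔ B, ⟨hN, ?_⟩, hinv⟩
    have h' := hAT.sup hAN hab hBT
    rwa [Nat.sub_add_cancel hkl, mul_assoc, hsq, mul_one] at h'

theorem forall_ee_iff (P : Params F r h η) (hQ : (polarBilin Q).Nondegenerate) {d : ℕ} {εV : ℤ}
    (hεV : εV = 1 ∨ εV = -1) (hV : HasType Q (⊤ : Submodule F V) d εV) {l : ℕ} {ε : ℤ} (hε : ε = 1 ∨ ε = -1) :
    (∀ g : Module.End F V, g ^ r = 1 → (∀ x, Q (g x) = Q x) → g ≠ 1 →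
      ∃ W : Submodule F V, (Nd Q W ∧ HasType Q W l ε) ∧ ∀ w ∈ W, g w ∈ W) ↔
    ∀ s, AdmEven d h η εV s → RoomEll d h l s η εV ε := by
  constructor
  · intro H s hs
    obtain ⟨g, hg, hgQ, hg1, hmov, hfix⟩ := element_of_adm P hQ hεV hV hs
    exact (invariant_ee_iff P hQ hεV hV hg hgQ hmov hfix hε).1 (H g hg hgQ hg1)
  · intro H g hg hgQ hg1
    obtain ⟨s, hadm, hs, hfix⟩ := adm_of_element P hQ hεV hV hg hgQ hg1
    exact (invariant_ee_iff P hQ hεV hV hg hgQ hs hfix hε).2 (H s hadm)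

/-- Subspaces too small for a block but fitting in the smallest fixed space. -/
def ExclEE (d h l : ℕ) (η εV ε : ℤ) : Prop :=
  l < h ∧ ∀ S, h * S + minFix d h η εV = d →
    (l < minFix d h η εV ∨ (l = minFix d h η εV ∧ ε = εV * η ^ S))

theorem not_dvd_card_ee (P : Params F r h η) (hQ : (polarBilin Q).Nondegenerate) {d : ℕ} (hd : 0 < d) {εV : ℤ}
    (hεV : εV = 1 ∨ εV = -1) (hV : HasType Q (⊤ : Submodule F V) d εV) {l : ℕ} (hl : 1 ≤ l) {ε : ℤ}
    (hε : ε = 1 ∨ ε = -1) (hex : ExclEE d h l η εV ε) :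
    ¬ r ∣ Nat.card {W : Submodule F V // Nd Q W ∧ HasType Q W l ε} := by
  obtain ⟨g, S, εU, hg, hgQ, hmov, hS, hεU, hεUe, hfT, hsmall⟩ := exists_min_element P hQ hd hεV hV
  obtain ⟨hlh, hroom⟩ := hex
  have hroom' := hroom S hS
  rw [← hεUe] at hroom'
  have hbij : Function.Injective g := fun a b hab => by
    have := congrArg (g ^ (r - 1)) hab
    rwa [← Module.End.mul_apply, ← Module.End.mul_apply, ← pow_succ, Nat.sub_add_cancel hr.out.one_le, hg,
      Module.End.one_apply, Module.End.one_apply] at this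
  have hfN := (decomp P.ne_zero hg hgQ (U := ⊤) (fun _ _ => trivial) (nd_top hQ)).1
  refine not_dvd_card P hg (U := fixIn g ⊤) (fun u hu => (mem_fixIn.1 hu).2) hfN hsmall _
    (fun W hW => ?_) (fun W hW hWg => ?_) ?_ (fun W W' _ _ hW hW' => ?_) (fun e he W hle hW => ?_)
  · obtain ⟨h1, h2'⟩ := hasType_map (Q := Q) (Q' := Q) g hbij hgQ (W := W)
    exact ⟨h1 hW.1, h2' _ _ hW.2⟩
  · have hinv : ∀ w ∈ W, g w ∈ W := fun w hw => hWg ▸ Submodule.mem_map_of_mem hw
    obtain ⟨k, -, -, hfle, -, -, -, -, hdim⟩ := invariant_shape P hQ hg hgQ hinv hW.1 hmov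
    rw [hW.2.1] at hdim
    obtain rfl : k = 0 := by
      by_contra hk
      have : h ≤ h * k := Nat.le_mul_of_pos_right _ (Nat.pos_of_ne_zero hk)
      omega
    rw [← Submodule.eq_of_le_of_finrank_le (inf_le_left : fixIn g W ≤ W) (by
      show finrank F W ≤ finrank F (fixIn g W)
      rw [hW.2.1]; omega)]
    exact hfle
  · rcases hroom' with hlt | ⟨he, hεe⟩
    · obtain ⟨W, hle, hWN, hWT⟩ := exists_le_type hfN hεU hfT hl hlt hε
      exact ⟨W, hle, hWN, hWT⟩
    · exact ⟨fixIn g ⊤, le_rfl, hfN, by rw [he, hεe]; exact hfT⟩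
  · obtain ⟨e, he⟩ := OrthType.exists_isometry (m := l) hW.2.1 hW'.2.1 (nd_iff_res.1 hW.1) (nd_iff_res.1 hW'.1)
      hW.2.2 hW'.2.2
    exact ⟨e, he⟩
  · obtain ⟨h1, h2'⟩ := hasType_map (Q := res Q (fixIn g ⊤)) (Q' := Q)
      ((fixIn g (⊤ : Submodule F V)).subtype ∘ₗ e.toLinearMap) (Subtype.val_injective.comp e.injective)
      (fun x => he x) (W := W.comap (fixIn g (⊤ : Submodule F V)).subtype)
    let j := Submodule.comapSubtypeEquivOfLe hle
    have hN : Nd (res Q (fixIn g (⊤ : Submodule F V))) (W.comap (fixIn g (⊤ : Submodule F V)).subtype) :=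
      fun u hu h => Subtype.ext (hW.1 u hu fun w hw => h ⟨w, hle hw⟩ hw)
    exact ⟨h1 hN, h2' _ _ ⟨by rw [j.finrank_eq, hW.2.1], hW.2.2.congr j.symm fun x => rfl⟩⟩

omit hr [Fintype F] in
/-- The arithmetic. -/
theorem room_ee_arith {d h l : ℕ} {η εV ε : ℤ} (hη : η = 1 ∨ η = -1) (hεV : εV = 1 ∨ εV = -1)
    (hε : ε = 1 ∨ ε = -1) (hh : 0 < h) (hl1 : 1 ≤ l) (hld : l < d) (hex : ¬ ExclEE d h l η εV ε) :
    (∀ s, AdmEven d h η εV s → RoomEll d h l s η εV ε) ↔
      (d % h = 0 ∧ εV ≠ η ^ (d / h)) ∨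
      (h ≤ l ∧ ((0 < l % h ∧ (l % h < d % h ∨ (l % h = d % h ∧ ε = εV * η ^ (d / h + l / h)))) ∨
        (l % h = 0 ∧ ε = η ^ (l / h)))) := by
  classical
  have hl := Nat.div_add_mod l h
  have hlm := Nat.mod_lt l hh
  have hdh := Nat.div_add_mod d h
  have hdm := Nat.mod_lt d hh
  have hpm : ∀ k : ℕ, η ^ k = 1 ∨ η ^ k = -1 := fun k => by
    rcases hη with rfl | rfl
    · exact Or.inl (one_pow k)
    · exact neg_one_pow_eq_or ℤ k
  have hsq : ∀ k : ℕ, η ^ k * η ^ k = 1 := fun k => by rcases hpm k with e | e <;> rw [e] <;> norm_num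
  have hkA : ∀ k, h * k ≤ l → k ≤ l / h := fun k hk => (Nat.le_div_iff_mul_le hh).2 (by rwa [mul_comm])
  have hA1 : l % h = 0 → 1 ≤ l / h := fun h0 => Nat.pos_of_ne_zero fun h1 => by
    rw [h1, Nat.mul_zero] at hl; omega
  constructor
  · intro H
    by_contra hcon
    push Not at hcon
    obtain ⟨hne, hform⟩ := hcon
    have hmE : minFix d h η εV = d % h := by
      unfold minFix; rw [if_neg fun hc => hc.2 (hne hc.1)]
    rcases Nat.eq_zero_or_pos (d / h) with hD | hD
    · rw [hD, Nat.mul_zero] at hdh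
      exact hex ⟨by omega, fun S _ => Or.inl (by omega)⟩
    obtain ⟨k, hk, hkl, hle, ht1, ht2⟩ := H (d / h) ⟨hD, by
      rcases Nat.eq_zero_or_pos (d % h) with h0 | h0
      · exact Or.inr ⟨by omega, hne h0⟩
      · exact Or.inl (by omega)⟩
    obtain rfl : k = l / h := by
      by_contra hkne
      have := hkA k hkl
      have h1 : h * (k + 1) ≤ h * (l / h) := Nat.mul_le_mul_left h (by omega)
      rw [mul_add, mul_one] at h1
      omega
    rcases Nat.eq_zero_or_pos (l % h) with h0 | h0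
    · have := hA1 h0
      have h1 : h ≤ h * (l / h) := Nat.le_mul_of_pos_right _ this
      exact (hform (by omega)).2 h0 (ht1 (by omega))
    · rcases Nat.eq_zero_or_pos (l / h) with hA | hA
      · rw [hA, Nat.mul_zero] at hl hle ht2
        refine hex ⟨by omega, fun S hS => ?_⟩
        rw [hmE] at hS ⊢
        rcases lt_or_ge l (d % h) with hlt | hge
        · exact Or.inl hlt
        · have hSD : S = d / h := Nat.eq_of_mul_eq_mul_left hh (by omega)
          refine Or.inr ⟨by omega, ?_⟩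
          rw [ht2 (by omega), hSD, add_zero]
      · have h1 : h ≤ h * (l / h) := Nat.le_mul_of_pos_right _ hA
        obtain ⟨hf1, hf2⟩ := (hform (by omega)).1 h0
        exact hf2 (by omega) (ht2 (by omega))
  · rintro hR s ⟨hs, hsd⟩
    rcases Nat.lt_or_ge s (l / h) with hlt | hge
    · have h1 : h * (s + 1) ≤ h * (l / h) := Nat.mul_le_mul_left h hlt
      rw [mul_add, mul_one] at h1
      exact ⟨s, le_rfl, by omega, by omega, fun e => by omega, fun e => by omega⟩
    have hsD : s ≤ d / h := (Nat.le_div_iff_mul_le hh).2 (by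
      rw [mul_comm]; rcases hsd with h1 | ⟨h1, -⟩ <;> omega)
    rcases hR with ⟨h0, hne⟩ | ⟨-, hR⟩
    · have hslt : s < d / h := lt_of_le_of_ne hsD fun e => by
        subst e
        rcases hsd with h1 | ⟨-, h2⟩
        · omega
        · exact hne h2
      have h1 : h * (s + 1) ≤ h * (d / h) := Nat.mul_le_mul_left h hslt
      rw [mul_add, mul_one] at h1
      by_cases hc : l % h = 0 ∧ ε ≠ η ^ (l / h)
      · obtain ⟨hl0, hεne⟩ := hc
        obtain ⟨a, ha⟩ : ∃ a, l / h = a + 1 := ⟨l / h - 1, by have := hA1 hl0; omega⟩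
        rw [ha, mul_add, mul_one] at hl
        refine ⟨a, by omega, by omega, by omega, fun e => by omega, fun e => ?_⟩
        have hsD' : s + 1 = d / h := Nat.eq_of_mul_eq_mul_left hh (by rw [mul_add, mul_one]; omega)
        have e1 : εV = -η ^ (d / h) := by
          rcases hεV with rfl | rfl <;> rcases hpm (d / h) with e | e <;> simp_all
        have e2 : ε = -η ^ (l / h) := by
          rcases hε with rfl | rfl <;> rcases hpm (l / h) with e | e <;> simp_all
        rw [e1, e2, ha, ← hsD', show η ^ (a + 1) = η ^ a * η from pow_succ η a,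
          show η ^ (s + 1) = η ^ s * η from pow_succ η s, pow_add]
        linear_combination (η ^ a * η) * hsq s
      · refine ⟨l / h, hge, by omega, by omega, fun e => ?_, fun e => by omega⟩
        by_contra hne'
        exact hc ⟨by omega, hne'⟩
    · have h1 : h * s ≤ h * (d / h) := Nat.mul_le_mul_left h hsD
      have hstrict : s < d / h → h * s + h ≤ h * (d / h) := fun hh' => by
        have h2 : h * (s + 1) ≤ h * (d / h) := Nat.mul_le_mul_left h hh'
        rwa [mul_add, mul_one] at h2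
      rcases hR with ⟨h0, hR⟩ | ⟨h0, hR⟩
      · refine ⟨l / h, hge, by omega, by omega, fun e => by omega, fun e => ?_⟩
        rcases eq_or_lt_of_le hsD with rfl | hslt
        · rcases hR with hR | ⟨-, hR⟩
          · omega
          · exact hR
        · have := hstrict hslt; omega
      · refine ⟨l / h, hge, by omega, by omega, fun _ => hR, fun e => ?_⟩
        rcases hsd with h2 | ⟨-, h2⟩
        · omega
        · rw [hR, h2, pow_add, ← mul_assoc, hsq, one_mul]

end CfsgLib.Derangements.Sub
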