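import Mathlib
import Cfsg.Agent.Lib.Derangements.SingularOdd
import Cfsg.Agent.Lib.Derangements.SubspaceEvenOdd
import Cfsg.Agent.Lib.Derangements.SubspaceElliptic

/-!
Minus-type variant: isometries of odd prime order fixing totally singular subspaces in even-dimensional quadratic spaces, in any
characteristic.
-/

set_option autoImplicit false
set_option linter.unusedSectionVars false
set_option linter.style.haveILetI false

namespace CfsgLib.Derangements.Sub

open Module QuadraticMap CfsgLib.Derangements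
open scoped Matrix

universe u

variable {F : Type u} [Field F] [Fintype F]

/-- Totally singular subspaces up to the Witt index. -/
theorem exists_singular_type_minus {ι : Type} [Fintype ι] {Q : QuadraticForm F (ι → F)} {U : Submodule F (ι → F)}
    (hU : Nd Q U) {E : ℕ} {ε : ℤ} (hε : ε = 1 ∨ ε = -1) (hT : HasType Q U E ε) {k : ℕ}
    (hk : k < E ∨ (k = E ∧ ε = 1)) : ∃ W ≤ U, finrank F W = k ∧ Ts Q W := by
  have plus : ∀ {U' : Submodule F (ι → F)}, Nd Q U' → HasType Q U' k 1 →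
      ∃ W ≤ U', finrank F W = k ∧ Ts Q W := by
    intro U' hN hT'
    obtain ⟨W, hW, hWs, hW2⟩ := (isPlusTypeOn_iff hN (Or.inl rfl) hT').2 rfl
    rw [hT'.1] at hW2
    exact ⟨W, hW, by omega, hWs⟩
  rcases hk with hlt | ⟨rfl, rfl⟩
  · rcases Nat.eq_zero_or_pos k with rfl | hk0
    · exact ⟨⊥, bot_le, finrank_bot _ _, ts_bot⟩
    obtain ⟨U', hU', hN, hT'⟩ := exists_le_type hU hε hT hk0 hlt (ε := 1) (Or.inl rfl)
    obtain ⟨W, hW, h⟩ := plus hN hT'
    exact ⟨W, hW.trans hU', h⟩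
  · exact plus hU hT

/-- The Witt index bounds totally singular subspaces. -/
theorem singular_le_type_minus {ι : Type} [Fintype ι] {Q : QuadraticForm F (ι → F)} {U : Submodule F (ι → F)}
    (hU : Nd Q U) {E : ℕ} {ε : ℤ} (hε : ε = 1 ∨ ε = -1) (hT : HasType Q U E ε) {W : Submodule F (ι → F)}
    (hWT : Ts Q W) (hWU : W ≤ U) : finrank F W < E ∨ (finrank F W = E ∧ ε = 1) := by
  have h := hWT.two_mul_le hU hWU
  rw [hT.1] at h
  rcases lt_or_eq_of_le (show finrank F W ≤ E by omega) with hlt | heq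
  · exact Or.inl hlt
  · exact Or.inr ⟨heq, (isPlusTypeOn_iff hU hε hT).1 ⟨W, hWU, hWT, by rw [hT.1, heq]⟩⟩

variable {r h : ℕ} {η : ℤ} [hr : Fact r.Prime] (P : Params F r h η)

/-- Room for a totally singular subspace of dimension `m`. -/
def SingEven (d m h i : ℕ) (J : ℕ → ℕ) (η εV : ℤ) : Prop :=
  ∀ s, AdmEven d h η εV s → ∃ j ≤ J s, i * j ≤ m ∧
    (m + h * s < i * j + d ∨ (m + h * s = i * j + d ∧ εV * η ^ s = 1))

variable {ι : Type} [Fintype ι] {Q : QuadraticForm F (ι → F)}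

include P in
/-- The lower bound. -/
theorem Steps.even_invariant {i : ℕ} {J : ℕ → ℕ} (S : Steps F r h i J) (hQ : (polarBilin Q).Nondegenerate) {d : ℕ}
    {εV : ℤ} (hεV : εV = 1 ∨ εV = -1) (hV : HasType Q (⊤ : Submodule F (ι → F)) d εV)
    {g : Module.End F (ι → F)} (hg : g ^ r = 1) (hgQ : ∀ x, Q (g x) = Q x) (hg1 : g ≠ 1) {m : ℕ}
    (H : SingEven d m h i J η εV) :
    ∃ W : Submodule F (ι → F), finrank F W = m ∧ Ts Q W ∧ ∀ w ∈ W, g w ∈ W := by
  obtain ⟨s, hadm, hs, hdim⟩ := adm_of_element P hQ hεV hV hg hgQ hg1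
  obtain ⟨j, hjJ, hj1, hj2⟩ := H s hadm
  obtain ⟨hfN, hUN, -, -, ho, hUi, hfree⟩ := decomp P.ne_zero hg hgQ (U := ⊤) (fun _ _ => trivial) (nd_top hQ)
  have hfT := hasType_fix P hQ hV hg hgQ hs
  have hεf : εV * η ^ s = 1 ∨ εV * η ^ s = -1 := by
    rcases hεV with rfl | rfl <;> rcases P.eta_pow s with e | e <;> rw [e] <;> norm_num
  have hord : orderOf ((Nat.card F : ℕ) : ZMod r) = i := by rw [Nat.card_eq_fintype_card]; exact S.order
  obtain ⟨W, hWU, hWi, hWT, hWd⟩ : ∃ W ≤ movIn g (⊤ : Submodule F (ι → F)),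
      (∀ w ∈ W, g w ∈ W) ∧ Ts Q W ∧ finrank F W = i * j := by
    rcases S.shape with ⟨rfl, -, hJ⟩ | ⟨rfl, hJ⟩
    · refine exists_moved P.ne_zero hg hgQ hUi hUN (b := 0)
        (fun C hC hCi hCN hC0 => exists_block_odd P hg hgQ hCi hCN (fun c hc => hfree c (hC hc)) hC0 hord) j
        fun j' hj' => ?_
      rw [hJ] at hjJ
      rw [hs.1, zero_add]
      have := (Nat.mul_lt_mul_left P.pos).2 (show j' < s by omega)
      omega
    · refine exists_moved P.ne_zero hg hgQ hUi hUN (b := r - 1) (fun C hC hCi hCN hC0 => ?_) j fun j' hj' => ?_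
      · obtain ⟨sC, hsC⟩ := exists_blocks P hg hgQ hCi hCN fun c hc => hfree c (hC hc)
        exact exists_block_even P hg hgQ hCi hCN (fun c hc => hfree c (hC hc)) hsC.1 (hsC.1 ▸ hC0)
      · rw [hJ] at hjJ
        rw [hs.1]
        have hdvd : 2 * h ∣ r - 1 := by
          rw [← hord]
          haveI := hr
          refine ZMod.orderOf_dvd_card_sub_one fun h0 => ?_
          rw [h0, orderOf_zero] at hord
          have := P.pos
          omega
        have ht := Nat.mul_div_cancel' hdvd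
        set t := (r - 1) / (2 * h)
        have hlt : t + 2 * j' < s := by omega
        have := (Nat.mul_lt_mul_left (show 0 < 2 * h by have := P.pos; omega)).2 hlt
        rw [mul_add, ht] at this
        have e1 : 2 * h * (2 * j') = 2 * (2 * h * j') := by ring
        have e2 : 2 * h * s = 2 * (h * s) := by ring
        omega
  have hsd : h * s ≤ d := by omega
  obtain ⟨A, hA, hAd, hAT⟩ := exists_singular_type_minus hfN hεf hfT (k := m - i * j) (by
    rcases hj2 with e | ⟨e, e'⟩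
    · exact Or.inl (by omega)
    · exact Or.inr ⟨by omega, e'⟩)
  have hdisj : Disjoint A W := (disjoint_of_orth hfN ho).mono hA hWU
  refine ⟨A ⊔ W, ?_, hAT.sup hWT fun a ha c hc => ho a (hA ha) c (hWU hc), fun w hw => ?_⟩
  · have h := Submodule.finrank_sup_add_finrank_inf_eq A W
    rw [hdisj.eq_bot, finrank_bot, hAd, hWd] at h
    omega
  · obtain ⟨a, ha, b, hb, rfl⟩ := Submodule.mem_sup.1 hw
    rw [map_add, (mem_fixIn.1 (hA ha)).2]
    exact Submodule.add_mem_sup ha (hWi b hb)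

include P in
/-- The exponents split into the fixed part and the moved part. -/
theorem expo_moved {V : Type u} [AddCommGroup V] [Module F V] [FiniteDimensional F V] {Q : QuadraticForm F V}
    {ζ : AlgebraicClosure F} (hζ : IsPrimitiveRoot ζ r) (hQ : (polarBilin Q).Nondegenerate) {g : Module.End F V}
    (hg : g ^ r = 1) (hgQ : ∀ x, Q (g x) = Q x) {M : Multiset (ZMod r)} (hM : OrthExpo.Expo ζ g M)
    (hi : ∀ b ∈ movIn g (⊤ : Submodule F V), g b ∈ movIn g (⊤ : Submodule F V)) :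
    ∃ M' : Multiset (ZMod r), (0 : ZMod r) ∉ M' ∧ OrthExpo.Expo ζ (g.restrict hi) M' ∧
      Multiset.replicate (finrank F (fixIn g (⊤ : Submodule F V))) 0 + M' = M := by
  classical
  obtain ⟨hfN, hmN, -, hsup, ho, -, hfree⟩ := decomp P.ne_zero hg hgQ (U := ⊤) (fun _ _ => trivial) (nd_top hQ)
  have hfi : ∀ a ∈ fixIn g (⊤ : Submodule F V), g a ∈ fixIn g (⊤ : Submodule F V) := fun a ha => by
    rw [(mem_fixIn.1 ha).2]; exact ha
  obtain ⟨M', hM'⟩ := OrthExpo.exists_expo hζ (restrict_pow hg hi)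
  have hfx : OrthExpo.Expo ζ (g.restrict hfi)
      (Multiset.replicate (finrank F (fixIn g (⊤ : Submodule F V))) (0 : ZMod r)) := by
    rw [show g.restrict hfi = 1 from LinearMap.ext fun a => Subtype.ext (mem_fixIn.1 a.2).2]
    exact OrthExpo.expo_one
  refine ⟨M', fun hmem => ?_, hM', hM.unique hζ ?_ |>.symm⟩
  · have hroot : (g.restrict hi).charpoly.IsRoot 1 := by
      refine Polynomial.IsRoot.of_map (f := algebraMap F (AlgebraicClosure F)) ?_ (algebraMap F _).injective
      rw [hM', map_one, Polynomial.IsRoot, CfsgLib.Classes.GUPrime.expPoly, Polynomial.eval_multiset_prod]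
      refine Multiset.prod_eq_zero (Multiset.mem_map.2 ⟨_, Multiset.mem_map_of_mem _ hmem, ?_⟩)
      simp
    obtain ⟨x, hx⟩ := ((Module.End.hasEigenvalue_iff_isRoot_charpoly _ _).2 hroot).exists_hasEigenvector
    exact hx.2 (Subtype.ext (hfree x x.2 (congrArg Subtype.val (hx.apply_eq_smul.trans (one_smul F x)))))
  · exact expo_split ⟨disjoint_of_orth hfN ho, codisjoint_iff.2 hsup⟩ hfi hi hfx hM'

include P in
/-- The upper bound: some isometry with `s` blocks allows no more. -/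
theorem Steps.even_elt {i : ℕ} {J : ℕ → ℕ} (S : Steps F r h i J) [DecidableEq ι]
    (hQ : (polarBilin Q).Nondegenerate) {d : ℕ} {εV : ℤ} (hεV : εV = 1 ∨ εV = -1)
    (hV : HasType Q (⊤ : Submodule F (ι → F)) d εV) {s : ℕ} (hadm : AdmEven d h η εV s) :
    ∃ g : Module.End F (ι → F), g ^ r = 1 ∧ (∀ x, Q (g x) = Q x) ∧ g ≠ 1 ∧
      ∀ W : Submodule F (ι → F), (∀ w ∈ W, g w ∈ W) → Ts Q W → ∃ j ≤ J s, i * j ≤ finrank F W ∧
        (finrank F W + h * s < i * j + d ∨ (finrank F W + h * s = i * j + d ∧ εV * η ^ s = 1)) := by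
  classical
  obtain ⟨uq, huq, hord⟩ := P.order
  rw [Nat.card_eq_fintype_card] at huq
  obtain ⟨ζ, hζ⟩ := exists_root P
  have hiu : orderOf uq = i := by rw [← S.order, ← huq, orderOf_units]
  -- the exponents
  obtain ⟨M, hMF, hM0, hMc, hMA⟩ : ∃ M : Multiset (ZMod r),
      OrthExpo.Fixes ((OrthExpo.uu uq : (ZMod r)ˣ) : ZMod r) M ∧ (0 : ZMod r) ∉ M ∧ M.card = 2 * (h * s) ∧
      ∀ A : Multiset (ZMod r), OrthExpo.Fixes (uq : ZMod r) A → (0 : ZMod r) ∉ A →
        A + A.map ((-1 : ZMod r) * ·) ≤ M → A.card ≤ i * J s := by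
    rcases S.shape with ⟨hih, -, hJ⟩ | ⟨hih, hJ⟩
    · refine ⟨s • OrthExpo.orbit (OrthExpo.uu uq) 1, fixes_nsmul (orbit_fixes _ one_ne_zero) s,
        fun hm => zero_not_mem_orbit _ one_ne_zero (Multiset.mem_of_mem_nsmul hm), ?_, fun A _ _ hA => ?_⟩
      · rw [Multiset.card_nsmul, OrthExpo.card_orbit, hord]; ring
      · have hc := Multiset.card_le_card hA
        rw [Multiset.card_add, Multiset.card_map, Multiset.card_nsmul, OrthExpo.card_orbit, hord] at hc
        rw [hJ, hih]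
        linarith
    · have hdvd : i ∣ r - 1 := by
        rw [← hiu, ← ZMod.card_units r]
        exact orderOf_dvd_card
      obtain ⟨M, hMF, hM0, hMc, hMA⟩ := exists_worst (OrthExpo.uu uq) (d := i) (hord.trans hih.symm)
        (Nat.mul_div_cancel' hdvd) s
      refine ⟨M, hMF, hM0, hMc.trans (by rw [hih, mul_assoc]), fun A hA _ hle => ?_⟩
      have hneg : A.map ((-1 : ZMod r) * ·) = A := by
        have h1 := hA.pow h
        rwa [OrthExpo.pow_half (show orderOf uq = 2 * h by rw [hiu, hih])] at h1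
      rw [hneg] at hle
      rw [hJ]
      exact hMA A hle
  have hsd : h * s ≤ d := by rcases hadm.2 with e | ⟨e, -⟩ <;> omega
  obtain ⟨hn, hD⟩ := hasType_top_iff.1 hV
  rw [Module.finrank_fintype_fun_eq_card] at hn
  set M₀ := M + Multiset.replicate (2 * d - 2 * (h * s)) (0 : ZMod r) with hM₀
  have hM₀c : M₀.card = Fintype.card ι := by
    rw [hM₀, Multiset.card_add, Multiset.card_replicate, hMc, hn]; omega
  have hcount : M₀.count 0 = 2 * d - 2 * (h * s) := by
    rw [hM₀, Multiset.count_add, Multiset.count_eq_zero.2 hM0, zero_add, Multiset.count_replicate_self]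
  obtain ⟨g, hg, hgQ, hgM⟩ :=
    (OrthExpo.realised_iff_even P.ne_two hζ hQ huq hn hεV hD M₀ hM₀c).2
      ⟨by rw [OrthExpo.Fixes, hM₀, Multiset.map_add, hMF, OrthExpo.fixes_replicate_zero], fun h0 => by
        rw [hcount] at h0
        have hsd' : d = h * s := by omega
        have hε : εV = η ^ s := by
          rcases hadm.2 with e | ⟨-, e⟩
          · omega
          · exact e
        rw [hε, hsd']
        push_cast
        rw [pow_mul, P.pow, ← mul_pow, ← Int.cast_mul,
          show η * η = 1 by rcases P.pm with rfl | rfl <;> rfl, Int.cast_one, one_pow]⟩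
  obtain ⟨hfN, hUN, -, -, ho, hUi, hfree⟩ := decomp P.ne_zero hg hgQ (U := ⊤) (fun _ _ => trivial) (nd_top hQ)
  obtain ⟨M', hM'0, hM', hsum⟩ := expo_moved P hζ hQ hg hgQ hgM hUi
  -- compare the parts without zero
  have hMM : M' = M := by
    have := congrArg (Multiset.filter (fun a => ¬ a = 0)) hsum
    rw [hM₀, Multiset.filter_add, Multiset.filter_add,
      Multiset.filter_eq_nil.2 (fun a ha => not_not.2 (Multiset.eq_of_mem_replicate ha)),
      Multiset.filter_eq_nil.2 (fun a ha => not_not.2 (Multiset.eq_of_mem_replicate ha)), zero_add, add_zero,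
      (Multiset.filter_eq_self (p := fun a => ¬ a = 0)).2 (fun a ha (e : a = 0) => hM'0 (e ▸ ha)),
      (Multiset.filter_eq_self (p := fun a => ¬ a = 0)).2 (fun a ha (e : a = 0) => hM0 (e ▸ ha))] at this
    exact this
  subst hMM
  obtain ⟨s', hs'⟩ := exists_blocks P hg hgQ hUi hUN hfree
  obtain rfl : s' = s := Nat.eq_of_mul_eq_mul_left P.pos (by
    have h1 := hM'.card
    rw [hMc, hs'.1] at h1
    omega)
  refine ⟨g, hg, hgQ, fun hg1 => ?_, fun W hW hWT => ?_⟩
  · have h0 : movIn g (⊤ : Submodule F (ι → F)) = ⊥ := by simp [movIn, hg1]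
    have h1 := hs'.1
    rw [h0, finrank_bot] at h1
    have := Nat.mul_pos P.pos hadm.1
    omega
  have hfT := hasType_fix P hQ hV hg hgQ hs'
  have hεf : εV * η ^ s' = 1 ∨ εV * η ^ s' = -1 := by
    rcases hεV with rfl | rfl <;> rcases P.eta_pow s' with e | e <;> rw [e] <;> norm_num
  -- the moved part
  set W' := movIn g W with hW'
  have hW'W : W' ≤ W := by rintro _ ⟨v, hv, rfl⟩; exact W.sub_mem (hW v hv) hv
  have hW'U : W' ≤ movIn g ⊤ := movIn_mono le_top
  obtain ⟨hgr, hgQ'⟩ := restrict_data (g := g) hg hgQ hUi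
  have hW'i : ∀ w ∈ W', g w ∈ W' := by
    rintro _ ⟨v, hv, rfl⟩
    exact ⟨g v, hW v hv, by simp⟩
  obtain ⟨A, hAc, hAq, hAM⟩ := exists_expo_singular P.ne_zero hζ (Q := res Q (movIn g ⊤)) (nd_iff_res.1 hUN) hgr
    hgQ' hM' (W := W'.comap (movIn g (⊤ : Submodule F (ι → F))).subtype) (fun w hw => hW'i _ hw)
    (fun w hw => hWT _ (hW'W hw))
  rw [(Submodule.comapSubtypeEquivOfLe hW'U).finrank_eq] at hAc
  rw [← huq] at hAq
  have hA0 : (0 : ZMod r) ∉ A := fun hm => hM'0 (Multiset.mem_of_le hAM (Multiset.mem_add.2 (Or.inl hm)))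
  obtain ⟨j, hj⟩ := OrthExpo.orderOf_dvd_card_of_fixes uq A hAq hA0
  rw [hiu] at hj
  have hb := hMA A hAq hA0 hAM
  rw [hj] at hb
  -- the dimensions
  have hsplit : finrank F (W.map (g - 1)) + finrank F (fixIn g W) = finrank F W := by
    have h := ((g - 1).domRestrict W).finrank_range_add_finrank_ker
    rwa [LinearMap.range_domRestrict, ← Submodule.finrank_map_subtype_eq W (LinearMap.ker ((g - 1).domRestrict W)),
      LinearMap.ker_domRestrict, Submodule.map_comap_subtype] at h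
  rw [show W.map (g - 1) = W' from rfl, ← hAc, hj] at hsplit
  refine ⟨j, Nat.le_of_mul_le_mul_left hb (by rw [← hiu]; exact orderOf_pos uq), by omega, ?_⟩
  rcases singular_le_type_minus (W := fixIn g W) hfN hεf hfT (hWT.mono (inf_le_left : fixIn g W ≤ W)) (fixIn_mono le_top : fixIn g W ≤ fixIn g ⊤) with
    e | ⟨e, e'⟩
  · exact Or.inl (by omega)
  · exact Or.inr ⟨by omega, e'⟩

include P in
/-- The criterion for endomorphisms. -/
theorem Steps.even_main {i : ℕ} {J : ℕ → ℕ} (S : Steps F r h i J) [DecidableEq ι]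
    (hQ : (polarBilin Q).Nondegenerate) {d : ℕ} {εV : ℤ} (hεV : εV = 1 ∨ εV = -1)
    (hV : HasType Q (⊤ : Submodule F (ι → F)) d εV) (m : ℕ) :
    (∀ g : Module.End F (ι → F), g ^ r = 1 → (∀ x, Q (g x) = Q x) → g ≠ 1 →
      ∃ W : Submodule F (ι → F), (finrank F W = m ∧ Ts Q W) ∧ ∀ w ∈ W, g w ∈ W) ↔
    SingEven d m h i J η εV := by
  constructor
  · intro H s hs
    obtain ⟨g, hg, hgQ, hg1, hb⟩ := Steps.even_elt P S hQ hεV hV hs
    obtain ⟨W, ⟨hWd, hWT⟩, hWi⟩ := H g hg hgQ hg1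
    rw [← hWd]
    exact hb W hWi hWT
  · intro H g hg hgQ hg1
    obtain ⟨W, hWd, hWT, hWi⟩ := Steps.even_invariant P S hQ hεV hV hg hgQ hg1 H
    exact ⟨W, ⟨hWd, hWT⟩, hWi⟩

include P in
/-- With room in a fixed space too small for a block, `r` does not divide the number of subspaces. -/
theorem not_dvd_card_singular_even_minus (hQ : (polarBilin Q).Nondegenerate) {d : ℕ} (hd : 0 < d) {εV : ℤ}
    (hεV : εV = 1 ∨ εV = -1) (hV : HasType Q (⊤ : Submodule F (ι → F)) d εV) {m : ℕ}
    (hmi : m < orderOf ((Nat.card F : ℕ) : ZMod r))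
    (hroom : ∀ S, h * S + minFix d h η εV = d →
      (m < minFix d h η εV ∨ (m = minFix d h η εV ∧ εV * η ^ S = 1))) :
    ¬ r ∣ Nat.card {W : Submodule F (ι → F) // finrank F W = m ∧ Ts Q W} := by
  obtain ⟨g, S, εU, hg, hgQ, -, hS, hεU, hεUe, hfT, hsmall⟩ := exists_min_element P hQ hd hεV hV
  have hroom' := hroom S hS
  rw [← hεUe] at hroom'
  have hbij : Function.Injective g := fun a b hab => by
    have := congrArg (g ^ (r - 1)) hab
    rwa [← Module.End.mul_apply, ← Module.End.mul_apply, ← pow_succ, Nat.sub_add_cancel hr.out.one_le, hg,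
      Module.End.one_apply, Module.End.one_apply] at this
  have hfN := (decomp P.ne_zero hg hgQ (U := ⊤) (fun _ _ => trivial) (nd_top hQ)).1
  refine not_dvd_card P hg (U := fixIn g ⊤) (fun u hu => (mem_fixIn.1 hu).2) hfN hsmall _ (fun W hW => ?_)
    (fun W hW hWg => ?_) ?_ (fun W W' _ _ hW hW' => ?_) (fun e he W hle hW => ?_)
  · refine ⟨by rw [← (Submodule.equivMapOfInjective g hbij W).finrank_eq]; exact hW.1, ?_⟩
    rintro _ ⟨w, hw, rfl⟩
    rw [hgQ]; exact hW.2 w hw
  · have hinv : ∀ w ∈ W, g w ∈ W := fun w hw => hWg ▸ Submodule.mem_map_of_mem hw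
    obtain ⟨l, hl⟩ := SubFix.finrank_split hg P.ne_zero (A := W) hinv
    rw [hW.1] at hl
    obtain rfl : l = 0 := by
      by_contra hl0
      have h1 : orderOf ((Nat.card F : ℕ) : ZMod r) ≤ l * orderOf ((Nat.card F : ℕ) : ZMod r) :=
        Nat.le_mul_of_pos_left _ (Nat.pos_of_ne_zero hl0)
      omega
    rw [zero_mul, add_zero] at hl
    intro w hw
    have he : W ⊓ LinearMap.ker (g - 1) = W :=
      Submodule.eq_of_le_of_finrank_le inf_le_left (by rw [hW.1, ← hl])
    rw [← he] at hw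
    exact mem_fixIn.2 ⟨trivial, sub_eq_zero.1 (by simpa using hw.2)⟩
  · obtain ⟨W, hle, hWd, hWT⟩ := exists_singular_type_minus hfN hεU hfT hroom'
    exact ⟨W, hle, hWd, hWT⟩
  · exact ⟨LinearEquiv.ofFinrankEq W W' (by rw [hW.1, hW'.1]), fun w => by
      rw [hW.2 _ w.2, hW'.2 _ (LinearEquiv.ofFinrankEq W W' (by rw [hW.1, hW'.1]) w).2]⟩
  · refine ⟨?_, ?_⟩
    · rw [← (Submodule.equivMapOfInjective ((fixIn g (⊤ : Submodule F (ι → F))).subtype ∘ₗ e.toLinearMap)
        (Subtype.val_injective.comp e.injective) _).finrank_eq, (Submodule.comapSubtypeEquivOfLe hle).finrank_eq,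
        hW.1]
    · rintro _ ⟨x, hx, rfl⟩
      show Q (e x : ι → F) = 0
      have := he x
      rw [res_apply, res_apply] at this
      rw [this]; exact hW.2 _ hx

end CfsgLib.Derangements.Sub
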