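import Mathlib
import Cfsg.Agent.Lib.Derangements.SubspaceBridge
import Cfsg.Agent.Lib.Classes.OmegaOdd
import Cfsg.Agent.Lib.Classes.OmegaClasses

/-!
Isometries with square `-1`: the type of the space, the determinant and the spinor character.
-/

set_option autoImplicit false
set_option linter.unusedSectionVars false
set_option linter.style.haveILetI false

namespace CfsgLib.Derangements.Sub

open Module QuadraticMap CfsgLib.Derangements CfsgLib.OrthGen
open scoped Matrix

universe u

variable (F : Type u) [Field F]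

open scoped Classical in
/-- The type of a plane `x² + y²`. -/
noncomputable def sqNegOne : ℤ := if IsSquare (-1 : F) then 1 else -1

open scoped Classical in
/-- The spinor value of a quarter turn. -/
noncomputable def sqTwo : ℤˣ := if IsSquare (2 : F) then 1 else -1

variable {F}

theorem sqNegOne_cases : sqNegOne F = 1 ∨ sqNegOne F = -1 := by
  unfold sqNegOne; split_ifs <;> simp

variable [Finite F] {ι : Type} [Fintype ι] [DecidableEq ι] {Q : QuadraticForm F (ι → F)}

/-- The type of a plane spanned by two orthogonal vectors of one norm. -/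
theorem hasType_plane (h2 : (2 : F) ≠ 0) {v w : ι → F} (hv : Q v ≠ 0) (hvw : pf Q v w = 0) (hw : Q w = Q v) :
    Nd Q (Submodule.span F {v, w}) ∧ HasType Q (Submodule.span F {v, w}) 1 (sqNegOne F) := by
  classical
  have hQab : ∀ a b : F, Q (a • v + b • w) = (a * a + b * b) * Q v := fun a b => by
    rw [Q_add, Q_smul, Q_smul, pf, polar_smul_left, polar_smul_right, ← pf, hvw, hw]
    simp; ring
  have hN : Nd Q (Submodule.span F {v, w}) := by
    intro u hu h
    obtain ⟨a, b, rfl⟩ := Submodule.mem_span_pair.1 hu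
    have e1 := h v (Submodule.subset_span (by simp))
    have e2 := h w (Submodule.subset_span (by simp))
    rw [polar_add_left, polar_smul_left, polar_smul_left, ← pf, ← pf, pf_self, pf_comm Q w v, hvw] at e1
    rw [polar_add_left, polar_smul_left, polar_smul_left, ← pf, ← pf, pf_self, hvw, hw] at e2
    simp only [smul_eq_mul, mul_zero, add_zero, zero_add] at e1 e2
    have hne : (2 : F) * Q v ≠ 0 := mul_ne_zero h2 hv
    rw [(mul_eq_zero.1 e1).resolve_right hne, (mul_eq_zero.1 e2).resolve_right hne, zero_smul, zero_smul,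
      add_zero]
  have hli : LinearIndependent F ![v, w] := by
    rw [LinearIndependent.pair_iff]
    intro a b hab
    have e1 := congrArg (fun z => pf Q z v) hab
    have e2 := congrArg (fun z => pf Q z w) hab
    simp only [pf, polar_add_left, polar_smul_left] at e1 e2
    rw [← pf, ← pf, pf_self, pf_comm Q w v, hvw, polar_zero_left] at e1
    rw [← pf, ← pf, pf_self, hvw, hw, polar_zero_left] at e2
    simp only [smul_eq_mul, mul_zero, add_zero, zero_add] at e1 e2
    have hne : (2 : F) * Q v ≠ 0 := mul_ne_zero h2 hv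
    exact ⟨(mul_eq_zero.1 e1).resolve_right hne, (mul_eq_zero.1 e2).resolve_right hne⟩
  have hdim : finrank F (Submodule.span F {v, w} : Submodule F (ι → F)) = 2 * 1 := by
    have := finrank_span_eq_card hli
    rw [show Set.range ![v, w] = ({v, w} : Set (ι → F)) by simp [Set.pair_comm]] at this
    simpa using this
  obtain ⟨ε, hε, hT⟩ := exists_hasType hN hdim
  refine ⟨hN, ?_⟩
  suffices ε = sqNegOne F by rwa [← this]
  have hiff := isPlusTypeOn_iff hN hε hT
  unfold sqNegOne
  split_ifs with hsq
  · obtain ⟨i, hi⟩ := hsq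
    refine hiff.1 ⟨F ∙ (v + i • w), ?_, ?_, ?_⟩
    · rw [Submodule.span_singleton_le_iff_mem]
      exact Submodule.mem_span_pair.2 ⟨1, i, by rw [one_smul]⟩
    · intro z hz
      obtain ⟨t, rfl⟩ := Submodule.mem_span_singleton.1 hz
      rw [smul_add, smul_smul, hQab]
      linear_combination (- (Q v) * t * t) * hi
    · rw [hT.1, finrank_span_singleton]
      intro h0
      have := congrArg (fun z => pf Q z v) h0
      simp only [pf, polar_add_left, polar_smul_left, polar_zero_left] at this
      rw [← pf, ← pf, pf_self, pf_comm Q w v, hvw, smul_zero, add_zero] at this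
      exact mul_ne_zero h2 hv this
  · rcases hε with rfl | rfl
    · exfalso
      obtain ⟨U, hU, hUs, hU2⟩ := hiff.2 rfl
      rw [hdim] at hU2
      obtain ⟨z, hz, hz0⟩ := Submodule.exists_mem_ne_zero_of_ne_bot (show U ≠ ⊥ by
        rintro rfl; rw [finrank_bot] at hU2; omega)
      obtain ⟨a, b, rfl⟩ := Submodule.mem_span_pair.1 (hU hz)
      have h0 := hUs _ hz
      rw [hQab] at h0
      have h1 := (mul_eq_zero.1 h0).resolve_right hv
      by_cases hb : b = 0
      · rw [hb, mul_zero, add_zero, mul_self_eq_zero] at h1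
        exact hz0 (by rw [h1, hb, zero_smul, zero_smul, add_zero])
      · exact hsq ⟨a / b, by field_simp; linear_combination -h1⟩
    · rfl

/-- A half turn on `U`: the type of `U`, the determinant and the spinor character. -/
theorem halfTurn (h2 : (2 : F) ≠ 0) (hQ : (polarBilin Q).Nondegenerate) : ∀ (d : ℕ) (U : Submodule F (ι → F)),
    Nd Q U → finrank F U = 2 * d → ∀ X : Cfsg.isometryGroup F (⇑Q), (∀ u ∈ U, act Q X u ∈ U) →
      (∀ u ∈ U, act Q X (act Q X u) = -u) → (∀ v ∈ perp Q U, act Q X v = v) →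
      HasType Q U d (sqNegOne F ^ d) ∧ CfsgLib.Classes.detHom Q X = 1 ∧ spinSign Q 1 X = sqTwo F ^ d := by
  classical
  haveI := Fintype.ofFinite F
  intro d
  induction d with
  | zero =>
    intro U hU hd X _ _ hfix
    rw [mul_zero, Submodule.finrank_eq_zero] at hd
    subst hd
    have hX : X = 1 := ext_act fun v => by
      rw [act_one]
      exact hfix v (mem_perp.2 fun w hw => by rw [(Submodule.mem_bot F).1 hw, polar_zero_left])
    refine ⟨by rw [pow_zero]; exact hasType_bot Q, by rw [hX, map_one], by rw [hX, map_one, pow_zero]⟩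
  | succ d ih =>
    intro U hU hd X hUX hXX hfix
    haveI : Nontrivial U := Module.nontrivial_of_finrank_pos (R := F) (by omega)
    obtain ⟨⟨v, hvU⟩, hv⟩ := CfsgLib.Classes.exists_anisotropic_vector (res Q U) (nd_iff_res.1 hU)
    replace hv : Q v ≠ 0 := by simpa using hv
    set w := act Q X v with hwdef
    have hwU : w ∈ U := hUX v hvU
    have hw : Q w = Q v := Q_act X v
    have hXw : act Q X w = -v := hXX v hvU
    have hvw : pf Q v w = 0 := by
      have h := pf_act X v w
      rw [← hwdef, hXw, pf, polar_neg_right, polar_comm] at h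
      exact (mul_eq_zero.1 (show (2 : F) * pf Q v w = 0 by
        rw [pf, two_mul]; nth_rw 1 [show polar Q v w = -(polar Q v w) from h.symm]; exact neg_add_cancel _)).resolve_left h2
    obtain ⟨hPN, hPT⟩ := hasType_plane h2 hv hvw hw
    set P : Submodule F (ι → F) := Submodule.span F {v, w} with hP
    have hPU : P ≤ U := by
      rw [hP, Submodule.span_le]
      intro z hz
      rcases hz with rfl | rfl
      exacts [hvU, hwU]
    have hvw2 : Q (v - w) = Q v + Q v := by rw [Q_sub, hvw, hw, sub_zero]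
    have hvw' : Q (v - w) ≠ 0 := by rw [hvw2, ← two_mul]; exact mul_ne_zero h2 hv
    set R : Cfsg.isometryGroup F (⇑Q) := refl Q hv * refl Q hvw' with hR
    have hRv : act Q R v = w := by
      rw [hR, act_mul, act_refl_sub Q hw.symm hvw', act_refl_of_orth _ hv hvw]
    have hRw : act Q R w = -v := by
      have h1 : act Q (refl Q hvw') w = v := by
        have h0 := congrArg (act Q (refl Q hvw')) (act_refl_sub Q hw.symm hvw')
        rw [← act_mul, refl_mul_self, act_one] at h0
        exact h0.symm
      rw [hR, act_mul, h1, act_refl_self]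
    have hRo : ∀ z ∈ perp Q P, act Q R z = z := fun z hz => by
      have e1 : pf Q v z = 0 := mem_perp.1 hz v (Submodule.subset_span (by simp))
      have e2 : pf Q w z = 0 := mem_perp.1 hz w (Submodule.subset_span (by simp))
      rw [hR, act_mul, act_refl_of_orth _ hvw' (by rw [pf, polar_sub_left, ← pf, ← pf, e1, e2, sub_zero]),
        act_refl_of_orth _ hv e1]
    have hRP : ∀ z ∈ P, act Q R z = act Q X z := by
      intro z hz
      obtain ⟨a, b, rfl⟩ := Submodule.mem_span_pair.1 hz
      rw [act_add, act_add, act_smul, act_smul, act_smul, act_smul, hRv, hRw, hXw, ← hwdef]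
    have hXinj := act_injective X
    have hXP : ∀ z ∈ P, act Q X z ∈ P := by
      intro z hz
      obtain ⟨a, b, rfl⟩ := Submodule.mem_span_pair.1 hz
      rw [act_add, act_smul, act_smul, hXw, ← hwdef]
      exact P.add_mem (P.smul_mem a (Submodule.subset_span (by simp)))
        (P.smul_mem b (P.neg_mem (Submodule.subset_span (by simp))))
    have hXperp : ∀ z ∈ perp Q P, z ∈ U → act Q X z ∈ perp Q P := by
      intro z hz hzU
      refine mem_perp.2 fun t ht => ?_
      have h := pf_act X (act Q X t) (act Q X z)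
      rw [hXX t (hPU ht), hXX z hzU, pf, polar_neg_left, polar_neg_right, neg_neg] at h
      rw [show polar Q t (act Q X z) = pf Q t (act Q X z) from rfl]
      have h2' := pf_act X t (act Q X z)
      rw [hXX z hzU, pf, polar_neg_right] at h2'
      rw [← h2', show polar Q (act Q X t) z = 0 from mem_perp.1 hz _ (hXP t ht), neg_zero]
    set U' := U ⊓ perp Q P with hU'
    have hsplit : ∀ x ∈ U, ∃ p ∈ P, x - p ∈ U' := fun x hx => by
      obtain ⟨p, hp, y, hy, rfl⟩ := Submodule.mem_sup.1
        (show x ∈ P ⊔ perp Q P by rw [(isCompl_perp hPN).sup_eq_top]; trivial)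
      refine ⟨p, hp, ?_, by rw [add_sub_cancel_left]; exact hy⟩
      exact U.sub_mem hx (hPU hp)
    have hU'N : Nd Q U' := fun x hx h => hU x hx.1 fun y hy => by
      obtain ⟨p, hp, hyp⟩ := hsplit y hy
      have h1 := h _ hyp
      rwa [polar_sub_right, polar_comm (⇑Q) x p, mem_perp.1 hx.2 p hp, sub_zero] at h1
    have ho : ∀ a ∈ P, ∀ b ∈ U', polar Q a b = 0 := fun a ha b hb => mem_perp.1 hb.2 a ha
    have hsup : P ⊔ U' = U := le_antisymm (sup_le hPU inf_le_left) fun x hx => by
      obtain ⟨p, hp, hxp⟩ := hsplit x hx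
      have := Submodule.add_mem_sup hp hxp
      rwa [add_sub_cancel] at this
    have hdim : finrank F U' = 2 * d := by
      have := finrank_sup_orth hPN ho
      rw [hsup, hd, hPT.1] at this
      omega
    set X' := R⁻¹ * X with hX'
    have hX'act : ∀ z, act Q X' z = act Q R⁻¹ (act Q X z) := fun z => act_mul _ _ _
    have hRinv : ∀ z ∈ perp Q P, act Q R⁻¹ z = z := fun z hz => by
      conv_lhs => rw [← hRo z hz, act_inv_act]
    have hX'U : ∀ z ∈ U', act Q X' z = act Q X z := fun z hz => by
      rw [hX'act, hRinv _ (hXperp z hz.2 hz.1)]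
    have hXU' : ∀ z ∈ U', act Q X z ∈ U' := fun z hz => ⟨hUX z hz.1, hXperp z hz.2 hz.1⟩
    obtain ⟨hT', hd', hs'⟩ := ih U' hU'N hdim X' (fun z hz => by rw [hX'U z hz]; exact hXU' z hz)
      (fun z hz => by rw [hX'U z hz, hX'U _ (hXU' z hz), hXX z hz.1]) fun z hz => by
        obtain ⟨p, hp, y, hy, rfl⟩ := Submodule.mem_sup.1
          (show z ∈ P ⊔ perp Q P by rw [(isCompl_perp hPN).sup_eq_top]; trivial)
        have hyU : y ∈ perp Q U := mem_perp.2 fun t ht => by
          obtain ⟨a, ha, b, hb, rfl⟩ := Submodule.mem_sup.1 (hsup.symm ▸ ht : t ∈ P ⊔ U')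
          have h1 := mem_perp.1 hz b hb
          rw [polar_add_right, polar_comm (⇑Q) b p, ho p hp b hb, zero_add] at h1
          rw [polar_add_left, mem_perp.1 hy a ha, h1, add_zero]
        rw [hX'act, act_add, act_add, hfix y hyU, ← hRP p hp, act_inv_act, hRinv y hy]
    have hXeq : X = R * X' := by rw [hX', mul_inv_cancel_left]
    refine ⟨?_, ?_, ?_⟩
    · have := hPT.sup hPN ho hT'
      rwa [hsup, add_comm 1 d, ← pow_succ'] at this
    · rw [hXeq, map_mul, hd', mul_one, hR, map_mul, CfsgLib.Classes.detHom_refl,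
        CfsgLib.Classes.detHom_refl]
      ring
    · have h := CfsgLib.Classes.spinSign_prod_refl (Q := Q) h2 [v, v - w]
        (by intro z hz; simp at hz; rcases hz with rfl | rfl <;> assumption)
      simp only [List.pmap_cons, List.pmap_nil, List.prod_cons, List.prod_nil, mul_one, List.map_cons,
        List.map_nil, List.length_cons, List.length_nil, hvw2] at h
      rw [hXeq, map_mul, hs', hR, h, pow_succ' (sqTwo F)]
      congr 1
      have e : IsSquare (Q v * (Q v + Q v)) ↔ IsSquare (2 : F) := by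
        rw [← two_mul, show Q v * (2 * Q v) = Q v ^ 2 * 2 by ring]
        exact CfsgLib.Classes.isSquare_sq_mul_iff hv
      simp only [e, sqTwo]
      simp

/-- A half turn exists on a space of the right type. -/
theorem exists_halfTurn (h2 : (2 : F) ≠ 0) (hQ : (polarBilin Q).Nondegenerate) {d : ℕ}
    (hT : HasType Q (⊤ : Submodule F (ι → F)) d (sqNegOne F ^ d)) :
    ∃ X : Cfsg.isometryGroup F (⇑Q), ∀ v, act Q X (act Q X v) = -v := by
  classical
  haveI := Fintype.ofFinite F
  let Q₀ : QuadraticForm F (Fin d ⊕ Fin d → F) := QuadraticMap.weightedSumSquares F (fun _ => (1 : F))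
  have hQ₀ : (polarBilin Q₀).Nondegenerate := by
    refine CfsgLib.Classes.nondegenerate_polarBilin _ fun y hy => funext fun i => ?_
    have h := hy (Pi.single i 1)
    simp only [Q₀, polar, QuadraticMap.weightedSumSquares_apply, Pi.add_apply, smul_eq_mul, one_mul] at h
    rw [← Finset.sum_sub_distrib, ← Finset.sum_sub_distrib, Finset.sum_eq_single i] at h
    · rw [Pi.single_eq_same] at h
      exact (mul_eq_zero.1 (show (2 : F) * y i = 0 by linear_combination h)).resolve_left h2
    · intro j _ hj; simp [Pi.single_eq_of_ne hj]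
    · intro h'; exact absurd (Finset.mem_univ i) h'
  let e₀ : (Fin d ⊕ Fin d → F) ≃ₗ[F] (Fin d ⊕ Fin d → F) :=
    { toFun := fun v => Sum.elim (fun i => -v (Sum.inr i)) fun i => v (Sum.inl i)
      invFun := fun v => Sum.elim (fun i => v (Sum.inr i)) fun i => -v (Sum.inl i)
      map_add' := fun a b => by ext (i | i) <;> simp [add_comm]
      map_smul' := fun t a => by ext (i | i) <;> simp
      left_inv := fun v => by ext (i | i) <;> simp
      right_inv := fun v => by ext (i | i) <;> simp }
  have he₀Q : ∀ v, Q₀ (e₀ v) = Q₀ v := fun v => by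
    simp [Q₀, e₀, QuadraticMap.weightedSumSquares_apply, Fintype.sum_sum_type, add_comm]
  have he₀2 : ∀ v, e₀ (e₀ v) = -v := fun v => by ext (i | i) <;> simp [e₀]
  obtain ⟨hT₀, -, -⟩ := halfTurn (Q := Q₀) h2 hQ₀ d ⊤ (nd_top hQ₀)
    (by rw [finrank_top, Module.finrank_fintype_fun_eq_card]; simp; omega)
    (CfsgLib.Classes.isoOfEquiv e₀ he₀Q) (fun _ _ => trivial)
    (fun u _ => by rw [CfsgLib.Classes.act_isoOfEquiv, CfsgLib.Classes.act_isoOfEquiv, he₀2])
    (fun v hv => by
      have : v = 0 := hQ₀.1 v fun y => by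
        show polar Q₀ v y = 0
        rw [polar_comm]; exact mem_perp.1 hv y trivial
      rw [this, act_zero])
  obtain ⟨hn, hD⟩ := hasType_top_iff.1 hT
  obtain ⟨hn₀, hD₀⟩ := hasType_top_iff.1 hT₀
  obtain ⟨E, hE⟩ := OrthType.exists_isometry (m := d) hn₀ hn hQ₀ hQ hD₀ hD
  refine ⟨CfsgLib.Classes.isoOfEquiv ((E.symm.trans e₀).trans E) (fun v => by
    simp [hE, he₀Q]; rw [← hE, E.apply_symm_apply]), fun v => ?_⟩
  rw [CfsgLib.Classes.act_isoOfEquiv, CfsgLib.Classes.act_isoOfEquiv]
  simp [he₀2]

/-- Elements of Ω with square `-1`. -/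
theorem exists_halfTurn_omega_iff (h2 : (2 : F) ≠ 0) (hQ : (polarBilin Q).Nondegenerate) {d : ℕ} (hd : 1 ≤ d)
    {ε : ℤ} (hT : HasType Q (⊤ : Submodule F (ι → F)) d ε) :
    (∃ x : GL ι F, x ∈ Cfsg.Geo.omegaGL (⇑Q) ∧ ∀ v, (x : Matrix ι ι F) *ᵥ ((x : Matrix ι ι F) *ᵥ v) = -v) ↔
      ε = sqNegOne F ^ d ∧ sqTwo F ^ d = 1 := by
  have hn : finrank F (ι → F) = 2 * d := (hasType_top_iff.1 hT).1
  have hcard : 2 ≤ Fintype.card ι := by rw [Module.finrank_fintype_fun_eq_card] at hn; omega
  have hperp : ∀ v ∈ perp Q (⊤ : Submodule F (ι → F)), v = 0 := fun v hv => hQ.1 v fun y => by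
    show polar Q v y = 0
    rw [polar_comm]; exact mem_perp.1 hv y trivial
  constructor
  · rintro ⟨x, ⟨X, hX, rfl⟩, hxx⟩
    obtain ⟨hT', -, hs⟩ := halfTurn h2 hQ d ⊤ (nd_top hQ) (by rw [finrank_top, hn]) X (fun _ _ => trivial)
      (fun u _ => hxx u) (fun v hv => by rw [hperp v hv, act_zero])
    refine ⟨(hT.unique hT').2, ?_⟩
    rw [← hs]
    exact ((CfsgLib.Classes.mem_omega_iff h2 hQ hcard X).1 hX).2
  · rintro ⟨rfl, hs⟩
    obtain ⟨X, hX⟩ := exists_halfTurn h2 hQ hT
    obtain ⟨-, hdet, hspin⟩ := halfTurn h2 hQ d ⊤ (nd_top hQ) (by rw [finrank_top, hn]) X (fun _ _ => trivial)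
      (fun u _ => hX u) (fun v hv => by rw [hperp v hv, act_zero])
    exact ⟨X.1, ⟨X, (CfsgLib.Classes.mem_omega_iff h2 hQ hcard X).2 ⟨hdet, by rw [hspin, hs]⟩, rfl⟩, hX⟩

end CfsgLib.Derangements.Sub
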