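import Mathlib
import Cfsg.Agent.Lib.Derangements.SubspaceHalfTurn
import Cfsg.Agent.Lib.Derangements.SubspaceInvolution

/-!
Involutions and quarter turns against non-degenerate subspaces of even dimension in odd characteristic.
-/

set_option autoImplicit false
set_option linter.unusedSectionVars false
set_option linter.style.haveILetI false

namespace CfsgLib.Derangements.Sub

open Module QuadraticMap CfsgLib.Derangements CfsgLib.OrthGen
open scoped Matrix

universe u

variable {F : Type u} [Field F] [Fintype F]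

/-- A non-scalar involution of determinant one fixes subspaces of every even dimension and type. -/
theorem involution_fixes_ee {V : Type u} [AddCommGroup V] [Module F V] [FiniteDimensional F V]
    {Q : QuadraticForm F V} (h2 : (2 : F) ≠ 0) (hQ : (polarBilin Q).Nondegenerate) {d : ℕ} (hd : 3 ≤ d)
    (hn : finrank F V = 2 * d) {g : Module.End F V} (hg : g * g = 1) (hgQ : ∀ x, Q (g x) = Q x)
    (hdet : LinearMap.det g = 1) (hns : g ≠ -1) (hg1 : g ≠ 1) {l : ℕ} (hl : 1 ≤ l) (hld : l < d) {ε : ℤ}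
    (hε : ε = 1 ∨ ε = -1) : ∃ W : Submodule F V, (Nd Q W ∧ HasType Q W l ε) ∧ ∀ w ∈ W, g w ∈ W := by
  obtain ⟨A, B, hAN, hBN, hperp, hA, hB, hdim, hdB⟩ := involution_split h2 hQ hg hgQ
  rw [hdet] at hdB
  obtain ⟨b, hb⟩ : Even (finrank F B) := by
    rcases Nat.even_or_odd (finrank F B) with he | ho
    · exact he
    · rw [ho.neg_one_pow] at hdB
      exact absurd hdB fun h => h2 (by linear_combination h)
  have hab : ∀ x ∈ A, ∀ y ∈ B, polar Q x y = 0 := fun x hx y hy => mem_perp.1 (hperp ▸ hy) x hx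
  have glue : ∀ {A' B' : Submodule F V}, A' ≤ A → B' ≤ B → ∀ w ∈ A' ⊔ B', g w ∈ A' ⊔ B' := by
    intro A' B' hA' hB' w hw
    obtain ⟨x, hx, y, hy, rfl⟩ := Submodule.mem_sup.1 hw
    rw [map_add, hA x (hA' hx), hB y (hB' hy)]
    exact Submodule.add_mem_sup hx (B'.neg_mem hy)
  have hA0 : finrank F A ≠ 0 := fun h => by
    refine hns (LinearMap.ext fun v => ?_)
    have hv : v ∈ B := by
      rw [show B = ⊤ from Submodule.eq_top_of_finrank_eq (by omega)]; trivial
    rw [hB v hv]; rfl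
  have hB0 : finrank F B ≠ 0 := fun h => by
    refine hg1 (LinearMap.ext fun v => ?_)
    have hv : v ∈ A := by
      rw [show A = ⊤ from Submodule.eq_top_of_finrank_eq (by omega)]; trivial
    rw [hA v hv]; rfl
  obtain ⟨a, ha⟩ : ∃ a, finrank F A = 2 * a := ⟨d - b, by omega⟩
  obtain ⟨εA, hεA, hAT⟩ := exists_hasType hAN ha
  obtain ⟨εB, hεB, hBT⟩ := exists_hasType hBN (l := b) (by omega)
  -- a piece of `A` strictly inside, or a piece of `B`
  have key : ∀ a' b' : ℕ, a' + b' = l → a' ≤ a → b' ≤ b → ((1 ≤ a' ∧ a' < a) ∨ (1 ≤ b' ∧ b' < b)) →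
      ∃ A' B' : Submodule F V, A' ≤ A ∧ B' ≤ B ∧ Nd Q A' ∧ Nd Q B' ∧ HasType Q (A' ⊔ B') l ε := by
    intro a' b' hsum ha' hb' hstrict
    have part : ∀ (U : Submodule F V) (e : ℤ) (n k : ℕ), Nd Q U → (e = 1 ∨ e = -1) → HasType Q U n e → k ≤ n →
        ∃ U' ≤ U, Nd Q U' ∧ ∃ e' : ℤ, (e' = 1 ∨ e' = -1) ∧ HasType Q U' k e' := by
      intro U e n k hU he hT hk
      rcases Nat.eq_zero_or_pos k with rfl | hk0
      · exact ⟨⊥, bot_le, nd_bot, 1, Or.inl rfl, hasType_bot Q⟩
      rcases eq_or_lt_of_le hk with rfl | hlt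
      · exact ⟨U, le_rfl, hU, e, he, hT⟩
      · obtain ⟨W, hW, hWN, hWT⟩ := exists_le_type hU he hT hk0 hlt (ε := 1) (Or.inl rfl)
        exact ⟨W, hW, hWN, 1, Or.inl rfl, hWT⟩
    rcases hstrict with ⟨h1, h2'⟩ | ⟨h1, h2'⟩
    · obtain ⟨B', hB', hB'N, e, he, hB'T⟩ := part B εB b b' hBN hεB hBT hb'
      obtain ⟨A', hA', hA'N, hA'T⟩ := exists_le_type hAN hεA hAT h1 h2' (ε := ε * e)
        (by rcases hε with rfl | rfl <;> rcases he with rfl | rfl <;> norm_num)
      refine ⟨A', B', hA', hB', hA'N, hB'N, ?_⟩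
      have h := hA'T.sup hA'N (fun x hx y hy => hab x (hA' hx) y (hB' hy)) hB'T
      rwa [hsum, mul_assoc, show e * e = 1 by rcases he with rfl | rfl <;> rfl, mul_one] at h
    · obtain ⟨A', hA', hA'N, e, he, hA'T⟩ := part A εA a a' hAN hεA hAT ha'
      obtain ⟨B', hB', hB'N, hB'T⟩ := exists_le_type hBN hεB hBT h1 h2' (ε := ε * e)
        (by rcases hε with rfl | rfl <;> rcases he with rfl | rfl <;> norm_num)
      refine ⟨A', B', hA', hB', hA'N, hB'N, ?_⟩
      have h := hA'T.sup hA'N (fun x hx y hy => hab x (hA' hx) y (hB' hy)) hB'T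
      rwa [hsum, show e * (ε * e) = ε by rcases he with rfl | rfl <;> ring] at h
  obtain ⟨A', B', hA', hB', hA'N, hB'N, hT⟩ :
      ∃ A' B' : Submodule F V, A' ≤ A ∧ B' ≤ B ∧ Nd Q A' ∧ Nd Q B' ∧ HasType Q (A' ⊔ B') l ε := by
    by_cases c1 : l < a
    · exact key l 0 (by omega) (by omega) (by omega) (Or.inl ⟨hl, c1⟩)
    by_cases c2 : l < b
    · exact key 0 l (by omega) (by omega) (by omega) (Or.inr ⟨hl, c2⟩)
    by_cases c3 : a < l
    · exact key a (l - a) (by omega) le_rfl (by omega) (Or.inr ⟨by omega, by omega⟩)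
    · exact key (a - 1) 1 (by omega) (by omega) (by omega) (Or.inl ⟨by omega, by omega⟩)
  exact ⟨A' ⊔ B', ⟨nd_sup hA'N hB'N fun x hx y hy => hab x (hA' hx) y (hB' hy), hT⟩, glue hA' hB'⟩

variable {ι : Type} [Fintype ι] [DecidableEq ι] {Q : QuadraticForm F (ι → F)}

/-- A half turn: the types of its invariant non-degenerate subspaces, and their existence in each dimension. -/
theorem halfTurn_subspaces (h2 : (2 : F) ≠ 0) {g : Module.End F (ι → F)}
    (hgQ : ∀ v, Q (g v) = Q v) (hgg : ∀ v, g (g v) = -v) : ∀ (n : ℕ) (U : Submodule F (ι → F)), Nd Q U →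
      (∀ u ∈ U, g u ∈ U) → finrank F U = 2 * n →
      HasType Q U n (sqNegOne F ^ n) ∧
        ∀ k ≤ n, ∃ W ≤ U, Nd Q W ∧ (∀ w ∈ W, g w ∈ W) ∧ finrank F W = 2 * k := by
  classical
  intro n
  induction n with
  | zero =>
    intro U _ _ hU
    rw [mul_zero, Submodule.finrank_eq_zero] at hU
    subst hU
    refine ⟨by rw [pow_zero]; exact hasType_bot Q, fun k hk => ⟨⊥, le_rfl, nd_bot, fun w hw => ?_, ?_⟩⟩
    · rw [(Submodule.mem_bot F).1 hw, map_zero]; exact Submodule.zero_mem _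
    · rw [finrank_bot]; omega
  | succ n ih =>
    intro U hU hUi hUd
    haveI : Nontrivial U := Module.nontrivial_of_finrank_pos (R := F) (by omega)
    obtain ⟨⟨v, hvU⟩, hv⟩ := CfsgLib.Classes.exists_anisotropic_vector (res Q U) (nd_iff_res.1 hU)
    replace hv : Q v ≠ 0 := by simpa using hv
    have hpol : ∀ x y, polar Q (g x) (g y) = polar Q x y := fun x y => by simp only [polar, ← map_add, hgQ]
    have hvw : pf Q v (g v) = 0 := by
      have h := hpol v (g v)
      rw [hgg, polar_neg_right, polar_comm (⇑Q) (g v) v] at h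
      exact (mul_eq_zero.1 (show (2 : F) * pf Q v (g v) = 0 by
        rw [pf]; linear_combination -h)).resolve_left h2
    obtain ⟨hPN, hPT⟩ := hasType_plane (Q := Q) h2 hv hvw (hgQ v)
    set P : Submodule F (ι → F) := Submodule.span F {v, g v} with hP
    have hPU : P ≤ U := by
      rw [hP, Submodule.span_le]
      intro z hz
      rcases hz with rfl | rfl
      exacts [hvU, hUi v hvU]
    have hPi : ∀ z ∈ P, g z ∈ P := fun z hz => by
      obtain ⟨a, b, rfl⟩ := Submodule.mem_span_pair.1 hz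
      rw [map_add, map_smul, map_smul, hgg]
      exact P.add_mem (P.smul_mem a (Submodule.subset_span (by simp)))
        (P.smul_mem b (P.neg_mem (Submodule.subset_span (by simp))))
    have hsurj : ∀ w ∈ P, ∃ z ∈ P, g z = w := fun w hw =>
      ⟨-(g w), P.neg_mem (hPi w hw), by rw [map_neg, hgg, neg_neg]⟩
    set U' := U ⊓ perp Q P with hU'
    have hsplit : ∀ x ∈ U, ∃ p ∈ P, x - p ∈ U' := fun x hx => by
      obtain ⟨p, hp, y, hy, rfl⟩ := Submodule.mem_sup.1
        (show x ∈ P ⊔ perp Q P by rw [(isCompl_perp hPN).sup_eq_top]; trivial)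
      exact ⟨p, hp, U.sub_mem hx (hPU hp), by rw [add_sub_cancel_left]; exact hy⟩
    have hU'N : Nd Q U' := fun x hx h => hU x hx.1 fun y hy => by
      obtain ⟨p, hp, hyp⟩ := hsplit y hy
      have h1 := h _ hyp
      rwa [polar_sub_right, polar_comm (⇑Q) x p, mem_perp.1 hx.2 p hp, sub_zero] at h1
    have ho : ∀ a ∈ P, ∀ b ∈ U', polar Q a b = 0 := fun a ha b hb => mem_perp.1 hb.2 a ha
    have hsup : P ⊔ U' = U := le_antisymm (sup_le hPU inf_le_left) fun x hx => by
      obtain ⟨p, hp, hxp⟩ := hsplit x hx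
      have := Submodule.add_mem_sup hp hxp
      rwa [add_sub_cancel] at this
    have hdim : finrank F U' = 2 * n := by
      have := finrank_sup_orth hPN ho
      rw [hsup, hUd, hPT.1] at this
      omega
    obtain ⟨hT', hsub⟩ := ih U' hU'N (fun z hz => ⟨hUi z hz.1, perp_inv hgQ hsurj hz.2⟩) hdim
    refine ⟨?_, fun k hk => ?_⟩
    · have := hPT.sup hPN ho hT'
      rwa [hsup, add_comm 1 n, ← pow_succ'] at this
    · rcases Nat.eq_zero_or_pos k with rfl | hk0
      · exact ⟨⊥, bot_le, nd_bot, fun w hw => by rw [(Submodule.mem_bot F).1 hw, map_zero]; exact Submodule.zero_mem _,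
          finrank_bot _ _⟩
      · obtain ⟨W, hW, hWN, hWi, hWd⟩ := hsub (k - 1) (by omega)
        have ho' : ∀ a ∈ P, ∀ b ∈ W, polar Q a b = 0 := fun a ha b hb => ho a ha b (hW hb)
        refine ⟨P ⊔ W, sup_le hPU (hW.trans inf_le_left), nd_sup hPN hWN ho', fun z hz => ?_, ?_⟩
        · obtain ⟨a, ha, b, hb, rfl⟩ := Submodule.mem_sup.1 hz
          rw [map_add]
          exact Submodule.add_mem_sup (hPi a ha) (hWi b hb)
        · rw [finrank_sup_orth hPN ho', hPT.1, hWd]; omega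

/-- Every element of order `r` in the projective group fixes a subspace with the property `p`. -/
def AllFixP (Q : QuadraticForm F (ι → F)) (p : Submodule F (ι → F) → Prop) (r : ℕ) : Prop :=
  ∀ x : GL ι F, x ∈ Cfsg.Geo.omegaGL (⇑Q) →
    (∃ z : F, ((x ^ r : GL ι F) : Matrix ι ι F) = z • (1 : Matrix ι ι F)) →
    (∀ z : F, (x : Matrix ι ι F) ≠ z • (1 : Matrix ι ι F)) →
    ∃ W : Submodule F (ι → F), p W ∧ ∀ w ∈ W, Matrix.toLin' (x : Matrix ι ι F) w ∈ W

/-- The prime two in odd characteristic. -/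
theorem ee_two (h2 : (2 : F) ≠ 0) (hQ : (polarBilin Q).Nondegenerate) {d : ℕ} (hd : 3 ≤ d) {εV : ℤ}
    (hT : HasType Q (⊤ : Submodule F (ι → F)) d εV) {l : ℕ} (hl : 1 ≤ l) (hld : l < d) {ε : ℤ}
    (hε : ε = 1 ∨ ε = -1) :
    AllFixP Q (fun W => Nd Q W ∧ HasType Q W l ε) 2 ↔
      ((εV = sqNegOne F ^ d ∧ sqTwo F ^ d = 1) → ε = sqNegOne F ^ l) := by
  have hn : finrank F (ι → F) = 2 * d := (hasType_top_iff.1 hT).1
  haveI : Nonempty ι := Fintype.card_pos_iff.1 (by rw [Module.finrank_fintype_fun_eq_card] at hn; omega)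
  haveI : Nontrivial (ι → F) := Module.nontrivial_of_finrank_pos (R := F) (by omega)
  obtain ⟨v₀, hv₀⟩ := CfsgLib.Classes.exists_anisotropic_vector Q hQ
  constructor
  · intro H hcond
    obtain ⟨x, hx, hxx⟩ := (exists_halfTurn_omega_iff h2 hQ (by omega) hT).2 hcond
    have hiso := fun v => isometry_of_mem_omegaGL hx v
    obtain ⟨W, ⟨hWN, hWT⟩, hWi⟩ := H x hx ⟨-1, Matrix.toLin'.injective (LinearMap.ext fun v => by
        rw [Units.val_pow_eq_pow_val, pow_two, Matrix.toLin'_apply, ← Matrix.mulVec_mulVec, hxx]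
        simp)⟩ (fun z hz => by
      have h1 := hxx v₀
      rw [hz, Matrix.smul_mulVec, Matrix.one_mulVec, Matrix.smul_mulVec, Matrix.one_mulVec, smul_smul] at h1
      have h3 := hiso v₀
      rw [hz, Matrix.smul_mulVec, Matrix.one_mulVec, QuadraticMap.map_smul, smul_eq_mul] at h3
      have h4 : z * z = 1 := mul_right_cancel₀ hv₀ (h3.trans (one_mul _).symm)
      rw [h4, one_smul, eq_neg_iff_add_eq_zero, ← two_smul F, smul_eq_zero] at h1
      rcases h1 with h1 | h1
      · exact h2 h1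
      · exact hv₀ (by rw [h1, QuadraticMap.map_zero]))
    obtain ⟨hT', -⟩ := halfTurn_subspaces h2 (g := Matrix.toLin' (x : Matrix ι ι F)) (fun v => hiso v)
      (fun v => hxx v) l W hWN hWi hWT.1
    exact (hWT.unique hT').2
  · intro hcond x hx ⟨z, hz⟩ hns
    have hiso := fun v => isometry_of_mem_omegaGL hx v
    have hxx : ∀ v, (x : Matrix ι ι F) *ᵥ ((x : Matrix ι ι F) *ᵥ v) = z • v := fun v => by
      rw [Matrix.mulVec_mulVec, ← pow_two, ← Units.val_pow_eq_pow_val, hz, Matrix.smul_mulVec, Matrix.one_mulVec]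
    have hz2 : z * z = 1 := by
      have h1 := hiso ((x : Matrix ι ι F) *ᵥ v₀)
      rw [hxx, hiso, QuadraticMap.map_smul, smul_eq_mul] at h1
      exact mul_right_cancel₀ hv₀ (h1.trans (one_mul _).symm)
    set g : Module.End F (ι → F) := Matrix.toLin' (x : Matrix ι ι F) with hg
    rcases mul_self_eq_one_iff.1 hz2 with rfl | rfl
    · have hgg : g * g = 1 := LinearMap.ext fun v => by
        rw [Module.End.mul_apply, hg, Matrix.toLin'_apply, Matrix.toLin'_apply, hxx, one_smul]; rfl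
      refine involution_fixes_ee h2 hQ hd hn hgg (fun v => hiso v) ?_ (fun hg1 => hns (-1) ?_)
        (fun hg1 => hns 1 ?_) hl hld hε
      · exact det_eq_one_of_mem_omegaGL hx
      · refine Matrix.toLin'.injective ?_
        rw [map_smul, Matrix.toLin'_one, ← hg, hg1]; exact (neg_one_smul F (1 : Module.End F (ι → F))).symm
      · refine Matrix.toLin'.injective ?_
        rw [map_smul, Matrix.toLin'_one, ← hg, hg1, one_smul]; rfl
    · have hgg : ∀ v, g (g v) = -v := fun v => by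
        rw [hg, Matrix.toLin'_apply, Matrix.toLin'_apply, hxx, neg_one_smul]
      obtain ⟨-, hsub⟩ := halfTurn_subspaces (Q := Q) h2 (fun v => hiso v) hgg d ⊤ (nd_top hQ)
        (fun _ _ => trivial) (by rw [finrank_top, hn])
      obtain ⟨W, -, hWN, hWi, hWd⟩ := hsub l hld.le
      obtain ⟨hWT, -⟩ := halfTurn_subspaces (Q := Q) h2 (fun v => hiso v) hgg l W hWN hWi hWd
      refine ⟨W, ⟨hWN, ?_⟩, hWi⟩
      rwa [hcond ((exists_halfTurn_omega_iff h2 hQ (by omega) hT).1 ⟨x, hx, fun v => hgg v⟩)]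

end CfsgLib.Derangements.Sub
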