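import Mathlib
import Cfsg.Agent.Lib.Derangements.SingularEvenMinus
import Cfsg.Agent.Lib.Derangements.SubspaceEllipticTwo

/-!
The prime two and totally singular subspaces of minus spaces in odd characteristic, and the arithmetic of the
criterion for odd primes.
-/

set_option autoImplicit false
set_option linter.unusedSectionVars false
set_option linter.style.haveILetI false

namespace CfsgLib.Derangements.Sub

open Module QuadraticMap CfsgLib.Derangements CfsgLib.OrthGen
open scoped Matrix

universe u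

section Arith

/-- Odd order of `q`. -/
theorem sing_minus_arith_odd {d m h : ℕ} (hh : 0 < h) (hmd : m < d)
    (hex0 : d % h = 0 → h ≤ m) (hex1 : d % h ≠ 0 → d % h ≤ m) :
    SingEven d m h h (fun s => s) 1 (-1) ↔ h ≤ m ∧ (d % h = 0 ∨ m % h < d % h) := by
  have hd := Nat.div_add_mod d h
  have hl := Nat.div_add_mod m h
  have hdm := Nat.mod_lt d hh
  have hlm := Nat.mod_lt m hh
  constructor
  · intro H
    rcases Nat.eq_zero_or_pos (d % h) with hb | hb
    · exact ⟨hex0 hb, Or.inl hb⟩
    have hbm := hex1 (by omega)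
    have hD : 1 ≤ d / h := Nat.pos_of_ne_zero fun e => by rw [e, Nat.mul_zero] at hd; omega
    obtain ⟨j, -, hj, hle⟩ := H (d / h) ⟨hD, Or.inl (by omega)⟩
    have hjA : j ≤ m / h := (Nat.le_div_iff_mul_le hh).2 (by rwa [mul_comm])
    have hlt : m + h * (d / h) < h * j + d := hle.resolve_right fun e => absurd e.2 (by norm_num)
    obtain rfl : j = m / h := by
      by_contra hne
      have h1 : h * (j + 1) ≤ h * (m / h) := Nat.mul_le_mul_left h (by omega)
      rw [mul_add, mul_one] at h1
      omega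
    have hA : 1 ≤ m / h := Nat.pos_of_ne_zero fun e => by rw [e, Nat.mul_zero] at hl hlt; omega
    have := Nat.le_mul_of_pos_right h hA
    exact ⟨by omega, Or.inr (by omega)⟩
  · rintro ⟨hhm, hc⟩ s ⟨hs, hsd⟩
    have hlt : h * s < d := by
      rcases hsd with e | ⟨-, e⟩
      · exact e
      · rw [one_pow] at e; norm_num at e
    rcases Nat.lt_or_ge s (m / h) with hlts | hge
    · have h1 : h * (s + 1) ≤ h * (m / h) := Nat.mul_le_mul_left h hlts
      rw [mul_add, mul_one] at h1
      exact ⟨s, le_rfl, by omega, Or.inl (by omega)⟩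
    refine ⟨m / h, hge, by omega, Or.inl ?_⟩
    rcases hc with hb | hb
    · have hsD : s < d / h := by
        by_contra hcon
        have := Nat.mul_le_mul_left h (not_lt.1 hcon)
        omega
      have h1 : h * (s + 1) ≤ h * (d / h) := Nat.mul_le_mul_left h hsD
      rw [mul_add, mul_one] at h1
      omega
    · have hsD : s ≤ d / h := (Nat.le_div_iff_mul_le hh).2 (by rw [mul_comm]; omega)
      have h1 : h * s ≤ h * (d / h) := Nat.mul_le_mul_left h hsD
      omega

/-- Even order of `q`. -/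
theorem sing_minus_arith_even {d m h t : ℕ} (hh : 0 < h) (ht : 1 ≤ t) (hmd : m < d)
    (hex0 : d % h = 0 → Even (d / h) → h < m)
    (hex1 : ¬ (d % h = 0 ∧ Even (d / h)) → d % h < m ∨ (m = d % h ∧ Even (d / h))) :
    SingEven d m h (2 * h) (fun s => (s + 1 - t) / 2) (-1) (-1) ↔
      2 * h ≤ m ∧ t + 2 * (m / (2 * h)) ≤ d / h ∧
      ((m % (2 * h) ≤ h ∧ d % h = 0 ∧ Even (d / h) ∧ t + 2 * (m / (2 * h)) < d / h) ∨
        (m % (2 * h) ≤ d % h ∧ Odd (d / h)) ∨ (m % (2 * h) < d % h ∧ Even (d / h))) := by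
  have hd := Nat.div_add_mod d h
  have hl := Nat.div_add_mod m (2 * h)
  have hdm := Nat.mod_lt d hh
  have hlm := Nat.mod_lt m (show 2 * h > 0 by omega)
  have hcond : ∀ s, ((-1 : ℤ) * (-1) ^ s = 1 ↔ s % 2 = 1) ∧ ((-1 : ℤ) = (-1) ^ s ↔ s % 2 = 1) := fun s => by
    rcases Nat.even_or_odd s with e | e
    · rw [e.neg_one_pow]
      have := Nat.even_iff.1 e
      norm_num; omega
    · rw [e.neg_one_pow]
      simp [Nat.odd_iff.1 e]
  simp only [Nat.even_iff, Nat.odd_iff] at hex0 hex1 ⊢
  constructor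
  · intro H
    have hstep : ∀ j, 2 * h * j ≤ m → j ≤ m / (2 * h) := fun j hj =>
      (Nat.le_div_iff_mul_le (by omega)).2 (by rwa [mul_comm])
    have hone : ∀ j, j < m / (2 * h) → 2 * h * j + 2 * h ≤ 2 * h * (m / (2 * h)) := fun j hj => by
      have h1 : 2 * h * (j + 1) ≤ 2 * h * (m / (2 * h)) := Nat.mul_le_mul_left _ hj
      rwa [mul_add, mul_one] at h1
    have hA1 : ∀ z, m / (2 * h) = z + 1 → 2 * h ≤ m := fun z hz => by
      rw [hz, mul_add, mul_one] at hl; omega
    by_cases hexc : d % h = 0 ∧ d / h % 2 = 0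
    · obtain ⟨hb, hDe⟩ := hexc
      obtain ⟨D', hD'⟩ : ∃ D', d / h = D' + 2 := ⟨d / h - 2, by
        rcases Nat.eq_zero_or_pos (d / h) with e | e
        · rw [e, Nat.mul_zero] at hd; omega
        · omega⟩
      have hh2 : h * (d / h) = h * D' + 2 * h := by rw [hD', mul_add]; ring
      have hh1 : h * (D' + 1) = h * D' + h := by rw [mul_add, mul_one]
      obtain ⟨j, hjJ, hj, hle⟩ := H (D' + 1) ⟨by omega, Or.inl (by omega)⟩
      simp only at hjJ
      have hjA := hstep j hj
      obtain rfl : j = m / (2 * h) := by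
        by_contra hne
        have := hone j (by omega)
        omega
      have hah : m % (2 * h) ≤ h := by omega
      obtain ⟨z, hz⟩ : ∃ z, m / (2 * h) = z + 1 := ⟨m / (2 * h) - 1, by
        rcases Nat.eq_zero_or_pos (m / (2 * h)) with e | e
        · rw [e, Nat.mul_zero] at hl
          have := hex0 hb hDe
          omega
        · omega⟩
      refine ⟨hA1 z hz, by omega, Or.inl ⟨hah, hb, hDe, ?_⟩⟩
      by_contra hts
      obtain ⟨j', hj'J, hj', hle'⟩ := H D' ⟨by omega, Or.inl (by omega)⟩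
      simp only at hj'J
      have := hone j' (by omega)
      have hpar : ¬ D' % 2 = 1 := by omega
      rw [(hcond D').1] at hle'
      omega
    · have hD : 1 ≤ d / h := Nat.pos_of_ne_zero fun e => by
        rw [e, Nat.mul_zero] at hd
        rcases hex1 hexc with h1 | ⟨h1, -⟩ <;> omega
      obtain ⟨j, hjJ, hj, hle⟩ := H (d / h) ⟨hD, by
        rcases Nat.eq_zero_or_pos (d % h) with hb | hb
        · exact Or.inr ⟨by omega, (hcond _).2.2 (by omega)⟩
        · exact Or.inl (by omega)⟩
      simp only at hjJ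
      rw [(hcond _).1] at hle
      have hjA := hstep j hj
      obtain rfl : j = m / (2 * h) := by
        by_contra hne
        have := hone j (by omega)
        omega
      have hex := hex1 hexc
      obtain ⟨z, hz⟩ : ∃ z, m / (2 * h) = z + 1 := ⟨m / (2 * h) - 1, by
        rcases Nat.eq_zero_or_pos (m / (2 * h)) with e | e
        · rw [e, Nat.mul_zero] at hl hle
          omega
        · omega⟩
      refine ⟨hA1 z hz, ?_, ?_⟩
      · by_contra hts
        obtain ⟨D', hD'⟩ : ∃ D', d / h = D' + 1 := ⟨d / h - 1, by omega⟩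
        have hh1 : h * (d / h) = h * D' + h := by rw [hD', mul_add, mul_one]
        obtain ⟨j', hj'J, hj', hle'⟩ := H D' ⟨by omega, Or.inl (by omega)⟩
        simp only at hj'J
        have := hone j' (by omega)
        omega
      · rcases Nat.mod_two_eq_zero_or_one (d / h) with e | e
        · exact Or.inr (Or.inr ⟨by omega, e⟩)
        · exact Or.inr (Or.inl ⟨by omega, e⟩)
  · rintro ⟨hhm, hN, hc⟩ s ⟨hs, hsd⟩
    rw [(hcond s).2] at hsd
    simp only
    rw [(hcond s).1]
    have hsD : s ≤ d / h := (Nat.le_div_iff_mul_le hh).2 (by rw [mul_comm]; omega)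
    -- the number of steps
    obtain ⟨j, hjJ, hjA, u, hu, hu1⟩ : ∃ j ≤ (s + 1 - t) / 2, j ≤ m / (2 * h) ∧
        ∃ u, u + 2 * (m / (2 * h)) + s = d / h + 2 * j ∧
          ((t + 2 * (m / (2 * h)) < d / h ∧ s < d / h) → 1 ≤ u) := by
      rcases Nat.lt_or_ge ((s + 1 - t) / 2) (m / (2 * h)) with hlt | hge
      · exact ⟨_, le_rfl, hlt.le, d / h + 2 * ((s + 1 - t) / 2) - 2 * (m / (2 * h)) - s, by omega,
          fun _ => by omega⟩
      · exact ⟨_, hge, le_rfl, d / h - s, by omega, fun _ => by omega⟩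
    have hlin : h * u + 2 * h * (m / (2 * h)) + h * s = h * (d / h) + 2 * h * j := by
      have := congrArg (h * ·) hu
      simp only [mul_add] at this
      linarith
    have hjm : 2 * h * j ≤ 2 * h * (m / (2 * h)) := Nat.mul_le_mul_left _ hjA
    have hu2 : 2 ≤ u → 2 * h ≤ h * u := fun e => by
      rw [mul_comm 2 h]; exact Nat.mul_le_mul_left h e
    have hu0 : 1 ≤ u → h ≤ h * u := fun e => Nat.le_mul_of_pos_right h e
    refine ⟨j, hjJ, by omega, ?_⟩
    rcases hc with ⟨hah, hb, hDe, hts⟩ | ⟨hab, hDo⟩ | ⟨hab, hDe⟩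
    · have hslt : s < d / h := lt_of_le_of_ne hsD fun e => by subst e; omega
      have h1 := hu1 ⟨hts, hslt⟩
      rcases Nat.lt_or_ge u 2 with hu' | hu'
      · obtain rfl : u = 1 := by omega
        omega
      · have := hu2 hu'; omega
    · rcases Nat.mod_two_eq_zero_or_one s with e | e
      · have := hu0 (by omega); omega
      · omega
    · omega

end Arith

variable {F : Type u} [Field F] [Fintype F] {ι : Type} [Fintype ι] [DecidableEq ι] {Q : QuadraticForm F (ι → F)}

/-- An involution of determinant one of a minus space fixes totally singular subspaces of all dimensions. -/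
theorem involution_fixes_singular (h2 : (2 : F) ≠ 0) (hQ : (polarBilin Q).Nondegenerate) {d : ℕ}
    (hV : HasType Q (⊤ : Submodule F (ι → F)) d (-1)) {g : Module.End F (ι → F)} (hg : g * g = 1)
    (hgQ : ∀ x, Q (g x) = Q x) (hdet : LinearMap.det g = 1) {m : ℕ} (hmd : m + 1 ≤ d) :
    ∃ W : Submodule F (ι → F), (finrank F W = m ∧ Ts Q W) ∧ ∀ w ∈ W, g w ∈ W := by
  have hn := (hasType_top_iff.1 hV).1
  obtain ⟨A, B, hAN, hBN, hperp, hA, hB, hdim, hdB⟩ := involution_split h2 hQ hg hgQ
  rw [hdet] at hdB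
  obtain ⟨b, hb⟩ : Even (finrank F B) := by
    rcases Nat.even_or_odd (finrank F B) with he | ho
    · exact he
    · rw [ho.neg_one_pow] at hdB
      exact absurd hdB fun h => h2 (by linear_combination h)
  obtain ⟨a, ha⟩ : ∃ a, finrank F A = 2 * a := ⟨d - b, by omega⟩
  obtain ⟨εA, hεA, hAT⟩ := exists_hasType hAN ha
  have hBT := HasType.perp hQ hAN hεA hV hAT
  rw [hperp] at hBT
  have hεB : (-1) * εA = 1 ∨ (-1) * εA = -1 := by rcases hεA with rfl | rfl <;> norm_num
  obtain ⟨a', b', hsum, ha', hb'⟩ : ∃ a' b', a' + b' = m ∧ (a' < a ∨ (a' = a ∧ εA = 1)) ∧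
      (b' < d - a ∨ (b' = d - a ∧ (-1) * εA = 1)) := by
    rcases hεA with rfl | rfl
    · exact ⟨min m a, m - min m a, by omega,
        (lt_or_eq_of_le (min_le_right m a)).imp id fun e => ⟨e, rfl⟩, Or.inl (by
          rcases Nat.lt_or_ge a d with e | e
          · omega
          · exfalso
            have hB0 : B = ⊥ := Submodule.finrank_eq_zero.1 (by omega)
            rw [hB0] at hBT
            exact absurd (hBT.unique (hasType_bot Q)).2 (by norm_num))⟩
    · have ha1 : 1 ≤ a := Nat.pos_of_ne_zero fun e => by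
        subst e
        have hA0 : A = ⊥ := Submodule.finrank_eq_zero.1 (by omega)
        rw [hA0] at hAT
        exact absurd (hAT.unique (hasType_bot Q)).2 (by norm_num)
      exact ⟨min m (a - 1), m - min m (a - 1), by omega, Or.inl (by omega),
        (lt_or_eq_of_le (show m - min m (a - 1) ≤ d - a by omega)).imp id fun e => ⟨e, by norm_num⟩⟩
  obtain ⟨A', hA', hA'd, hA'T⟩ := exists_singular_type_minus hAN hεA hAT ha'
  obtain ⟨B', hB', hB'd, hB'T⟩ := exists_singular_type_minus hBN hεB hBT hb'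
  have hab : ∀ x ∈ A, ∀ y ∈ B, polar Q x y = 0 := fun x hx y hy => mem_perp.1 (hperp ▸ hy) x hx
  refine ⟨A' ⊔ B', ⟨?_, hA'T.sup hB'T fun x hx y hy => hab x (hA' hx) y (hB' hy)⟩, fun w hw => ?_⟩
  · have h := Submodule.finrank_sup_add_finrank_inf_eq A' B'
    rw [((disjoint_of_orth hAN hab).mono hA' hB').eq_bot, finrank_bot, hA'd, hB'd] at h
    omega
  · obtain ⟨x, hx, y, hy, rfl⟩ := Submodule.mem_sup.1 hw
    rw [map_add, hA x (hA' hx), hB y (hB' hy)]
    exact Submodule.add_mem_sup hx (B'.neg_mem hy)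

/-- A half turn keeps totally singular subspaces of each even dimension. -/
theorem halfTurn_singular (h2 : (2 : F) ≠ 0) (hns : ¬ IsSquare (-1 : F)) {g : Module.End F (ι → F)}
    (hgQ : ∀ v, Q (g v) = Q v) (hgg : ∀ v, g (g v) = -v) :
    ∀ (l n : ℕ) (U : Submodule F (ι → F)), Nd Q U → (∀ u ∈ U, g u ∈ U) → finrank F U = 2 * n → 2 * l ≤ n →
      ∃ S ≤ U, (∀ w ∈ S, g w ∈ S) ∧ Ts Q S ∧ finrank F S = 2 * l := by
  intro l
  induction l with
  | zero =>
    intro n U _ _ _ _
    exact ⟨⊥, bot_le, fun w hw => by rw [(Submodule.mem_bot F).1 hw, map_zero]; exact Submodule.zero_mem _,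
      ts_bot, finrank_bot _ _⟩
  | succ l ih =>
    intro n U hU hUi hUd hln
    have hpol : ∀ x y, polar Q (g x) (g y) = polar Q x y := fun x y => by simp only [polar, ← map_add, hgQ]
    have hB0 : ∀ x, polar Q x (g x) = 0 := fun x => by
      have h := hpol x (g x)
      rw [hgg, polar_neg_right, polar_comm (⇑Q) (g x) x] at h
      exact (mul_eq_zero.1 (show (2 : F) * polar Q x (g x) = 0 by linear_combination -h)).resolve_left h2
    obtain ⟨-, hsub⟩ := halfTurn_subspaces h2 hgQ hgg n U hU hUi hUd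
    obtain ⟨W, hWU, hWN, hWi, hWd⟩ := hsub 2 (by omega)
    obtain ⟨-, hsubW⟩ := halfTurn_subspaces h2 hgQ hgg 2 W hWN hWi hWd
    obtain ⟨P, hPW, hPN, hPi, hPd⟩ := hsubW 1 (by omega)
    haveI : Nontrivial P := Module.nontrivial_of_finrank_pos (R := F) (by omega)
    obtain ⟨⟨v, hvP⟩, hv⟩ := CfsgLib.Classes.exists_anisotropic_vector (res Q P) (nd_iff_res.1 hPN)
    replace hv : Q v ≠ 0 := by simpa using hv
    have hsurj : ∀ (U' : Submodule F (ι → F)), (∀ u ∈ U', g u ∈ U') → ∀ w ∈ U', ∃ z ∈ U', g z = w := fun U' hU' w hw =>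
      ⟨-(g w), U'.neg_mem (hU' w hw), by rw [map_neg, hgg, neg_neg]⟩
    set P' := W ⊓ perp Q P with hP'
    have hsplit : ∀ (W₁ U₁ : Submodule F (ι → F)), Nd Q W₁ → Nd Q U₁ → W₁ ≤ U₁ →
        Nd Q (U₁ ⊓ perp Q W₁) ∧ finrank F U₁ = finrank F W₁ + finrank F ↥(U₁ ⊓ perp Q W₁) := by
      intro W₁ U₁ hW₁ hU₁ hle
      have hs : ∀ x ∈ U₁, ∃ p ∈ W₁, x - p ∈ U₁ ⊓ perp Q W₁ := fun x hx => by
        obtain ⟨p, hp, y, hy, rfl⟩ := Submodule.mem_sup.1
          (show x ∈ W₁ ⊔ perp Q W₁ by rw [(isCompl_perp hW₁).sup_eq_top]; trivial)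
        exact ⟨p, hp, U₁.sub_mem hx (hle hp), by rw [add_sub_cancel_left]; exact hy⟩
      refine ⟨fun x hx h => hU₁ x hx.1 fun y hy => ?_, ?_⟩
      · obtain ⟨p, hp, hyp⟩ := hs y hy
        have h1 := h _ hyp
        rwa [polar_sub_right, polar_comm (⇑Q) x p, mem_perp.1 hx.2 p hp, sub_zero] at h1
      · rw [← finrank_sup_orth hW₁ (fun a ha b (hb : b ∈ U₁ ⊓ perp Q W₁) => mem_perp.1 hb.2 a ha)]
        rw [show W₁ ⊔ U₁ ⊓ perp Q W₁ = U₁ from le_antisymm (sup_le hle inf_le_left) fun x hx => by
          obtain ⟨p, hp, hxp⟩ := hs x hx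
          have := Submodule.add_mem_sup hp hxp
          rwa [add_sub_cancel] at this]
    obtain ⟨hP'N, hP'd⟩ := hsplit P W hPN hWN hPW
    rw [← hP'] at hP'N hP'd
    haveI : Nontrivial P' := Module.nontrivial_of_finrank_pos (R := F) (by omega)
    obtain ⟨⟨w, hwP'⟩, hw⟩ := CfsgLib.Classes.exists_anisotropic_vector (res Q P') (nd_iff_res.1 hP'N)
    replace hw : Q w ≠ 0 := by simpa using hw
    have ho : ∀ x ∈ P, polar Q x w = 0 := fun x hx => mem_perp.1 hwP'.2 x hx
    obtain ⟨α, β, hαβ⟩ := FiniteField.exists_root_sum_quadratic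
      (f := Polynomial.C (Q v) * Polynomial.X ^ 2 + Polynomial.C (Q w)) (g := Polynomial.C (Q v) * Polynomial.X ^ 2)
      (by rw [Polynomial.degree_add_C (by rw [Polynomial.degree_C_mul_X_pow 2 hv]; decide),
        Polynomial.degree_C_mul_X_pow 2 hv]; rfl)
      (by rw [Polynomial.degree_C_mul_X_pow 2 hv]; rfl) (by
        rw [← Nat.odd_iff]
        obtain ⟨p, hp⟩ := CharP.exists F
        haveI : Fact p.Prime := ⟨CharP.char_is_prime F p⟩
        obtain ⟨f, -, hf⟩ := FiniteField.card F p
        rw [hf]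
        refine ((Fact.out : p.Prime).odd_of_ne_two fun hp2 => h2 ?_).pow
        subst hp2
        exact CharTwo.two_eq_zero)
    simp only [Polynomial.eval_add, Polynomial.eval_mul, Polynomial.eval_pow, Polynomial.eval_C, Polynomial.eval_X] at hαβ
    set u₀ := α • v + β • g v with hu₀
    have hu₀P : u₀ ∈ P := P.add_mem (P.smul_mem α hvP) (P.smul_mem β (hPi v hvP))
    have hu : Q (u₀ + w) = 0 := by
      rw [QuadraticMap.map_add Q, ho _ hu₀P, add_zero, hu₀, QuadraticMap.map_add Q, QuadraticMap.map_smul,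
        QuadraticMap.map_smul, hgQ, polar_smul_left, polar_smul_right, hB0]
      simp only [smul_eq_mul, mul_zero, add_zero]
      linear_combination hαβ
    set u := u₀ + w with hudef
    have huW : u ∈ W := W.add_mem (hPW hu₀P) hwP'.1
    have hu0 : u ≠ 0 := fun e => by
      have h1 : w = -u₀ := (neg_eq_of_add_eq_zero_right (hudef ▸ e)).symm
      have hwP : w ∈ P := h1 ▸ P.neg_mem hu₀P
      have h3 := ho w hwP
      rw [polar_self, nsmul_eq_mul, Nat.cast_ofNat] at h3
      exact mul_ne_zero h2 hw h3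
    set S := Submodule.span F {u, g u} with hS
    have hSW : S ≤ W := Submodule.span_le.2 (by intro z hz; rcases hz with rfl | rfl; exacts [huW, hWi u huW])
    have hSi : ∀ z ∈ S, g z ∈ S := fun z hz => by
      obtain ⟨a, b, rfl⟩ := Submodule.mem_span_pair.1 hz
      rw [map_add, map_smul, map_smul, hgg]
      exact S.add_mem (S.smul_mem a (Submodule.subset_span (by simp)))
        (S.smul_mem b (S.neg_mem (Submodule.subset_span (by simp))))
    have hST : Ts Q S := fun z hz => by
      obtain ⟨a, b, rfl⟩ := Submodule.mem_span_pair.1 hz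
      rw [QuadraticMap.map_add Q, QuadraticMap.map_smul, QuadraticMap.map_smul, hgQ, hu, polar_smul_left,
        polar_smul_right, hB0]
      simp
    have hSd : finrank F S = 2 := by
      have hli : LinearIndependent F ![u, g u] := by
        rw [LinearIndependent.pair_iff]
        intro a b hab
        have h1 := congrArg g hab
        rw [map_add, map_smul, map_smul, hgg, map_zero, smul_neg] at h1
        have h3 : (a * a + b * b) • u = 0 := by
          have h4 := congrArg (a • ·) hab
          have h5 := congrArg (b • ·) h1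
          simp only [smul_zero, smul_add, smul_neg, smul_smul] at h4 h5
          calc (a * a + b * b) • u
              = ((a * a) • u + (a * b) • g u) - ((b * a) • g u + -((b * b) • u)) := by rw [mul_comm b a]; module
            _ = 0 := by rw [h4, h5, sub_zero]
        have h6 := (smul_eq_zero.1 h3).resolve_right hu0
        rcases eq_or_ne b 0 with rfl | hb
        · rw [mul_zero, add_zero, mul_self_eq_zero] at h6
          exact ⟨h6, rfl⟩
        · exact absurd ⟨a / b, by field_simp; linear_combination -h6⟩ hns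
      have := finrank_span_eq_card hli
      rw [show Set.range ![u, g u] = ({u, g u} : Set (ι → F)) by simp [Set.pair_comm]] at this
      simpa using this
    obtain ⟨hU'N, hU'd⟩ := hsplit W U hWN hU hWU
    obtain ⟨S', hS', hS'i, hS'T, hS'd⟩ := ih (n - 2) (U ⊓ perp Q W) hU'N
      (fun z hz => ⟨hUi z hz.1, perp_inv hgQ (hsurj W hWi) hz.2⟩) (by omega) (by omega)
    have hoS : ∀ a ∈ S, ∀ b ∈ S', polar Q a b = 0 := fun a ha b hb => mem_perp.1 (hS' hb).2 a (hSW ha)
    refine ⟨S ⊔ S', sup_le (hSW.trans hWU) (hS'.trans inf_le_left), fun z hz => ?_, hST.sup hS'T hoS, ?_⟩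
    · obtain ⟨a, ha, b, hb, rfl⟩ := Submodule.mem_sup.1 hz
      rw [map_add]
      exact Submodule.add_mem_sup (hSi a ha) (hS'i b hb)
    · have h := Submodule.finrank_sup_add_finrank_inf_eq S S'
      rw [((disjoint_of_orth hWN (fun a ha b (hb : b ∈ U ⊓ perp Q W) => mem_perp.1 hb.2 a ha)).mono hSW hS').eq_bot,
        finrank_bot, hSd, hS'd] at h
      omega

/-- The prime two: minus spaces of odd characteristic. -/
theorem singular_minus_two (h2 : (2 : F) ≠ 0) (hQ : (polarBilin Q).Nondegenerate) {d : ℕ}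
    (hV : HasType Q (⊤ : Submodule F (ι → F)) d (-1)) {m : ℕ} (hmd : m + 1 ≤ d) :
    AllFixP Q (fun W => finrank F W = m ∧ Ts Q W) 2 ↔
      ((-1 = sqNegOne F ^ d ∧ sqTwo F ^ d = 1) → Even m) := by
  have hn : finrank F (ι → F) = 2 * d := (hasType_top_iff.1 hV).1
  haveI : Nonempty ι := Fintype.card_pos_iff.1 (by rw [Module.finrank_fintype_fun_eq_card] at hn; omega)
  haveI : Nontrivial (ι → F) := Module.nontrivial_of_finrank_pos (R := F) (by omega)
  obtain ⟨v₀, hv₀⟩ := CfsgLib.Classes.exists_anisotropic_vector Q hQ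
  have hns : -1 = sqNegOne F ^ d → ¬ IsSquare (-1 : F) := fun e hsq => by
    unfold sqNegOne at e
    rw [if_pos hsq, one_pow] at e
    norm_num at e
  constructor
  · intro H hcond
    obtain ⟨x, hx, hxx⟩ := (exists_halfTurn_omega_iff h2 hQ (by omega) hV).2 hcond
    have hiso := fun v => isometry_of_mem_omegaGL hx v
    obtain ⟨W, ⟨hWd, -⟩, hWi⟩ := H x hx ⟨-1, Matrix.toLin'.injective (LinearMap.ext fun v => by
        rw [Units.val_pow_eq_pow_val, pow_two, Matrix.toLin'_apply, ← Matrix.mulVec_mulVec, hxx]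
        simp)⟩ (fun z hz => by
      have h1 := hxx v₀
      rw [hz, Matrix.smul_mulVec, Matrix.one_mulVec, Matrix.smul_mulVec, Matrix.one_mulVec, smul_smul] at h1
      have h3 := hiso v₀
      rw [hz, Matrix.smul_mulVec, Matrix.one_mulVec, QuadraticMap.map_smul, smul_eq_mul] at h3
      have h4 : z * z = 1 := mul_right_cancel₀ hv₀ (h3.trans (one_mul _).symm)
      rw [h4, one_smul, eq_neg_iff_add_eq_zero, ← two_smul F, smul_eq_zero] at h1
      rcases h1 with h1 | h1
      · exact h2 h1
      · exact hv₀ (by rw [h1, QuadraticMap.map_zero]))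
    rcases Nat.even_or_odd m with he | ho
    · exact he
    exfalso
    set f := (Matrix.toLin' (x : Matrix ι ι F)).restrict hWi with hf
    have hff : f * f = (-1 : F) • (1 : Module.End F W) := LinearMap.ext fun w => Subtype.ext (by
      simp [f, hxx])
    have h1 := congrArg LinearMap.det hff
    rw [map_mul, LinearMap.det_smul, map_one, mul_one, hWd, ho.neg_one_pow] at h1
    exact hns hcond.1 ⟨_, h1.symm⟩
  · intro hcond x hx ⟨z, hz⟩ _
    have hiso := fun v => isometry_of_mem_omegaGL hx v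
    have hxx : ∀ v, (x : Matrix ι ι F) *ᵥ ((x : Matrix ι ι F) *ᵥ v) = z • v := fun v => by
      rw [Matrix.mulVec_mulVec, ← pow_two, ← Units.val_pow_eq_pow_val, hz, Matrix.smul_mulVec, Matrix.one_mulVec]
    have hz2 : z * z = 1 := by
      have h1 := hiso ((x : Matrix ι ι F) *ᵥ v₀)
      rw [hxx, hiso, QuadraticMap.map_smul, smul_eq_mul] at h1
      exact mul_right_cancel₀ hv₀ (h1.trans (one_mul _).symm)
    set g : Module.End F (ι → F) := Matrix.toLin' (x : Matrix ι ι F) with hg
    rcases mul_self_eq_one_iff.1 hz2 with rfl | rfl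
    · have hgg : g * g = 1 := LinearMap.ext fun v => by
        rw [Module.End.mul_apply, hg, Matrix.toLin'_apply, Matrix.toLin'_apply, hxx, one_smul]; rfl
      exact involution_fixes_singular h2 hQ hV hgg (fun v => hiso v) (det_eq_one_of_mem_omegaGL hx) hmd
    · have hgg : ∀ v, g (g v) = -v := fun v => by
        rw [hg, Matrix.toLin'_apply, Matrix.toLin'_apply, hxx, neg_one_smul]
      have hc := (exists_halfTurn_omega_iff h2 hQ (by omega) hV).1 ⟨x, hx, fun v => hgg v⟩
      obtain ⟨l, hl⟩ := hcond hc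
      obtain ⟨S, -, hSi, hST, hSd⟩ := halfTurn_singular h2 (hns hc.1) (fun v => hiso v) hgg l d ⊤ (nd_top hQ)
        (fun _ _ => trivial) (by rw [finrank_top, hn]) (by omega)
      exact ⟨S, ⟨by omega, hST⟩, hSi⟩

end CfsgLib.Derangements.Sub
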