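import Mathlib
import Cfsg.Agent.Lib.Derangements.SingularBlocks
import Cfsg.Agent.Lib.Derangements.SubspaceInvolution
import Cfsg.Agent.Lib.Classes.OmegaPairs
import Cfsg.Agent.Lib.ClassicalForms.Ortho.Standard

/-!
Involutions of `Ω_{2d+1}(q)` and the totally singular subspaces they fix.
-/

set_option autoImplicit false
set_option linter.unusedSectionVars false
set_option linter.style.haveILetI false

namespace CfsgLib.Derangements.Sub

open Module QuadraticMap CfsgLib.Derangements
open scoped Matrix

universe u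

section Space

variable {F : Type u} [Field F] [Fintype F] {V : Type u} [AddCommGroup V] [Module F V] [FiniteDimensional F V]
  {Q : QuadraticForm F V}

/-- An orthogonal basis of an even-dimensional space which detects whether it is hyperbolic. -/
theorem exists_orth_list (h2 : (2 : F) ≠ 0) (hi : IsSquare (-1 : F)) :
    ∀ (b : ℕ) {B : Submodule F V}, Nd Q B → finrank F B = 2 * b →
      ∃ l : List V, (∀ v ∈ l, v ∈ B ∧ Q v ≠ 0) ∧ l.Pairwise (fun a c => polar Q a c = 0) ∧ l.length = 2 * b ∧
        B ≤ Submodule.span F {v | v ∈ l} ∧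
        (IsSquare (l.map fun v => Q v).prod → ∃ W ≤ B, finrank F W = b ∧ Ts Q W) := by
  intro b
  induction b with
  | zero =>
    intro B _ hB
    refine ⟨[], by simp, List.Pairwise.nil, rfl, ?_, fun _ => ⟨⊥, bot_le, finrank_bot F V, ts_bot⟩⟩
    rw [show B = ⊥ from Submodule.finrank_eq_zero.1 (by rw [hB])]
    exact bot_le
  | succ b ih =>
    intro B hBN hB
    by_cases hsing : ∃ e ∈ B, e ≠ 0 ∧ Q e = 0
    · obtain ⟨e, heB, he0, he⟩ := hsing
      obtain ⟨g, hgB, hg⟩ : ∃ g ∈ B, polar Q e g ≠ 0 := by
        by_contra hc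
        push Not at hc
        exact he0 (hBN e heB hc)
      obtain ⟨g', hg'B, hg'⟩ : ∃ g' ∈ B, polar Q e g' = 1 :=
        ⟨(polar Q e g)⁻¹ • g, B.smul_mem _ hgB, by rw [polar_smul_right, smul_eq_mul, inv_mul_cancel₀ hg]⟩
      obtain ⟨f, hf⟩ : ∃ f : V, f = g' - Q g' • e := ⟨_, rfl⟩
      have hfB : f ∈ B := hf ▸ B.sub_mem hg'B (B.smul_mem _ heB)
      have hee : polar Q e e = 0 := by rw [polar_self, he, smul_zero]
      have hef : polar Q e f = 1 := by rw [hf, polar_sub_right, polar_smul_right, hee, smul_zero, sub_zero, hg']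
      have hff : Q f = 0 := by
        rw [hf, sub_eq_add_neg, ← neg_smul, QuadraticMap.map_add Q, QuadraticMap.map_smul, he, smul_zero, add_zero,
          polar_smul_right, polar_comm, hg', smul_eq_mul, mul_one, add_neg_cancel]
      have hfe : polar Q f e = 1 := by rw [polar_comm, hef]
      have hff' : polar Q f f = 0 := by rw [polar_self, hff, smul_zero]
      let φ : B →ₗ[F] F × F := ((polarBilin Q e).prod (polarBilin Q f)).comp B.subtype
      have hφs : Function.Surjective φ := fun a => ⟨⟨a.1 • f + a.2 • e,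
        B.add_mem (B.smul_mem _ hfB) (B.smul_mem _ heB)⟩, by
          ext <;> simp [φ, polar_add_right, polar_smul_right, hee, hef, hfe, hff']⟩
      set B' := B ⊓ (LinearMap.ker (polarBilin Q e) ⊓ LinearMap.ker (polarBilin Q f)) with hB'
      have hmem : ∀ x, x ∈ B' ↔ x ∈ B ∧ polar Q e x = 0 ∧ polar Q f x = 0 := fun x => by simp [hB']
      have hdim : finrank F B' = 2 * b := by
        have hk : (LinearMap.ker φ).map B.subtype = B' := by
          ext x
          rw [hmem]
          constructor
          · rintro ⟨y, hy, rfl⟩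
            exact ⟨y.2, congrArg Prod.fst hy, congrArg Prod.snd hy⟩
          · rintro ⟨h1, h3, h4⟩
            exact ⟨⟨x, h1⟩, Prod.ext h3 h4, rfl⟩
        have h1 := φ.finrank_range_add_finrank_ker
        rw [LinearMap.range_eq_top.2 hφs, finrank_top, Module.finrank_prod, Module.finrank_self,
          ← Submodule.finrank_map_subtype_eq, hk, hB] at h1
        omega
      have hproj : ∀ x ∈ B, x - polar Q e x • f - polar Q f x • e ∈ B' := fun x hx => by
        rw [hmem]
        refine ⟨B.sub_mem (B.sub_mem hx (B.smul_mem _ hfB)) (B.smul_mem _ heB), ?_, ?_⟩ <;>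
          simp only [polar_sub_right, polar_smul_right, hee, hef, hfe, hff', smul_eq_mul] <;> ring
      have hB'N : Nd Q B' := fun x hx h => hBN x ((hmem x).1 hx).1 fun y hy => by
        have h1 := h _ (hproj y hy)
        rw [polar_sub_right, polar_sub_right, polar_smul_right, polar_smul_right, polar_comm (⇑Q) x f,
          polar_comm (⇑Q) x e, ((hmem x).1 hx).2.1, ((hmem x).1 hx).2.2, smul_zero, smul_zero, sub_zero,
          sub_zero] at h1
        exact h1
      obtain ⟨l, hlB, hlo, hll, hspan, hW⟩ := ih hB'N hdim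
      have hp : Q (e + f) = 1 := by rw [QuadraticMap.map_add Q, he, hff, hef]; ring
      have hm : Q (e - f) = -1 := by
        rw [sub_eq_add_neg, QuadraticMap.map_add Q, QuadraticMap.map_neg, he, hff, polar_neg_right, hef]; ring
      refine ⟨(e + f) :: (e - f) :: l, ?_, ?_, by simp [hll]; omega, ?_, fun hsq => ?_⟩
      · intro v hv
        rcases List.mem_cons.1 hv with rfl | hv
        · exact ⟨B.add_mem heB hfB, by rw [hp]; exact one_ne_zero⟩
        rcases List.mem_cons.1 hv with rfl | hv
        · exact ⟨B.sub_mem heB hfB, by rw [hm]; exact neg_ne_zero.2 one_ne_zero⟩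
        · exact ⟨((hmem v).1 (hlB v hv).1).1, (hlB v hv).2⟩
      · have hz : ∀ v ∈ l, polar Q e v = 0 ∧ polar Q f v = 0 := fun v hv => ((hmem v).1 (hlB v hv).1).2
        refine List.pairwise_cons.2 ⟨fun v hv => ?_, List.pairwise_cons.2 ⟨fun v hv => ?_, hlo⟩⟩
        · rcases List.mem_cons.1 hv with rfl | hv
          · rw [polar_add_left, polar_sub_right, polar_sub_right, hee, hef, hfe, hff']; ring
          · rw [polar_add_left, (hz v hv).1, (hz v hv).2, add_zero]
        · rw [polar_sub_left, (hz v hv).1, (hz v hv).2, sub_zero]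
      · intro x hx
        set S := Submodule.span F {v | v ∈ (e + f) :: (e - f) :: l}
        have h1 : e + f ∈ S := Submodule.subset_span (by simp)
        have h3 : e - f ∈ S := Submodule.subset_span (by simp)
        have he' : e ∈ S := by
          have := S.smul_mem (2 : F)⁻¹ (S.add_mem h1 h3)
          rwa [show e + f + (e - f) = (2 : F) • e by rw [two_smul]; abel, smul_smul, inv_mul_cancel₀ h2,
            one_smul] at this
        have hf' : f ∈ S := by
          have := S.smul_mem (2 : F)⁻¹ (S.sub_mem h1 h3)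
          rwa [show e + f - (e - f) = (2 : F) • f by rw [two_smul]; abel, smul_smul, inv_mul_cancel₀ h2,
            one_smul] at this
        have h4 : x - polar Q e x • f - polar Q f x • e ∈ S :=
          Submodule.span_mono (fun v hv => List.mem_cons_of_mem _ (List.mem_cons_of_mem _ hv))
            (hspan (hproj x hx))
        have := S.add_mem h4 (S.add_mem (S.smul_mem (polar Q e x) hf') (S.smul_mem (polar Q f x) he'))
        rwa [show x - polar Q e x • f - polar Q f x • e + (polar Q e x • f + polar Q f x • e) = x by abel]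
          at this
      · simp only [List.map_cons, List.prod_cons, hp, hm, one_mul] at hsq
        obtain ⟨W, hWle, hWd, hWT⟩ := hW (by simpa using hi.mul hsq)
        have hW0 : Disjoint (F ∙ e) W := Submodule.disjoint_def.2 fun x hx hxW => by
          obtain ⟨c, rfl⟩ := Submodule.mem_span_singleton.1 hx
          have h3 := ((hmem _).1 (hWle hxW)).2.2
          rw [polar_smul_right, hfe, smul_eq_mul, mul_one] at h3
          rw [h3, zero_smul]
        refine ⟨(F ∙ e) ⊔ W, sup_le ((Submodule.span_singleton_le_iff_mem _ _).2 heB)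
          (hWle.trans inf_le_left), ?_, Ts.sup (fun x hx => ?_) hWT fun a ha c hc => ?_⟩
        · have h := Submodule.finrank_sup_add_finrank_inf_eq (F ∙ e) W
          rw [hW0.eq_bot, finrank_bot, finrank_span_singleton he0, hWd] at h
          omega
        · obtain ⟨c, rfl⟩ := Submodule.mem_span_singleton.1 hx
          rw [QuadraticMap.map_smul, he, smul_zero]
        · obtain ⟨t, rfl⟩ := Submodule.mem_span_singleton.1 ha
          rw [polar_smul_left, ((hmem c).1 (hWle hc)).2.1, smul_zero]
    · push Not at hsing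
      have hb : b = 0 := by
        by_contra hb
        obtain ⟨W, hWB, hWd, hWT⟩ := exists_singular_le h2 hBN (k := 1) (by omega)
        obtain ⟨e, heW, he0⟩ := Submodule.exists_mem_ne_zero_of_ne_bot
          (show W ≠ ⊥ from fun h => by rw [h, finrank_bot] at hWd; omega)
        exact hsing e (hWB heW) he0 (hWT e heW)
      subst hb
      obtain ⟨v, hvB, hv0⟩ := Submodule.exists_mem_ne_zero_of_ne_bot
        (show B ≠ ⊥ from fun h => by rw [h, finrank_bot] at hB; omega)
      have hQv := hsing v hvB hv0
      have hvv : polar Q v v = 2 * Q v := by rw [polar_self, nsmul_eq_mul, Nat.cast_ofNat]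
      let φ : B →ₗ[F] F := (polarBilin Q v).comp B.subtype
      have hφs : Function.Surjective φ := fun a => ⟨⟨(a / (2 * Q v)) • v, B.smul_mem _ hvB⟩, by
        show polar Q v ((a / (2 * Q v)) • v) = a
        rw [polar_smul_right, hvv, smul_eq_mul, div_mul_cancel₀ _ (mul_ne_zero h2 hQv)]⟩
      have hk : finrank F (LinearMap.ker φ) = 1 := by
        have h1 := φ.finrank_range_add_finrank_ker
        rw [LinearMap.range_eq_top.2 hφs, finrank_top, Module.finrank_self, hB] at h1
        omega
      obtain ⟨w, hw, hgen⟩ : ∃ w : LinearMap.ker φ, w ≠ 0 ∧ ∀ y, ∃ c : F, c • w = y := by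
        obtain ⟨w, hw0, hw⟩ := finrank_eq_one_iff'.1 hk
        exact ⟨w, hw0, hw⟩
      have hw0 : ((w : B) : V) ≠ 0 := fun h => hw (Subtype.ext (Subtype.ext h))
      have hQw := hsing _ (w : B).2 hw0
      have hvw : polar Q v ((w : B) : V) = 0 := w.2
      refine ⟨[v, ((w : B) : V)], ?_, ?_, rfl, ?_, fun hsq => ?_⟩
      · intro x hx
        simp only [List.mem_cons, List.not_mem_nil, or_false] at hx
        rcases hx with rfl | rfl
        · exact ⟨hvB, hQv⟩
        · exact ⟨(w : B).2, hQw⟩
      · exact List.pairwise_cons.2 ⟨fun x hx => by rw [List.mem_singleton.1 hx]; exact hvw,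
          List.pairwise_singleton _ _⟩
      · intro x hx
        have hy : φ (⟨x, hx⟩ - (polar Q v x / (2 * Q v)) • (⟨v, hvB⟩ : B)) = 0 := by
          show polar Q v (x - (polar Q v x / (2 * Q v)) • v) = 0
          rw [polar_sub_right, polar_smul_right, hvv, smul_eq_mul, div_mul_cancel₀ _ (mul_ne_zero h2 hQv), sub_self]
        obtain ⟨c, hc⟩ := hgen ⟨_, hy⟩
        have hc' : c • ((w : B) : V) = x - (polar Q v x / (2 * Q v)) • v :=
          congrArg (fun z : LinearMap.ker φ => ((z : B) : V)) hc
        have hx' : x = c • ((w : B) : V) + (polar Q v x / (2 * Q v)) • v := by rw [hc']; abel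
        rw [hx']
        exact Submodule.add_mem _ (Submodule.smul_mem _ _ (Submodule.subset_span (by simp)))
          (Submodule.smul_mem _ _ (Submodule.subset_span (by simp)))
      · exfalso
        simp only [List.map_cons, List.map_nil, List.prod_cons, List.prod_nil, mul_one] at hsq
        obtain ⟨c, hc⟩ := hi.mul hsq
        have hne : ((w : B) : V) + (c / Q v) • v ≠ 0 := fun h0 => by
          have h3 := congrArg (fun z => polar Q v z) h0
          simp only [polar_add_right, polar_smul_right, hvw, hvv, polar_zero_right, zero_add, smul_eq_mul] at h3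
          rcases mul_eq_zero.1 h3 with h3 | h3
          · rw [h3, zero_smul, add_zero] at h0; exact hw0 h0
          · exact mul_ne_zero h2 hQv h3
        refine hsing _ (B.add_mem (w : B).2 (B.smul_mem _ hvB)) hne ?_
        rw [QuadraticMap.map_add Q, QuadraticMap.map_smul, polar_smul_right, polar_comm, hvw, smul_eq_mul]
        field_simp
        linear_combination (-1 : F) * hc

end Space

variable {F : Type u} [Field F] [Fintype F]

theorem end_of_involution {ι : Type} [Fintype ι] [DecidableEq ι] {x : GL ι F} (hord : orderOf x = 2) :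
    (Matrix.toLin' (x : Matrix ι ι F) : Module.End F (ι → F)) * Matrix.toLin' (x : Matrix ι ι F) = 1 := by
  have hxx : x * x = 1 := by rw [← pow_two, ← hord, pow_orderOf_eq_one]
  rw [Module.End.mul_eq_comp, ← Matrix.toLin'_mul, ← Units.val_mul, hxx, Units.val_one, Matrix.toLin'_one]; rfl

/-- An involution of Ω fixes totally singular subspaces below the largest dimension, and of that dimension too
when `-1` is a square. -/
theorem singular_two (h2 : (2 : F) ≠ 0) (d m : ℕ) (hd : 1 ≤ d) (hmd : m < d ∨ (m = d ∧ IsSquare (-1 : F)))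
    (x : GL (Unit ⊕ (Fin d ⊕ Fin d)) F) (hx : x ∈ Cfsg.Geo.omegaGL (Cfsg.quadFormOdd d F)) (hord : orderOf x = 2) :
    ∃ W : Submodule F (Unit ⊕ (Fin d ⊕ Fin d) → F), finrank F W = m ∧
      (∀ w ∈ W, Cfsg.quadFormOdd d F w = 0) ∧
      W.map (Matrix.toLin' (x : Matrix (Unit ⊕ (Fin d ⊕ Fin d)) (Unit ⊕ (Fin d ⊕ Fin d)) F)) ≤ W := by
  classical
  set Q := CfsgLib.ClassicalForms.qOdd d F with hQdef
  have hfun : ⇑Q = Cfsg.quadFormOdd d F := funext fun v => CfsgLib.ClassicalForms.qOdd_apply d v
  have hQ : (polarBilin Q).Nondegenerate :=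
    CfsgLib.ClassicalForms.nondeg_iff_polarBilin.2 (CfsgLib.ClassicalForms.nondeg_qOdd h2 d)
  have hn : finrank F (Unit ⊕ (Fin d ⊕ Fin d) → F) = 2 * d + 1 := by
    rw [Module.finrank_fintype_fun_eq_card]; simp; omega
  set g : Module.End F (Unit ⊕ (Fin d ⊕ Fin d) → F) :=
    Matrix.toLin' (x : Matrix (Unit ⊕ (Fin d ⊕ Fin d)) (Unit ⊕ (Fin d ⊕ Fin d)) F) with hgdef
  obtain ⟨A, B, hAN, hBN, hperp, hA, hB, hdim, hd'⟩ := involution_split h2 hQ (end_of_involution hord) (fun v => by
    rw [hfun]; exact isometry_of_mem_omegaGL hx v)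
  rw [det_eq_one_of_mem_omegaGL hx] at hd'
  have hbe : Even (finrank F B) := by
    rcases Nat.even_or_odd (finrank F B) with he | ho
    · exact he
    · rw [ho.neg_one_pow] at hd'
      exact absurd hd' fun h => h2 (by linear_combination h)
  obtain ⟨b, hb⟩ := hbe
  have hg' : ∀ A' ≤ A, ∀ B' ≤ B, ∀ w ∈ A' ⊔ B', g w ∈ A' ⊔ B' := by
    intro A' hA' B' hB' w hw
    obtain ⟨y, hy, z, hz, rfl⟩ := Submodule.mem_sup.1 hw
    rw [map_add, hA y (hA' hy), hB z (hB' hz)]
    exact Submodule.add_mem_sup hy (B'.neg_mem hz)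
  have hab : ∀ y ∈ A, ∀ z ∈ B, polar Q y z = 0 := fun y hy z hz => mem_perp.1 (hperp ▸ hz) y hy
  -- a subspace of `B` of every dimension up to the required one
  obtain ⟨k, WB, hWB, hWBd, hWBT, hkm, hkd⟩ : ∃ (k : ℕ) (WB : Submodule F (Unit ⊕ (Fin d ⊕ Fin d) → F)),
      WB ≤ B ∧ finrank F WB = k ∧ Ts Q WB ∧ k ≤ m ∧ m + b ≤ k + d := by
    rcases hmd with hmd | ⟨hmd, hi⟩
    · rcases Nat.eq_zero_or_pos b with rfl | hb0
      · exact ⟨0, ⊥, bot_le, finrank_bot _ _, ts_bot, Nat.zero_le _, by omega⟩
      · obtain ⟨W, hW1, hW2, hW3⟩ := exists_singular_le h2 hBN (k := min m (b - 1)) (by omega)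
        exact ⟨_, W, hW1, hW2, hW3, Nat.min_le_left _ _, by omega⟩
    · obtain ⟨l, hlB, hlo, hll, hspan, hW⟩ := exists_orth_list h2 hi b hBN (by omega)
      refine ⟨b, ?_⟩
      suffices hsq : IsSquare (l.map fun v => Q v).prod by
        obtain ⟨W, hW1, hW2, hW3⟩ := hW hsq
        exact ⟨W, hW1, hW2, hW3, by omega, by omega⟩
      obtain ⟨X, hX, hXx⟩ := hx
      let Y : Cfsg.isometryGroup F (⇑Q) := ⟨x, fun v w => by rw [hfun, ← hXx]; exact X.2 v w⟩
      have hY : Y ∈ Cfsg.Omega F (⇑Q) := by
        have : ∀ (f f' : (Unit ⊕ (Fin d ⊕ Fin d) → F) → F), f = f' →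
            ∀ (X : Cfsg.isometryGroup F f) (Y : Cfsg.isometryGroup F f'), (X : GL (Unit ⊕ (Fin d ⊕ Fin d)) F) = (Y : GL (Unit ⊕ (Fin d ⊕ Fin d)) F) →
              X ∈ Cfsg.Omega F f → Y ∈ Cfsg.Omega F f' := by
          rintro f _ rfl X Y hXY hX
          obtain rfl : X = Y := Subtype.ext hXY
          exact hX
        exact this _ _ hfun.symm X Y hXx hX
      refine ((CfsgLib.Classes.prod_refl_mem_omega_iff h2 hQ (by simp; omega) Y l (fun v hv => (hlB v hv).2) ?_).1
        hY).2
      refine Matrix.ext_of_mulVec_single fun k => ?_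
      rw [CfsgLib.Classes.prod_reflectionMatrix_mulVec l (fun v hv => (hlB v hv).2) hlo]
      -- two linear maps agreeing on `A` and on the list
      have key : ∀ y, g y = y - (l.map fun v => (polar Q v y / Q v) • v).sum := by
        let R : Module.End F (Unit ⊕ (Fin d ⊕ Fin d) → F) :=
          LinearMap.id - (l.map fun v => ((Q v)⁻¹ • polarBilin Q v).smulRight v).sum
        have hR : ∀ y, R y = y - (l.map fun v => (polar Q v y / Q v) • v).sum := fun y => by
          simp only [R, LinearMap.sub_apply, LinearMap.id_apply]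
          congr 1
          clear hlo hll hspan hW hlB
          induction l with
          | nil => simp
          | cons a l ih =>
            simp only [List.map_cons, List.sum_cons, LinearMap.add_apply, ih, LinearMap.smulRight_apply,
              LinearMap.smul_apply, smul_eq_mul, polarBilin_apply_apply, inv_mul_eq_div]
        intro y
        rw [← hR]
        suffices h : A ⊔ B ≤ LinearMap.eqLocus g R by
          refine h ?_
          have hcomp := isCompl_perp (Q := Q) hAN
          rw [hperp] at hcomp
          rw [hcomp.sup_eq_top]; trivial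
        refine sup_le (fun a ha => ?_) (hspan.trans (Submodule.span_le.2 fun v hv => ?_))
        · show g a = R a
          rw [hA a ha, hR, List.sum_eq_zero, sub_zero]
          intro z hz
          obtain ⟨v, hv, rfl⟩ := List.mem_map.1 hz
          rw [polar_comm, hab a ha v (hlB v hv).1, zero_div, zero_smul]
        · show g v = R v
          have hsum : ∀ l' : List _, (∀ w ∈ l', Q w ≠ 0) → l'.Pairwise (fun a c => polar Q a c = 0) →
              (v ∈ l' → (l'.map fun w => (polar Q w v / Q w) • w).sum = (2 : F) • v) ∧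
              ((∀ w ∈ l', polar Q w v = 0) → (l'.map fun w => (polar Q w v / Q w) • w).sum = 0) := by
            intro l'
            induction l' with
            | nil => intro _ _; exact ⟨fun h => absurd h (List.not_mem_nil), fun _ => rfl⟩
            | cons a l' ih =>
              intro hne hp
              rw [List.pairwise_cons] at hp
              obtain ⟨ih1, ih2⟩ := ih (fun w hw => hne w (List.mem_cons_of_mem _ hw)) hp.2
              refine ⟨fun hmem => ?_, fun hz => ?_⟩
              · rw [List.map_cons, List.sum_cons]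
                rcases List.mem_cons.1 hmem with e | hmem
                · subst e
                  rw [ih2 fun w hw => by rw [polar_comm]; exact hp.1 w hw, add_zero, polar_self, nsmul_eq_mul,
                    Nat.cast_ofNat, mul_div_assoc, div_self (hne v (List.mem_cons_self ..)), mul_one]
                · rw [ih1 hmem, hp.1 v hmem, zero_div, zero_smul, zero_add]
              · rw [List.map_cons, List.sum_cons, hz a (List.mem_cons_self ..), zero_div, zero_smul, zero_add,
                  ih2 fun w hw => hz w (List.mem_cons_of_mem _ hw)]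
          rw [hB v (hlB v hv).1, hR, (hsum l (fun w hw => (hlB w hw).2) hlo).1 hv, two_smul]
          abel
      exact key _
  obtain ⟨WA, hWA, hWAd, hWAT⟩ := exists_singular_le h2 hAN (k := m - k) (by omega)
  refine ⟨WA ⊔ WB, ?_, ?_, map_le_iff_invariant.2 (hg' WA hWA WB hWB)⟩
  · have h := Submodule.finrank_sup_add_finrank_inf_eq WA WB
    rw [((disjoint_of_orth hAN hab).mono hWA hWB).eq_bot, finrank_bot, hWAd, hWBd] at h
    omega
  · intro w hw
    rw [← hfun]
    exact hWAT.sup hWBT (fun a ha c hc => hab a (hWA ha) c (hWB hc)) w hw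

/-- When `-1` is no square an involution fixes no maximal totally singular subspace. -/
theorem singular_two_counterexample (h2 : (2 : F) ≠ 0) (hi : ¬ IsSquare (-1 : F)) (d : ℕ) (hd : 1 ≤ d) :
    ∃ x : GL (Unit ⊕ (Fin d ⊕ Fin d)) F, x ∈ Cfsg.Geo.omegaGL (Cfsg.quadFormOdd d F) ∧ orderOf x = 2 ∧
      ∀ W : Submodule F (Unit ⊕ (Fin d ⊕ Fin d) → F), (∀ w ∈ W, Cfsg.quadFormOdd d F w = 0) →
        W.map (Matrix.toLin' (x : Matrix (Unit ⊕ (Fin d ⊕ Fin d)) (Unit ⊕ (Fin d ⊕ Fin d)) F)) ≤ W →
        finrank F W < d := by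
  classical
  set Q := CfsgLib.ClassicalForms.qOdd d F with hQdef
  have hfun : ⇑Q = Cfsg.quadFormOdd d F := funext fun v => CfsgLib.ClassicalForms.qOdd_apply d v
  have hQ : (polarBilin Q).Nondegenerate :=
    CfsgLib.ClassicalForms.nondeg_iff_polarBilin.2 (CfsgLib.ClassicalForms.nondeg_qOdd h2 d)
  let k : Fin d := ⟨0, hd⟩
  let u : Unit ⊕ (Fin d ⊕ Fin d) → F := Pi.single (Sum.inl ()) 1
  let v : Unit ⊕ (Fin d ⊕ Fin d) → F := Pi.single (Sum.inr (Sum.inl k)) 1 + Pi.single (Sum.inr (Sum.inr k)) 1
  have hval : ∀ w, Q w = w (Sum.inl ()) ^ 2 + ∑ j, w (Sum.inr (Sum.inl j)) * w (Sum.inr (Sum.inr j)) := fun w => by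
    rw [hfun]; rfl
  have hu : Q u = 1 := by simp [hval, u]
  have hv : Q v = 1 := by simp [hval, v, Pi.single_apply]
  have huv : polar Q u v = 0 := by
    have : Q (u + v) = 2 := by simp [hval, u, v, Pi.single_apply]; norm_num
    rw [polar, this, hu, hv]; ring
  have hu0 : Q u ≠ 0 := by rw [hu]; exact one_ne_zero
  have hv0 : Q v ≠ 0 := by rw [hv]; exact one_ne_zero
  let g : Cfsg.isometryGroup F (⇑Q) := OrthGen.refl Q hu0 * OrthGen.refl Q hv0
  have hgv : ∀ w, ((g : GL (Unit ⊕ (Fin d ⊕ Fin d)) F) : Matrix _ _ F) *ᵥ w =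
      w - (polar Q u w • u + polar Q v w • v) := fun w => by
    show OrthGen.act Q g w = _
    rw [OrthGen.act_mul, OrthGen.act_refl, OrthGen.act_refl]
    simp only [OrthGen.pf, hu, hv, inv_one, one_mul, polar_sub_right, polar_smul_right, huv, smul_zero, sub_zero]
    abel
  have hgO : g ∈ Cfsg.Omega F (⇑Q) := by
    refine (CfsgLib.Classes.prod_refl_mem_omega_iff h2 hQ (by simp; omega) g [u, v] ?_ ?_).2 ⟨by simp, ?_⟩
    · intro w hw
      simp only [List.mem_cons, List.not_mem_nil, or_false] at hw
      rcases hw with rfl | rfl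
      · exact hu0
      · exact hv0
    · refine Matrix.ext_of_mulVec_single fun j => ?_
      rw [CfsgLib.Classes.prod_reflectionMatrix_mulVec [u, v] ?_ ?_, hgv]
      · simp [OrthGen.pf, hu, hv]
      · intro w hw
        simp only [List.mem_cons, List.not_mem_nil, or_false] at hw
        rcases hw with rfl | rfl
        · exact hu0
        · exact hv0
      · exact List.pairwise_cons.2 ⟨fun w hw => by rw [List.mem_singleton.1 hw]; exact huv,
          List.pairwise_singleton _ _⟩
    · simp [hu, hv]
  let x : GL (Unit ⊕ (Fin d ⊕ Fin d)) F := (g : GL (Unit ⊕ (Fin d ⊕ Fin d)) F)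
  have hxu : (x : Matrix _ _ F) *ᵥ u = -u := by
    rw [hgv, polar_self, hu, polar_comm (⇑Q) v u, huv, nsmul_eq_mul, Nat.cast_ofNat, mul_one, zero_smul, add_zero,
      two_smul]
    abel
  refine ⟨x, hfun ▸ ⟨g, hgO, rfl⟩, orderOf_eq_prime ?_ ?_, fun W hWT hW => ?_⟩
  · refine Units.ext (Matrix.ext_of_mulVec_single fun j => ?_)
    rw [pow_two, Units.val_mul, Units.val_one, ← Matrix.mulVec_mulVec, Matrix.one_mulVec, hgv, hgv]
    simp only [polar_sub_right, polar_add_right, polar_smul_right, polar_self, hu, hv, huv, polar_comm (⇑Q) v u,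
      smul_eq_mul, nsmul_eq_mul, Nat.cast_ofNat, mul_one, mul_zero]
    module
  · intro h
    rw [h, Units.val_one, Matrix.one_mulVec] at hxu
    have h1 := congrFun hxu (Sum.inl ())
    simp [u] at h1
    exact h2 (by linear_combination h1)
  · rw [map_le_iff_invariant] at hW
    let K : Submodule F (Unit ⊕ (Fin d ⊕ Fin d) → F) := LinearMap.ker (polarBilin Q u) ⊓ LinearMap.ker (polarBilin Q v)
    have hmem : ∀ w, w ∈ K ↔ polar Q u w = 0 ∧ polar Q v w = 0 := fun w => by simp [K]
    have hWT' : Ts Q W := fun w hw => by rw [hfun]; exact hWT w hw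
    have hWK : W ≤ K := fun w hw => by
      have h1 := hW w hw
      rw [Matrix.toLin'_apply, hgv] at h1
      have h3 := hWT' _ (by simpa using W.sub_mem hw h1 : polar Q u w • u + polar Q v w • v ∈ W)
      rw [QuadraticMap.map_add Q, QuadraticMap.map_smul, QuadraticMap.map_smul, hu, hv, polar_smul_left,
        polar_smul_right, huv, smul_zero, smul_zero, add_zero] at h3
      simp only [smul_eq_mul, mul_one] at h3
      rw [hmem]
      by_cases hb : polar Q v w = 0
      · rw [hb, mul_zero, add_zero] at h3
        exact ⟨mul_self_eq_zero.1 h3, hb⟩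
      · exact absurd ⟨polar Q u w / polar Q v w, by field_simp; linear_combination -h3⟩ hi
    have hKN : Nd Q K := fun y hy h => hQ.1 y fun z => by
      show polar Q y z = 0
      have hz : z - (polar Q u z / 2) • u - (polar Q v z / 2) • v ∈ K := by
        rw [hmem]
        constructor <;>
          simp only [polar_sub_right, polar_smul_right, polar_self, hu, hv, huv, polar_comm (⇑Q) v u, smul_eq_mul,
            nsmul_eq_mul, Nat.cast_ofNat, mul_one, mul_zero] <;> field_simp <;> ring
      have h1 := h _ hz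
      rw [polar_sub_right, polar_sub_right, polar_smul_right, polar_smul_right, polar_comm (⇑Q) y u,
        polar_comm (⇑Q) y v, ((hmem y).1 hy).1, ((hmem y).1 hy).2, smul_zero, smul_zero, sub_zero, sub_zero] at h1
      exact h1
    have h1 := hWT'.two_mul_le hKN hWK
    have hlt : finrank F K < finrank F (Unit ⊕ (Fin d ⊕ Fin d) → F) := by
      refine Submodule.finrank_lt ?_
      intro htop
      have := ((hmem u).1 (htop.symm ▸ Submodule.mem_top)).1
      rw [polar_self, hu, nsmul_eq_mul, Nat.cast_ofNat, mul_one] at this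
      exact h2 this
    have hlt2 : finrank F K + 2 ≤ 2 * d + 1 := by
      let φ : (Unit ⊕ (Fin d ⊕ Fin d) → F) →ₗ[F] F × F := (polarBilin Q u).prod (polarBilin Q v)
      have hφs : Function.Surjective φ := fun a => ⟨(a.1 / 2) • u + (a.2 / 2) • v, by
        ext <;> simp [φ, polar_add_right, polar_smul_right, polar_self, hu, hv, huv, polar_comm (⇑Q) v u] <;>
          field_simp⟩
      have h3 := φ.finrank_range_add_finrank_ker
      rw [LinearMap.range_eq_top.2 hφs, finrank_top, Module.finrank_prod, Module.finrank_self,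
        LinearMap.ker_prod, Module.finrank_fintype_fun_eq_card] at h3
      simp only [Fintype.card_sum, Fintype.card_unit, Fintype.card_fin] at h3
      show finrank F ↥(LinearMap.ker (polarBilin Q u) ⊓ LinearMap.ker (polarBilin Q v)) + 2 ≤ _
      omega
    omega

end CfsgLib.Derangements.Sub
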