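import Mathlib
import Cfsg.Agent.Lib.Derangements.SubspaceEvenOdd

/-!
Elements of odd prime order fixing non-degenerate subspaces of given even dimension and given type in
even-dimensional quadratic spaces, in any characteristic.
-/

set_option autoImplicit false
set_option linter.unusedSectionVars false
set_option linter.style.haveILetI false

namespace CfsgLib.Derangements.Sub

open Module QuadraticMap CfsgLib.Derangements
open scoped Matrix

universe u

variable {F : Type u} [Field F] [Finite F] {V : Type u} [AddCommGroup V] [Module F V] [FiniteDimensional F V]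
  {Q : QuadraticForm F V}

theorem sign_mul_self {a : ℤ} (ha : a = 1 ∨ a = -1) : a * a = 1 := by rcases ha with rfl | rfl <;> rfl

theorem sign_mul {a b : ℤ} (ha : a = 1 ∨ a = -1) (hb : b = 1 ∨ b = -1) : a * b = 1 ∨ a * b = -1 := by
  rcases ha with rfl | rfl <;> rcases hb with rfl | rfl <;> simp

/-- The types of the subspaces of a space of given type. -/
theorem exists_le_type_iff {U : Submodule F V} (hU : Nd Q U) {E : ℕ} {εU : ℤ} (hεU : εU = 1 ∨ εU = -1)
    (hT : HasType Q U E εU) {j : ℕ} {ε : ℤ} (hε : ε = 1 ∨ ε = -1) :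
    (∃ W ≤ U, Nd Q W ∧ HasType Q W j ε) ↔ (j = 0 → ε = 1) ∧ (j < E ∨ (j = E ∧ ε = εU)) := by
  constructor
  · rintro ⟨W, hW, hWN, hWT⟩
    refine ⟨fun h0 => ?_, ?_⟩
    · subst h0
      have hb : W = ⊥ := Submodule.finrank_eq_zero.1 (by rw [hWT.1])
      subst hb
      exact (hWT.unique (hasType_bot Q)).2
    · have hle := Submodule.finrank_mono hW
      rw [hWT.1, hT.1] at hle
      rcases lt_or_eq_of_le (by omega : j ≤ E) with h | h
      · exact .inl h
      · have he : W = U := Submodule.eq_of_le_of_finrank_le hW (by rw [hWT.1, hT.1]; omega)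
        exact .inr ⟨h, (hWT.unique (he ▸ hT)).2⟩
  · rintro ⟨h0, hlt | ⟨rfl, rfl⟩⟩
    · rcases Nat.eq_zero_or_pos j with rfl | hj
      · exact ⟨⊥, bot_le, nd_bot, by rw [h0 rfl]; exact hasType_bot Q⟩
      · exact exists_le_type hU hεU hT hj hlt hε
    · exact ⟨U, le_rfl, hU, hT⟩

variable {r h : ℕ} {η : ℤ} [hr : Fact r.Prime]

/-- Room for a subspace of dimension `2 l` and type `ε` beside `s` blocks. -/
def RoomEEven (d h l : ℕ) (η εV ε : ℤ) (s : ℕ) : Prop :=
  ∃ k ≤ s, h * k ≤ l ∧ (h * k = l → ε = η ^ k) ∧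
    (l + h * s < d + h * k ∨ (l + h * s = d + h * k ∧ ε * η ^ k = εV * η ^ s))

theorem invariant_eveneven_iff [Fintype F] (P : Params F r h η) (hQ : (polarBilin Q).Nondegenerate) {d : ℕ} {εV : ℤ}
    (hεV : εV = 1 ∨ εV = -1) (hV : HasType Q (⊤ : Submodule F V) d εV) {g : Module.End F V} (hg : g ^ r = 1)
    (hgQ : ∀ x, Q (g x) = Q x) {s : ℕ} (hs : HasType Q (movIn g ⊤) (h * s) (η ^ s))
    (hfix : finrank F (fixIn g ⊤) + 2 * (h * s) = 2 * d) {l : ℕ} {ε : ℤ} (hε : ε = 1 ∨ ε = -1) :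
    (∃ W : Submodule F V, Nd Q W ∧ HasType Q W l ε ∧ ∀ w ∈ W, g w ∈ W) ↔ RoomEEven d h l η εV ε s := by
  obtain ⟨hfN, hmN, -, -, -, -, -⟩ := decomp P.ne_zero hg hgQ (U := ⊤) (fun _ _ => trivial) (nd_top hQ)
  obtain ⟨s', -, -, hperp, -, -⟩ := whole_shape P hQ hg hgQ
  have hfT : HasType Q (fixIn g (⊤ : Submodule F V)) (d - h * s) (εV * η ^ s) := by
    rw [← hperp]
    exact HasType.perp hQ hmN (P.eta_pow s) hV hs
  constructor
  · rintro ⟨W, hWN, hWT, hWi⟩
    obtain ⟨k, hk, hfWN, hfle, -, hmT, hsup, ho, hdim⟩ := invariant_shape P hQ hg hgQ hWi hWN hs.1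
    rw [hWT.1] at hdim
    obtain ⟨ε', hε', hfWT⟩ := exists_hasType hfWN (l := l - h * k) (by omega)
    have hsum := hfWT.sup hfWN ho hmT
    rw [hsup] at hsum
    obtain ⟨-, he⟩ := hWT.unique hsum
    obtain ⟨h0, h1⟩ := (exists_le_type_iff hfN (sign_mul hεV (P.eta_pow s)) hfT hε').1 ⟨_, hfle, hfWN, hfWT⟩
    have he' : ε' = ε * η ^ k := by rw [he, mul_assoc, sign_mul_self (P.eta_pow k), mul_one]
    refine ⟨k, hk, by omega, fun e => ?_, ?_⟩
    · rw [he, h0 (by omega), one_mul]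
    · rcases h1 with h1 | ⟨h1, h1'⟩
      · exact .inl (by omega)
      · exact .inr ⟨by omega, he'.symm.trans h1'⟩
  · rintro ⟨k, hk, hkl, h0, hroom⟩
    obtain ⟨A, hA, hAN, hAT⟩ := (exists_le_type_iff hfN (sign_mul hεV (P.eta_pow s)) hfT
      (sign_mul hε (P.eta_pow k)) (j := l - h * k)).2 ⟨fun e => by
        rw [h0 (by omega), sign_mul_self (P.eta_pow k)], by
        rcases hroom with h1 | ⟨h1, h1'⟩
        · exact .inl (by omega)
        · exact .inr ⟨by omega, h1'⟩⟩
    obtain ⟨B, hBN, hBT, hab, hN, hinv⟩ := exists_invariant P hQ hg hgQ hAN hA hs.1 hk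
    refine ⟨A ⊔ B, hN, ?_, hinv⟩
    have := hAT.sup hAN hab hBT
    rwa [Nat.sub_add_cancel hkl, mul_assoc, sign_mul_self (P.eta_pow k), mul_one] at this

theorem forall_eveneven_iff [Fintype F] (P : Params F r h η) (hQ : (polarBilin Q).Nondegenerate) {d : ℕ} {εV : ℤ}
    (hεV : εV = 1 ∨ εV = -1) (hV : HasType Q (⊤ : Submodule F V) d εV) {l : ℕ} {ε : ℤ} (hε : ε = 1 ∨ ε = -1) :
    (∀ g : Module.End F V, g ^ r = 1 → (∀ x, Q (g x) = Q x) → g ≠ 1 →
      ∃ W : Submodule F V, Nd Q W ∧ HasType Q W l ε ∧ ∀ w ∈ W, g w ∈ W) ↔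
    ∀ s, AdmEven d h η εV s → RoomEEven d h l η εV ε s := by
  constructor
  · intro H s hs
    obtain ⟨g, hg, hgQ, hg1, hmov, hfix⟩ := element_of_adm P hQ hεV hV hs
    exact (invariant_eveneven_iff P hQ hεV hV hg hgQ hmov hfix hε).1 (H g hg hgQ hg1)
  · intro H g hg hgQ hg1
    obtain ⟨s, hadm, hs, hfix⟩ := adm_of_element P hQ hεV hV hg hgQ hg1
    exact (invariant_eveneven_iff P hQ hεV hV hg hgQ hs hfix hε).2 (H s hadm)

theorem not_dvd_card_eveneven [Fintype F] (P : Params F r h η) (hQ : (polarBilin Q).Nondegenerate)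
    {d : ℕ} (hd : 0 < d) {εV : ℤ} (hεV : εV = 1 ∨ εV = -1) (hV : HasType Q (⊤ : Submodule F V) d εV)
    {l : ℕ} (hl : 1 ≤ l) {ε : ℤ} (hε : ε = 1 ∨ ε = -1) (hlh : l < h)
    (hfit : l < minFix d h η εV ∨
      (l = minFix d h η εV ∧ ∀ S, h * S + minFix d h η εV = d → ε = εV * η ^ S)) :
    ¬ r ∣ Nat.card {W : Submodule F V // Nd Q W ∧ HasType Q W l ε} := by
  obtain ⟨g, S, εU, hg, hgQ, hmov, hS, hεU, hεUeq, hfT, hsmall⟩ := exists_min_element P hQ hd hεV hV
  have hbij : Function.Injective g := fun a b hab => by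
    have := congrArg (g ^ (r - 1)) hab
    rwa [← Module.End.mul_apply, ← Module.End.mul_apply, ← pow_succ, Nat.sub_add_cancel hr.out.one_le, hg,
      Module.End.one_apply, Module.End.one_apply] at this
  have hfN := (decomp P.ne_zero hg hgQ (U := ⊤) (fun _ _ => trivial) (nd_top hQ)).1
  refine not_dvd_card P hg (U := fixIn g ⊤) (fun u hu => (mem_fixIn.1 hu).2) hfN hsmall _
    (fun W hW => ?_) (fun W hW hWg => ?_) ?_ (fun W W' _ _ hW hW' => ?_) (fun e he W hle hW => ?_)
  · obtain ⟨h1, h2'⟩ := hasType_map (Q := Q) (Q' := Q) g hbij hgQ (W := W)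
    exact ⟨h1 hW.1, h2' _ _ hW.2⟩
  · have hinv : ∀ w ∈ W, g w ∈ W := fun w hw => hWg ▸ Submodule.mem_map_of_mem hw
    obtain ⟨k, -, -, hfle, -, -, -, -, hdim⟩ := invariant_shape P hQ hg hgQ hinv hW.1 hmov
    rw [hW.2.1] at hdim
    obtain rfl : k = 0 := by
      by_contra hk
      have : h ≤ h * k := Nat.le_mul_of_pos_right _ (Nat.pos_of_ne_zero hk)
      omega
    rw [← Submodule.eq_of_le_of_finrank_le (inf_le_left : fixIn g W ≤ W) (by
      show finrank F W ≤ finrank F (fixIn g W)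
      rw [hW.2.1]; omega)]
    exact hfle
  · obtain ⟨W, hle, hWN, hWT⟩ := (exists_le_type_iff hfN hεU hfT hε (j := l)).2 ⟨fun e => by omega, by
      rcases hfit with h1 | ⟨h1, h1'⟩
      · exact .inl h1
      · exact .inr ⟨h1, (h1' S hS).trans hεUeq.symm⟩⟩
    exact ⟨W, hle, hWN, hWT⟩
  · obtain ⟨e, he⟩ := OrthType.exists_isometry (m := l) hW.2.1 hW'.2.1 (nd_iff_res.1 hW.1) (nd_iff_res.1 hW'.1)
      hW.2.2 hW'.2.2
    exact ⟨e, he⟩
  · obtain ⟨h1, h2'⟩ := hasType_map (Q := res Q (fixIn g ⊤)) (Q' := Q)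
      ((fixIn g (⊤ : Submodule F V)).subtype ∘ₗ e.toLinearMap) (Subtype.val_injective.comp e.injective)
      (fun x => he x) (W := W.comap (fixIn g (⊤ : Submodule F V)).subtype)
    let j := Submodule.comapSubtypeEquivOfLe hle
    have hN : Nd (res Q (fixIn g (⊤ : Submodule F V))) (W.comap (fixIn g (⊤ : Submodule F V)).subtype) :=
      fun u hu h => Subtype.ext (hW.1 u hu fun w hw => h ⟨w, hle hw⟩ hw)
    exact ⟨h1 hN, h2' _ _ ⟨by rw [j.finrank_eq, hW.2.1], hW.2.2.congr j.symm fun x => rfl⟩⟩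

/-- The arithmetic. -/
theorem room_eveneven_arith {d l : ℕ} {η εV ε : ℤ} (hη : η = 1 ∨ η = -1) (hεV : εV = 1 ∨ εV = -1)
    (hε : ε = 1 ∨ ε = -1) (hh : 0 < h) (hl : 1 ≤ l) (hld : l < d)
    (hex : ¬ (l < h ∧ (l < minFix d h η εV ∨
      (l = minFix d h η εV ∧ ∀ S, h * S + minFix d h η εV = d → ε = εV * η ^ S)))) :
    (∀ s, AdmEven d h η εV s → RoomEEven d h l η εV ε s) ↔
      (d % h = 0 ∧ εV ≠ η ^ (d / h)) ∨ (h ≤ l ∧ ((l % h = 0 ∧ ε = η ^ (l / h)) ∨
        (0 < l % h ∧ (l % h < d % h ∨ (l % h = d % h ∧ ε * η ^ (l / h) = εV * η ^ (d / h)))))) := by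
  classical
  have hsgn : ∀ k : ℕ, η ^ k = 1 ∨ η ^ k = -1 := fun k => by
    rcases hη with rfl | rfl
    · exact .inl (one_pow k)
    · exact neg_one_pow_eq_or ℤ k
  have hl' := Nat.div_add_mod l h
  have hlm := Nat.mod_lt l hh
  have hdh := Nat.div_add_mod d h
  have hdm := Nat.mod_lt d hh
  have hLD : l / h ≤ d / h := Nat.div_le_div_right hld.le
  constructor
  · intro H
    by_contra hcon
    push Not at hcon
    obtain ⟨hc1, hc2⟩ := hcon
    have hmE : minFix d h η εV = d % h := by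
      unfold minFix; rw [if_neg fun hc => hc.2 (hc1 hc.1)]
    rcases Nat.eq_zero_or_pos (d / h) with hD0 | hD0
    · rw [hD0, Nat.mul_zero] at hdh
      exact hex ⟨by omega, .inl (by omega)⟩
    obtain ⟨k, hk, hkl, htype, hroom⟩ := H (d / h) ⟨hD0, by
      rcases Nat.eq_zero_or_pos (d % h) with h0 | h0
      · exact Or.inr ⟨by omega, hc1 h0⟩
      · exact Or.inl (by omega)⟩
    have hkA : k ≤ l / h := (Nat.le_div_iff_mul_le hh).2 (by rwa [mul_comm])
    have hk' : k = l / h := by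
      by_contra hne
      have h1 : h * (k + 1) ≤ h * (l / h) := Nat.mul_le_mul_left h (by omega)
      rw [mul_add, mul_one] at h1
      rcases hroom with h2 | ⟨h2, -⟩ <;> omega
    subst hk'
    rcases Nat.lt_or_ge l h with hlh | hhl
    · have hL : l / h = 0 := Nat.div_eq_of_lt hlh
      rw [hL, Nat.mul_zero] at hroom
      rcases hroom with h2 | ⟨h2, h3⟩
      · exact hex ⟨hlh, .inl (by omega)⟩
      · refine hex ⟨hlh, .inr ⟨by omega, fun S hS => ?_⟩⟩
        have hSD : h * S = h * (d / h) := by omega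
        rw [Nat.eq_of_mul_eq_mul_left hh hSD]
        simpa using h3
    obtain ⟨hc3, hc4⟩ := hc2 hhl
    rcases Nat.eq_zero_or_pos (l % h) with h0 | h0
    · exact hc3 h0 (htype (by omega))
    · obtain ⟨hc5, hc6⟩ := hc4 h0
      rcases hroom with h2 | ⟨h2, h3⟩
      · omega
      · exact hc6 (by omega) h3
  · rintro hR s ⟨hs, hsd⟩
    rcases Nat.lt_or_ge s (l / h) with hlt | hge
    · have h1 : h * (s + 1) ≤ h * (l / h) := Nat.mul_le_mul_left h hlt
      rw [mul_add, mul_one] at h1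
      exact ⟨s, le_rfl, by omega, fun e => by omega, .inl (by omega)⟩
    rcases hR with ⟨h0, hne⟩ | ⟨hhl, hC⟩
    · have hslt : s < d / h := by
        rcases hsd with h1 | ⟨h1, h2⟩
        · by_contra hc
          have := Nat.mul_le_mul_left h (not_lt.1 hc)
          omega
        · exfalso
          apply hne
          rwa [← h1, Nat.mul_div_cancel_left _ hh]
      have h1 : h * (s + 1) ≤ h * (d / h) := Nat.mul_le_mul_left h hslt
      rw [mul_add, mul_one] at h1
      by_cases hsp : l % h = 0 → ε = η ^ (l / h)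
      · exact ⟨l / h, hge, by omega, fun e => hsp (by omega), .inl (by omega)⟩
      push Not at hsp
      obtain ⟨hf0, hne'⟩ := hsp
      obtain ⟨K, hK⟩ : ∃ K, l / h = K + 1 := ⟨l / h - 1, (Nat.sub_add_cancel (by
        by_contra hc
        rw [show l / h = 0 from Nat.lt_one_iff.1 (not_le.1 hc), Nat.mul_zero] at hl'
        omega)).symm⟩
      rw [hK] at hne'
      have hKl : h * K + h = l := by rw [← mul_add_one, ← hK]; omega
      refine ⟨K, by omega, by omega, fun e => by omega, ?_⟩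
      rcases Nat.lt_or_ge (h * (s + 1)) (h * (d / h)) with h2 | h2
      · exact .inl (by rw [mul_add, mul_one] at h2; omega)
      · refine .inr ⟨by rw [mul_add, mul_one] at h2; omega, ?_⟩
        have hsD : s + 1 = d / h := le_antisymm hslt (Nat.le_of_mul_le_mul_left h2 hh)
        have e1 : εV = -η ^ (d / h) := by
          rcases hεV with rfl | rfl <;> rcases hsgn (d / h) with e | e <;> rw [e] at hne ⊢ <;> simp at hne ⊢
        have e2 : ε = -η ^ (K + 1) := by
          rcases hε with rfl | rfl <;> rcases hsgn (K + 1) with e | e <;> rw [e] at hne' ⊢ <;> simp at hne' ⊢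
        rw [e1, e2, ← hsD, pow_succ, pow_succ]
        have hKK := sign_mul_self (hsgn K)
        have hss := sign_mul_self (hsgn s)
        linear_combination (-η) * hKK + η * hss
    · refine ⟨l / h, hge, by omega, fun e => ?_, ?_⟩
      · rcases hC with ⟨-, h1⟩ | ⟨h1, -⟩
        · exact h1
        · omega
      have hsN : s ≤ d / h := (Nat.le_div_iff_mul_le hh).2 (by
        rw [mul_comm]; rcases hsd with h1 | ⟨h1, -⟩ <;> omega)
      rcases lt_or_eq_of_le hsN with hlt | rfl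
      · have h1 : h * (s + 1) ≤ h * (d / h) := Nat.mul_le_mul_left h hlt
        rw [mul_add, mul_one] at h1
        exact .inl (by omega)
      rcases hC with ⟨hf, hty⟩ | ⟨hf, hlt | ⟨he, hty⟩⟩
      · rcases hsd with h1 | ⟨h1, h2⟩
        · exact .inl (by omega)
        · exact .inr ⟨by omega, by rw [hty, h2, sign_mul_self (hsgn _), sign_mul_self (hsgn _)]⟩
      · exact .inl (by omega)
      · exact .inr ⟨by omega, hty⟩

end CfsgLib.Derangements.Sub
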