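import Mathlib
import Cfsg.Agent.Lib.Derangements.SubspaceEvenEven
import Cfsg.Agent.Lib.Derangements.SubspaceHalfTurn

/-!
Invariant non-degenerate subspaces of maps with square `±1`, in any characteristic.
-/

set_option autoImplicit false
set_option linter.unusedSectionVars false
set_option linter.style.haveILetI false

namespace CfsgLib.Derangements.Sub

open Module QuadraticMap CfsgLib.Derangements
open scoped Matrix

universe u

variable {F : Type u} [Field F] [Finite F] {V : Type u} [AddCommGroup V] [Module F V] [FiniteDimensional F V]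
  {Q : QuadraticForm F V}

/-- Splitting off a non-degenerate subspace inside a non-degenerate subspace. -/
theorem split_in {P U : Submodule F V} (hP : Nd Q P) (hU : Nd Q U) (hPU : P ≤ U) :
    Nd Q (U ⊓ perp Q P) ∧ P ⊔ (U ⊓ perp Q P) = U ∧
      (∀ a ∈ P, ∀ b ∈ U ⊓ perp Q P, polar Q a b = 0) ∧
      finrank F P + finrank F (U ⊓ perp Q P : Submodule F V) = finrank F U := by
  have hs : ∀ x ∈ U, ∃ a ∈ P, x - a ∈ U ⊓ perp Q P := fun x hx => by
    obtain ⟨a, ha, y, hy, rfl⟩ := Submodule.mem_sup.1
      (show x ∈ P ⊔ perp Q P by rw [(isCompl_perp hP).sup_eq_top]; trivial)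
    exact ⟨a, ha, U.sub_mem hx (hPU ha), by rw [add_sub_cancel_left]; exact hy⟩
  have hN : Nd Q (U ⊓ perp Q P) := fun x hx h => hU x hx.1 fun y hy => by
    obtain ⟨a, ha, hya⟩ := hs y hy
    have h1 := h _ hya
    rwa [polar_sub_right, polar_comm (⇑Q) x a, mem_perp.1 hx.2 a ha, sub_zero] at h1
  have ho : ∀ a ∈ P, ∀ b ∈ U ⊓ perp Q P, polar Q a b = 0 := fun a ha b hb => mem_perp.1 hb.2 a ha
  have hsup : P ⊔ (U ⊓ perp Q P) = U := le_antisymm (sup_le hPU inf_le_left) fun x hx => by
    obtain ⟨a, ha, hxa⟩ := hs x hx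
    have := Submodule.add_mem_sup ha hxa
    rwa [add_sub_cancel] at this
  refine ⟨hN, hsup, ho, ?_⟩
  have := finrank_sup_orth hP ho
  rw [hsup] at this
  omega

/-- The type of the complement. -/
theorem split_type {P U : Submodule F V} (hP : Nd Q P) (hU : Nd Q U) (hPU : P ≤ U) {w n : ℕ} {δ ε : ℤ}
    (hδ : δ = 1 ∨ δ = -1) (hPT : HasType Q P w δ) (hUT : HasType Q U n ε) :
    w ≤ n ∧ HasType Q (U ⊓ perp Q P) (n - w) (ε * δ) := by
  obtain ⟨hN, hsup, ho, hd⟩ := split_in hP hU hPU
  rw [hPT.1, hUT.1] at hd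
  obtain ⟨ε', hε', hT'⟩ := exists_hasType hN (l := n - w) (by omega)
  refine ⟨by omega, ?_⟩
  have h := hPT.sup hP ho hT'
  rw [hsup] at h
  obtain ⟨-, he⟩ := hUT.unique h
  rwa [he, mul_comm δ ε', mul_assoc, sign_mul_self hδ, mul_one]

omit [Finite F] [FiniteDimensional F V] in
/-- Invariance of the complement. -/
theorem inf_perp_inv {g : Module.End F V} (hgQ : ∀ x, Q (g x) = Q x) {P U : Submodule F V}
    (hU : ∀ u ∈ U, g u ∈ U) (hsurj : ∀ w ∈ P, ∃ v ∈ P, g v = w) :
    ∀ u ∈ U ⊓ perp Q P, g u ∈ U ⊓ perp Q P := fun u hu => ⟨hU u hu.1, perp_inv hgQ hsurj hu.2⟩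

omit [Finite F] [FiniteDimensional F V] in
theorem sup_invariant {g : Module.End F V} {A B : Submodule F V} (hA : ∀ w ∈ A, g w ∈ A)
    (hB : ∀ w ∈ B, g w ∈ B) : ∀ w ∈ A ⊔ B, g w ∈ A ⊔ B := by
  intro w hw
  obtain ⟨x, hx, y, hy, rfl⟩ := Submodule.mem_sup.1 hw
  rw [map_add]
  exact Submodule.add_mem_sup (hA x hx) (hB y hy)

omit [Finite F] [FiniteDimensional F V] in
theorem span_invariant {g : Module.End F V} {s : Set V} (h : ∀ x ∈ s, g x ∈ Submodule.span F s) :
    ∀ w ∈ Submodule.span F s, g w ∈ Submodule.span F s :=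
  fun w hw => (Submodule.span_le (p := (Submodule.span F s).comap g)).2 h hw

/-- An isometry with square `-1` has invariant subspaces of every dimension inside an invariant one. -/
theorem turn_inv (h2 : (2 : F) ≠ 0) {ι : Type} [Fintype ι] [DecidableEq ι] {Q : QuadraticForm F (ι → F)}
    {g : Module.End F (ι → F)} (hgQ : ∀ x, Q (g x) = Q x) (hgg : ∀ v, g (g v) = -v) :
    ∀ (l : ℕ) (U : Submodule F (ι → F)), Nd Q U → (∀ u ∈ U, g u ∈ U) → 2 * l ≤ finrank F U →
      ∃ W ≤ U, Nd Q W ∧ HasType Q W l (sqNegOne F ^ l) ∧ ∀ w ∈ W, g w ∈ W := by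
  intro l
  induction l with
  | zero =>
    intro U _ _ _
    exact ⟨⊥, bot_le, nd_bot, by rw [pow_zero]; exact hasType_bot Q,
      fun w hw => by rw [(Submodule.mem_bot F).1 hw, map_zero]; exact Submodule.zero_mem _⟩
  | succ l ih =>
    intro U hU hUi hdim
    haveI : Nontrivial U := Module.nontrivial_of_finrank_pos (R := F) (by omega)
    haveI := Fintype.ofFinite F
    obtain ⟨⟨v, hvU⟩, hv⟩ := CfsgLib.Classes.exists_anisotropic_vector (res Q U) (nd_iff_res.1 hU)
    replace hv : Q v ≠ 0 := by simpa using hv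
    have hvw : polar Q v (g v) = 0 := by
      have h : polar Q (g v) (g (g v)) = polar Q v (g v) := by simp only [polar, ← map_add, hgQ]
      rw [hgg, polar_neg_right, polar_comm] at h
      exact (mul_eq_zero.1 (show (2 : F) * polar Q v (g v) = 0 by linear_combination -h)).resolve_left h2
    obtain ⟨hPN, hPT⟩ := hasType_plane h2 hv hvw (hgQ v)
    set P : Submodule F (ι → F) := Submodule.span F {v, g v}
    have hPU : P ≤ U := Submodule.span_le.2 fun z hz => by
      rcases hz with rfl | rfl
      exacts [hvU, hUi v hvU]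
    have hPi : ∀ w ∈ P, g w ∈ P := span_invariant fun z hz => by
      rcases hz with rfl | rfl
      · exact Submodule.subset_span (by simp)
      · rw [hgg]; exact Submodule.neg_mem _ (Submodule.subset_span (by simp))
    have hsurj : ∀ w ∈ P, ∃ v ∈ P, g v = w := fun w hw =>
      ⟨-(g w), P.neg_mem (hPi w hw), by rw [map_neg, hgg, neg_neg]⟩
    obtain ⟨hU'N, hsup, ho, hd⟩ := split_in hPN hU hPU
    rw [hPT.1] at hd
    obtain ⟨W', hW', hW'N, hW'T, hW'i⟩ := ih _ hU'N (inf_perp_inv hgQ hUi hsurj) (by omega)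
    have ho' : ∀ a ∈ P, ∀ b ∈ W', polar Q a b = 0 := fun a ha b hb => ho a ha b (hW' hb)
    refine ⟨P ⊔ W', sup_le hPU (hW'.trans inf_le_left), nd_sup hPN hW'N ho', ?_, sup_invariant hPi hW'i⟩
    have := hPT.sup hPN ho' hW'T
    rwa [add_comm 1 l, ← pow_succ'] at this

section Char2

variable [CharP F 2]

omit [Finite F] [FiniteDimensional F V] in
theorem polar_self_two (v : V) : polar Q v v = 0 := by
  rw [polar_self, two_nsmul, CharTwo.add_self_eq_zero]

/-- An invariant non-degenerate piece of an involution inside an invariant subspace. -/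
theorem exists_piece_even {g : Module.End F V} (hgg : ∀ v, g (g v) = v) (hgQ : ∀ x, Q (g x) = Q x) {U : Submodule F V}
    (hU : Nd Q U) (hUi : ∀ u ∈ U, g u ∈ U) (hU0 : U ≠ ⊥) :
    ∃ P ≤ U, Nd Q P ∧ (∀ w ∈ P, g w ∈ P) ∧ ∃ (w : ℕ) (δ : ℤ), HasType Q P w δ ∧
      ((w = 1 ∧ (δ = 1 ∨ δ = -1)) ∨ (w = 2 ∧ δ = 1)) := by
  classical
  -- `N = g - 1` is self-adjoint
  have hpol : ∀ u v, polar Q (g u) v = polar Q u (g v) := fun u v => by
    have h : polar Q (g u) (g (g v)) = polar Q u (g v) := by simp only [polar, ← map_add, hgQ]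
    rwa [hgg] at h
  set N : Module.End F V := g - 1 with hN
  have hNa : ∀ v, g v = v + N v := fun v => by simp [hN]
  have hNU : ∀ v ∈ U, N v ∈ U := fun v hv => by simpa [hN] using U.sub_mem (hUi v hv) hv
  have hadj : ∀ u v, polar Q (N u) v = polar Q u (N v) := fun u v => by
    simp only [hN, LinearMap.sub_apply, Module.End.one_apply, polar_sub_left, polar_sub_right, hpol]
  have hgN : ∀ v, g (N v) = N v := fun v => by
    simp only [hN, LinearMap.sub_apply, Module.End.one_apply, map_sub, hgg]
    have hneg : ∀ x : V, -x = x := fun x => neg_eq_of_add_eq_zero_left (by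
      rw [← two_smul F, CharTwo.two_eq_zero, zero_smul])
    rw [← neg_sub, hneg]
  have hNN : ∀ u v, polar Q (N u) (N v) = 0 := fun u v => by
    rw [hadj, show N (N v) = 0 by simp [hN] at hgN ⊢; exact sub_eq_zero.2 (hgN v), polar_zero_right]
  -- a two-dimensional piece
  have plane : ∀ v ∈ U, ∀ w ∈ U, polar Q v w ≠ 0 → (∀ z ∈ Submodule.span F ({v, w} : Set V), g z ∈ Submodule.span F ({v, w} : Set V)) →
      ∃ P ≤ U, Nd Q P ∧ (∀ w ∈ P, g w ∈ P) ∧ ∃ (w : ℕ) (δ : ℤ), HasType Q P w δ ∧
        ((w = 1 ∧ (δ = 1 ∨ δ = -1)) ∨ (w = 2 ∧ δ = 1)) := by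
    intro v hv w hw hvw hinv
    have hPN : Nd Q (Submodule.span F {v, w}) := by
      intro z hz h
      obtain ⟨a, b, rfl⟩ := Submodule.mem_span_pair.1 hz
      have e1 := h v (Submodule.subset_span (by simp))
      have e2 := h w (Submodule.subset_span (by simp))
      simp only [polar_add_left, polar_smul_left, polar_self_two, polar_comm (⇑Q) w v, smul_eq_mul, mul_zero,
        add_zero, zero_add, mul_eq_zero, hvw, or_false] at e1 e2
      rw [e1, e2, zero_smul, zero_smul, add_zero]
    have hli : LinearIndependent F ![v, w] := by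
      rw [LinearIndependent.pair_iff]
      intro a b hab
      have e1 := congrArg (fun z => polar Q z v) hab
      have e2 := congrArg (fun z => polar Q z w) hab
      simp only [polar_add_left, polar_smul_left, polar_zero_left, polar_self_two, polar_comm (⇑Q) w v, smul_eq_mul,
        mul_zero, add_zero, zero_add, mul_eq_zero, hvw, or_false] at e1 e2
      exact ⟨e2, e1⟩
    have hdim : finrank F (Submodule.span F {v, w} : Submodule F V) = 2 * 1 := by
      have := finrank_span_eq_card hli
      rw [show Set.range ![v, w] = ({v, w} : Set V) by simp [Set.pair_comm]] at this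
      simpa using this
    obtain ⟨δ, hδ, hT⟩ := exists_hasType hPN hdim
    exact ⟨_, Submodule.span_le.2 fun z hz => by
      rcases hz with rfl | rfl
      exacts [hv, hw], hPN, hinv, 1, δ, hT, .inl ⟨rfl, hδ⟩⟩
  by_cases hc1 : ∃ v ∈ U, polar Q (N v) v ≠ 0
  · obtain ⟨v, hv, hv'⟩ := hc1
    refine plane v hv (N v) (hNU v hv) (by rwa [polar_comm]) (span_invariant fun z hz => ?_)
    rcases hz with rfl | rfl
    · rw [hNa]; exact Submodule.add_mem _ (Submodule.subset_span (by simp)) (Submodule.subset_span (by simp))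
    · rw [hgN]; exact Submodule.subset_span (by simp)
  push Not at hc1
  by_cases hc2 : ∃ u ∈ U, ∃ v ∈ U, polar Q (N u) v ≠ 0
  · obtain ⟨u, hu, v, hv, huv⟩ := hc2
    set β := polar Q (N u) v with hβ
    set P : Submodule F V := Submodule.span F {u, v, N u, N v} with hP
    have hmem : ∀ z ∈ ({u, v, N u, N v} : Set V), z ∈ P := fun z hz => Submodule.subset_span hz
    have hPU : P ≤ U := Submodule.span_le.2 fun z hz => by
      rcases hz with rfl | rfl | rfl | rfl
      exacts [hu, hv, hNU u hu, hNU v hv]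
    have hPi : ∀ w ∈ P, g w ∈ P := span_invariant fun z hz => by
      rcases hz with rfl | rfl | rfl | rfl
      · rw [hNa]; exact P.add_mem (hmem _ (by simp)) (hmem _ (by simp))
      · rw [hNa]; exact P.add_mem (hmem _ (by simp)) (hmem _ (by simp))
      · rw [hgN]; exact hmem _ (by simp)
      · rw [hgN]; exact hmem _ (by simp)
    have key : ∀ (a b c e : F), (∀ x ∈ ({u, v, N u, N v} : Set V), polar Q (a • u + b • v + c • N u + e • N v) x = 0) →
        a = 0 ∧ b = 0 ∧ c = 0 ∧ e = 0 := by
      intro a b c e h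
      have hβ' : polar Q u (N v) = β := by rw [hβ, hadj]
      have e1 := h (N u) (by simp)
      have e2 := h (N v) (by simp)
      have e3 := h u (by simp)
      have e4 := h v (by simp)
      simp only [polar_add_left, polar_smul_left, hNN, polar_comm (⇑Q) v (N u), polar_comm (⇑Q) u (N u),
        hc1 u hu, hβ', ← hβ, smul_eq_mul, mul_zero, add_zero, zero_add, mul_eq_zero] at e1
      simp only [polar_add_left, polar_smul_left, hNN, polar_comm (⇑Q) v (N v),
        hc1 v hv, hβ', smul_eq_mul, mul_zero, add_zero, zero_add, mul_eq_zero] at e2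
      rcases e1 with e1 | e1
      swap; · exact absurd e1 huv
      rcases e2 with e2 | e2
      swap; · exact absurd e2 huv
      simp only [e1, e2, zero_smul, zero_add, polar_add_left, polar_smul_left, hc1 u hu,
        polar_comm (⇑Q) (N v) u, hβ', smul_eq_mul, mul_zero, mul_eq_zero] at e3
      simp only [e1, e2, zero_smul, zero_add, polar_add_left, polar_smul_left, hc1 v hv, ← hβ,
        smul_eq_mul, mul_zero, add_zero, mul_eq_zero] at e4
      exact ⟨e2, e1, e4.resolve_right huv, e3.resolve_right huv⟩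
    have hPN : Nd Q P := by
      intro z hz h
      obtain ⟨a, z1, hz1, rfl⟩ := Submodule.mem_span_insert.1 hz
      obtain ⟨b, z2, hz2, rfl⟩ := Submodule.mem_span_insert.1 hz1
      obtain ⟨c, e, rfl⟩ := Submodule.mem_span_pair.1 hz2
      obtain ⟨rfl, rfl, rfl, rfl⟩ := key a b c e fun x hx => by
        rw [add_assoc, add_assoc]; exact h x (hmem x hx)
      simp
    have hli : LinearIndependent F ![u, v, N u, N v] := by
      rw [Fintype.linearIndependent_iff]
      intro f hf
      simp [Fin.sum_univ_succ, ← add_assoc] at hf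
      obtain ⟨h0, h1, h2', h3⟩ := key (f 0) (f 1) (f 2) (f 3) fun x _ => by
        rw [hf, polar_zero_left]
      intro i; fin_cases i <;> assumption
    have hdim : finrank F P = 2 * 2 := by
      have := finrank_span_eq_card hli
      rw [show Set.range ![u, v, N u, N v] = ({u, v, N u, N v} : Set V) by
        ext x; simp [Fin.exists_fin_succ, eq_comm]; tauto] at this
      simpa using this
    obtain ⟨δ, hδ, hT⟩ := exists_hasType hPN hdim
    refine ⟨P, hPU, hPN, hPi, 2, δ, hT, .inr ⟨rfl, ?_⟩⟩
    -- the image of `N` is totally singular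
    rcases hδ with h | h
    · exact h
    · exfalso
      subst h
      obtain ⟨b⟩ : Nonempty (Basis (Fin 4) F P) := ⟨Module.finBasisOfFinrankEq F P (by omega)⟩
      let f : (Fin 4 → F) ≃ₗ[F] P := b.equivFun.symm
      let Q' : QuadraticForm F (Fin 4 → F) := (res Q P).comp f.toLinearMap
      have hres : ∀ y : Fin 4 → F, Q' y = Q (f y : V) := fun y => rfl
      let E : (Fin 4 → F) →ₗ[F] V := P.subtype ∘ₗ f.toLinearMap
      have hE : Function.Injective E := Subtype.val_injective.comp f.injective
      have hrange : LinearMap.range E = P := by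
        rw [LinearMap.range_comp, LinearEquiv.range, Submodule.map_top, Submodule.range_subtype]
      have hTop : (⊤ : Submodule F (Fin 4 → F)).map E = P := by rw [Submodule.map_top, hrange]
      have hN' : Nd Q' ⊤ := fun y _ h => hE (by
        rw [map_zero]
        refine hPN _ (f y).2 fun w hw => ?_
        obtain ⟨z, hz⟩ := f.surjective ⟨w, hw⟩
        have := h z trivial
        simp only [Q', polar, QuadraticMap.comp_apply, LinearEquiv.coe_coe, map_add, hz, res_apply] at this
        exact this)
      obtain ⟨ε', hε', hT'⟩ := exists_hasType hN' (l := 2) (by rw [finrank_top, Module.finrank_fin_fun])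
      have hT'' := (hasType_map (Q := Q') (Q' := Q) E hE fun y => rfl).2 _ _ hT'
      rw [hTop] at hT''
      have hne : ε' ≠ 1 := fun e => by
        have := (hT.unique hT'').2; omega
      refine hne ((isPlusTypeOn_iff hN' hε' hT').1 ⟨(Submodule.span F {N u, N v}).comap E, le_top, ?_, ?_⟩)
      · intro y hy
        obtain ⟨a, c, hac⟩ := Submodule.mem_span_pair.1 (Submodule.mem_comap.1 hy)
        show Q (E y) = 0
        have hq : ∀ z ∈ U, Q (N z) = 0 := fun z hz => by
          have h0 := hgQ z
          rw [hNa, QuadraticMap.map_add Q, polar_comm, hc1 z hz, add_zero] at h0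
          simpa using h0
        rw [← hac, QuadraticMap.map_add Q, QuadraticMap.map_smul, QuadraticMap.map_smul, hq u hu, hq v hv,
          polar_smul_left, polar_smul_right, hNN]
        simp
      · have hle : Submodule.span F {N u, N v} ≤ LinearMap.range E := by
          rw [hrange, Submodule.span_le]
          intro z hz
          rcases hz with rfl | rfl
          exacts [hmem _ (by simp), hmem _ (by simp)]
        have h2 : finrank F (Submodule.span F ({N u, N v} : Set V) : Submodule F V) = 2 := by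
          have hli2 : LinearIndependent F ![N u, N v] := by
            rw [LinearIndependent.pair_iff]
            intro a c hac
            obtain ⟨-, -, h3, h4⟩ := key 0 0 a c fun x _ => by
              rw [zero_smul, zero_smul, zero_add, zero_add, hac, polar_zero_left]
            exact ⟨h3, h4⟩
          have := finrank_span_eq_card hli2
          rw [show Set.range ![N u, N v] = ({N u, N v} : Set V) by simp [Set.pair_comm]] at this
          simpa using this
        have e1 := (Submodule.equivMapOfInjective E hE ((Submodule.span F {N u, N v}).comap E)).finrank_eq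
        rw [Submodule.map_comap_eq, inf_eq_right.2 hle, h2] at e1
        rw [e1, finrank_top, Module.finrank_fin_fun]
  · push Not at hc2
    have hN0 : ∀ v ∈ U, g v = v := fun v hv => by
      have : N v = 0 := hU _ (hNU v hv) (hc2 v hv)
      rw [hNa, this, add_zero]
    obtain ⟨v, hv, hv0⟩ := Submodule.exists_mem_ne_zero_of_ne_bot hU0
    obtain ⟨w, hw, hvw⟩ : ∃ w ∈ U, polar Q v w ≠ 0 := by
      by_contra h
      push Not at h
      exact hv0 (hU v hv h)
    exact plane v hv w hw hvw (span_invariant fun z hz => by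
      rcases hz with rfl | rfl
      · rw [hN0 _ hv]; exact Submodule.subset_span (by simp)
      · rw [hN0 _ hw]; exact Submodule.subset_span (by simp))

/-- An invariant subspace of plus type and dimension `2 l`. -/
def Good (Q : QuadraticForm F V) (g : Module.End F V) (U : Submodule F V) (l : ℕ) : Prop :=
  ∃ W ≤ U, Nd Q W ∧ HasType Q W l 1 ∧ ∀ w ∈ W, g w ∈ W

theorem good_zero (g : Module.End F V) (U : Submodule F V) : Good Q g U 0 :=
  ⟨⊥, bot_le, nd_bot, hasType_bot Q, fun w hw => by
    rw [(Submodule.mem_bot F).1 hw, map_zero]; exact Submodule.zero_mem _⟩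

theorem Good.mono {g : Module.End F V} {U U' : Submodule F V} {l : ℕ} (h : Good Q g U l) (hle : U ≤ U') :
    Good Q g U' l := by
  obtain ⟨W, hW, h'⟩ := h
  exact ⟨W, hW.trans hle, h'⟩

/-- The invariant subspaces of plus type of an involution. -/
theorem involution_good {g : Module.End F V} (hgg : ∀ v, g (g v) = v) (hgQ : ∀ x, Q (g x) = Q x) :
    ∀ (n : ℕ) (U : Submodule F V), Nd Q U → (∀ u ∈ U, g u ∈ U) → ∀ ε : ℤ, HasType Q U n ε →
      (ε = 1 → ∀ l ≤ n, (Even l ∨ Odd n) → Good Q g U l) ∧
      (ε = -1 → ∀ l < n, (Even l ∨ Even n) → Good Q g U l) := by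
  intro n
  induction n using Nat.strong_induction_on with
  | _ n ih =>
  intro U hUN hUi ε hUT
  rcases Nat.eq_zero_or_pos n with rfl | hn
  · refine ⟨fun _ l hl _ => ?_, fun _ l hl _ => absurd hl (Nat.not_lt_zero l)⟩
    rw [Nat.le_zero.1 hl]; exact good_zero g U
  have hU0 : U ≠ ⊥ := fun h => by
    have := hUT.1; rw [h, finrank_bot] at this; omega
  obtain ⟨P, hPU, hPN, hPi, w, δ, hPT, hwδ⟩ := exists_piece_even hgg hgQ hUN hUi hU0
  have hδ : δ = 1 ∨ δ = -1 := by rcases hwδ with ⟨-, h⟩ | ⟨-, h⟩ <;> simp [h]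
  obtain ⟨hwn, hT'⟩ := split_type hPN hUN hPU hδ hPT hUT
  obtain ⟨hN', hsup, ho, -⟩ := split_in hPN hUN hPU
  have hU'i := inf_perp_inv hgQ hUi (P := P) fun z hz => ⟨g z, hPi z hz, hgg z⟩
  obtain ⟨ihp, ihm⟩ := ih (n - w) (by rcases hwδ with ⟨rfl, -⟩ | ⟨rfl, -⟩ <;> omega) _ hN' hU'i _ hT'
  have down : ∀ {l}, Good Q g (U ⊓ perp Q P) l → Good Q g U l := fun h => h.mono inf_le_left
  have up : δ = 1 → ∀ {l}, w ≤ l → Good Q g (U ⊓ perp Q P) (l - w) → Good Q g U l := by
    rintro rfl l hwl ⟨W, hW, hWN, hWT, hWi⟩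
    have ho' : ∀ a ∈ P, ∀ b ∈ W, polar Q a b = 0 := fun a ha b hb => ho a ha b (hW hb)
    refine ⟨P ⊔ W, sup_le hPU (hW.trans inf_le_left), nd_sup hPN hWN ho', ?_, sup_invariant hPi hWi⟩
    have := hPT.sup hPN ho' hWT
    rwa [Nat.add_sub_cancel' hwl, one_mul] at this
  rcases hδ with rfl | rfl
  · simp only [mul_one] at ihp ihm
    constructor
    · rintro rfl l hl hpar
      rcases Nat.eq_zero_or_pos l with rfl | hl0
      · exact good_zero g U
      rcases hwδ with ⟨rfl, -⟩ | ⟨rfl, -⟩
      · rcases Nat.even_or_odd n with hne | hno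
        · refine up rfl hl0 (ihp (by trivial) _ (by omega) (Or.inr ?_))
          rw [Nat.odd_iff]; rw [Nat.even_iff] at hne; omega
        · rcases Nat.even_or_odd l with hle | hlo
          · refine down (ihp (by trivial) _ ?_ (Or.inl hle))
            rw [Nat.odd_iff] at hno; rw [Nat.even_iff] at hle; omega
          · refine up rfl hl0 (ihp (by trivial) _ (by omega) (Or.inl ?_))
            rw [Nat.odd_iff] at hlo; rw [Nat.even_iff]; omega
      · simp only [Nat.even_iff, Nat.odd_iff] at hpar ihp
        by_cases hl2 : 2 ≤ l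
        · exact up rfl hl2 (ihp (by trivial) _ (by omega) (by omega))
        · exact down (ihp (by trivial) _ (by omega) (by omega))
    · rintro rfl l hl hpar
      rcases Nat.eq_zero_or_pos l with rfl | hl0
      · exact good_zero g U
      rcases hwδ with ⟨rfl, -⟩ | ⟨rfl, -⟩
      · simp only [Nat.even_iff] at hpar ihm
        rcases Nat.mod_two_eq_zero_or_one l with hle | hlo
        · rcases Nat.mod_two_eq_zero_or_one n with hne | hno
          · exact down (ihm (by trivial) _ (by omega) (by omega))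
          · exact up rfl hl0 (ihm (by trivial) _ (by omega) (by omega))
        · exact up rfl hl0 (ihm (by trivial) _ (by omega) (by omega))
      · simp only [Nat.even_iff] at hpar ihm
        by_cases hl2 : 2 ≤ l
        · exact up rfl hl2 (ihm (by trivial) _ (by omega) (by omega))
        · by_cases hn2 : n = 2
          · subst hn2
            have hb : U ⊓ perp Q P = ⊥ := Submodule.finrank_eq_zero.1 (by rw [hT'.1])
            rw [hb] at hT'
            exact absurd (hT'.unique (hasType_bot Q)).2 (by norm_num)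
          · exact down (ihm (by trivial) _ (by omega) (by omega))
  · obtain ⟨rfl, -⟩ : w = 1 ∧ True := by
      rcases hwδ with ⟨h, -⟩ | ⟨-, h⟩
      · exact ⟨h, trivial⟩
      · norm_num at h
    simp only [Nat.even_iff, Nat.odd_iff] at ihp ihm ⊢
    constructor
    · rintro rfl l hl hpar
      rcases Nat.lt_or_ge l (n - 1) with h1 | h1
      · exact down (ihm (one_mul _) _ h1 (by omega))
      rcases lt_or_eq_of_le hl with h2 | rfl
      · rcases Nat.eq_zero_or_pos l with rfl | hl0
        · exact good_zero g U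
        obtain ⟨W₁, hW₁, hW₁N, hW₁T, hW₁i⟩ := ihm (one_mul _) 1 (by omega) (by omega)
        have hle : W₁ ≤ U := hW₁.trans inf_le_left
        obtain ⟨hWN, -, -, -⟩ := split_in hW₁N hUN hle
        obtain ⟨-, hWT⟩ := split_type hW₁N hUN hle (Or.inl rfl) hW₁T hUT
        refine ⟨_, inf_le_left, hWN, ?_, inf_perp_inv hgQ hUi fun z hz => ⟨g z, hW₁i z hz, hgg z⟩⟩
        rwa [mul_one, show n - 1 = l by omega] at hWT
      · exact ⟨U, le_rfl, hUN, hUT, hUi⟩
    · rintro rfl l hl hpar
      exact down (ihp (by norm_num) _ (by omega) (by omega))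

end Char2

end CfsgLib.Derangements.Sub
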