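import Mathlib
import Cfsg.Agent.Lib.Omega.OrthUnipotent

/-!
Unipotent isometries all of whose Jordan blocks on an invariant subspace have size two.
-/

set_option autoImplicit false
set_option linter.unusedSectionVars false

namespace CfsgLib.Derangements.Sub

open Module QuadraticMap
open scoped Matrix

universe u

variable {F : Type u} [Field F] {ι : Type} [Fintype ι] [DecidableEq ι]

/-- The image of a square zero `x - 1` is totally singular. -/
theorem singular_of_sq_zero (h2 : (2 : F) ≠ 0) {Q : QuadraticForm F (ι → F)} {g : Module.End F (ι → F)}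
    (hg : ∀ v, Q (g v) = Q v) {v : ι → F} (hv : (g - 1) ((g - 1) v) = 0) : Q ((g - 1) v) = 0 := by
  simp only [LinearMap.sub_apply, Module.End.one_apply, map_sub] at hv ⊢
  have hxx : g (g v) = (2 : F) • g v - v := by
    linear_combination (norm := module) hv
  have h : polar Q (g (g v)) (g v) = polar Q (g v) v := by simp only [polar, ← map_add, hg]
  rw [hxx, polar_sub_left, polar_smul_left, polar_self, nsmul_eq_mul, hg, polar_comm (⇑Q) v,
    smul_eq_mul, Nat.cast_ofNat] at h
  have hxv : polar Q (g v) v = 2 * Q v := mul_left_cancel₀ h2 (by linear_combination -h)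
  rw [sub_eq_add_neg, QuadraticMap.map_add Q, QuadraticMap.map_neg, hg, polar_neg_right, hxv]
  ring

/-- An invariant subspace carrying only blocks of size two is of plus type. -/
theorem plus_of_parts_two (h2 : (2 : F) ≠ 0) {p : ℕ} (hp : 3 ≤ p) {Q : QuadraticForm F (ι → F)}
    {g : Module.End F (ι → F)} (hg : ∀ v, Q (g v) = Q v) (hNp : (g - 1) ^ p = 0) {W : Submodule F (ι → F)}
    (hW : ∀ v ∈ W, g v ∈ W) (hall : ∀ e ∈ CfsgLib.Omega.jordanParts (g - 1) W p, e = 2) :
    Cfsg.Geo.IsPlusTypeOn (⇑Q) W := by
  set N := g - 1 with hN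
  set ν := CfsgLib.Omega.jordanParts N W p with hν
  have hNW : W.map N ≤ W := by
    rintro _ ⟨v, hv, rfl⟩
    exact W.sub_mem (hW v hv) hv
  have hc : ∀ k, k ≠ 1 → ν.count (k + 1) = 0 := fun k hk => Multiset.count_eq_zero.2 fun he => by
    have := hall _ he; omega
  have h1 := hc 0 (by omega)
  rw [hν, CfsgLib.Omega.count_jordanParts, if_pos (by omega)] at h1
  have hconv := CfsgLib.Omega.rankSeq_convex hNW 0
  have hdown : ∀ i, i + 2 ≤ p →
      CfsgLib.Omega.rankSeq N W (p - i) = 0 ∧ CfsgLib.Omega.rankSeq N W (p - i + 1) = 0 := by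
    intro i
    induction i with
    | zero => exact fun _ => by constructor <;> exact CfsgLib.Omega.rankSeq_eq_zero hNp (by omega) W
    | succ i ih =>
      intro hi
      obtain ⟨e1, e2⟩ := ih (by omega)
      have h := hc (p - (i + 1)) (by omega)
      rw [hν, CfsgLib.Omega.count_jordanParts, if_pos (by omega), show p - (i + 1) + 1 = p - i by omega,
        show p - (i + 1) + 2 = p - i + 1 by omega, e1, e2] at h
      exact ⟨by omega, by rw [show p - (i + 1) + 1 = p - i by omega]; exact e1⟩
  have h20 : CfsgLib.Omega.rankSeq N W 2 = 0 := by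
    have := (hdown (p - 2) (by omega)).1
    rwa [show p - (p - 2) = 2 by omega] at this
  refine ⟨W.map N, hNW, ?_, ?_⟩
  · rintro _ ⟨v, hv, rfl⟩
    refine singular_of_sq_zero h2 hg ?_
    have hm : (N ^ 2 : Module.End F _) v ∈ W.map (N ^ 2 : Module.End F _) := ⟨v, hv, rfl⟩
    unfold CfsgLib.Omega.rankSeq at h20
    rw [Submodule.finrank_eq_zero] at h20
    rw [h20, Submodule.mem_bot, pow_two, Module.End.mul_apply] at hm
    exact hm
  · have e1 : CfsgLib.Omega.rankSeq N W 1 = Module.finrank F (W.map N) := by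
      rw [CfsgLib.Omega.rankSeq, pow_one]
    have e0 : CfsgLib.Omega.rankSeq N W 0 = Module.finrank F W := CfsgLib.Omega.rankSeq_zero N W
    simp only [zero_add] at h1 hconv
    omega

end CfsgLib.Derangements.Sub
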