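import Mathlib
import Cfsg.Agent.Lib.Derangements.SubspaceEvenOdd
import Cfsg.Agent.Lib.Derangements.SubspaceHalfTurn
import Cfsg.Agent.Lib.Derangements.SubspaceUnipotent

/-!
Involutions, quarter turns and unipotent elements against non-degenerate subspaces of odd dimension.
-/

set_option autoImplicit false
set_option linter.unusedSectionVars false
set_option linter.style.haveILetI false

namespace CfsgLib.Derangements.Sub

open Module QuadraticMap CfsgLib.Derangements
open scoped Matrix

universe u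

variable {F : Type u} [Field F] [Finite F]

/-- A non-scalar involution of determinant one fixes subspaces of every odd dimension and class. -/
theorem involution_fixes_evenodd {V : Type u} [AddCommGroup V] [Module F V] [FiniteDimensional F V]
    {Q : QuadraticForm F V} (h2 : (2 : F) ≠ 0) (hQ : (polarBilin Q).Nondegenerate) {d : ℕ}
    (hn : finrank F V = 2 * d) {g : Module.End F V} (hg : g * g = 1) (hgQ : ∀ x, Q (g x) = Q x)
    (hdet : LinearMap.det g = 1) (hns : g ≠ -1) {W₀ : Submodule F V} (hW₀ : Nd Q W₀) {l : ℕ}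
    (hl : finrank F W₀ = 2 * l + 1) (hld : 2 * l + 1 < d) :
    ∃ W : Submodule F V, Iso Q W₀ W ∧ ∀ w ∈ W, g w ∈ W := by
  obtain ⟨A, B, hAN, hBN, hperp, hA, hB, hdim, hd⟩ := involution_split h2 hQ hg hgQ
  rw [hdet] at hd
  obtain ⟨b, hb⟩ : Even (finrank F B) := by
    rcases Nat.even_or_odd (finrank F B) with he | ho
    · exact he
    · rw [ho.neg_one_pow] at hd
      exact absurd hd fun h => h2 (by linear_combination h)
  have hab : ∀ x ∈ A, ∀ y ∈ B, polar Q x y = 0 := fun x hx y hy => mem_perp.1 (hperp ▸ hy) x hx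
  have glue : ∀ {A' B' : Submodule F V}, A' ≤ A → B' ≤ B → ∀ w ∈ A' ⊔ B', g w ∈ A' ⊔ B' := by
    intro A' B' hA' hB' w hw
    obtain ⟨x, hx, y, hy, rfl⟩ := Submodule.mem_sup.1 hw
    rw [map_add, hA x (hA' hx), hB y (hB' hy)]
    exact Submodule.add_mem_sup hx (B'.neg_mem hy)
  have hA0 : finrank F A ≠ 0 := fun h => by
    refine hns (LinearMap.ext fun v => ?_)
    have hv : v ∈ B := by
      rw [show B = ⊤ from Submodule.eq_top_of_finrank_eq (by omega)]; trivial
    rw [hB v hv]; rfl
  by_cases hma : 2 * l + 1 < finrank F A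
  · obtain ⟨A', hA', -, hI⟩ := exists_glue h2 hW₀ (U := A) (B := ⊥) nd_bot hAN
      (fun a _ x hx => by rw [(Submodule.mem_bot F).1 hx, polar_zero_right])
      (by rw [finrank_bot, hl]; omega) (by rw [finrank_bot, hl]; omega)
    exact ⟨_, hI, glue hA' bot_le⟩
  · obtain ⟨a, ha⟩ : ∃ a, finrank F A = 2 * a := ⟨d - b, by omega⟩
    obtain ⟨B', hB', hB'N, hB'd⟩ : ∃ B' ≤ B, Nd Q B' ∧ finrank F B' = 2 * (l + 1 - a) := by
      rcases Nat.lt_or_ge (l + 1 - a) b with hlt | hge
      · obtain ⟨εB, hεB, hT⟩ := exists_hasType hBN (l := b) (by omega)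
        obtain ⟨W, hW, hWN, hWT⟩ := exists_le_type hBN hεB hT (l := l + 1 - a) (by omega) hlt (ε := 1) (Or.inl rfl)
        exact ⟨W, hW, hWN, hWT.1⟩
      · exact ⟨B, le_rfl, hBN, by omega⟩
    obtain ⟨A', hA', -, hI⟩ := exists_glue h2 hW₀ (U := A) hB'N hAN
      (fun x hx y hy => hab x hx y (hB' hy)) (by rw [hB'd, hl]; omega) (by rw [hB'd, hl]; omega)
    exact ⟨_, hI, glue hA' hB'⟩

/-- An isometry with square `-1` fixes no non-degenerate subspace of odd dimension. -/
theorem no_odd_of_sq_neg {V : Type u} [AddCommGroup V] [Module F V] [FiniteDimensional F V]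
    {Q : QuadraticForm F V} (h2 : (2 : F) ≠ 0) {g : Module.End F V} (hgQ : ∀ x, Q (g x) = Q x)
    (hgg : ∀ v, g (g v) = -v) {W : Submodule F V} (hW : Nd Q W) (hinv : ∀ w ∈ W, g w ∈ W) {l : ℕ}
    (hl : finrank F W = 2 * l + 1) : False := by
  classical
  set f := g.restrict hinv with hf
  let b := Module.finBasis F W
  have h1 : LinearMap.det f * LinearMap.det f = -1 := by
    rw [← map_mul, show f * f = (-1 : F) • (1 : Module.End F W) from LinearMap.ext fun w => Subtype.ext (by
      simp [f, hgg]), LinearMap.det_smul, map_one, mul_one, hl, pow_succ, pow_mul]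
    simp
  have h2' : LinearMap.det f * LinearMap.det f = 1 := by
    have hG : (LinearMap.toMatrix b b f).transpose * LinearMap.BilinForm.toMatrix b (polarBilin (res Q W)) *
        LinearMap.toMatrix b b f = LinearMap.BilinForm.toMatrix b (polarBilin (res Q W)) := by
      rw [← LinearMap.BilinForm.toMatrix_comp]
      congr 1
      refine LinearMap.ext₂ fun x y => ?_
      show polar (res Q W) (f x) (f y) = polar (res Q W) x y
      simp only [polar, ← map_add, res_apply, f, LinearMap.coe_restrict_apply, hgQ]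
    have hne := (LinearMap.BilinForm.nondegenerate_iff_det_ne_zero b).1 (nd_iff_res.1 hW)
    have hd := congrArg Matrix.det hG
    rw [Matrix.det_mul, Matrix.det_mul, Matrix.det_transpose, LinearMap.det_toMatrix] at hd
    refine mul_right_cancel₀ hne ?_
    linear_combination hd
  rw [h1] at h2'
  exact h2 (by linear_combination -h2')

/-- A unipotent element fixing no subspace of dimension `1 + 4 j` and given class, for `n ≡ 0 (mod 4)`. -/
theorem exists_unipotent_no_odd {p : ℕ} [Fact p.Prime] [CharP F p] (hp2 : p ≠ 2) {ι : Type} [Fintype ι]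
    [DecidableEq ι] {Q : QuadraticForm F (ι → F)} (hQ : (polarBilin Q).Nondegenerate) {d : ℕ}
    (hn : Fintype.card ι = 2 * d) (hd : 2 ≤ d) (hde : Even d) {W₀ : Submodule F (ι → F)} (hW₀ : Nd Q W₀)
    {j : ℕ} (hl : finrank F W₀ = 4 * j + 1) :
    ∃ x : GL ι F, x ∈ Cfsg.Geo.omegaGL (⇑Q) ∧ x ^ p = 1 ∧ x ≠ 1 ∧
      ∀ W : Submodule F (ι → F), Iso Q W₀ W →
        ¬ ∀ w ∈ W, Matrix.toLin' (x : Matrix ι ι F) w ∈ W := by
  classical
  haveI := Fintype.ofFinite F
  have hpr : p.Prime := Fact.out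
  have hp3 : 3 ≤ p := by have := hpr.two_le; omega
  have h2 : (2 : F) ≠ 0 := fun h => hp2 ((Nat.prime_dvd_prime_iff_eq hpr Nat.prime_two).1
    ((CharP.cast_eq_zero_iff F p 2).1 (by exact_mod_cast h)))
  have hfin : finrank F (ι → F) = 2 * d := by rw [Module.finrank_fintype_fun_eq_card, hn]
  obtain ⟨P, hPle, hPN, hPT⟩ := exists_type_le_odd h2 Q hW₀ (l := 2 * j) (by rw [hl]; omega) (ε := 1)
    (Or.inl rfl) fun _ => rfl
  set L := W₀ ⊓ perp Q P with hLdef
  have hsplit : ∀ x ∈ W₀, ∃ b ∈ P, x - b ∈ L := fun x hx => by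
    obtain ⟨b, hb, y, hy, rfl⟩ := Submodule.mem_sup.1
      (show x ∈ P ⊔ perp Q P by rw [(isCompl_perp hPN).sup_eq_top]; trivial)
    exact ⟨b, hb, W₀.sub_mem hx (hPle hb), by rw [add_sub_cancel_left]; exact hy⟩
  have hLN : Nd Q L := fun x hx h => hW₀ x hx.1 fun y hy => by
    obtain ⟨b, hb, hyb⟩ := hsplit y hy
    have h1 := h _ hyb
    rwa [polar_sub_right, polar_comm (⇑Q) x b, mem_perp.1 hx.2 b hb, sub_zero] at h1
  have hPL : P ⊔ L = W₀ := le_antisymm (sup_le hPle inf_le_left) fun x hx => by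
    obtain ⟨b, hb, hxb⟩ := hsplit x hx
    have := Submodule.add_mem_sup hb hxb
    rwa [add_sub_cancel] at this
  have hL1 : finrank F L = 1 := by
    have := finrank_sup_orth hPN (fun a ha b (hb : b ∈ L) => mem_perp.1 hb.2 a ha)
    rw [hPL, hl, hPT.1] at this
    omega
  obtain ⟨e₀, he₀L, he₀⟩ := Submodule.exists_mem_ne_zero_of_ne_bot (show L ≠ ⊥ by
    intro h; rw [h, finrank_bot] at hL1; omega)
  have hLe : L = F ∙ e₀ := (Submodule.eq_of_le_of_finrank_le
    ((Submodule.span_singleton_le_iff_mem e₀ L).2 he₀L) (by rw [hL1, finrank_span_singleton he₀])).symm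
  have hδ : Q e₀ ≠ 0 := by
    intro h0
    refine he₀ (hLN e₀ he₀L fun w hw => ?_)
    rw [hLe] at hw
    obtain ⟨t, rfl⟩ := Submodule.mem_span_singleton.1 hw
    rw [polar_smul_right, polar_self, h0, smul_zero, smul_zero]
  obtain ⟨ν, hν⟩ := CfsgLib.OrthGen.exists_nonsquare_of_two (F := F) h2
  have hν0 : ν ≠ 0 := fun h => hν (h ▸ IsSquare.zero)
  obtain ⟨e, he⟩ := CfsgLib.OrthGen.exists_Q_eq h2 hQ (by omega) (ν * Q e₀)
  have hce : Q e ≠ 0 := by rw [he]; exact mul_ne_zero hν0 hδ
  have he0 : e ≠ 0 := fun h => hce (by rw [h, QuadraticMap.map_zero])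
  have heN : Nd Q (F ∙ e) := by
    intro x hx h
    obtain ⟨t, rfl⟩ := Submodule.mem_span_singleton.1 hx
    have h0 := h e (Submodule.mem_span_singleton_self e)
    rw [polar_smul_left, polar_self, nsmul_eq_mul, smul_eq_mul, Nat.cast_ofNat] at h0
    rcases mul_eq_zero.1 h0 with h0 | h0
    · rw [h0, zero_smul]
    · exact absurd h0 (mul_ne_zero h2 hce)
  set U := perp Q (F ∙ e) with hU
  have hUd : finrank F U = 2 * d - 1 := by
    have := finrank_perp (Q := Q) heN
    rw [finrank_span_singleton he0, hfin, ← hU] at this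
    omega
  have hUN : Nd Q U := nd_perp hQ heN
  let bU := Module.finBasisOfFinrankEq F U hUd
  let Q' : QuadraticForm F (Fin (2 * d - 1) → F) := (res Q U).comp bU.equivFun.symm.toLinearMap
  have hQ' : (polarBilin Q').Nondegenerate := CfsgLib.Classes.nondegenerate_polarBilin _ fun y hy => by
    refine bU.equivFun.symm.injective ?_
    rw [map_zero]
    refine (nd_iff_res.1 hUN).1 _ fun w => ?_
    have h := hy (bU.equivFun w)
    simp only [Q', polar, QuadraticMap.comp_apply, LinearEquiv.coe_coe, map_add,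
      LinearEquiv.symm_apply_apply] at h
    exact h
  obtain ⟨a, ha⟩ := hde
  obtain ⟨x', hx'Ω, -, hN'p, hrank'⟩ := CfsgLib.Omega.exists_unipotent_of_type hp2 Q' hQ'
    (Multiset.replicate (d - 2) 2 + {3}) (fun t ht => by
      simp only [Multiset.mem_add, Multiset.mem_replicate, Multiset.mem_singleton] at ht; omega)
    (fun t ht => by
      obtain ⟨i, hi⟩ := ht
      rw [Multiset.count_add, Multiset.count_replicate, Multiset.count_singleton,
        if_neg (show ¬ t = 3 by omega)]
      split_ifs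
      · exact ⟨a - 1, by omega⟩
      · exact ⟨0, rfl⟩)
    (by simp; omega) ⟨3, by simp, by decide⟩
  set g' : Module.End F (Fin (2 * d - 1) → F) := Matrix.toLin' (x' : Matrix _ _ F) with hg'
  have hg'Q : ∀ v, Q' (g' v) = Q' v := fun v => isometry_of_mem_omegaGL hx'Ω v
  let E : (Fin (2 * d - 1) → F) →ₗ[F] (ι → F) := U.subtype ∘ₗ bU.equivFun.symm.toLinearMap
  have hE : Function.Injective E := Subtype.val_injective.comp bU.equivFun.symm.injective
  have hEQ : ∀ v, Q (E v) = Q' v := fun v => rfl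
  have hErange : LinearMap.range E = U := by
    rw [LinearMap.range_comp, LinearEquiv.range, Submodule.map_top, Submodule.range_subtype]
  have hc : IsCompl (F ∙ e) U := isCompl_perp heN
  let g : Module.End F (ι → F) :=
    LinearMap.ofIsCompl hc (F ∙ e).subtype (E ∘ₗ g' ∘ₗ bU.equivFun.toLinearMap)
  have hge : ∀ t : F, g (t • e) = t • e := fun t =>
    LinearMap.ofIsCompl_apply_left hc ⟨t • e, Submodule.smul_mem _ t (Submodule.mem_span_singleton_self e)⟩
  have hgE : ∀ v, g (E v) = E (g' v) := fun v => by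
    have h := LinearMap.ofIsCompl_apply_right hc (φ := (F ∙ e).subtype)
      (ψ := E ∘ₗ g' ∘ₗ bU.equivFun.toLinearMap) (bU.equivFun.symm v)
    refine h.trans ?_
    show E (g' (bU.equivFun (bU.equivFun.symm v))) = _
    rw [LinearEquiv.apply_symm_apply]
  have hdec : ∀ v : ι → F, ∃ (t : F) (u : Fin (2 * d - 1) → F), v = t • e + E u := fun v => by
    obtain ⟨p₁, hp₁, y, hy, rfl⟩ := Submodule.mem_sup.1
      (show v ∈ (F ∙ e) ⊔ U by rw [hc.sup_eq_top]; trivial)
    obtain ⟨t, rfl⟩ := Submodule.mem_span_singleton.1 hp₁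
    rw [← hErange] at hy
    obtain ⟨u, rfl⟩ := hy
    exact ⟨t, u, rfl⟩
  have hoe : ∀ (t : F) (u : Fin (2 * d - 1) → F), polar Q (t • e) (E u) = 0 := fun t u =>
    mem_perp.1 (bU.equivFun.symm u).2 _ (Submodule.smul_mem _ t (Submodule.mem_span_singleton_self e))
  have hgQ : ∀ v, Q (g v) = Q v := fun v => by
    obtain ⟨t, u, rfl⟩ := hdec v
    rw [map_add, hge, hgE, QuadraticMap.map_add Q, QuadraticMap.map_add Q (t • e), hEQ, hEQ, hg'Q, hoe, hoe]
  set N : Module.End F (ι → F) := g - 1 with hN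
  set N' : Module.End F (Fin (2 * d - 1) → F) := g' - 1 with hN'
  have hNE : ∀ (i : ℕ) u, (N ^ i) (E u) = E ((N' ^ i) u) := fun i => by
    induction i with
    | zero => intro u; simp
    | succ i ih =>
      intro u
      rw [pow_succ', Module.End.mul_apply, ih, pow_succ', Module.End.mul_apply]
      simp [hN, hN', hgE]
  have hNe : ∀ (t : F), N (t • e) = 0 := fun t => by
    simp only [hN, LinearMap.sub_apply, Module.End.one_apply, hge, sub_self]
  have hNp : N ^ p = 0 := LinearMap.ext fun v => by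
    obtain ⟨t, u, rfl⟩ := hdec v
    rw [map_add, hNE, hN'p, LinearMap.zero_apply, map_zero, add_zero]
    obtain ⟨q', hq'⟩ : ∃ q', p = q' + 1 := ⟨p - 1, by omega⟩
    rw [hq', pow_succ, Module.End.mul_apply, hNe, map_zero, LinearMap.zero_apply]
  have hμsum : ∀ i, CfsgLib.Omega.rankSeq N ⊤ i =
      ((Multiset.replicate (d - 2) 2 + {3} + {1} : Multiset ℕ).map fun b => b - i).sum := by
    intro i
    rw [CfsgLib.Omega.rankSeq_add_of_isCompl hc (by
      rintro _ ⟨v, hv, rfl⟩
      obtain ⟨t, rfl⟩ := Submodule.mem_span_singleton.1 hv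
      rw [hNe]; exact Submodule.zero_mem _) (by
      rintro _ ⟨v, hv, rfl⟩
      rw [← hErange] at hv ⊢
      obtain ⟨u, rfl⟩ := hv
      have := hNE 1 u
      rw [pow_one, pow_one] at this
      exact ⟨_, this.symm⟩)]
    rw [Multiset.map_add _ _ ({1} : Multiset ℕ), Multiset.sum_add, Multiset.map_singleton, Multiset.sum_singleton,
      ← hrank', add_comm]
    congr 1
    · rw [CfsgLib.Omega.rankSeq, CfsgLib.Omega.rankSeq]
      have hmap : U.map (N ^ i : Module.End F (ι → F)) =
          ((⊤ : Submodule F _).map (N' ^ i : Module.End F _)).map E := by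
        rw [← hErange, Submodule.map_top, ← LinearMap.range_comp, ← LinearMap.range_comp]
        congr 1
        exact LinearMap.ext fun u => hNE i u
      rw [hmap]
      exact (Submodule.equivMapOfInjective E hE _).finrank_eq.symm
    · rcases Nat.eq_zero_or_pos i with rfl | hi
      · rw [CfsgLib.Omega.rankSeq_zero, finrank_span_singleton he0]
      · rw [show 1 - i = 0 by omega, CfsgLib.Omega.rankSeq, Submodule.finrank_eq_zero, eq_bot_iff]
        rintro _ ⟨v, hv, rfl⟩
        obtain ⟨t, rfl⟩ := Submodule.mem_span_singleton.1 hv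
        obtain ⟨i', rfl⟩ : ∃ i', i = i' + 1 := ⟨i - 1, by omega⟩
        rw [pow_succ, Module.End.mul_apply, hNe, map_zero]
        exact Submodule.zero_mem _
  -- fixed vectors of `g'` are singular
  have hker' : ∀ u, N' u = 0 → Q' u = 0 := by
    have e1 := CfsgLib.Omega.rankSeq_succ_add N' ⊤ 0
    have e2 := CfsgLib.Omega.rankSeq_succ_add N' ⊤ 1
    rw [hrank', hrank', pow_zero, Module.End.one_eq_id, Submodule.map_id, inf_top_eq] at e1
    rw [hrank', hrank', pow_one] at e2
    simp [Multiset.sum_replicate] at e1 e2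
    rw [Submodule.map_top] at e2
    have hle : LinearMap.ker N' ≤ LinearMap.ker N' ⊓ LinearMap.range N' := by
      rw [Submodule.eq_of_le_of_finrank_le (inf_le_left : LinearMap.ker N' ⊓ LinearMap.range N' ≤ LinearMap.ker N')
        (by omega)]
    intro u hu
    obtain ⟨w, hw⟩ := (hle (LinearMap.mem_ker.2 hu)).2
    have hgu : g' u = u := by simpa [hN', sub_eq_zero] using hu
    have h1 : polar Q' u u = 0 := by
      conv_lhs => arg 3; rw [← hw]
      rw [hN', LinearMap.sub_apply, Module.End.one_apply, polar_sub_right]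
      have h3 : polar Q' (g' u) (g' w) = polar Q' u w := by simp only [polar, ← map_add, hg'Q]
      rw [hgu] at h3
      rw [h3, sub_self]
    rw [polar_self, nsmul_eq_mul, Nat.cast_ofNat] at h1
    exact (mul_eq_zero.1 h1).resolve_left h2
  have hfixed : ∀ v, g v = v → ∃ t : F, Q v = t * t * Q e := fun v hv => by
    obtain ⟨t, u, rfl⟩ := hdec v
    refine ⟨t, ?_⟩
    have hu : N' u = 0 := hE (by
      rw [map_zero, hN', LinearMap.sub_apply, Module.End.one_apply, map_sub, ← hgE, sub_eq_zero]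
      rw [map_add, hge, add_right_inj] at hv
      exact hv)
    rw [QuadraticMap.map_add Q, hoe, hEQ, hker' u hu, QuadraticMap.map_smul, smul_eq_mul, add_zero, add_zero]
  -- the matrix
  have hgp : g ^ p = 1 := by
    have hM : (LinearMap.toMatrix' g - 1) ^ p = 0 := by
      refine Matrix.toLinAlgEquiv'.injective ?_
      rw [map_pow, map_zero, map_sub, map_one]
      show ((Matrix.toLin' (LinearMap.toMatrix' g) : Module.End F (ι → F)) - 1) ^ p = 0
      rw [Matrix.toLin'_toMatrix']
      exact hNp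
    haveI : Nonempty ι := Fintype.card_pos_iff.1 (by omega)
    rw [sub_pow_char_of_commute _ (Commute.one_right _), one_pow, sub_eq_zero] at hM
    have := congrArg Matrix.toLinAlgEquiv' hM
    rw [map_pow, map_one] at this
    have h' : (Matrix.toLin' (LinearMap.toMatrix' g) : Module.End F (ι → F)) ^ p = 1 := this
    rwa [Matrix.toLin'_toMatrix'] at h'
  obtain ⟨x, hxΩ, hxp, hx1, hxg⟩ := exists_matrix hQ (Or.inl ⟨-1, neg_ne_zero.2 one_ne_zero,
    fun h => h2 (by linear_combination -h)⟩) (hpr.odd_of_ne_two hp2) hgp hgQ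
  have hμ2 := hμsum 2
  refine ⟨x, hxΩ, hxp, hx1 fun hg1 => ?_, fun W hW hWi => ?_⟩
  · rw [show N = 0 by rw [hN, hg1, sub_self], CfsgLib.Omega.rankSeq] at hμ2
    rw [zero_pow two_ne_zero, Submodule.map_zero, finrank_bot] at hμ2
    simp at hμ2
  rw [hxg] at hWi
  have hWn : finrank F W = 4 * j + 1 := hW.finrank_eq.trans hl
  have hNW : W.map N ≤ W := by
    rintro _ ⟨v, hv, rfl⟩
    exact W.sub_mem (hWi v hv) hv
  have hsurj : ∀ w ∈ W, ∃ v ∈ W, g v = w := surj_of_inv hgp hpr.ne_zero hWi
  have hcomp := isCompl_perp (Q := Q) hW.1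
  have hNC : (perp Q W).map N ≤ perp Q W := by
    rintro _ ⟨v, hv, rfl⟩
    exact (perp Q W).sub_mem (perp_inv hgQ hsurj hv) hv
  have hle := CfsgLib.Omega.jordanParts_le hcomp hNW hNC hμsum p
  set νW := CfsgLib.Omega.jordanParts N W p with hνW
  have hs : νW.sum = 4 * j + 1 := by rw [hνW, CfsgLib.Omega.sum_jordanParts hNW hNp, hWn]
  have hev : Even (νW.count 2) :=
    CfsgLib.Omega.even_count_jordanParts (B := polarBilin Q) h2 hpr.one_le (fun u v => polar_comm _ u v)
      (fun u v => by show polar Q (g u) (g v) = polar Q u v; simp only [polar, ← map_add, hgQ])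
      hgp hNp hWi (fun u hu h => hW.1 u hu h) even_two
  have hmem : ∀ t ∈ νW, t = 2 ∨ t = 3 ∨ t = 1 := fun t ht => by
    have := Multiset.mem_of_le hle ht
    simp only [Multiset.mem_add, Multiset.mem_replicate, Multiset.mem_singleton] at this
    tauto
  have hν' : νW = Multiset.replicate (νW.count 2) 2 + Multiset.replicate (νW.count 3) 3 +
      Multiset.replicate (νW.count 1) 1 := by
    ext t
    simp only [Multiset.count_add, Multiset.count_replicate]
    by_cases h : t = 2 ∨ t = 3 ∨ t = 1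
    · rcases h with rfl | rfl | rfl <;> simp
    · rw [if_neg (by omega), if_neg (by omega), if_neg (by omega)]
      exact Multiset.count_eq_zero.2 fun hm => h (hmem t hm)
  have h3le : νW.count 3 ≤ 1 := (Multiset.count_le_of_le 3 hle).trans (by simp [Multiset.count_replicate])
  have h1le : νW.count 1 ≤ 1 := (Multiset.count_le_of_le 1 hle).trans (by simp [Multiset.count_replicate])
  obtain ⟨i₂, hi₂⟩ := hev
  rw [hν'] at hs
  simp only [Multiset.sum_add, Multiset.sum_replicate, smul_eq_mul] at hs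
  have hc3 : νW.count 3 = 0 := by omega
  have hc1 : νW.count 1 = 1 := by omega
  have hbig : ∀ k, 2 ≤ k → νW.count (k + 1) = 0 := fun k hk => by
    rcases eq_or_ne (k + 1) 3 with h | h
    · rw [h]; exact hc3
    · exact Multiset.count_eq_zero.2 fun hm => by have := hmem _ hm; omega
  have hdown : ∀ i, i + 2 ≤ p →
      CfsgLib.Omega.rankSeq N W (p - i) = 0 ∧ CfsgLib.Omega.rankSeq N W (p - i + 1) = 0 := by
    intro i
    induction i with
    | zero => exact fun _ => by constructor <;> exact CfsgLib.Omega.rankSeq_eq_zero hNp (by omega) W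
    | succ i ih =>
      intro hi
      obtain ⟨f1, f2⟩ := ih (by omega)
      have h := hbig (p - (i + 1)) (by omega)
      rw [hνW, CfsgLib.Omega.count_jordanParts, if_pos (by omega), show p - (i + 1) + 1 = p - i by omega,
        show p - (i + 1) + 2 = p - i + 1 by omega, f1, f2] at h
      exact ⟨by omega, by rw [show p - (i + 1) + 1 = p - i by omega]; exact f1⟩
  have h20 : CfsgLib.Omega.rankSeq N W 2 = 0 := by
    have := (hdown (p - 2) (by omega)).1
    rwa [show p - (p - 2) = 2 by omega] at this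
  have h10 := hc1
  rw [hνW, show (1 : ℕ) = 0 + 1 from rfl, CfsgLib.Omega.count_jordanParts, if_pos (by omega)] at h10
  have hconv := CfsgLib.Omega.rankSeq_convex hNW 0
  simp only [zero_add, CfsgLib.Omega.rankSeq_zero, hWn, h20] at h10 hconv
  have hr1 : CfsgLib.Omega.rankSeq N W 1 = 2 * j := by omega
  have hk := CfsgLib.Omega.rankSeq_succ_add N W 0
  rw [pow_zero, Module.End.one_eq_id, Submodule.map_id, CfsgLib.Omega.rankSeq_zero, hWn, zero_add, hr1] at hk
  -- an anisotropic fixed vector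
  obtain ⟨v, hv, hv0⟩ : ∃ v ∈ LinearMap.ker N ⊓ W, Q v ≠ 0 := by
    by_contra hcon
    push Not at hcon
    have h := CfsgLib.Forms.two_mul_finrank_singular_le (res Q W) (nd_iff_res.1 hW.1)
      ((LinearMap.ker N ⊓ W).comap W.subtype) (fun w hw => hcon _ hw)
    rw [(Submodule.comapSubtypeEquivOfLe inf_le_right).finrank_eq, hWn] at h
    omega
  have hgv : g v = v := by simpa [hN, sub_eq_zero] using hv.1
  have hvne : v ≠ 0 := fun h => hv0 (by rw [h, QuadraticMap.map_zero])
  obtain ⟨t, ht⟩ := hfixed v hgv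
  set W' := W ⊓ perp Q (F ∙ v) with hW'
  have hpv : ∀ w, w ∈ W' ↔ w ∈ W ∧ polar Q v w = 0 := fun w => by
    refine and_congr_right fun _ => ⟨fun h => mem_perp.1 h v (Submodule.mem_span_singleton_self v), fun h => ?_⟩
    refine mem_perp.2 fun z hz => ?_
    obtain ⟨c, rfl⟩ := Submodule.mem_span_singleton.1 hz
    rw [polar_smul_left, h, smul_zero]
  have hdecW : ∀ w ∈ W, ∃ c : F, w - c • v ∈ W' := fun w hw => by
    refine ⟨polar Q v w / (2 * Q v), (hpv _).2 ⟨W.sub_mem hw (W.smul_mem _ hv.2), ?_⟩⟩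
    rw [polar_sub_right, polar_smul_right, polar_self]
    simp only [nsmul_eq_mul, smul_eq_mul, Nat.cast_ofNat]
    field_simp
    ring
  have hW'N : Nd Q W' := fun z hz h => hW.1 z hz.1 fun w hw => by
    obtain ⟨c, hcw⟩ := hdecW w hw
    have h1 := h _ hcw
    rwa [polar_sub_right, polar_smul_right, polar_comm (⇑Q) z v, ((hpv z).1 hz).2, smul_zero, sub_zero] at h1
  have hW'd : finrank F W' = 4 * j := by
    have hle1 : W ≤ W' ⊔ (F ∙ v) := fun w hw => by
      obtain ⟨c, hcw⟩ := hdecW w hw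
      have := Submodule.add_mem_sup hcw (Submodule.smul_mem (F ∙ v) c (Submodule.mem_span_singleton_self v))
      rwa [sub_add_cancel] at this
    have h1 := Submodule.finrank_mono hle1
    have h2' := Submodule.finrank_add_le_finrank_add_finrank W' (F ∙ v)
    rw [finrank_span_singleton hvne] at h2'
    have hlt : finrank F W' < finrank F W := Submodule.finrank_lt_finrank_of_lt
      (lt_of_le_of_ne inf_le_left fun heq => by
        have : v ∈ W' := heq ▸ hv.2
        have h3 := ((hpv v).1 this).2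
        rw [polar_self, nsmul_eq_mul, Nat.cast_ofNat] at h3
        exact mul_ne_zero h2 hv0 h3)
    omega
  have hplus : Cfsg.Geo.IsPlusTypeOn (⇑Q) W' := by
    refine ⟨W.map N, ?_, ?_, ?_⟩
    · rintro _ ⟨w, hw, rfl⟩
      refine (hpv _).2 ⟨hNW ⟨w, hw, rfl⟩, ?_⟩
      have h3 : polar Q (g v) (g w) = polar Q v w := by simp only [polar, ← map_add, hgQ]
      rw [hgv] at h3
      show polar Q v ((g - 1) w) = 0
      rw [LinearMap.sub_apply, Module.End.one_apply, polar_sub_right, h3, sub_self]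
    · rintro _ ⟨w, hw, rfl⟩
      refine singular_of_sq_zero h2 hgQ ?_
      have hm : (N ^ 2 : Module.End F _) w ∈ W.map (N ^ 2 : Module.End F _) := ⟨w, hw, rfl⟩
      unfold CfsgLib.Omega.rankSeq at h20
      rw [Submodule.finrank_eq_zero] at h20
      rw [h20, Submodule.mem_bot, pow_two, Module.End.mul_apply] at hm
      exact hm
    · have e1 : CfsgLib.Omega.rankSeq N W 1 = finrank F (W.map N) := by
        rw [CfsgLib.Omega.rankSeq, pow_one]
      rw [← e1, hr1, hW'd]; ring
  obtain ⟨ε', hε', hW'T⟩ := exists_hasType hW'N (l := 2 * j) (by omega)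
  rw [(isPlusTypeOn_iff hW'N hε' hW'T).1 hplus] at hW'T
  obtain ⟨-, φ, hφ⟩ := hW
  -- transport into `W₀`
  obtain ⟨σ, hσ⟩ := OrthType.exists_isometry (m := 2 * j)
    hW'T.1 hPT.1 (nd_iff_res.1 hW'N) (nd_iff_res.1 hPN) hW'T.2 hPT.2
  let j₀ : W' →ₗ[F] W₀ := φ.toLinearMap ∘ₗ Submodule.inclusion inf_le_left
  have hj₀ : Function.Injective j₀ := φ.injective.comp (Submodule.inclusion_injective _)
  let K := LinearMap.range j₀
  let ψ : K →ₗ[F] W₀ :=
    (Submodule.inclusion hPle) ∘ₗ σ.toLinearMap ∘ₗ (LinearEquiv.ofInjective j₀ hj₀).symm.toLinearMap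
  obtain ⟨E₀, hE₀Q, hE₀⟩ := CfsgLib.Forms.witt_extension_quadratic (res Q W₀) (nd_iff_res.1 hW₀) K ψ
    ((Submodule.inclusion_injective hPle).comp (σ.injective.comp (LinearEquiv.ofInjective j₀ hj₀).symm.injective)) (fun z => by
      obtain ⟨w, rfl⟩ := (LinearEquiv.ofInjective j₀ hj₀).surjective z
      have h1 := hσ w
      simp only [res_apply] at h1
      simp only [ψ, LinearMap.comp_apply, LinearEquiv.coe_coe, LinearEquiv.symm_apply_apply, res_apply,
        Submodule.coe_inclusion, LinearEquiv.ofInjective_apply]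
      rw [h1]
      exact (hφ (Submodule.inclusion inf_le_left w)).symm)
  set z : W₀ := E₀ (φ ⟨v, hv.2⟩) with hz
  have hzQ : Q (z : ι → F) = Q v := by
    have := hE₀Q (φ ⟨v, hv.2⟩)
    simp only [res_apply] at this
    rw [hz, this]; exact hφ _
  have hzL : (z : ι → F) ∈ L := by
    refine ⟨z.2, mem_perp.2 fun w hw => ?_⟩
    obtain ⟨y, hy⟩ := σ.surjective ⟨w, hw⟩
    have h1 : E₀ (j₀ y) = (⟨w, hPle hw⟩ : W₀) := by
      rw [hE₀ ⟨j₀ y, y, rfl⟩]
      refine Subtype.ext ?_
      show ((σ ((LinearEquiv.ofInjective j₀ hj₀).symm ⟨j₀ y, y, rfl⟩) : P) : ι → F) = w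
      rw [show (⟨j₀ y, y, rfl⟩ : K) = LinearEquiv.ofInjective j₀ hj₀ y from rfl, LinearEquiv.symm_apply_apply, hy]
    have h2' : polar (res Q W₀) (E₀ (j₀ y)) z = polar (res Q W₀) (j₀ y) (φ ⟨v, hv.2⟩) := by
      rw [hz]; simp only [polar, ← map_add, hE₀Q]
    rw [h1] at h2'
    have h3 : polar (res Q W₀) (j₀ y) (φ ⟨v, hv.2⟩) = polar Q (y : ι → F) v := by
      simp only [j₀, LinearMap.comp_apply, LinearEquiv.coe_coe, polar, ← map_add, res_apply, hφ]
      simp
    rw [h3, polar_comm (⇑Q) (y : ι → F) v, ((hpv _).1 y.2).2] at h2'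
    exact h2'
  rw [hLe] at hzL
  obtain ⟨s, hs'⟩ := Submodule.mem_span_singleton.1 hzL
  rw [← hs', QuadraticMap.map_smul, smul_eq_mul, ht, he] at hzQ
  have ht0 : t ≠ 0 := fun h => hv0 (by rw [ht, h]; ring)
  refine hν ⟨s / t, ?_⟩
  field_simp
  exact mul_right_cancel₀ hδ (by linear_combination -hzQ)

end CfsgLib.Derangements.Sub
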