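import Mathlib
import Cfsg.Agent.Lib.Derangements.SubspaceEvenOddTwoP
import Cfsg.Agent.Lib.ClassicalForms.Ortho.Standard

/-!
Elements of prime order in even-dimensional orthogonal groups of odd characteristic fixing a non-degenerate
subspace of odd dimension and given class: the three kinds of primes.
-/

set_option autoImplicit false
set_option linter.unusedSectionVars false
set_option linter.style.haveILetI false

namespace CfsgLib.Derangements.Sub

open Module QuadraticMap CfsgLib.Derangements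
open scoped Matrix

universe u

variable {F : Type u} [Field F] [Fintype F]

/-- Every element of order `r` in the projective group fixes a subspace isometric to `W₀`. -/
def AllFix {ι : Type} [Fintype ι] [DecidableEq ι] (Q : QuadraticForm F (ι → F)) (W₀ : Submodule F (ι → F)) (r : ℕ) :
    Prop :=
  ∀ x : GL ι F, x ∈ Cfsg.Geo.omegaGL (⇑Q) →
    (∃ z : F, ((x ^ r : GL ι F) : Matrix ι ι F) = z • (1 : Matrix ι ι F)) →
    (∀ z : F, (x : Matrix ι ι F) ≠ z • (1 : Matrix ι ι F)) →
    ∃ W : Submodule F (ι → F), Iso Q W₀ W ∧ ∀ w ∈ W, Matrix.toLin' (x : Matrix ι ι F) w ∈ W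

variable {ι : Type} [Fintype ι] [DecidableEq ι] {Q : QuadraticForm F (ι → F)}

/-- The prime two. -/
theorem evenodd_two (h2 : (2 : F) ≠ 0) (hQ : (polarBilin Q).Nondegenerate) {d : ℕ} {εV : ℤ}
    (hT : HasType Q (⊤ : Submodule F (ι → F)) d εV) {W₀ : Submodule F (ι → F)} (hW₀ : Nd Q W₀) {l : ℕ}
    (hl : finrank F W₀ = 2 * l + 1) (hld : 2 * l + 1 < d) :
    AllFix Q W₀ 2 ↔ ¬ (εV = sqNegOne F ^ d ∧ sqTwo F ^ d = 1) := by
  have hn : finrank F (ι → F) = 2 * d := (hasType_top_iff.1 hT).1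
  haveI : Nonempty ι := Fintype.card_pos_iff.1 (by rw [Module.finrank_fintype_fun_eq_card] at hn; omega)
  haveI : Nontrivial (ι → F) := Module.nontrivial_of_finrank_pos (R := F) (by omega)
  obtain ⟨v₀, hv₀⟩ := CfsgLib.Classes.exists_anisotropic_vector Q hQ
  constructor
  · intro H hcond
    obtain ⟨x, hx, hxx⟩ := (exists_halfTurn_omega_iff h2 hQ (by omega) hT).2 hcond
    have hiso := fun v => isometry_of_mem_omegaGL hx v
    obtain ⟨W, hW, hWi⟩ := H x hx ⟨-1, Matrix.toLin'.injective (LinearMap.ext fun v => by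
        rw [Units.val_pow_eq_pow_val, pow_two, Matrix.toLin'_apply, ← Matrix.mulVec_mulVec, hxx]
        simp)⟩ (fun z hz => by
      have h1 := hxx v₀
      rw [hz, Matrix.smul_mulVec, Matrix.one_mulVec, Matrix.smul_mulVec, Matrix.one_mulVec, smul_smul] at h1
      have h3 := hiso v₀
      rw [hz, Matrix.smul_mulVec, Matrix.one_mulVec, QuadraticMap.map_smul, smul_eq_mul] at h3
      have h4 : z * z = 1 := mul_right_cancel₀ hv₀ (h3.trans (one_mul _).symm)
      rw [h4, one_smul, eq_neg_iff_add_eq_zero, ← two_smul F, smul_eq_zero] at h1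
      rcases h1 with h1 | h1
      · exact h2 h1
      · exact hv₀ (by rw [h1, QuadraticMap.map_zero]))
    exact no_odd_of_sq_neg h2 (g := Matrix.toLin' (x : Matrix ι ι F)) (fun v => hiso v) (fun v => hxx v) hW.1 hWi
      (hW.finrank_eq.trans hl)
  · intro hcond x hx ⟨z, hz⟩ hns
    have hiso := fun v => isometry_of_mem_omegaGL hx v
    have hxx : ∀ v, (x : Matrix ι ι F) *ᵥ ((x : Matrix ι ι F) *ᵥ v) = z • v := fun v => by
      rw [Matrix.mulVec_mulVec, ← pow_two, ← Units.val_pow_eq_pow_val, hz, Matrix.smul_mulVec, Matrix.one_mulVec]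
    have hz2 : z * z = 1 := by
      have h1 := hiso ((x : Matrix ι ι F) *ᵥ v₀)
      rw [hxx, hiso, QuadraticMap.map_smul, smul_eq_mul] at h1
      exact mul_right_cancel₀ hv₀ (h1.trans (one_mul _).symm)
    rcases mul_self_eq_one_iff.1 hz2 with rfl | rfl
    · set g : Module.End F (ι → F) := Matrix.toLin' (x : Matrix ι ι F) with hg
      have hgg : g * g = 1 := LinearMap.ext fun v => by
        rw [Module.End.mul_apply, hg, Matrix.toLin'_apply, Matrix.toLin'_apply, hxx, one_smul]; rfl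
      refine involution_fixes_evenodd h2 hQ hn hgg (fun v => hiso v) ?_ (fun hg1 => hns (-1) ?_) hW₀ hl hld
      · exact det_eq_one_of_mem_omegaGL hx
      · refine Matrix.toLin'.injective ?_
        rw [map_smul, Matrix.toLin'_one, ← hg, hg1]; exact (neg_one_smul F (1 : Module.End F (ι → F))).symm
    · exact absurd ((exists_halfTurn_omega_iff h2 hQ (by omega) hT).1
        ⟨x, hx, fun v => by rw [hxx, neg_one_smul]⟩) hcond

/-- The characteristic: some element of order `p` fixes none. -/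
theorem evenodd_char {p : ℕ} [Fact p.Prime] [CharP F p] (hp2 : p ≠ 2) (hQ : (polarBilin Q).Nondegenerate) {d : ℕ}
    (hn : Fintype.card ι = 2 * d) {W₀ : Submodule F (ι → F)} (hW₀ : Nd Q W₀) {l : ℕ}
    (hl : finrank F W₀ = 2 * l + 1) (hld : 2 * l + 1 < d) : ¬ AllFix Q W₀ p := by
  classical
  intro H
  have hpr : p.Prime := Fact.out
  have hfin : finrank F (ι → F) = 2 * d := by rw [Module.finrank_fintype_fun_eq_card, hn]
  have happly : ∀ x : GL ι F, x ∈ Cfsg.Geo.omegaGL (⇑Q) → x ^ p = 1 → x ≠ 1 →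
      ∃ W : Submodule F (ι → F), Iso Q W₀ W ∧ ∀ w ∈ W, Matrix.toLin' (x : Matrix ι ι F) w ∈ W := by
    intro x hx hxp hx1
    refine H x hx ⟨1, by rw [hxp, one_smul]; rfl⟩ fun z hz => hx1 ?_
    haveI : Nonempty ι := Fintype.card_pos_iff.1 (by omega)
    haveI : Fact p.Prime := ⟨hpr⟩
    have h1 : ((x ^ p : GL ι F) : Matrix ι ι F) = 1 := by rw [hxp]; rfl
    rw [Units.val_pow_eq_pow_val, hz, smul_pow, one_pow] at h1
    have i := Classical.arbitrary ι
    have h3 := congrFun (congrFun h1 i) i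
    rw [Matrix.smul_apply, Matrix.one_apply_eq, smul_eq_mul, mul_one] at h3
    have h4 : (z - 1) ^ p = 0 := by rw [sub_pow_char, h3, one_pow, sub_self]
    rw [sub_eq_zero.1 (pow_eq_zero_iff hpr.ne_zero |>.1 h4), one_smul] at hz
    exact Units.ext hz
  rcases Nat.even_or_odd d with hde | hdo
  · rcases Nat.even_or_odd' l with ⟨j, rfl | rfl⟩
    · obtain ⟨x, hx, hxp, hx1, hno⟩ := exists_unipotent_no_odd hp2 hQ hn (by omega) hde hW₀ (j := j) (by omega)
      obtain ⟨W, hW, hWi⟩ := happly x hx hxp hx1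
      exact hno W hW hWi
    · obtain ⟨a, ha⟩ := hde
      have hP := finrank_perp (Q := Q) hW₀
      rw [hfin, hl] at hP
      obtain ⟨x, hx, hxp, hx1, hno⟩ := exists_unipotent_no_odd hp2 hQ hn (by omega) ⟨a, ha⟩ (nd_perp hQ hW₀)
        (j := a - j - 1) (by omega)
      obtain ⟨W, hW, hWi⟩ := happly x hx hxp hx1
      set g : Module.End F (ι → F) := Matrix.toLin' (x : Matrix ι ι F) with hg
      have hgp : g ^ p = 1 := by
        rw [hg, ← Matrix.toLin'_pow, ← Units.val_pow_eq_pow_val, hxp, Units.val_one, Matrix.toLin'_one]; rfl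
      refine hno (perp Q W) ⟨nd_perp hQ hW.1, ?_⟩ fun w hw =>
        perp_inv (fun v => isometry_of_mem_omegaGL hx v) (surj_of_inv hgp hpr.ne_zero hWi) hw
      obtain ⟨hWN, φ, hφ⟩ := id hW
      obtain ⟨E, hEQ, hE⟩ := CfsgLib.Forms.witt_extension_quadratic Q hQ W (W₀.subtype ∘ₗ φ.toLinearMap)
        (Subtype.val_injective.comp φ.injective) (fun w => hφ w)
      have hmap : ∀ v ∈ perp Q W, E v ∈ perp Q W₀ := fun v hv => mem_perp.2 fun u hu => by
        obtain ⟨w, hw⟩ := φ.surjective ⟨u, hu⟩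
        have h1 : E (w : ι → F) = u := by rw [hE w]; simp [hw]
        rw [← h1]
        simp only [polar, ← map_add, hEQ]
        exact mem_perp.1 hv w w.2
      have heq : (perp Q W).map (E : (ι → F) →ₗ[F] (ι → F)) = perp Q W₀ :=
        Submodule.eq_of_le_of_finrank_le (by rintro _ ⟨v, hv, rfl⟩; exact hmap v hv) (by
          have h1 := finrank_perp (Q := Q) hWN
          rw [LinearEquiv.finrank_map_eq, hfin, hW.finrank_eq, hl] at *
          omega)
      exact ⟨(E.submoduleMap (perp Q W)).trans (LinearEquiv.ofEq _ _ heq), fun w => hEQ _⟩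
  · have core : ∀ μ : Multiset ℕ, (∀ e ∈ μ, e ≤ p) → (∀ e, Even e → Even (μ.count e)) → μ.sum = Fintype.card ι →
        (∃ e ∈ μ, Odd e) → (∃ e ∈ μ, 2 ≤ e) →
        ∃ ν : Multiset ℕ, ν ≤ μ ∧ ν.sum = 2 * l + 1 ∧ ∀ e : ℕ, Even e → Even (ν.count e) := by
      intro μ h1 h2' h3 h4 h5
      obtain ⟨x, W, -, -, -, -, -, hle, hs, hev⟩ := CfsgLib.Omega.exists_subtype_of_fixed hp2 Q hQ (2 * l + 1)
        (fun _ => True) (fun x hx hxp hns => by
          obtain ⟨W, hW, hWi⟩ := happly x hx hxp fun e => hns 1 (by rw [e, one_smul]; rfl)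
          refine ⟨W, hW.finrank_eq.trans hl, fun u hu hu0 => ?_, trivial, map_le_iff_invariant.2 hWi⟩
          exact (nd_iff_isNondegenerateOn.1 hW.1 u hu hu0).1) μ h1 h2' h3 h4 h5
      exact ⟨_, hle, hs, hev⟩
    obtain ⟨a, ha⟩ := hdo
    have hp3 : 3 ≤ p := by have := hpr.two_le; omega
    -- parts `2` and a pair of ones or threes
    obtain ⟨e, k, he, hsum, hke, hk2, hbad⟩ : ∃ e k : ℕ, (e = 1 ∨ e = 3) ∧ 2 * k + 2 * e = 2 * d ∧ Even k ∧
        (1 ≤ k ∨ e = 3) ∧ ∀ c₁ c₂ : ℕ, c₂ ≤ 2 → 4 * c₁ + e * c₂ ≠ 2 * l + 1 := by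
      rcases Nat.even_or_odd' l with ⟨j, rfl | rfl⟩
      · exact ⟨3, d - 3, .inr rfl, by omega, ⟨a - 1, by omega⟩, .inr rfl, fun c₁ c₂ h => by omega⟩
      · exact ⟨1, d - 1, .inl rfl, by omega, ⟨a, by omega⟩, .inl (by omega), fun c₁ c₂ h => by omega⟩
    obtain ⟨ν, hle, hs, hev⟩ := core (Multiset.replicate k 2 + Multiset.replicate 2 e)
      (fun t ht => by
        simp only [Multiset.mem_add, Multiset.mem_replicate] at ht; omega)
      (fun t ht => by
        rw [Multiset.count_add, Multiset.count_replicate, Multiset.count_replicate]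
        split_ifs <;> simp [Nat.even_add, hke])
      (by rw [Multiset.sum_add, Multiset.sum_replicate, Multiset.sum_replicate, hn, smul_eq_mul, smul_eq_mul]; omega)
      ⟨e, Multiset.mem_add.2 (Or.inr (Multiset.mem_replicate.2 ⟨by norm_num, rfl⟩)),
        by rcases he with rfl | rfl <;> decide⟩
      (by
        rcases hk2 with h | h
        · exact ⟨2, Multiset.mem_add.2 (Or.inl (Multiset.mem_replicate.2 ⟨by omega, rfl⟩)), le_rfl⟩
        · exact ⟨e, Multiset.mem_add.2 (Or.inr (Multiset.mem_replicate.2 ⟨by norm_num, rfl⟩)), by omega⟩)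
    have hν : ν = Multiset.replicate (ν.count 2) 2 + Multiset.replicate (ν.count e) e := by
      ext t
      simp only [Multiset.count_add, Multiset.count_replicate]
      by_cases h : t = 2 ∨ t = e
      · rcases h with rfl | rfl
        · rw [if_pos rfl, if_neg (by omega)]; rfl
        · rw [if_neg (by omega), if_pos rfl, zero_add]
      · rw [if_neg (by omega), if_neg (by omega)]
        refine Multiset.count_eq_zero.2 fun hm => h ?_
        have := Multiset.mem_of_le hle hm
        simp only [Multiset.mem_add, Multiset.mem_replicate] at this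
        omega
    have hc := Multiset.count_le_of_le e hle
    rw [Multiset.count_add, Multiset.count_replicate, Multiset.count_replicate, if_pos rfl,
      if_neg (by omega)] at hc
    obtain ⟨c₁, hc₁⟩ := hev 2 even_two
    rw [hν, Multiset.sum_add, Multiset.sum_replicate, Multiset.sum_replicate, hc₁, smul_eq_mul, smul_eq_mul] at hs
    exact hbad c₁ (ν.count e) (by omega) (by rw [mul_comm e]; omega)

/-- Primes prime to `2 q`. -/
theorem evenodd_other {r h : ℕ} {η : ℤ} [hr : Fact r.Prime] (P : Params F r h η) (hrodd : Odd r) (h2 : (2 : F) ≠ 0)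
    (hQ : (polarBilin Q).Nondegenerate) {d : ℕ} {εV : ℤ} (hεV : εV = 1 ∨ εV = -1)
    (hT : HasType Q (⊤ : Submodule F (ι → F)) d εV) {W₀ : Submodule F (ι → F)} (hW₀ : Nd Q W₀) {l : ℕ}
    (hl : finrank F W₀ = 2 * l + 1) (hld : 2 * l + 1 < d)
    (hdvd : r ∣ Nat.card {W : Submodule F (ι → F) // Iso Q W₀ W}) :
    AllFix Q W₀ r ↔ (d % h = 0 ∧ εV ≠ η ^ (d / h)) ∨ (h ≤ l ∧ l % h < d % h) := by
  have hn : finrank F (ι → F) = 2 * d := (hasType_top_iff.1 hT).1
  haveI : Nonempty ι := Fintype.card_pos_iff.1 (by rw [Module.finrank_fintype_fun_eq_card] at hn; omega)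
  rw [← room_evenodd_arith P.pos (by omega) (fun hex =>
    not_dvd_card_evenodd P h2 hQ (by omega) hεV hT hW₀ hl hex.1 hex.2 hdvd), ← forall_evenodd_iff P h2 hQ hεV hT hW₀ hl]
  constructor
  · intro H g hg hgQ hg1
    obtain ⟨x, hx, hxr, hx1, hxg⟩ := exists_matrix hQ (Or.inl ⟨-1, neg_ne_zero.2 one_ne_zero,
      fun e => h2 (by linear_combination -e)⟩) hrodd hg hgQ
    obtain ⟨W, hW, hWi⟩ := H x hx ⟨1, by rw [hxr, one_smul]; rfl⟩ fun z hz => by
      have hgz : g = z • 1 := by rw [← hxg, hz, map_smul, Matrix.toLin'_one]; rfl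
      haveI : Nontrivial (ι → F) := Module.nontrivial_of_finrank_pos (R := F) (by omega)
      obtain ⟨v, hv⟩ := CfsgLib.Classes.exists_anisotropic_vector Q hQ
      have h1 := hgQ v
      rw [hgz, LinearMap.smul_apply, Module.End.one_apply, QuadraticMap.map_smul, smul_eq_mul] at h1
      have hz2 : z * z = 1 := mul_right_cancel₀ hv (h1.trans (one_mul _).symm)
      obtain ⟨k, rfl⟩ := hrodd
      have hzr : z ^ (2 * k + 1) = z := by rw [pow_succ, pow_mul, pow_two, hz2, one_pow, one_mul]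
      rw [hgz, smul_pow, one_pow, hzr] at hg
      exact hg1 (hgz.trans hg)
    exact ⟨W, hW, fun w hw => hxg ▸ hWi w hw⟩
  · intro H x hx hz hns
    obtain ⟨g, hg, hgQ, hg1, hiff⟩ := exists_end hQ hrodd hx hz hns
    obtain ⟨W, hW, hWi⟩ := H g hg hgQ hg1
    exact ⟨W, hW, map_le_iff_invariant.1 ((hiff W).2 hWi)⟩

omit [Fintype F] in
/-- Passing to the vocabulary of the statements. -/
theorem spec_evenodd_iff {f : (ι → F) → F} (hf : ⇑Q = f) {W₀ : Submodule F (ι → F)} {m : ℕ} (hm : finrank F W₀ = m)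
    (W : Submodule F (ι → F)) :
    (finrank F W = m ∧ Cfsg.Geo.IsNondegenerateOn (QuadraticMap.polar f) W ∧ Cfsg.Geo.AreIsometricFor f W W₀) ↔
      Iso Q W₀ W := by
  subst hf
  rw [← nd_iff_isNondegenerateOn]
  exact ⟨fun h => ⟨h.2.1, h.2.2⟩, fun h => ⟨h.finrank_eq.trans hm, h.1, h.2⟩⟩

omit [Fintype F] in
theorem allFix_iff {f : (ι → F) → F} (hf : ⇑Q = f) {W₀ : Submodule F (ι → F)} {m : ℕ} (hm : finrank F W₀ = m) (r : ℕ) :
    (∀ x : GL ι F, x ∈ Cfsg.Geo.omegaGL f →
      (∃ z : F, ((x ^ r : GL ι F) : Matrix ι ι F) = z • (1 : Matrix ι ι F)) →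
      (∀ z : F, (x : Matrix ι ι F) ≠ z • (1 : Matrix ι ι F)) →
      ∃ W : Submodule F (ι → F), (finrank F W = m ∧ Cfsg.Geo.IsNondegenerateOn (QuadraticMap.polar f) W ∧
        Cfsg.Geo.AreIsometricFor f W W₀) ∧ W.map (Matrix.toLin' (x : Matrix ι ι F)) ≤ W) ↔ AllFix Q W₀ r := by
  simp only [spec_evenodd_iff hf hm, map_le_iff_invariant]
  subst hf
  rfl

/-- The symbols of `-1` and `2`. -/
theorem sq_symbols (hodd : Odd (Fintype.card F)) :
    (sqNegOne F = 1 ↔ Fintype.card F % 4 = 1) ∧ (sqNegOne F = -1 ↔ Fintype.card F % 4 = 3) ∧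
      (sqTwo F = 1 ↔ Fintype.card F % 8 = 1 ∨ Fintype.card F % 8 = 7) := by
  have ho := Nat.odd_iff.1 hodd
  unfold sqNegOne sqTwo
  refine ⟨?_, ?_, ?_⟩
  · split_ifs with h
    · rw [FiniteField.isSquare_neg_one_iff] at h
      simp; omega
    · rw [FiniteField.isSquare_neg_one_iff] at h
      simp; omega
  · split_ifs with h
    · rw [FiniteField.isSquare_neg_one_iff] at h
      simp; omega
    · rw [FiniteField.isSquare_neg_one_iff] at h
      simp; omega
  · split_ifs with h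
    · rw [FiniteField.isSquare_two_iff] at h
      simp; omega
    · rw [FiniteField.isSquare_two_iff] at h
      simp; omega

/-- Residues modulo `2 h`. -/
theorem mod_two_mul (l : ℕ) {h : ℕ} (hh : 0 < h) :
    (2 * l + 1) % (2 * h) = 2 * (l % h) + 1 ∧ 2 * l % (2 * h) = 2 * (l % h) := by
  refine ⟨?_, Nat.mul_mod_mul_left 2 l h⟩
  have h1 := Nat.div_add_mod l h
  have h3 := Nat.mod_lt l hh
  conv_lhs => rw [show 2 * l + 1 = 2 * (l % h) + 1 + 2 * h * (l / h) by rw [mul_assoc]; omega]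
  rw [Nat.add_mul_mod_self_left, Nat.mod_eq_of_lt (by omega)]

end CfsgLib.Derangements.Sub
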