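import Mathlib
import Cfsg.Agent.Lib.Derangements.SubspaceEvenEvenSplit
import Cfsg.Agent.Lib.ClassicalForms.Ortho.Standard
import Cfsg.Agent.Lib.Omega.SquareCases
import Cfsg.Agent.Lib.Derangements.SubspaceEvenOddMain

/-!
Elements of prime order in even-dimensional orthogonal groups fixing a non-degenerate subspace of given even
dimension and given type: the prime two and the primes not dividing the order of the field.
-/

set_option autoImplicit false
set_option linter.unusedSectionVars false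
set_option linter.style.haveILetI false

namespace CfsgLib.Derangements.Sub

open Module QuadraticMap CfsgLib.Derangements
open scoped Matrix

universe u

variable {F : Type u} [Field F] [Fintype F]

/-- Every element of order `r` in the projective group fixes a subspace of dimension `2 l` and type `ε`. -/
def AllFixE {ι : Type} [Fintype ι] [DecidableEq ι] (Q : QuadraticForm F (ι → F)) (l : ℕ) (ε : ℤ) (r : ℕ) : Prop :=
  ∀ x : GL ι F, x ∈ Cfsg.Geo.omegaGL (⇑Q) →
    (∃ z : F, ((x ^ r : GL ι F) : Matrix ι ι F) = z • (1 : Matrix ι ι F)) →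
    (∀ z : F, (x : Matrix ι ι F) ≠ z • (1 : Matrix ι ι F)) →
    ∃ W : Submodule F (ι → F), Nd Q W ∧ HasType Q W l ε ∧ ∀ w ∈ W, Matrix.toLin' (x : Matrix ι ι F) w ∈ W

variable {ι : Type} [Fintype ι] [DecidableEq ι] {Q : QuadraticForm F (ι → F)}

theorem scalar_sq {x : GL ι F} (hx : x ∈ Cfsg.Geo.omegaGL (⇑Q)) {v₀ : ι → F} (hv₀ : Q v₀ ≠ 0) {z : F}
    (hz : ((x ^ 2 : GL ι F) : Matrix ι ι F) = z • (1 : Matrix ι ι F)) :
    (∀ v, (x : Matrix ι ι F) *ᵥ ((x : Matrix ι ι F) *ᵥ v) = z • v) ∧ (z = 1 ∨ z = -1) := by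
  have hiso := fun v => isometry_of_mem_omegaGL hx v
  have hxx : ∀ v, (x : Matrix ι ι F) *ᵥ ((x : Matrix ι ι F) *ᵥ v) = z • v := fun v => by
    rw [Matrix.mulVec_mulVec, ← pow_two, ← Units.val_pow_eq_pow_val, hz, Matrix.smul_mulVec, Matrix.one_mulVec]
  refine ⟨hxx, mul_self_eq_one_iff.1 ?_⟩
  have h1 := hiso ((x : Matrix ι ι F) *ᵥ v₀)
  rw [hxx, hiso, QuadraticMap.map_smul, smul_eq_mul] at h1
  exact mul_right_cancel₀ hv₀ (h1.trans (one_mul _).symm)

/-- The prime two in odd characteristic. -/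
theorem eveneven_two_odd (h2 : (2 : F) ≠ 0) (hQ : (polarBilin Q).Nondegenerate) {d : ℕ} {εV : ℤ}
    (hT : HasType Q (⊤ : Submodule F (ι → F)) d εV) {l : ℕ} (hl : 1 ≤ l) (hld : 2 * l < d) {ε : ℤ}
    (hε : ε = 1 ∨ ε = -1) :
    AllFixE Q l ε 2 ↔ ¬ (εV = sqNegOne F ^ d ∧ sqTwo F ^ d = 1) ∨ ε = sqNegOne F ^ l := by
  classical
  have hn : finrank F (ι → F) = 2 * d := (hasType_top_iff.1 hT).1
  haveI : Nonempty ι := Fintype.card_pos_iff.1 (by rw [Module.finrank_fintype_fun_eq_card] at hn; omega)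
  haveI : Nontrivial (ι → F) := Module.nontrivial_of_finrank_pos (R := F) (by omega)
  obtain ⟨v₀, hv₀⟩ := CfsgLib.Classes.exists_anisotropic_vector Q hQ
  constructor
  · intro H
    by_contra hcond
    push Not at hcond
    obtain ⟨hc, hne⟩ := hcond
    obtain ⟨x, hx, hxx⟩ := (exists_halfTurn_omega_iff h2 hQ (by omega) hT).2 hc
    have hiso := fun v => isometry_of_mem_omegaGL hx v
    obtain ⟨W, hWN, hWT, hWi⟩ := H x hx ⟨-1, Matrix.toLin'.injective (LinearMap.ext fun v => by
        rw [Units.val_pow_eq_pow_val, pow_two, Matrix.toLin'_apply, ← Matrix.mulVec_mulVec, hxx]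
        simp)⟩ (fun z hz => by
      have h1 := hxx v₀
      rw [hz, Matrix.smul_mulVec, Matrix.one_mulVec, Matrix.smul_mulVec, Matrix.one_mulVec, smul_smul] at h1
      have h3 := hiso v₀
      rw [hz, Matrix.smul_mulVec, Matrix.one_mulVec, QuadraticMap.map_smul, smul_eq_mul] at h3
      have h4 : z * z = 1 := mul_right_cancel₀ hv₀ (h3.trans (one_mul _).symm)
      rw [h4, one_smul, eq_neg_iff_add_eq_zero, ← two_smul F, smul_eq_zero] at h1
      rcases h1 with h1 | h1
      · exact h2 h1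
      · exact hv₀ (by rw [h1, QuadraticMap.map_zero]))
    obtain ⟨W', hW', -, hW'T, -⟩ := turn_inv h2 (g := Matrix.toLin' (x : Matrix ι ι F)) (fun v => hiso v)
      (fun v => hxx v) l W hWN hWi (by rw [hWT.1])
    obtain rfl : W' = W := Submodule.eq_of_le_of_finrank_le hW' (by rw [hWT.1, hW'T.1])
    exact hne (hWT.unique hW'T).2
  · intro hcond x hx ⟨z, hz⟩ hns
    have hiso := fun v => isometry_of_mem_omegaGL hx v
    obtain ⟨hxx, rfl | rfl⟩ := scalar_sq hx hv₀ hz
    · set g : Module.End F (ι → F) := Matrix.toLin' (x : Matrix ι ι F) with hg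
      have hgg : g * g = 1 := LinearMap.ext fun v => by
        rw [Module.End.mul_apply, hg, Matrix.toLin'_apply, Matrix.toLin'_apply, hxx, one_smul]; rfl
      obtain ⟨A, B, hAN, hBN, -, hA, hB, hdim, hd⟩ := involution_split h2 hQ hgg fun v => hiso v
      rw [det_eq_one_of_mem_omegaGL hx] at hd
      have hev : Even (finrank F B) := by
        rcases Nat.even_or_odd (finrank F B) with he | ho
        · exact he
        · rw [ho.neg_one_pow] at hd
          exact absurd hd fun h => h2 (by linear_combination h)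
      obtain ⟨b, hb⟩ := hev
      obtain ⟨C, hCN, hCi, c, hc, hlc⟩ : ∃ C : Submodule F (ι → F), Nd Q C ∧
          (∀ W ≤ C, ∀ w ∈ W, g w ∈ W) ∧ ∃ c, finrank F C = 2 * c ∧ l < c := by
        rcases Nat.lt_or_ge b (d - b) with h | h
        · exact ⟨A, hAN, fun W hW w hw => by rw [hA w (hW hw)]; exact hw, d - b, by omega, by omega⟩
        · exact ⟨B, hBN, fun W hW w hw => by rw [hB w (hW hw)]; exact W.neg_mem hw, b, by omega, by omega⟩
      obtain ⟨εC, hεC, hCT⟩ := exists_hasType hCN hc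
      obtain ⟨W, hW, hWN, hWT⟩ := exists_le_type hCN hεC hCT hl hlc hε
      exact ⟨W, hWN, hWT, hCi W hW⟩
    · rcases hcond with hcond | rfl
      · exact absurd ((exists_halfTurn_omega_iff h2 hQ (by omega) hT).1
          ⟨x, hx, fun v => by rw [hxx, neg_one_smul]⟩) hcond
      · obtain ⟨W, -, hWN, hWT, hWi⟩ := turn_inv h2 (g := Matrix.toLin' (x : Matrix ι ι F)) (fun v => hiso v)
          (fun v => by rw [Matrix.toLin'_apply, Matrix.toLin'_apply, hxx, neg_one_smul]) l ⊤ (nd_top hQ)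
          (fun _ _ => trivial) (by rw [finrank_top, hn]; omega)
        exact ⟨W, hWN, hWT, hWi⟩

/-- The prime two in characteristic two, plus type: the positive part. -/
theorem eveneven_two_char2_pos [CharP F 2] (hQ : (polarBilin Q).Nondegenerate) {d : ℕ}
    (hT : HasType Q (⊤ : Submodule F (ι → F)) d 1) {l : ℕ} (hl : 1 ≤ l) (hld : 2 * l < d)
    (hpar : Even l ∨ Odd d) : AllFixE Q l 1 2 := by
  have hn : finrank F (ι → F) = 2 * d := (hasType_top_iff.1 hT).1
  haveI : Nonempty ι := Fintype.card_pos_iff.1 (by rw [Module.finrank_fintype_fun_eq_card] at hn; omega)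
  haveI : Nontrivial (ι → F) := Module.nontrivial_of_finrank_pos (R := F) (by omega)
  obtain ⟨v₀, hv₀⟩ := CfsgLib.Classes.exists_anisotropic_vector Q hQ
  intro x hx ⟨z, hz⟩ _
  obtain ⟨hxx, hz1⟩ := scalar_sq hx hv₀ hz
  have hz' : z = 1 := hz1.elim id fun h => by rw [h, CharTwo.neg_eq]
  obtain ⟨W, -, hWN, hWT, hWi⟩ := (involution_good (g := Matrix.toLin' (x : Matrix ι ι F))
    (fun v => by rw [Matrix.toLin'_apply, Matrix.toLin'_apply, hxx, hz', one_smul])
    (fun v => isometry_of_mem_omegaGL hx v) d ⊤ (nd_top hQ) (fun _ _ => trivial) 1 hT).1 rfl l (by omega) hpar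
  exact ⟨W, hWN, hWT, hWi⟩

/-- An involution of plus type space with isotropic displacement. -/
theorem exists_isotropic_involution [CharP F 2] {d : ℕ} (hd : 4 ≤ d) (hde : Even d) :
    ∃ x : GL (Fin d ⊕ Fin d) F, x ∈ Cfsg.Geo.omegaGL (Cfsg.quadFormPlus d F) ∧
      ((x ^ 2 : GL (Fin d ⊕ Fin d) F) : Matrix (Fin d ⊕ Fin d) (Fin d ⊕ Fin d) F) = 1 ∧
      (∀ z : F, (x : Matrix (Fin d ⊕ Fin d) (Fin d ⊕ Fin d) F) ≠ z • 1) ∧
      ∀ W : Submodule F (Fin d ⊕ Fin d → F), Nd (CfsgLib.ClassicalForms.qPlus d F) W →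
        (∀ w ∈ W, (x : Matrix (Fin d ⊕ Fin d) (Fin d ⊕ Fin d) F) *ᵥ w ∈ W) →
        ∀ l, finrank F W = 2 * l → Even l := by
  classical
  set Q₀ := CfsgLib.ClassicalForms.qPlus d F with hQ₀
  have hfun : ⇑Q₀ = Cfsg.quadFormPlus d F := funext fun v => CfsgLib.ClassicalForms.qPlus_apply d v
  have hQn : (polarBilin Q₀).Nondegenerate :=
    CfsgLib.ClassicalForms.nondeg_iff_polarBilin.2 (CfsgLib.ClassicalForms.nondeg_qPlus d)
  let S : (Fin d ⊕ Fin d → F) →ₗ[F] (Fin d ⊕ Fin d → F) :=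
    { toFun := fun v => Sum.elim (fun i => v (Sum.inr i.rev)) 0
      map_add' := fun a b => by ext (i | i) <;> simp
      map_smul' := fun t a => by ext (i | i) <;> simp }
  have hSS : ∀ v, S (S v) = 0 := fun v => by ext (i | i) <;> simp [S]
  have hadd : ∀ v : Fin d ⊕ Fin d → F, v + v = 0 := fun v => by
    rw [← two_smul F, CharTwo.two_eq_zero, zero_smul]
  let e : (Fin d ⊕ Fin d → F) ≃ₗ[F] (Fin d ⊕ Fin d → F) :=
    LinearEquiv.ofLinear (LinearMap.id + S) (LinearMap.id + S)
      (LinearMap.ext fun v => by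
        simp only [LinearMap.comp_apply, LinearMap.add_apply, LinearMap.id_apply, map_add, hSS, add_zero]
        rw [add_assoc, hadd, add_zero])
      (LinearMap.ext fun v => by
        simp only [LinearMap.comp_apply, LinearMap.add_apply, LinearMap.id_apply, map_add, hSS, add_zero]
        rw [add_assoc, hadd, add_zero])
  have he : ∀ v, e v = v + S v := fun v => rfl
  have hpair : ∀ f : Fin d → F, ∑ i, f i.rev * f i = 0 := fun f =>
    Finset.sum_involution (fun i _ => i.rev) (fun i _ => by rw [Fin.rev_rev, mul_comm (f i)]; exact CharTwo.add_self_eq_zero _)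
      (fun i _ _ h => by
        have := congrArg Fin.val h
        rw [Fin.val_rev] at this
        obtain ⟨a, ha⟩ := hde
        omega)
      (fun i _ => Finset.mem_univ _) (fun i _ => Fin.rev_rev i)
  have heQ : ∀ v, Q₀ (e v) = Q₀ v := fun v => by
    rw [CfsgLib.ClassicalForms.qPlus_apply, CfsgLib.ClassicalForms.qPlus_apply, he]
    simp only [Cfsg.quadFormPlus, Pi.add_apply, S, LinearMap.coe_mk, AddHom.coe_mk, Sum.elim_inl, Sum.elim_inr,
      Pi.zero_apply, add_zero, add_mul, Finset.sum_add_distrib]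
    rw [hpair (fun i => v (Sum.inr i)), add_zero]
  let X := CfsgLib.Classes.isoOfEquiv e heQ
  have hX : ∀ v, CfsgLib.OrthGen.act Q₀ X v = v + S v := fun v => CfsgLib.Classes.act_isoOfEquiv e heQ v
  have hsub : ∀ v, CfsgLib.Forms.subOne X v = S v := fun v => by
    rw [CfsgLib.Forms.subOne_apply, hX, add_sub_cancel_left]
  have hdick : CfsgLib.Forms.dicksonSign X = 1 := by
    let f : (Fin d → F) →ₗ[F] (Fin d ⊕ Fin d → F) :=
      { toFun := fun a => Sum.elim a 0
        map_add' := fun a b => by ext (i | i) <;> simp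
        map_smul' := fun t a => by ext (i | i) <;> simp }
    have hf : Function.Injective f := fun a b hab => funext fun i => congrFun hab (Sum.inl i)
    have hr : LinearMap.range (CfsgLib.Forms.subOne X) = LinearMap.range f := by
      ext w
      constructor
      · rintro ⟨v, rfl⟩; exact ⟨fun i => v (Sum.inr i.rev), by rw [hsub]; rfl⟩
      · rintro ⟨a, rfl⟩
        exact ⟨Sum.elim 0 fun i => a i.rev, by rw [hsub]; ext (i | i) <;> simp [S, f]⟩
    rw [CfsgLib.Forms.dicksonSign, hr, LinearMap.finrank_range_of_inj hf, Module.finrank_fintype_fun_eq_card,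
      Fintype.card_fin, hde.neg_one_pow]
  have hΩ : X ∈ Cfsg.Omega F (⇑Q₀) :=
    (CfsgLib.Classes.mem_omega_iff_dickson (by simp; omega) hQn (Or.inr (by simp; omega)) X).2 hdick
  refine ⟨X.1, hfun ▸ ⟨X, hΩ, rfl⟩, ?_, fun z hz => ?_, fun W hW hWi l hl => ?_⟩
  · refine Matrix.toLin'.injective (LinearMap.ext fun v => ?_)
    rw [Units.val_pow_eq_pow_val, pow_two, Matrix.toLin'_apply, ← Matrix.mulVec_mulVec, Matrix.toLin'_apply,
      Matrix.one_mulVec]
    show CfsgLib.OrthGen.act Q₀ X (CfsgLib.OrthGen.act Q₀ X v) = v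
    rw [hX, hX, map_add, hSS, add_zero, add_assoc, hadd, add_zero]
  · have h1 := hX (Pi.single (Sum.inr ⟨0, by omega⟩) 1)
    rw [CfsgLib.OrthGen.act, hz, Matrix.smul_mulVec, Matrix.one_mulVec] at h1
    have h2 := congrFun h1 (Sum.inl (Fin.rev ⟨0, by omega⟩))
    simp [S] at h2
  -- the form `B(S u, v)` on a complement of the kernel
  have hSW : ∀ w ∈ W, S w ∈ W := fun w hw => by
    have := W.sub_mem (show CfsgLib.OrthGen.act Q₀ X w ∈ W from hWi w hw) hw
    rwa [hX, add_sub_cancel_left] at this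
  have hB : ∀ u v, polar Q₀ u v = ∑ i, (u (Sum.inl i) * v (Sum.inr i) + v (Sum.inl i) * u (Sum.inr i)) := fun u v => by
    simp only [polar, hfun, Cfsg.quadFormPlus, Pi.add_apply, ← Finset.sum_sub_distrib]
    exact Finset.sum_congr rfl fun i _ => by ring
  have halt : ∀ v, polar Q₀ (S v) v = 0 := fun v => by
    rw [hB]
    simp only [S, LinearMap.coe_mk, AddHom.coe_mk, Sum.elim_inl, Sum.elim_inr, Pi.zero_apply, mul_zero, add_zero]
    exact hpair fun i => v (Sum.inr i)
  have hadj : ∀ u v, polar Q₀ (S u) v = polar Q₀ u (S v) := fun u v => by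
    have h := halt (u + v)
    rw [map_add, polar_add_left, polar_add_right, polar_add_right, halt, halt, zero_add, add_zero,
      polar_comm (⇑Q₀) (S v) u, CharTwo.add_eq_zero] at h
    exact h
  set K : Submodule F W := LinearMap.ker (S.restrict hSW) with hK
  obtain ⟨C, hC⟩ := Submodule.exists_isCompl K
  have hKz : ∀ k : K, S ((k : W) : Fin d ⊕ Fin d → F) = 0 := fun k => congrArg Subtype.val k.2
  let ω : LinearMap.BilinForm F C := LinearMap.mk₂ F (fun a b => polar Q₀ (S ((a : W) : Fin d ⊕ Fin d → F)) ((b : W) : Fin d ⊕ Fin d → F))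
    (fun a a' b => by simp [polar_add_left]) (fun t a b => by simp [polar_smul_left])
    (fun a b b' => by simp [polar_add_right]) (fun t a b => by simp [polar_smul_right])
  have hC0 : ∀ a : C, (∀ b, ω a b = 0) → a = 0 := fun a ha => by
    have h1 : S ((a : W) : Fin d ⊕ Fin d → F) = 0 := hW _ (hSW _ (a : W).2) fun w hw => by
      obtain ⟨k, hk, c, hc, hkc⟩ := Submodule.mem_sup.1 (show (⟨w, hw⟩ : W) ∈ K ⊔ C by rw [hC.sup_eq_top]; trivial)
      have h := congrArg Subtype.val hkc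
      rw [show w = (k : Fin d ⊕ Fin d → F) + (c : Fin d ⊕ Fin d → F) from h.symm, polar_add_right, hadj,
        hKz ⟨k, hk⟩, polar_zero_right, zero_add]
      exact ha ⟨c, hc⟩
    exact Subtype.ext (Submodule.disjoint_def.1 hC.disjoint _ (Subtype.ext h1 : (a : W) ∈ K) a.2)
  have heC : Even (finrank F C) := @CfsgLib.Omega.even_finrank_of_alternating F _ C C.addCommGroup C.module inferInstance ω (fun a => halt _) hC0
  -- the kernel is the image
  have hsum := LinearMap.finrank_range_add_finrank_ker (S.restrict hSW)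
  have hrC : finrank F C + finrank F K = 2 * l := by
    rw [add_comm, Submodule.finrank_add_eq_of_isCompl hC, hl]
  have hiso : ∀ a ∈ K, ∀ b ∈ K, polar Q₀ ((a : W) : Fin d ⊕ Fin d → F) (b : W) = 0 := by
    intro a ha b hb
    have ha' : ∀ i, (a : Fin d ⊕ Fin d → F) (Sum.inr i) = 0 := fun i => by
      have := congrFun (congrArg Subtype.val ha) (Sum.inl i.rev)
      simpa [S] using this
    have hb' : ∀ i, (b : Fin d ⊕ Fin d → F) (Sum.inr i) = 0 := fun i => by
      have := congrFun (congrArg Subtype.val hb) (Sum.inl i.rev)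
      simpa [S] using this
    rw [hB]; simp [ha', hb']
  have hrK : LinearMap.range (S.restrict hSW) ≤ K := by
    rintro _ ⟨w, rfl⟩
    exact Subtype.ext (hSS w.1)
  have hKle : 2 * finrank F K ≤ 2 * l := by
    have hres : ∀ a ∈ K, a ∈ LinearMap.BilinForm.orthogonal (polarBilin (res Q₀ W)) K := fun a ha b hb => hiso b hb a ha
    have h := LinearMap.BilinForm.finrank_orthogonal (nd_iff_res.1 hW) K
    have h' := Submodule.finrank_mono (t := LinearMap.BilinForm.orthogonal (polarBilin (res Q₀ W)) K) hres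
    have h'' := Submodule.finrank_le K
    rw [hl] at h h''
    omega
  have hrle := Submodule.finrank_mono hrK
  rw [hl, ← hK] at hsum
  rwa [show finrank F C = l by omega] at heC

/-- Primes prime to `q`. -/
theorem eveneven_other {r h : ℕ} {η : ℤ} [hr : Fact r.Prime] (P : Params F r h η) (hrodd : Odd r)
    (hQ : (polarBilin Q).Nondegenerate) {d : ℕ} {εV : ℤ} (hεV : εV = 1 ∨ εV = -1)
    (hT : HasType Q (⊤ : Submodule F (ι → F)) d εV) {l : ℕ} (hl : 1 ≤ l) (hld : 2 * l < d) {ε : ℤ}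
    (hε : ε = 1 ∨ ε = -1)
    (hdvd : r ∣ Nat.card {W : Submodule F (ι → F) // Nd Q W ∧ HasType Q W l ε}) :
    AllFixE Q l ε r ↔ (d % h = 0 ∧ εV ≠ η ^ (d / h)) ∨ (h ≤ l ∧ ((l % h = 0 ∧ ε = η ^ (l / h)) ∨
        (0 < l % h ∧ (l % h < d % h ∨ (l % h = d % h ∧ ε * η ^ (l / h) = εV * η ^ (d / h)))))) := by
  have hn : finrank F (ι → F) = 2 * d := (hasType_top_iff.1 hT).1
  haveI : Nonempty ι := Fintype.card_pos_iff.1 (by rw [Module.finrank_fintype_fun_eq_card] at hn; omega)
  have hcard : Fintype.card ι ≠ 4 := by rw [Module.finrank_fintype_fun_eq_card] at hn; omega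
  rw [← room_eveneven_arith P.pm hεV hε P.pos hl (by omega) (fun hex =>
    not_dvd_card_eveneven P hQ (by omega) hεV hT hl hε hex.1 hex.2 hdvd), ← forall_eveneven_iff P hQ hεV hT hε]
  constructor
  · intro H g hg hgQ hg1
    obtain ⟨x, hx, hxr, hx1, hxg⟩ := exists_matrix hQ (Or.inr hcard) hrodd hg hgQ
    obtain ⟨W, hWN, hWT, hWi⟩ := H x hx ⟨1, by rw [hxr, one_smul]; rfl⟩ fun z hz => by
      have hgz : g = z • 1 := by rw [← hxg, hz, map_smul, Matrix.toLin'_one]; rfl
      haveI : Nontrivial (ι → F) := Module.nontrivial_of_finrank_pos (R := F) (by omega)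
      obtain ⟨v, hv⟩ := CfsgLib.Classes.exists_anisotropic_vector Q hQ
      have h1 := hgQ v
      rw [hgz, LinearMap.smul_apply, Module.End.one_apply, QuadraticMap.map_smul, smul_eq_mul] at h1
      have hz2 : z * z = 1 := mul_right_cancel₀ hv (h1.trans (one_mul _).symm)
      obtain ⟨k, rfl⟩ := hrodd
      have hzr : z ^ (2 * k + 1) = z := by rw [pow_succ, pow_mul, pow_two, hz2, one_pow, one_mul]
      rw [hgz, smul_pow, one_pow, hzr] at hg
      exact hg1 (hgz.trans hg)
    exact ⟨W, hWN, hWT, fun w hw => hxg ▸ hWi w hw⟩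
  · intro H x hx hz hns
    obtain ⟨g, hg, hgQ, hg1, hiff⟩ := exists_end hQ hrodd hx hz hns
    obtain ⟨W, hWN, hWT, hWi⟩ := H g hg hgQ hg1
    exact ⟨W, hWN, hWT, map_le_iff_invariant.1 ((hiff W).2 hWi)⟩

/-- The hyperbolic subspaces, in the vocabulary of the statements. -/
theorem spec_plus_iff {f : (ι → F) → F} (hf : ⇑Q = f) {l : ℕ} (W : Submodule F (ι → F)) :
    (finrank F W = 2 * l ∧ (∀ u ∈ W, u ≠ 0 → ∃ v ∈ W, QuadraticMap.polar f u v ≠ 0) ∧
        ∃ U : Submodule F (ι → F), U ≤ W ∧ 2 * finrank F U = 2 * l ∧ ∀ u ∈ U, f u = 0) ↔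
      Nd Q W ∧ HasType Q W l 1 := by
  subst hf
  constructor
  · rintro ⟨hd, hnd, U, hU, hU2, hU0⟩
    have hN : Nd Q W := fun u hu h => by
      by_contra h0
      obtain ⟨v, hv, hv0⟩ := hnd u hu h0
      exact hv0 (h v hv)
    obtain ⟨ε, hε, hT⟩ := exists_hasType hN hd
    obtain rfl : ε = 1 := (isPlusTypeOn_iff hN hε hT).1 ⟨U, hU, hU0, by rw [hd, hU2]⟩
    exact ⟨hN, hT⟩
  · rintro ⟨hN, hT⟩
    refine ⟨hT.1, fun u hu h0 => ?_, ?_⟩
    · by_contra h
      push Not at h
      exact h0 (hN u hu h)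
    · obtain ⟨U, hU, hU0, hU2⟩ := (isPlusTypeOn_iff hN (Or.inl rfl) hT).2 rfl
      exact ⟨U, hU, by rw [← hT.1, hU2], hU0⟩

theorem allFixE_iff {f : (ι → F) → F} (hf : ⇑Q = f) {l : ℕ} (r : ℕ) :
    (∀ x : GL ι F, x ∈ Cfsg.Geo.omegaGL f →
      (∃ z : F, ((x ^ r : GL ι F) : Matrix ι ι F) = z • (1 : Matrix ι ι F)) →
      (∀ z : F, (x : Matrix ι ι F) ≠ z • (1 : Matrix ι ι F)) →
      ∃ W : Submodule F (ι → F), (finrank F W = 2 * l ∧ (∀ u ∈ W, u ≠ 0 → ∃ v ∈ W, QuadraticMap.polar f u v ≠ 0) ∧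
          ∃ U : Submodule F (ι → F), U ≤ W ∧ 2 * finrank F U = 2 * l ∧ ∀ u ∈ U, f u = 0) ∧
        W.map (Matrix.toLin' (x : Matrix ι ι F)) ≤ W) ↔ AllFixE Q l 1 r := by
  simp only [spec_plus_iff hf, map_le_iff_invariant, and_assoc]
  subst hf
  rfl

end CfsgLib.Derangements.Sub
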