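import Mathlib
import Cfsg.Agent.Lib.Derangements.SingularEven
import Cfsg.Agent.Lib.Derangements.SingularInvolution
import Cfsg.Agent.Lib.Derangements.SubspaceEvenEvenMain

/-!
Involutions and quarter turns of plus type orthogonal groups in odd characteristic and the totally singular
subspaces they fix.
-/

set_option autoImplicit false
set_option linter.unusedSectionVars false
set_option linter.style.haveILetI false

namespace CfsgLib.Derangements.Sub

open Module QuadraticMap CfsgLib.Derangements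
open scoped Matrix

universe u

variable {F : Type u} [Field F] [Fintype F] {ι : Type} [Fintype ι] [DecidableEq ι] {Q : QuadraticForm F (ι → F)}

/-- A piece of a quarter turn containing a totally singular invariant subspace of half its dimension. -/
theorem turn_piece (h2 : (2 : F) ≠ 0) {g : Module.End F (ι → F)} (hgQ : ∀ x, Q (g x) = Q x)
    (hgg : ∀ v, g (g v) = -v) {e : ℕ} (he : (e = 1 ∧ IsSquare (-1 : F)) ∨ e = 2) {U : Submodule F (ι → F)}
    (hU : Nd Q U) (hUi : ∀ u ∈ U, g u ∈ U) (hdim : 2 * e ≤ finrank F U) :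
    ∃ P ≤ U, Nd Q P ∧ (∀ w ∈ P, g w ∈ P) ∧ finrank F P = 2 * e ∧
      ∃ W ≤ P, Ts Q W ∧ (∀ w ∈ W, g w ∈ W) ∧ finrank F W = e := by
  classical
  have hanti : ∀ v, polar Q v (g v) = 0 := fun v => by
    have h : polar Q (g v) (g (g v)) = polar Q v (g v) := by simp only [polar, ← map_add, hgQ]
    rw [hgg, polar_neg_right, polar_comm] at h
    exact (mul_eq_zero.1 (show (2 : F) * polar Q v (g v) = 0 by linear_combination -h)).resolve_left h2
  have plane : ∀ v, Q v ≠ 0 → Nd Q (Submodule.span F {v, g v}) ∧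
      (∀ w ∈ Submodule.span F ({v, g v} : Set (ι → F)), g w ∈ Submodule.span F ({v, g v} : Set (ι → F))) ∧
      finrank F (Submodule.span F ({v, g v} : Set (ι → F)) : Submodule F (ι → F)) = 2 * 1 := fun v hv => by
    obtain ⟨hN, hT⟩ := hasType_plane h2 hv (hanti v) (hgQ v)
    refine ⟨hN, span_invariant fun z hz => ?_, hT.1⟩
    rcases hz with rfl | rfl
    · exact Submodule.subset_span (by simp)
    · rw [hgg]; exact Submodule.neg_mem _ (Submodule.subset_span (by simp))
  haveI : Nontrivial U := Module.nontrivial_of_finrank_pos (R := F) (by omega)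
  obtain ⟨⟨v, hvU⟩, hv⟩ := CfsgLib.Classes.exists_anisotropic_vector (res Q U) (nd_iff_res.1 hU)
  replace hv : Q v ≠ 0 := by simpa using hv
  obtain ⟨hPN, hPi, hPd⟩ := plane v hv
  set P₁ : Submodule F (ι → F) := Submodule.span F {v, g v}
  have hv1 : v ∈ P₁ := Submodule.subset_span (by simp)
  have hP₁U : P₁ ≤ U := Submodule.span_le.2 fun z hz => by
    rcases hz with rfl | rfl
    exacts [hvU, hUi v hvU]
  have hvv : polar Q v v = 2 * Q v := by rw [polar_self, nsmul_eq_mul, Nat.cast_ofNat]
  have hgvv : polar Q (g v) (g v) = 2 * Q v := by rw [polar_self, hgQ, nsmul_eq_mul, Nat.cast_ofNat]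
  have hne : (2 : F) * Q v ≠ 0 := mul_ne_zero h2 hv
  rcases he with ⟨rfl, i, hi⟩ | rfl
  · refine ⟨P₁, hP₁U, hPN, hPi, hPd, ?_⟩
    set u := v + i • g v with hu
    have huP : u ∈ P₁ := P₁.add_mem hv1 (P₁.smul_mem i (hPi v hv1))
    have hu0 : u ≠ 0 := fun h => by
      have := congrArg (fun z => polar Q z v) h
      simp only [hu, polar_add_left, polar_smul_left, polar_zero_left, hvv, polar_comm (⇑Q) (g v) v, hanti,
        smul_zero, add_zero] at this
      exact hne this
    have hgu : g u = (-i) • u := by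
      rw [hu, map_add, map_smul, hgg, smul_add, smul_smul, smul_neg, neg_mul, ← hi, neg_neg, one_smul, neg_smul]
      abel
    refine ⟨F ∙ u, (Submodule.span_singleton_le_iff_mem _ _).2 huP, fun w hw => ?_, fun w hw => ?_,
      finrank_span_singleton hu0⟩
    · obtain ⟨t, rfl⟩ := Submodule.mem_span_singleton.1 hw
      rw [QuadraticMap.map_smul, hu, QuadraticMap.map_add Q, QuadraticMap.map_smul, polar_smul_right, hanti, hgQ,
        smul_zero, add_zero]
      simp only [smul_eq_mul]
      linear_combination (-(t * t * Q v)) * hi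
    · obtain ⟨t, rfl⟩ := Submodule.mem_span_singleton.1 hw
      rw [map_smul, hgu]
      exact Submodule.smul_mem _ _ (Submodule.smul_mem _ _ (Submodule.mem_span_singleton_self u))
  · have hsurj : ∀ w ∈ P₁, ∃ z ∈ P₁, g z = w := fun w hw =>
      ⟨-(g w), P₁.neg_mem (hPi w hw), by rw [map_neg, hgg, neg_neg]⟩
    obtain ⟨hU₁N, -, ho, hd⟩ := split_in hPN hU hP₁U
    have hU₁i := inf_perp_inv hgQ hUi hsurj
    rw [hPd] at hd
    obtain ⟨w, hw, hwv⟩ := CfsgLib.Classes.exists_value_mem (Q := Q) (U ⊓ perp Q P₁)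
      ((Submodule.eq_bot_iff _).2 fun x hx => hU₁N x hx.1 fun y hy => by
        rw [polar_comm]; exact hx.2 y hy) (by omega) (c := -Q v) (neg_ne_zero.2 hv)
    obtain ⟨hQN, hQi, hQd⟩ := plane w (by rw [hwv]; exact neg_ne_zero.2 hv)
    set P₂ : Submodule F (ι → F) := Submodule.span F {w, g w}
    have hw2 : w ∈ P₂ := Submodule.subset_span (by simp)
    have hP₂ : P₂ ≤ U ⊓ perp Q P₁ := Submodule.span_le.2 fun z hz => by
      rcases hz with rfl | rfl
      exacts [hw, hU₁i w hw]
    have ho' : ∀ a ∈ P₁, ∀ b ∈ P₂, polar Q a b = 0 := fun a ha b hb => ho a ha b (hP₂ hb)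
    refine ⟨P₁ ⊔ P₂, sup_le hP₁U (hP₂.trans inf_le_left), nd_sup hPN hQN ho', sup_invariant hPi hQi, by
      rw [finrank_sup_orth hPN ho', hPd, hQd], ?_⟩
    set u := v + w with hu
    have hQu : Q u = 0 := by
      rw [hu, QuadraticMap.map_add Q, hwv, ho' v hv1 w hw2]; ring
    have hgP : ∀ z ∈ P₁ ⊔ P₂, g z ∈ P₁ ⊔ P₂ := sup_invariant hPi hQi
    have huP : u ∈ P₁ ⊔ P₂ := Submodule.add_mem_sup hv1 hw2
    refine ⟨Submodule.span F {u, g u}, Submodule.span_le.2 fun z hz => by
      rcases hz with rfl | rfl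
      exacts [huP, hgP u huP], fun z hz => ?_, span_invariant fun z hz => ?_, ?_⟩
    · obtain ⟨a, b, rfl⟩ := Submodule.mem_span_pair.1 hz
      rw [QuadraticMap.map_add Q, QuadraticMap.map_smul, QuadraticMap.map_smul, polar_smul_left, polar_smul_right,
        hanti, hgQ, hQu]
      simp
    · rcases hz with rfl | rfl
      · exact Submodule.subset_span (by simp)
      · rw [hgg]; exact Submodule.neg_mem _ (Submodule.subset_span (by simp))
    · have e1 : polar Q u v = 2 * Q v := by
        rw [hu, polar_add_left, hvv, polar_comm (⇑Q) w v, ho' v hv1 w hw2, add_zero]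
      have e2 : polar Q u (g v) = 0 := by
        rw [hu, polar_add_left, hanti, polar_comm (⇑Q) w (g v), ho' _ (hPi v hv1) w hw2, add_zero]
      have e3 : polar Q (g u) v = 0 := by
        rw [hu, map_add, polar_add_left, polar_comm (⇑Q) (g v) v, hanti, polar_comm (⇑Q) (g w) v,
          ho' v hv1 _ (hQi w hw2), add_zero]
      have e4 : polar Q (g u) (g v) = 2 * Q v := by
        rw [hu, map_add, polar_add_left, hgvv, polar_comm (⇑Q) (g w) (g v), ho' _ (hPi v hv1) _ (hQi w hw2),
          add_zero]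
      have hli : LinearIndependent F ![u, g u] := by
        rw [LinearIndependent.pair_iff]
        intro a b hab
        have f1 := congrArg (fun z => polar Q z v) hab
        have f2 := congrArg (fun z => polar Q z (g v)) hab
        simp only [polar_add_left, polar_smul_left, polar_zero_left, e1, e2, e3, e4, smul_eq_mul, mul_zero,
          add_zero, zero_add] at f1 f2
        exact ⟨(mul_eq_zero.1 f1).resolve_right hne, (mul_eq_zero.1 f2).resolve_right hne⟩
      have := finrank_span_eq_card hli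
      rw [show Set.range ![u, g u] = ({u, g u} : Set (ι → F)) by simp [Set.pair_comm]] at this
      simpa using this

/-- The totally singular invariant subspaces of a quarter turn. -/
theorem turn_singular (h2 : (2 : F) ≠ 0) {g : Module.End F (ι → F)} (hgQ : ∀ x, Q (g x) = Q x)
    (hgg : ∀ v, g (g v) = -v) {e : ℕ} (he : (e = 1 ∧ IsSquare (-1 : F)) ∨ e = 2) :
    ∀ (j : ℕ) (U : Submodule F (ι → F)), Nd Q U → (∀ u ∈ U, g u ∈ U) → 2 * (e * j) ≤ finrank F U →
      ∃ W ≤ U, Ts Q W ∧ (∀ w ∈ W, g w ∈ W) ∧ finrank F W = e * j := by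
  intro j
  induction j with
  | zero =>
    intro U _ _ _
    exact ⟨⊥, bot_le, ts_bot, fun w hw => by
      rw [(Submodule.mem_bot F).1 hw, map_zero]; exact Submodule.zero_mem _, by simp⟩
  | succ j ih =>
    intro U hU hUi hdim
    rw [mul_add, mul_one] at hdim
    obtain ⟨P, hPU, hPN, hPi, hPd, S, hSP, hST, hSi, hSd⟩ := turn_piece h2 hgQ hgg he hU hUi (by omega)
    have hsurj : ∀ w ∈ P, ∃ z ∈ P, g z = w := fun w hw =>
      ⟨-(g w), P.neg_mem (hPi w hw), by rw [map_neg, hgg, neg_neg]⟩
    obtain ⟨hU'N, -, ho, hd⟩ := split_in hPN hU hPU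
    rw [hPd] at hd
    obtain ⟨W, hW, hWT, hWi, hWd⟩ := ih _ hU'N (inf_perp_inv hgQ hUi hsurj) (by omega)
    have ho' : ∀ a ∈ S, ∀ b ∈ W, polar Q a b = 0 := fun a ha b hb => ho a (hSP ha) b (hW hb)
    refine ⟨S ⊔ W, sup_le (hSP.trans hPU) (hW.trans inf_le_left), hST.sup hWT ho', sup_invariant hSi hWi, ?_⟩
    have h := Submodule.finrank_sup_add_finrank_inf_eq S W
    rw [((disjoint_of_orth hPN ho).mono hSP hW).eq_bot, finrank_bot, hSd, hWd] at h
    rw [mul_add, mul_one]
    omega

/-- The moved space of an involution of Ω contains a maximal singular subspace when `-1` is a square. -/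
theorem involution_moved_plus (h2 : (2 : F) ≠ 0) (hQ : (polarBilin Q).Nondegenerate) (hi : IsSquare (-1 : F))
    (hcard : 2 ≤ Fintype.card ι) {x : GL ι F} (hx : x ∈ Cfsg.Geo.omegaGL (⇑Q)) {A B : Submodule F (ι → F)}
    (hAN : Nd Q A) (hperp : perp Q A = B) (hA : ∀ a ∈ A, (x : Matrix ι ι F) *ᵥ a = a)
    (hB : ∀ c ∈ B, (x : Matrix ι ι F) *ᵥ c = -c) {b : ℕ} (hb : finrank F B = 2 * b) :
    ∃ W ≤ B, finrank F W = b ∧ Ts Q W := by
  classical
  have hBN : Nd Q B := hperp ▸ nd_perp hQ hAN
  have hab : ∀ y ∈ A, ∀ z ∈ B, polar Q y z = 0 := fun y hy z hz => mem_perp.1 (hperp ▸ hz) y hy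
  obtain ⟨l, hlB, hlo, hll, hspan, hW⟩ := exists_orth_list h2 hi b hBN hb
  suffices hsq : IsSquare (l.map fun v => Q v).prod from hW hsq
  obtain ⟨X, hX, rfl⟩ := hx
  refine ((CfsgLib.Classes.prod_refl_mem_omega_iff h2 hQ hcard X l (fun v hv => (hlB v hv).2) ?_).1 hX).2
  refine Matrix.ext_of_mulVec_single fun k => ?_
  rw [CfsgLib.Classes.prod_reflectionMatrix_mulVec l (fun v hv => (hlB v hv).2) hlo]
  set g : Module.End F (ι → F) := Matrix.toLin' ((X : GL ι F) : Matrix ι ι F) with hg
  let R : Module.End F (ι → F) :=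
    LinearMap.id - (l.map fun v => ((Q v)⁻¹ • polarBilin Q v).smulRight v).sum
  have hR : ∀ y, R y = y - (l.map fun v => (polar Q v y / Q v) • v).sum := fun y => by
    simp only [R, LinearMap.sub_apply, LinearMap.id_apply]
    congr 1
    clear hlo hll hspan hW hlB
    induction l with
    | nil => simp
    | cons a l ih =>
      simp only [List.map_cons, List.sum_cons, LinearMap.add_apply, ih, LinearMap.smulRight_apply,
        LinearMap.smul_apply, smul_eq_mul, polarBilin_apply_apply, inv_mul_eq_div]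
  suffices h : A ⊔ B ≤ LinearMap.eqLocus g R by
    have hcomp := isCompl_perp (Q := Q) hAN
    rw [hperp] at hcomp
    have h1 : g (Pi.single k 1) = R (Pi.single k 1) := h (by rw [hcomp.sup_eq_top]; trivial)
    rw [hR] at h1
    exact h1
  refine sup_le (fun a ha => ?_) (hspan.trans (Submodule.span_le.2 fun v hv => ?_))
  · show g a = R a
    rw [hg, Matrix.toLin'_apply, show ((X : GL ι F) : Matrix ι ι F) *ᵥ a = a from hA a ha, hR, List.sum_eq_zero, sub_zero]
    intro z hz
    obtain ⟨v, hv, rfl⟩ := List.mem_map.1 hz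
    rw [polar_comm, hab a ha v (hlB v hv).1, zero_div, zero_smul]
  · show g v = R v
    have hsum : ∀ l' : List (ι → F), (∀ w ∈ l', Q w ≠ 0) → l'.Pairwise (fun a c => polar Q a c = 0) →
        (v ∈ l' → (l'.map fun w => (polar Q w v / Q w) • w).sum = (2 : F) • v) ∧
        ((∀ w ∈ l', polar Q w v = 0) → (l'.map fun w => (polar Q w v / Q w) • w).sum = 0) := by
      intro l'
      induction l' with
      | nil => intro _ _; exact ⟨fun h => absurd h (List.not_mem_nil), fun _ => rfl⟩
      | cons a l' ih =>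
        intro hne hp
        rw [List.pairwise_cons] at hp
        obtain ⟨ih1, ih2⟩ := ih (fun w hw => hne w (List.mem_cons_of_mem _ hw)) hp.2
        refine ⟨fun hmem => ?_, fun hz => ?_⟩
        · rw [List.map_cons, List.sum_cons]
          rcases List.mem_cons.1 hmem with e | hmem
          · subst e
            rw [ih2 fun w hw => by rw [polar_comm]; exact hp.1 w hw, add_zero, polar_self, nsmul_eq_mul,
              Nat.cast_ofNat, mul_div_assoc, div_self (hne v (List.mem_cons_self ..)), mul_one]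
          · rw [ih1 hmem, hp.1 v hmem, zero_div, zero_smul, zero_add]
        · rw [List.map_cons, List.sum_cons, hz a (List.mem_cons_self ..), zero_div, zero_smul, zero_add,
            ih2 fun w hw => hz w (List.mem_cons_of_mem _ hw)]
    rw [hg, Matrix.toLin'_apply,
      show ((X : GL ι F) : Matrix ι ι F) *ᵥ v = -v from hB v (hlB v hv).1, hR, (hsum l (fun w hw => (hlB w hw).2) hlo).1 hv, two_smul]
    abel

/-- Every element of order `r` in the projective group fixes a totally singular subspace of dimension `m`. -/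
def AllFixTs (Q : QuadraticForm F (ι → F)) (m r : ℕ) : Prop :=
  ∀ x : GL ι F, x ∈ Cfsg.Geo.omegaGL (⇑Q) →
    (∃ z : F, ((x ^ r : GL ι F) : Matrix ι ι F) = z • (1 : Matrix ι ι F)) →
    (∀ z : F, (x : Matrix ι ι F) ≠ z • (1 : Matrix ι ι F)) →
    ∃ W : Submodule F (ι → F), finrank F W = m ∧ Ts Q W ∧ ∀ w ∈ W, Matrix.toLin' (x : Matrix ι ι F) w ∈ W

/-- An involution with an anisotropic plane moved. -/
theorem exists_plane_involution (h2 : (2 : F) ≠ 0) (hi : ¬ IsSquare (-1 : F)) {d : ℕ} (hd : 2 ≤ d) :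
    ∃ x : GL (Fin d ⊕ Fin d) F, x ∈ Cfsg.Geo.omegaGL (⇑(CfsgLib.ClassicalForms.qPlus d F)) ∧
      ((x ^ 2 : GL (Fin d ⊕ Fin d) F) : Matrix (Fin d ⊕ Fin d) (Fin d ⊕ Fin d) F) = 1 ∧
      (∀ z : F, (x : Matrix (Fin d ⊕ Fin d) (Fin d ⊕ Fin d) F) ≠ z • 1) ∧
      ∀ W : Submodule F (Fin d ⊕ Fin d → F), Ts (CfsgLib.ClassicalForms.qPlus d F) W →
        (∀ w ∈ W, (x : Matrix (Fin d ⊕ Fin d) (Fin d ⊕ Fin d) F) *ᵥ w ∈ W) → finrank F W + 2 ≤ d := by
  classical
  set Q₀ := CfsgLib.ClassicalForms.qPlus d F with hQdef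
  have hQ : (polarBilin Q₀).Nondegenerate :=
    CfsgLib.ClassicalForms.nondeg_iff_polarBilin.2 (CfsgLib.ClassicalForms.nondeg_qPlus d)
  have hT : HasType Q₀ (⊤ : Submodule F (Fin d ⊕ Fin d → F)) d 1 := hasType_top_iff.2 ⟨by
    rw [Module.finrank_fintype_fun_eq_card]; simp; omega,
    by rw [one_mul]; exact OrthType.hasDisc_qPlus d⟩
  let k : Fin d := ⟨0, by omega⟩
  let k' : Fin d := ⟨1, by omega⟩
  let u : Fin d ⊕ Fin d → F := Pi.single (Sum.inl k) 1 + Pi.single (Sum.inr k) 1
  let v : Fin d ⊕ Fin d → F := Pi.single (Sum.inl k') 1 + Pi.single (Sum.inr k') 1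
  have hval : ∀ w, Q₀ w = ∑ j, w (Sum.inl j) * w (Sum.inr j) := fun w =>
    CfsgLib.ClassicalForms.qPlus_apply d w
  have hkk : k ≠ k' := fun h => by simp [k, k', Fin.ext_iff] at h
  have hu : Q₀ u = 1 := by simp [hval, u, Pi.single_apply]
  have hv : Q₀ v = 1 := by simp [hval, v, Pi.single_apply]
  have huv : polar Q₀ u v = 0 := by
    have : Q₀ (u + v) = 2 := by
      simp [hval, u, v, Pi.single_apply, add_mul, mul_add, Finset.sum_add_distrib, hkk, hkk.symm]; norm_num
    rw [polar, this, hu, hv]; ring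
  have hu0 : Q₀ u ≠ 0 := by rw [hu]; exact one_ne_zero
  have hv0 : Q₀ v ≠ 0 := by rw [hv]; exact one_ne_zero
  let g : Cfsg.isometryGroup F (⇑Q₀) := OrthGen.refl Q₀ hu0 * OrthGen.refl Q₀ hv0
  have hgv : ∀ w, ((g : GL (Fin d ⊕ Fin d) F) : Matrix _ _ F) *ᵥ w =
      w - (polar Q₀ u w • u + polar Q₀ v w • v) := fun w => by
    show OrthGen.act Q₀ g w = _
    rw [OrthGen.act_mul, OrthGen.act_refl, OrthGen.act_refl]
    simp only [OrthGen.pf, hu, hv, inv_one, one_mul, polar_sub_right, polar_smul_right, huv, smul_zero, sub_zero]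
    abel
  have hgO : g ∈ Cfsg.Omega F (⇑Q₀) := by
    refine (CfsgLib.Classes.prod_refl_mem_omega_iff h2 hQ (by simp; omega) g [u, v] ?_ ?_).2 ⟨by simp, ?_⟩
    · intro w hw
      simp only [List.mem_cons, List.not_mem_nil, or_false] at hw
      rcases hw with rfl | rfl
      · exact hu0
      · exact hv0
    · refine Matrix.ext_of_mulVec_single fun j => ?_
      rw [CfsgLib.Classes.prod_reflectionMatrix_mulVec [u, v] ?_ ?_, hgv]
      · simp [OrthGen.pf, hu, hv]
      · intro w hw
        simp only [List.mem_cons, List.not_mem_nil, or_false] at hw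
        rcases hw with rfl | rfl
        · exact hu0
        · exact hv0
      · exact List.pairwise_cons.2 ⟨fun w hw => by rw [List.mem_singleton.1 hw]; exact huv,
          List.pairwise_singleton _ _⟩
    · simp [hu, hv]
  let x : GL (Fin d ⊕ Fin d) F := (g : GL (Fin d ⊕ Fin d) F)
  have hvu : polar Q₀ v u = 0 := by rw [polar_comm, huv]
  have huu : polar Q₀ u u = 2 := by rw [polar_self, hu, nsmul_eq_mul, Nat.cast_ofNat, mul_one]
  have hvv : polar Q₀ v v = 2 := by rw [polar_self, hv, nsmul_eq_mul, Nat.cast_ofNat, mul_one]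
  refine ⟨x, ⟨g, hgO, rfl⟩, ?_, fun z hz => ?_, fun W hWT hW => ?_⟩
  · refine Matrix.ext_of_mulVec_single fun j => ?_
    rw [Units.val_pow_eq_pow_val, pow_two, ← Matrix.mulVec_mulVec, Matrix.one_mulVec, hgv, hgv]
    simp only [polar_sub_right, polar_add_right, polar_smul_right, huu, hvv, huv, hvu,
      smul_eq_mul, mul_zero]
    module
  · -- `u` is negated, a vector orthogonal to the plane is fixed
    let e : Fin d ⊕ Fin d → F := Pi.single (Sum.inl k) 1 - Pi.single (Sum.inr k) 1
    have h1 := hgv u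
    have h3 := hgv e
    change (x : Matrix (Fin d ⊕ Fin d) (Fin d ⊕ Fin d) F) *ᵥ _ = _ at h1 h3
    rw [hz, Matrix.smul_mulVec, Matrix.one_mulVec] at h1 h3
    have hue : polar Q₀ u e = 0 := by
      have : Q₀ (u + e) = 0 := by simp [hval, u, e, Pi.single_apply]
      rw [polar, this, hu]
      simp [hval, e, Pi.single_apply]
    have hve : polar Q₀ v e = 0 := by
      have : Q₀ (v + e) = 0 := by
        simp [hval, v, e, Pi.single_apply, add_mul, mul_add, Finset.sum_add_distrib, hkk, hkk.symm]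
      rw [polar, this, hv]
      simp [hval, e, Pi.single_apply]
    rw [hue, hve, zero_smul, zero_smul, add_zero, sub_zero] at h3
    rw [huu, hvu, zero_smul, add_zero] at h1
    have c1 := congrFun h1 (Sum.inl k)
    have c3 := congrFun h3 (Sum.inl k)
    simp [u, e] at c1 c3
    rw [c3] at c1
    exact h2 (by linear_combination c1)
  · obtain ⟨hPN, hPT⟩ := hasType_plane h2 hu0 huv (hv.trans hu.symm)
    set P : Submodule F (Fin d ⊕ Fin d → F) := Submodule.span F {u, v}
    have hs : sqNegOne F = -1 := by unfold sqNegOne; rw [if_neg hi]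
    rw [hs] at hPT
    have hK := HasType.perp hQ hPN (Or.inr rfl) hT hPT
    rw [one_mul] at hK
    have hWK : W ≤ perp Q₀ P := fun w hw => by
      have h1 := hW w hw
      rw [hgv] at h1
      have h3 := hWT _ (by simpa using W.sub_mem hw h1 : polar Q₀ u w • u + polar Q₀ v w • v ∈ W)
      rw [QuadraticMap.map_add Q₀, QuadraticMap.map_smul, QuadraticMap.map_smul, hu, hv, polar_smul_left,
        polar_smul_right, huv, smul_zero, smul_zero, add_zero] at h3
      simp only [smul_eq_mul, mul_one] at h3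
      obtain ⟨ha, hb⟩ : polar Q₀ u w = 0 ∧ polar Q₀ v w = 0 := by
        by_cases hb : polar Q₀ v w = 0
        · rw [hb, mul_zero, add_zero] at h3
          exact ⟨mul_self_eq_zero.1 h3, hb⟩
        · exact absurd ⟨polar Q₀ u w / polar Q₀ v w, by field_simp; linear_combination -h3⟩ hi
      refine mem_perp.2 fun y hy => ?_
      obtain ⟨a, b, rfl⟩ := Submodule.mem_span_pair.1 hy
      rw [polar_add_left, polar_smul_left, polar_smul_left, ha, hb, smul_zero, smul_zero, add_zero]
    obtain ⟨h1, h3⟩ := singular_le_type (nd_perp hQ hPN) (Or.inr rfl) hK hWK hWT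
    rcases lt_or_eq_of_le h1 with h | h
    · omega
    · exact absurd (h3 h) (by norm_num)

/-- The prime two in odd characteristic. -/
theorem singular_plus_two (h2 : (2 : F) ≠ 0) {d : ℕ} (hd : 4 ≤ d) {m : ℕ} (hm : 1 ≤ m) (hmd : m < d) :
    AllFixTs (CfsgLib.ClassicalForms.qPlus d F) m 2 ↔
      IsSquare (-1 : F) ∨ (m + 2 ≤ d ∧ (Even m ∨ Odd d)) := by
  classical
  set Q₀ := CfsgLib.ClassicalForms.qPlus d F with hQdef
  have hQ : (polarBilin Q₀).Nondegenerate :=
    CfsgLib.ClassicalForms.nondeg_iff_polarBilin.2 (CfsgLib.ClassicalForms.nondeg_qPlus d)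
  have hn : finrank F (Fin d ⊕ Fin d → F) = 2 * d := by
    rw [Module.finrank_fintype_fun_eq_card]; simp; omega
  have hT : HasType Q₀ (⊤ : Submodule F (Fin d ⊕ Fin d → F)) d 1 :=
    hasType_top_iff.2 ⟨hn, by rw [one_mul]; exact OrthType.hasDisc_qPlus d⟩
  haveI : Nontrivial (Fin d ⊕ Fin d → F) := Module.nontrivial_of_finrank_pos (R := F) (by omega)
  obtain ⟨v₀, hv₀⟩ := CfsgLib.Classes.exists_anisotropic_vector Q₀ hQ
  have hsq : ¬ IsSquare (-1 : F) → sqNegOne F = -1 := fun hi => by unfold sqNegOne; rw [if_neg hi]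
  constructor
  · intro H
    by_contra hcon
    push Not at hcon
    obtain ⟨hi, hcon⟩ := hcon
    by_cases hm2 : m + 2 ≤ d
    · obtain ⟨hmo, hde⟩ := hcon hm2
      rw [Nat.not_even_iff_odd] at hmo
      rw [Nat.not_odd_iff_even] at hde
      obtain ⟨x, hx, hxx⟩ := (exists_halfTurn_omega_iff h2 hQ (by omega) hT).2 ⟨by
          rw [hsq hi, hde.neg_one_pow], by
          rcases Int.units_eq_one_or (sqTwo F) with e | e <;> rw [e]
          · exact one_pow d
          · exact hde.neg_one_pow⟩
      have hiso := fun v => isometry_of_mem_omegaGL hx v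
      obtain ⟨W, hWd, hWT, hWi⟩ := H x hx ⟨-1, Matrix.toLin'.injective (LinearMap.ext fun v => by
          rw [Units.val_pow_eq_pow_val, pow_two, Matrix.toLin'_apply, ← Matrix.mulVec_mulVec, hxx]
          simp)⟩ (fun z hz => by
        have h1 := hxx v₀
        rw [hz, Matrix.smul_mulVec, Matrix.one_mulVec, Matrix.smul_mulVec, Matrix.one_mulVec, smul_smul] at h1
        have h3 := hiso v₀
        rw [hz, Matrix.smul_mulVec, Matrix.one_mulVec, QuadraticMap.map_smul, smul_eq_mul] at h3
        have h4 : z * z = 1 := mul_right_cancel₀ hv₀ (h3.trans (one_mul _).symm)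
        rw [h4, one_smul, eq_neg_iff_add_eq_zero, ← two_smul F, smul_eq_zero] at h1
        rcases h1 with h1 | h1
        · exact h2 h1
        · exact hv₀ (by rw [h1, QuadraticMap.map_zero]))
      set f := (Matrix.toLin' (x : Matrix (Fin d ⊕ Fin d) (Fin d ⊕ Fin d) F)).restrict hWi with hf
      refine hi ⟨LinearMap.det f, ?_⟩
      rw [← map_mul, show f * f = (-1 : F) • (1 : Module.End F W) from LinearMap.ext fun w => Subtype.ext (by
        simp [f, hxx]), LinearMap.det_smul, map_one, mul_one, hWd, hmo.neg_one_pow]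
    · obtain ⟨x, hx, hxx, hns, hno⟩ := exists_plane_involution h2 hi (show 2 ≤ d by omega)
      obtain ⟨W, hWd, hWT, hWi⟩ := H x hx ⟨1, by rw [hxx, one_smul]⟩ hns
      have := hno W hWT hWi
      omega
  · intro hcond x hx ⟨z, hz⟩ hns
    have hiso := fun v => isometry_of_mem_omegaGL hx v
    obtain ⟨hxx, rfl | rfl⟩ := scalar_sq hx hv₀ hz
    · set g : Module.End F (Fin d ⊕ Fin d → F) := Matrix.toLin' (x : Matrix (Fin d ⊕ Fin d) (Fin d ⊕ Fin d) F) with hg
      have hgg : g * g = 1 := LinearMap.ext fun v => by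
        rw [Module.End.mul_apply, hg, Matrix.toLin'_apply, Matrix.toLin'_apply, hxx, one_smul]; rfl
      obtain ⟨A, B, hAN, hBN, hperp, hA, hB, hdim, hdet⟩ := involution_split h2 hQ hgg fun v => hiso v
      rw [det_eq_one_of_mem_omegaGL hx] at hdet
      have hev : Even (finrank F B) := by
        rcases Nat.even_or_odd (finrank F B) with he | ho
        · exact he
        · rw [ho.neg_one_pow] at hdet
          exact absurd hdet fun h => h2 (by linear_combination h)
      obtain ⟨b, hb⟩ := hev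
      rw [hn] at hdim
      have hB0 : b ≠ 0 := fun h => by
        refine hns 1 (Matrix.toLin'.injective (LinearMap.ext fun v => ?_))
        have hv : v ∈ A := by rw [show A = ⊤ from Submodule.eq_top_of_finrank_eq (by omega)]; trivial
        rw [one_smul, Matrix.toLin'_one, LinearMap.id_apply]
        exact hA v hv
      have hA0 : b ≠ d := fun h => by
        refine hns (-1) (Matrix.toLin'.injective (LinearMap.ext fun v => ?_))
        have hv : v ∈ B := by rw [show B = ⊤ from Submodule.eq_top_of_finrank_eq (by omega)]; trivial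
        rw [map_smul, Matrix.toLin'_one, LinearMap.smul_apply, LinearMap.id_apply, neg_one_smul]
        exact hB v hv
      obtain ⟨εA, hεA, hAT⟩ := exists_hasType hAN (l := d - b) (by omega)
      obtain ⟨εB, hεB, hBT⟩ := exists_hasType hBN (l := b) (by omega)
      obtain ⟨k, hk, hk'⟩ : ∃ k ≤ m, (k < d - b ∨ (k = d - b ∧ εA = 1)) ∧
          (m - k < b ∨ (m - k = b ∧ εB = 1)) := by
        rcases hcond with hi | ⟨hm2, -⟩
        · obtain ⟨W, hWB, hWd, hWT⟩ := involution_moved_plus h2 hQ hi (by simp; omega) hx hAN hperp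
            (fun a ha => hA a ha) (fun c hc => hB c hc) (b := b) (by omega)
          have hεB1 : εB = 1 := (singular_le_type hBN hεB hBT hWB hWT).2 hWd
          have hp := HasType.perp hQ hAN hεA hT hAT
          rw [hperp] at hp
          have hεA1 : εA = 1 := by
            have := (hBT.unique hp).2
            rw [hεB1, one_mul] at this
            exact this.symm
          exact ⟨min m (d - b), Nat.min_le_left _ _, by simp only [hεA1, and_true]; omega,
            by simp only [hεB1, and_true]; omega⟩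
        · exact ⟨min m (d - b - 1), Nat.min_le_left _ _, Or.inl (by omega), Or.inl (by omega)⟩
      obtain ⟨WA, hWA, hWAd, hWAT⟩ := exists_singular_type hAN hεA hAT hk'.1
      obtain ⟨WB, hWB, hWBd, hWBT⟩ := exists_singular_type hBN hεB hBT hk'.2
      have hab : ∀ y ∈ A, ∀ c ∈ B, polar Q₀ y c = 0 := fun y hy c hc => mem_perp.1 (hperp ▸ hc) y hy
      refine ⟨WA ⊔ WB, ?_, hWAT.sup hWBT fun a ha c hc => hab a (hWA ha) c (hWB hc),
        sup_invariant (fun w hw => by rw [hA w (hWA hw)]; exact hw)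
          (fun w hw => by rw [hB w (hWB hw)]; exact WB.neg_mem hw)⟩
      have h := Submodule.finrank_sup_add_finrank_inf_eq WA WB
      rw [((disjoint_of_orth hAN hab).mono hWA hWB).eq_bot, finrank_bot, hWAd, hWBd] at h
      omega
    · by_cases hi : IsSquare (-1 : F)
      · obtain ⟨W, -, hWT, hWi, hWd⟩ := turn_singular h2 (g := Matrix.toLin' (x : Matrix _ _ F)) (fun v => hiso v)
          (fun v => by rw [Matrix.toLin'_apply, Matrix.toLin'_apply, hxx, neg_one_smul]) (Or.inl ⟨rfl, hi⟩) m ⊤
          (nd_top hQ) (fun _ _ => trivial) (by rw [finrank_top, hn]; omega)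
        exact ⟨W, hWd.trans (one_mul m), hWT, hWi⟩
      · obtain ⟨hm2, hpar⟩ := hcond.resolve_left hi
        obtain ⟨h1, -⟩ := (exists_halfTurn_omega_iff h2 hQ (by omega) hT).1
          ⟨x, hx, fun v => by rw [hxx, neg_one_smul]⟩
        rw [hsq hi] at h1
        have hde : Even d := (neg_one_pow_eq_one_iff_even (by norm_num)).1 h1.symm
        obtain ⟨j, hj⟩ := hpar.resolve_right (Nat.not_odd_iff_even.2 hde)
        obtain ⟨W, -, hWT, hWi, hWd⟩ := turn_singular h2 (g := Matrix.toLin' (x : Matrix _ _ F)) (fun v => hiso v)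
          (fun v => by rw [Matrix.toLin'_apply, Matrix.toLin'_apply, hxx, neg_one_smul]) (Or.inr rfl) j ⊤
          (nd_top hQ) (fun _ _ => trivial) (by rw [finrank_top, hn]; omega)
        exact ⟨W, by rw [hWd, hj, two_mul], hWT, hWi⟩

end CfsgLib.Derangements.Sub
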