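import Mathlib
import Cfsg.Agent.Lib.Derangements.SubspaceHalfTurn
import Cfsg.Agent.Lib.Omega.SympPieces

/-!
Elements `1 + N` with `N² = 0` against non-degenerate subspaces of even dimension, and the decomposition of an
involution in characteristic two.
-/

set_option autoImplicit false
set_option linter.unusedSectionVars false
set_option linter.style.haveILetI false

namespace CfsgLib.Derangements.Sub

open Module QuadraticMap CfsgLib.Derangements
open scoped Matrix

universe u

variable {F : Type u} [Field F] [Finite F] {V : Type u} [AddCommGroup V] [Module F V] [FiniteDimensional F V]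
  {Q : QuadraticForm F V}

/-- A shift: `N² = 0`, `B(N v, v) = 0` and `1 + N` preserves the form. -/
structure Shift (Q : QuadraticForm F V) (N : Module.End F V) : Prop where
  sq : ∀ v, N (N v) = 0
  alt : ∀ v, polar Q (N v) v = 0
  iso : ∀ v, Q (v + N v) = Q v

theorem Shift.singular {N : Module.End F V} (hN : Shift Q N) (v : V) : Q (N v) = 0 := by
  have h := hN.iso v
  rw [QuadraticMap.map_add Q, polar_comm, hN.alt, add_zero] at h
  exact left_eq_add.1 h.symm

/-- The image of an invariant non-degenerate subspace has even dimension. -/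
theorem Shift.even_finrank {N : Module.End F V} (hN : Shift Q N) {W : Submodule F V} (hW : Nd Q W)
    (hi : ∀ w ∈ W, N w ∈ W) : Even (finrank F (W.map N)) := by
  classical
  let β : LinearMap.BilinForm F V := LinearMap.comp (polarBilin Q) N
  have hβ : ∀ u v, β u v = polar Q (N u) v := fun u v => rfl
  obtain ⟨C₀, hC₀⟩ := Submodule.exists_isCompl (LinearMap.ker N ⊓ W)
  set C := C₀ ⊓ W with hC
  have hsplit : ∀ w ∈ W, ∃ k ∈ LinearMap.ker N ⊓ W, w - k ∈ C := fun w hw => by
    obtain ⟨k, hk, c, hc, rfl⟩ := Submodule.mem_sup.1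
      (show w ∈ (LinearMap.ker N ⊓ W) ⊔ C₀ by rw [hC₀.sup_eq_top]; trivial)
    exact ⟨k, hk, by rw [add_sub_cancel_left]; exact hc, W.sub_mem hw hk.2⟩
  have hmap : C.map N = W.map N := le_antisymm (Submodule.map_mono inf_le_right) (by
    rintro _ ⟨w, hw, rfl⟩
    obtain ⟨k, hk, hwk⟩ := hsplit w hw
    exact ⟨w - k, hwk, by rw [map_sub, LinearMap.mem_ker.1 hk.1, sub_zero]⟩)
  have hker : ∀ c ∈ C, N c = 0 → c = 0 := fun c hc h =>
    Submodule.disjoint_def.1 hC₀.disjoint c ⟨LinearMap.mem_ker.2 h, hc.2⟩ hc.1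
  have hinj : Function.Injective (N ∘ₗ C.subtype) := by
    rw [← LinearMap.ker_eq_bot, LinearMap.ker_eq_bot']
    exact fun c hc => Subtype.ext (hker c c.2 hc)
  have hd : finrank F (W.map N) = finrank F C := by
    rw [← hmap]
    have h1 := LinearMap.finrank_range_of_inj hinj
    rwa [LinearMap.range_comp, Submodule.range_subtype] at h1
  rw [hd]
  refine CfsgLib.Omega.SympPieces.even_finrank_of_nondegOn (B := β) (fun v => hN.alt v) fun c hc h => hker c hc ?_
  refine hW _ (hi c hc.2) fun w hw => ?_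
  obtain ⟨k, hk, hwk⟩ := hsplit w hw
  have h1 := h _ hwk
  rw [hβ, polar_sub_right] at h1
  have h2 : polar Q (N c) k = 0 := by
    have h3 := hN.alt (c + k)
    rw [map_add, LinearMap.mem_ker.1 hk.1, add_zero, polar_add_right, hN.alt, zero_add] at h3
    exact h3
  rwa [h2, sub_zero] at h1

/-- The image of an invariant subspace is small, smaller still if the subspace is elliptic. -/
theorem Shift.bound {ι : Type} [Fintype ι] {Q : QuadraticForm F (ι → F)} {N : Module.End F (ι → F)}
    (hN : Shift Q N) {W : Submodule F (ι → F)} (hW : Nd Q W) (hi : ∀ w ∈ W, N w ∈ W) {l : ℕ} {ε : ℤ}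
    (hε : ε = 1 ∨ ε = -1) (hT : HasType Q W l ε) :
    finrank F (W.map N) ≤ l ∧ (ε = -1 → finrank F (W.map N) < l) := by
  have hle : W.map N ≤ W := by rintro _ ⟨w, hw, rfl⟩; exact hi w hw
  have h := CfsgLib.Forms.two_mul_finrank_singular_le (res Q W) (nd_iff_res.1 hW) ((W.map N).comap W.subtype)
    (fun w hw => by
      obtain ⟨v, -, hv⟩ := hw
      show Q (w : ι → F) = 0
      rw [show (w : ι → F) = N v from hv.symm, hN.singular])
  rw [(Submodule.comapSubtypeEquivOfLe hle).finrank_eq, hT.1] at h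
  refine ⟨by omega, fun he => lt_of_le_of_ne (by omega) fun heq => ?_⟩
  have hp : Cfsg.Geo.IsPlusTypeOn (⇑Q) W := ⟨W.map N, hle, by rintro _ ⟨w, -, rfl⟩; exact hN.singular w,
    by rw [hT.1, heq]⟩
  rw [(isPlusTypeOn_iff hW hε hT).1 hp] at he
  exact absurd he (by norm_num)

/-- An invariant non-degenerate subspace and its orthogonal share the rank of a shift. -/
theorem shift_counter {ι : Type} [Fintype ι] {Q : QuadraticForm F (ι → F)} (hQ : (polarBilin Q).Nondegenerate)
    {N : Module.End F (ι → F)} (hN : Shift Q N) {d : ℕ} {εV : ℤ} (hεV : εV = 1 ∨ εV = -1)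
    (hV : HasType Q (⊤ : Submodule F (ι → F)) d εV) {W : Submodule F (ι → F)} (hW : Nd Q W) {l : ℕ} {ε : ℤ}
    (hε : ε = 1 ∨ ε = -1) (hT : HasType Q W l ε) (hi : ∀ w ∈ W, N w ∈ W) :
    ∃ a b : ℕ, Even a ∧ Even b ∧ finrank F (LinearMap.range N) ≤ a + b ∧ a ≤ l ∧ (ε = -1 → a < l) ∧
      b ≤ d - l ∧ (εV * ε = -1 → b < d - l) := by
  have hεp : εV * ε = 1 ∨ εV * ε = -1 := by rcases hεV with rfl | rfl <;> rcases hε with rfl | rfl <;> norm_num
  have hPN := nd_perp hQ hW
  have hPT := HasType.perp hQ hW hε hV hT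
  have hPi : ∀ v ∈ perp Q W, N v ∈ perp Q W := fun v hv => mem_perp.2 fun w hw => by
    have h3 := hN.alt (w + v)
    rw [map_add, polar_add_right, polar_add_left, polar_add_left, hN.alt, hN.alt, zero_add, add_zero,
      mem_perp.1 hv _ (hi w hw), add_zero] at h3
    rwa [polar_comm]
  obtain ⟨h1, h2⟩ := hN.bound hW hi hε hT
  obtain ⟨h3, h4⟩ := hN.bound hPN hPi hεp hPT
  refine ⟨_, _, hN.even_finrank hW hi, hN.even_finrank hPN hPi, ?_, h1, h2, h3, h4⟩
  rw [← Submodule.map_top, ← (isCompl_perp hW).sup_eq_top, Submodule.map_sup]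
  exact Submodule.finrank_add_le_finrank_add_finrank _ _

omit [Finite F] in
/-- An alternating matrix of maximal rank. -/
theorem exists_alt_map (k : ℕ) : ∃ f : Module.End F (Fin k → F),
    (∀ y, ∑ i, f y i * y i = 0) ∧ finrank F (LinearMap.range f) = 2 * (k / 2) := by
  classical
  set a := k / 2
  let e : Fin k ≃ (Fin a ⊕ Fin a) ⊕ Fin (k % 2) :=
    (Fintype.equivFinOfCardEq (show Fintype.card ((Fin a ⊕ Fin a) ⊕ Fin (k % 2)) = k by simp; omega)).symm
  let π : (Fin k → F) →ₗ[F] (Fin a ⊕ Fin a → F) := LinearMap.funLeft F F fun i => e.symm (.inl i)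
  let J : (Fin a ⊕ Fin a → F) ≃ₗ[F] (Fin a ⊕ Fin a → F) :=
    { toFun := fun u => Sum.elim (fun i => u (.inr i)) fun i => -u (.inl i)
      invFun := fun u => Sum.elim (fun i => -u (.inr i)) fun i => u (.inl i)
      map_add' := fun u v => by ext (i | i) <;> simp; ring
      map_smul' := fun t u => by ext (i | i) <;> simp
      left_inv := fun u => by ext (i | i) <;> simp
      right_inv := fun u => by ext (i | i) <;> simp }
  let j : (Fin a ⊕ Fin a → F) →ₗ[F] (Fin k → F) :=
    { toFun := fun u i => Sum.elim u 0 (e i)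
      map_add' := fun u v => by
        ext i
        show Sum.elim (u + v) 0 (e i) = Sum.elim u 0 (e i) + Sum.elim v 0 (e i)
        cases e i <;> simp
      map_smul' := fun t u => by
        ext i
        show Sum.elim (t • u) 0 (e i) = t • Sum.elim u 0 (e i)
        cases e i <;> simp }
  have hj : Function.Injective j := fun u v h => funext fun i => by
    have h1 := congrFun h (e.symm (.inl i))
    simpa [j] using h1
  have hπ : Function.Surjective π := fun u => ⟨j u, funext fun i => by simp [π, j, LinearMap.funLeft_apply]⟩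
  refine ⟨j ∘ₗ J.toLinearMap ∘ₗ π, fun y => ?_, ?_⟩
  · rw [← Equiv.sum_comp e.symm]
    simp [Fintype.sum_sum_type, π, J, j, LinearMap.funLeft_apply, ← Finset.sum_add_distrib, mul_comm]
  · rw [LinearMap.range_comp, LinearMap.range_comp, LinearMap.range_eq_top.2 hπ, Submodule.map_top,
      LinearEquiv.range, Submodule.map_top, LinearMap.finrank_range_of_inj hj,
      Module.finrank_fintype_fun_eq_card]
    simp; omega

omit [Finite F] in
/-- A shift on a space with `k` hyperbolic coordinates. -/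
theorem exists_shift {k : ℕ} (πy : V →ₗ[F] (Fin k → F)) (jx : (Fin k → F) →ₗ[F] V)
    (hy : Function.Surjective πy) (hj : Function.Injective jx) (hyj : ∀ u, πy (jx u) = 0)
    (hQ : ∀ v u, Q (v + jx u) = Q v + ∑ i, u i * πy v i) :
    ∃ N : Module.End F V, Shift Q N ∧ finrank F (LinearMap.range N) = 2 * (k / 2) := by
  obtain ⟨f, hf, hr⟩ := exists_alt_map (F := F) k
  have hpol : ∀ v u, polar Q (jx u) v = ∑ i, u i * πy v i := fun v u => by
    have h0 : Q (jx u) = 0 := by
      have := hQ 0 u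
      simpa [QuadraticMap.map_zero] using this
    rw [polar, add_comm, hQ, h0]; ring
  refine ⟨jx ∘ₗ f ∘ₗ πy, ⟨fun v => ?_, fun v => ?_, fun v => ?_⟩, ?_⟩
  · simp only [LinearMap.comp_apply, hyj, map_zero]
  · simp only [LinearMap.comp_apply, hpol, hf]
  · simp only [LinearMap.comp_apply, hQ, hf, add_zero]
  · rw [LinearMap.range_comp, LinearMap.range_comp, LinearMap.range_eq_top.2 hy, Submodule.map_top,
      ← (Submodule.equivMapOfInjective jx hj (LinearMap.range f)).finrank_eq, hr]

/-- A shift gives an element of order `p` of Ω. -/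
theorem exists_omega_shift {p : ℕ} [Fact p.Prime] [CharP F p] {ι : Type} [Fintype ι] [DecidableEq ι]
    {Q : QuadraticForm F (ι → F)} (hQ : (polarBilin Q).Nondegenerate) (hι : 5 ≤ Fintype.card ι)
    {N : Module.End F (ι → F)} (hN : Shift Q N) (hev : Even (finrank F (LinearMap.range N))) :
    ∃ x : GL ι F, x ∈ Cfsg.Geo.omegaGL (⇑Q) ∧ x ^ p = 1 ∧ Matrix.toLin' (x : Matrix ι ι F) = 1 + N := by
  classical
  have hpr : p.Prime := Fact.out
  set g : Module.End F (ι → F) := 1 + N with hg
  have hgQ : ∀ v, Q (g v) = Q v := fun v => hN.iso v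
  have hpow : ∀ k : ℕ, ∀ v, (g ^ k) v = v + (k : F) • N v := by
    intro k
    induction k with
    | zero => intro v; simp
    | succ k ih =>
      intro v
      rw [pow_succ', Module.End.mul_apply, ih]
      simp only [hg, LinearMap.add_apply, Module.End.one_apply, map_add, map_smul, hN.sq, smul_zero, add_zero]
      push_cast
      rw [add_smul, one_smul]; abel
  have hgp : g ^ p = 1 := LinearMap.ext fun v => by
    rw [hpow, CharP.cast_eq_zero, zero_smul, add_zero]; rfl
  rcases hpr.eq_two_or_odd' with rfl | hodd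
  · have hgg : g ∘ₗ g = LinearMap.id := by
      rw [← Module.End.mul_eq_comp, ← pow_two, hgp]; rfl
    let e : (ι → F) ≃ₗ[F] (ι → F) := LinearEquiv.ofLinearMap g g hgg hgg
    have heQ : ∀ v, Q (e v) = Q v := hgQ
    let X := CfsgLib.Classes.isoOfEquiv (Q := Q) e heQ
    have hX : X ∈ Cfsg.Omega F (⇑Q) := by
      rw [CfsgLib.Classes.mem_omega_iff_dickson (by omega) hQ (Or.inr (by omega)), CfsgLib.Forms.dicksonSign,
        show CfsgLib.Forms.subOne X = N from LinearMap.ext fun v => by
          rw [CfsgLib.Forms.subOne_apply]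
          show CfsgLib.OrthGen.act Q (CfsgLib.Classes.isoOfEquiv e heQ) v - v = N v
          rw [CfsgLib.Classes.act_isoOfEquiv]
          simp [e, g]]
      exact hev.neg_one_pow
    have hlin : Matrix.toLin' ((X : GL ι F) : Matrix ι ι F) = g :=
      LinearMap.ext fun v => CfsgLib.Classes.act_isoOfEquiv e heQ v
    refine ⟨X.1, ⟨X, hX, rfl⟩, Units.ext (Matrix.toLin'.injective ?_), hlin⟩
    rw [Units.val_pow_eq_pow_val, Matrix.toLin'_pow, hlin, hgp, Units.val_one, Matrix.toLin'_one]; rfl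
  · obtain ⟨x, hx, hxp, -, hxg⟩ := exists_matrix hQ (Or.inr (by omega)) hodd hgp hgQ
    exact ⟨x, hx, hxp, hxg⟩

/-- An element of order `p` fixing no subspace of a given type, once a shift leaves no room. -/
theorem shift_not_all {p : ℕ} [Fact p.Prime] [CharP F p] {ι : Type} [Fintype ι] [DecidableEq ι]
    {Q : QuadraticForm F (ι → F)} (hQ : (polarBilin Q).Nondegenerate) (hι : 5 ≤ Fintype.card ι)
    {N : Module.End F (ι → F)} (hN : Shift Q N) {R : ℕ} (hR : finrank F (LinearMap.range N) = R)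
    (hRe : Even R) (hR0 : 0 < R) {d : ℕ} {εV : ℤ} (hεV : εV = 1 ∨ εV = -1)
    (hV : HasType Q (⊤ : Submodule F (ι → F)) d εV) {l : ℕ} {ε : ℤ} (hε : ε = 1 ∨ ε = -1)
    (harith : ∀ a b : ℕ, Even a → Even b → a ≤ l → (ε = -1 → a < l) → b ≤ d - l → (εV * ε = -1 → b < d - l) →
      a + b < R) :
    ∃ x : GL ι F, x ∈ Cfsg.Geo.omegaGL (⇑Q) ∧
      (∃ z : F, ((x ^ p : GL ι F) : Matrix ι ι F) = z • (1 : Matrix ι ι F)) ∧
      (∀ z : F, (x : Matrix ι ι F) ≠ z • (1 : Matrix ι ι F)) ∧
      ∀ W : Submodule F (ι → F), Nd Q W ∧ HasType Q W l ε →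
        ¬ ∀ w ∈ W, Matrix.toLin' (x : Matrix ι ι F) w ∈ W := by
  obtain ⟨x, hx, hxp, hxg⟩ := exists_omega_shift (p := p) hQ hι hN (hR ▸ hRe)
  refine ⟨x, hx, ⟨1, by rw [hxp, one_smul]; rfl⟩, fun z hz => ?_, fun W ⟨hW, hT⟩ hWi => ?_⟩
  · rw [hz, map_smul, Matrix.toLin'_one] at hxg
    have h1 : ∀ v, N v = (z - 1) • v := fun v => by
      have := LinearMap.congr_fun hxg v
      simp only [LinearMap.smul_apply, LinearMap.id_apply, LinearMap.add_apply, Module.End.one_apply] at this
      rw [sub_smul, this, one_smul, add_sub_cancel_left]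
    have h0 : N = 0 := LinearMap.ext fun v => by
      have := hN.sq v
      rw [h1, h1, smul_smul] at this
      rcases smul_eq_zero.1 this with e | e
      · rw [h1, mul_self_eq_zero.1 e, zero_smul]; rfl
      · rw [e, map_zero]; rfl
    rw [h0, LinearMap.range_zero, finrank_bot] at hR
    omega
  · have hi : ∀ w ∈ W, N w ∈ W := fun w hw => by
      have h1 := hWi w hw
      rw [hxg, LinearMap.add_apply, Module.End.one_apply] at h1
      exact (W.add_mem_iff_right hw).1 h1
    obtain ⟨a, b, ha, hb, hab, h1, h2, h3, h4⟩ := shift_counter hQ hN hεV hV hW hε hT hi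
    have := harith a b ha hb h1 h2 h3 h4
    omega

section CharTwo

variable [CharP F 2]

/-- The span of two vectors with non-zero product. -/
theorem plane_two {ι : Type} [Fintype ι] {Q : QuadraticForm F (ι → F)} {v w : ι → F} (h : polar Q v w ≠ 0) :
    Nd Q (Submodule.span F {v, w}) ∧ finrank F (Submodule.span F {v, w} : Submodule F (ι → F)) = 2 := by
  classical
  have hs : ∀ z : ι → F, polar Q z z = 0 := fun z => by rw [polar_self, two_smul, CharTwo.add_self_eq_zero]
  have hN : Nd Q (Submodule.span F {v, w}) := by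
    intro u hu hu0
    obtain ⟨a, b, rfl⟩ := Submodule.mem_span_pair.1 hu
    have e1 := hu0 v (Submodule.subset_span (by simp))
    have e2 := hu0 w (Submodule.subset_span (by simp))
    rw [polar_add_left, polar_smul_left, polar_smul_left, hs, smul_zero, zero_add, polar_comm (⇑Q) w v,
      smul_eq_mul, mul_eq_zero] at e1
    rw [polar_add_left, polar_smul_left, polar_smul_left, hs, smul_zero, add_zero, smul_eq_mul, mul_eq_zero] at e2
    rw [e1.resolve_right h, e2.resolve_right h, zero_smul, zero_smul, add_zero]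
  have hli : LinearIndependent F ![v, w] := by
    rw [LinearIndependent.pair_iff]
    intro a b hab
    have e1 := congrArg (fun z => polar Q z v) hab
    have e2 := congrArg (fun z => polar Q z w) hab
    simp only [polar_add_left, polar_smul_left, hs, smul_zero, zero_add, add_zero, polar_zero_left,
      smul_eq_mul, mul_zero, zero_add, add_zero, mul_eq_zero] at e1 e2
    exact ⟨e2.resolve_right h, e1.resolve_right (polar_comm (⇑Q) w v ▸ h)⟩
  refine ⟨hN, ?_⟩
  have := finrank_span_eq_card hli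
  rw [show Set.range ![v, w] = ({v, w} : Set (ι → F)) by simp [Set.pair_comm]] at this
  simpa using this

variable {ι : Type} [Fintype ι] {Q : QuadraticForm F (ι → F)}

/-- The first piece: a plane, or four dimensions of plus type. -/
theorem exists_piece_ell {g : Module.End F (ι → F)} (hgQ : ∀ v, Q (g v) = Q v) (hgg : ∀ v, g (g v) = v)
    {U : Submodule F (ι → F)} (hU : Nd Q U) (hUi : ∀ u ∈ U, g u ∈ U) (hne : U ≠ ⊥) :
    ∃ P ≤ U, Nd Q P ∧ (∀ p ∈ P, g p ∈ P) ∧
      ((∃ e : ℤ, (e = 1 ∨ e = -1) ∧ HasType Q P 1 e) ∨ HasType Q P 2 1) := by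
  classical
  have hpol : ∀ x y, polar Q (g x) (g y) = polar Q x y := fun x y => by simp only [polar, ← map_add, hgQ]
  have hself : ∀ z : ι → F, polar Q z z = 0 := fun z => by rw [polar_self, two_smul, CharTwo.add_self_eq_zero]
  have plane : ∀ v w, v ∈ U → w ∈ U → polar Q v w ≠ 0 → (∀ p ∈ Submodule.span F {v, w}, g p ∈ Submodule.span F {v, w}) →
      ∃ P ≤ U, Nd Q P ∧ (∀ p ∈ P, g p ∈ P) ∧
        ((∃ e : ℤ, (e = 1 ∨ e = -1) ∧ HasType Q P 1 e) ∨ HasType Q P 2 1) := by
    intro v w hv hw h hi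
    obtain ⟨hN, hd⟩ := plane_two h
    exact ⟨_, Submodule.span_le.2 (by intro z hz; rcases hz with rfl | rfl <;> assumption), hN, hi,
      Or.inl (exists_hasType hN (l := 1) hd)⟩
  by_cases ha : ∃ v ∈ U, polar Q v (g v) ≠ 0
  · obtain ⟨v, hv, hva⟩ := ha
    refine plane v (g v) hv (hUi v hv) hva fun p hp => ?_
    obtain ⟨a, b, rfl⟩ := Submodule.mem_span_pair.1 hp
    rw [map_add, map_smul, map_smul, hgg]
    exact Submodule.add_mem _ (Submodule.smul_mem _ a (Submodule.subset_span (by simp)))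
      (Submodule.smul_mem _ b (Submodule.subset_span (by simp)))
  push Not at ha
  by_cases hf : ∀ u ∈ U, g u = u
  · obtain ⟨v, hv, hv0⟩ := Submodule.exists_mem_ne_zero_of_ne_bot hne
    obtain ⟨w, hw, hvw⟩ : ∃ w ∈ U, polar Q v w ≠ 0 := by
      by_contra hc
      push Not at hc
      exact hv0 (hU v hv hc)
    refine plane v w hv hw hvw fun p hp => ?_
    rw [hf p (Submodule.span_le.2 (by intro z hz; rcases hz with rfl | rfl <;> assumption) hp)]
    exact hp
  push Not at hf
  obtain ⟨u, hu, hgu⟩ := hf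
  set N : Module.End F (ι → F) := g - 1 with hN
  have hNa : ∀ z, N z = g z - z := fun z => rfl
  have hNU : ∀ z ∈ U, N z ∈ U := fun z hz => U.sub_mem (hUi z hz) hz
  have hNN : ∀ z, N (N z) = 0 := fun z => by
    rw [hNa, hNa, map_sub, hgg, show z - g z - (g z - z) = (2 : F) • (z - g z) by rw [two_smul]; abel,
      CharTwo.two_eq_zero, zero_smul]
  have hNadj : ∀ x y, polar Q (N x) y = polar Q x (N y) := fun x y => by
    have h1 : polar Q (g x) y = polar Q x (g y) := by rw [← hpol x (g y), hgg]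
    rw [hNa, hNa, polar_sub_left, polar_sub_right, h1]
  have hNN' : ∀ x y, polar Q (N x) (N y) = 0 := fun x y => by rw [hNadj, hNN, polar_zero_right]
  have hzero : ∀ z ∈ U, polar Q z (N z) = 0 := fun z hz => by
    rw [hNa, polar_sub_right, ha z hz, hself, sub_zero]
  have hsing : ∀ z ∈ U, Q (N z) = 0 := fun z hz => by
    have h := QuadraticMap.map_add Q z (N z)
    rw [hNa, add_sub_cancel, hgQ, ← hNa, hzero z hz, add_zero] at h
    exact left_eq_add.1 h
  obtain ⟨w, hw, huw⟩ : ∃ w ∈ U, polar Q (N u) w ≠ 0 := by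
    by_contra hc
    push Not at hc
    exact hgu (sub_eq_zero.1 (hU _ (hNU u hu) hc))
  have hwu : polar Q (N w) u ≠ 0 := by rw [polar_comm, ← hNadj]; exact huw
  set K : Submodule F (ι → F) := Submodule.span F {u, w} ⊔ Submodule.span F {N u, N w} with hK
  have hKU : K ≤ U := sup_le (Submodule.span_le.2 (by intro z hz; rcases hz with rfl | rfl <;> assumption))
    (Submodule.span_le.2 (by intro z hz; rcases hz with rfl | rfl; exacts [hNU u hu, hNU w hw]))
  have hcoord : ∀ z ∈ K, ∃ a b c e : F, z = a • u + b • w + (c • N u + e • N w) := fun z hz => by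
    obtain ⟨x, hx, y, hy, rfl⟩ := Submodule.mem_sup.1 hz
    obtain ⟨a, b, rfl⟩ := Submodule.mem_span_pair.1 hx
    obtain ⟨c, e, rfl⟩ := Submodule.mem_span_pair.1 hy
    exact ⟨a, b, c, e, rfl⟩
  have m1 : u ∈ K := Submodule.mem_sup_left (Submodule.subset_span (by simp))
  have m2 : w ∈ K := Submodule.mem_sup_left (Submodule.subset_span (by simp))
  have m3 : N u ∈ K := Submodule.mem_sup_right (Submodule.subset_span (by simp))
  have m4 : N w ∈ K := Submodule.mem_sup_right (Submodule.subset_span (by simp))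
  have hKN : Nd Q K := by
    intro z hz hz0
    obtain ⟨a, b, c, e, rfl⟩ := hcoord z hz
    have z1 : polar Q u (N u) = 0 := hzero u hu
    have z2 : polar Q w (N w) = 0 := hzero w hw
    have e3 := hz0 _ m3
    have e4 := hz0 _ m4
    simp only [polar_add_left, polar_smul_left, z1, hNN', smul_zero, zero_add, add_zero, smul_eq_mul, mul_zero, zero_add, add_zero, mul_eq_zero] at e3
    simp only [polar_add_left, polar_smul_left, z2, hNN', smul_zero, zero_add, add_zero, smul_eq_mul, mul_zero, zero_add, add_zero, mul_eq_zero] at e4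
    have hb : b = 0 := e3.resolve_right (by rwa [polar_comm])
    have ha' : a = 0 := e4.resolve_right (by rwa [polar_comm])
    subst hb ha'
    have e1 := hz0 _ m1
    have e2 := hz0 _ m2
    simp only [polar_add_left, polar_smul_left, zero_smul, zero_add, polar_comm (⇑Q) (N u) u, z1, smul_zero,
      smul_eq_mul, mul_zero, zero_add, add_zero, mul_eq_zero] at e1
    simp only [polar_add_left, polar_smul_left, zero_smul, zero_add, add_zero, polar_comm (⇑Q) (N w) w, z2, smul_zero,
      smul_eq_mul, mul_zero, zero_add, add_zero, mul_eq_zero] at e2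
    rw [e1.resolve_right hwu, e2.resolve_right huw]
    simp
  have hKi : ∀ z ∈ K, g z ∈ K := fun z hz => by
    obtain ⟨a, b, c, e, rfl⟩ := hcoord z hz
    have h1 : ∀ y, g y = y + N y := fun y => by rw [hNa, add_sub_cancel]
    simp only [h1 (_ + _), map_add, map_smul, hNN, smul_zero, add_zero]
    exact K.add_mem (K.add_mem (K.add_mem (K.smul_mem a m1) (K.smul_mem b m2))
      (K.add_mem (K.smul_mem c m3) (K.smul_mem e m4))) (K.add_mem (K.smul_mem a m3) (K.smul_mem b m4))
  set T : Submodule F (ι → F) := Submodule.span F {N u, N w} with hT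
  have hTd : finrank F T = 2 := by
    have hli : LinearIndependent F ![N u, N w] := by
      rw [LinearIndependent.pair_iff]
      intro a b hab
      have e1 := congrArg (fun z => polar Q z u) hab
      have e2 := congrArg (fun z => polar Q z w) hab
      simp only [polar_add_left, polar_smul_left, polar_comm (⇑Q) (N u) u, hzero u hu, polar_comm (⇑Q) (N w) w,
        hzero w hw, smul_zero, zero_add, add_zero, polar_zero_left, smul_eq_mul, mul_zero, zero_add, add_zero, mul_eq_zero] at e1 e2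
      exact ⟨e2.resolve_right huw, e1.resolve_right hwu⟩
    have := finrank_span_eq_card hli
    rw [show Set.range ![N u, N w] = ({N u, N w} : Set (ι → F)) by simp [Set.pair_comm]] at this
    simpa using this
  have hTs : ∀ z ∈ T, Q z = 0 := fun z hz => by
    obtain ⟨a, b, rfl⟩ := Submodule.mem_span_pair.1 hz
    rw [← map_smul, ← map_smul, ← map_add]
    exact hsing _ (U.add_mem (U.smul_mem a hu) (U.smul_mem b hw))
  have hTK : T ≤ K := le_sup_right
  have hKd : finrank F K = 2 * 2 := by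
    have h := CfsgLib.Forms.two_mul_finrank_singular_le (res Q K) (nd_iff_res.1 hKN) (T.comap K.subtype)
      (fun z hz => hTs _ hz)
    rw [(Submodule.comapSubtypeEquivOfLe hTK).finrank_eq, hTd] at h
    have h1 := Submodule.finrank_add_le_finrank_add_finrank (Submodule.span F {u, w}) T
    have h2 : finrank F (Submodule.span F {u, w} : Submodule F (ι → F)) ≤ 2 := by
      have := finrank_span_finset_le_card (R := F) ({u, w} : Finset (ι → F))
      rw [Finset.coe_pair] at this
      exact le_trans this Finset.card_le_two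
    rw [← hK] at h1
    omega
  obtain ⟨e, he, hKT⟩ := exists_hasType hKN hKd
  refine ⟨K, hKU, hKN, hKi, Or.inr ?_⟩
  rwa [← (isPlusTypeOn_iff hKN he hKT).1 ⟨T, hTK, hTs, by rw [hKd, hTd]⟩]

/-- An involutive isometry in characteristic two: planes and four-dimensional pieces of plus type. -/
theorem exists_pieces {g : Module.End F (ι → F)} (hgQ : ∀ v, Q (g v) = Q v) (hgg : ∀ v, g (g v) = v) :
    ∀ (n : ℕ) (U : Submodule F (ι → F)), Nd Q U → (∀ u ∈ U, g u ∈ U) → finrank F U = 2 * n →
      ∃ j x k : ℕ, j + x + 2 * k = n ∧ HasType Q U n ((-1) ^ x) ∧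
        ∀ j' ≤ j, ∀ x' ≤ x, ∀ k' ≤ k, ∃ W ≤ U, Nd Q W ∧ (∀ w ∈ W, g w ∈ W) ∧
          HasType Q W (j' + x' + 2 * k') ((-1) ^ x') := by
  intro n
  induction n using Nat.strong_induction_on with
  | _ n ih =>
    intro U hU hUi hUd
    rcases Nat.eq_zero_or_pos n with rfl | hn
    · obtain rfl : U = ⊥ := Submodule.finrank_eq_zero.1 (by omega)
      refine ⟨0, 0, 0, rfl, by rw [pow_zero]; exact hasType_bot Q, fun j' hj x' hx k' hk => ?_⟩
      obtain rfl : j' = 0 := by omega
      obtain rfl : x' = 0 := by omega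
      obtain rfl : k' = 0 := by omega
      refine ⟨⊥, le_rfl, nd_bot, fun w hw => ?_, by rw [pow_zero]; exact hasType_bot Q⟩
      rw [(Submodule.mem_bot F).1 hw, map_zero]; exact Submodule.zero_mem _
    obtain ⟨P, hPU, hPN, hPi, hP⟩ := exists_piece_ell hgQ hgg hU hUi (fun h => by
      rw [h, finrank_bot] at hUd; omega)
    obtain ⟨lp, e, hlp, hlp1, hPT, hPe⟩ : ∃ (lp : ℕ) (e : ℤ), finrank F P = 2 * lp ∧ 1 ≤ lp ∧ HasType Q P lp e ∧
        ((lp = 1 ∧ e = 1) ∨ (lp = 1 ∧ e = -1) ∨ (lp = 2 ∧ e = 1)) := by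
      rcases hP with ⟨e, rfl | rfl, h⟩ | h
      · exact ⟨1, 1, h.1, le_rfl, h, Or.inl ⟨rfl, rfl⟩⟩
      · exact ⟨1, -1, h.1, le_rfl, h, Or.inr (Or.inl ⟨rfl, rfl⟩)⟩
      · exact ⟨2, 1, h.1, by omega, h, Or.inr (Or.inr ⟨rfl, rfl⟩)⟩
    have hsurj : ∀ w ∈ P, ∃ z ∈ P, g z = w := fun w hw => ⟨g w, hPi w hw, hgg w⟩
    set U' := U ⊓ perp Q P with hU'
    have hsplit : ∀ x ∈ U, ∃ p ∈ P, x - p ∈ U' := fun x hx => by
      obtain ⟨p, hp, y, hy, rfl⟩ := Submodule.mem_sup.1
        (show x ∈ P ⊔ perp Q P by rw [(isCompl_perp hPN).sup_eq_top]; trivial)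
      exact ⟨p, hp, U.sub_mem hx (hPU hp), by rw [add_sub_cancel_left]; exact hy⟩
    have hU'N : Nd Q U' := fun x hx h => hU x hx.1 fun y hy => by
      obtain ⟨p, hp, hyp⟩ := hsplit y hy
      have h1 := h _ hyp
      rwa [polar_sub_right, polar_comm (⇑Q) x p, mem_perp.1 hx.2 p hp, sub_zero] at h1
    have ho : ∀ a ∈ P, ∀ b ∈ U', polar Q a b = 0 := fun a ha b hb => mem_perp.1 hb.2 a ha
    have hsup : P ⊔ U' = U := le_antisymm (sup_le hPU inf_le_left) fun x hx => by
      obtain ⟨p, hp, hxp⟩ := hsplit x hx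
      have := Submodule.add_mem_sup hp hxp
      rwa [add_sub_cancel] at this
    have hdim : finrank F U' = 2 * (n - lp) := by
      have := finrank_sup_orth hPN ho
      rw [hsup, hUd, hlp] at this
      omega
    have hlpn : lp ≤ n := by
      have := Submodule.finrank_mono hPU
      omega
    obtain ⟨j, x, k, hsum, hT', hsub⟩ := ih (n - lp) (by omega) U' hU'N
      (fun z hz => ⟨hUi z hz.1, perp_inv hgQ hsurj hz.2⟩) hdim
    have hUT := hPT.sup hPN ho hT'
    rw [hsup, show lp + (n - lp) = n by omega] at hUT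
    have keep : ∀ j' ≤ j, ∀ x' ≤ x, ∀ k' ≤ k, ∃ W ≤ U, Nd Q W ∧ (∀ w ∈ W, g w ∈ W) ∧
        HasType Q W (j' + x' + 2 * k') ((-1) ^ x') := fun j' hj x' hx k' hk => by
      obtain ⟨W, hW, h⟩ := hsub j' hj x' hx k' hk
      exact ⟨W, hW.trans inf_le_left, h⟩
    have glue : ∀ j' ≤ j, ∀ x' ≤ x, ∀ k' ≤ k, ∃ W ≤ U, Nd Q W ∧ (∀ w ∈ W, g w ∈ W) ∧
        HasType Q W (lp + (j' + x' + 2 * k')) (e * (-1) ^ x') := fun j' hj x' hx k' hk => by
      obtain ⟨W, hW, hWN, hWi, hWT⟩ := hsub j' hj x' hx k' hk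
      have ho' : ∀ a ∈ P, ∀ b ∈ W, polar Q a b = 0 := fun a ha b hb => ho a ha b (hW hb)
      refine ⟨P ⊔ W, sup_le hPU (hW.trans inf_le_left), nd_sup hPN hWN ho', fun z hz => ?_, hPT.sup hPN ho' hWT⟩
      obtain ⟨a, ha, b, hb, rfl⟩ := Submodule.mem_sup.1 hz
      rw [map_add]
      exact Submodule.add_mem_sup (hPi a ha) (hWi b hb)
    rcases hPe with ⟨rfl, rfl⟩ | ⟨rfl, rfl⟩ | ⟨rfl, rfl⟩
    · rw [one_mul] at hUT
      refine ⟨j + 1, x, k, by omega, hUT, fun j' hj x' hx k' hk => ?_⟩
      rcases le_or_gt j' j with h | h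
      · exact keep j' h x' hx k' hk
      · have := glue j le_rfl x' hx k' hk
        rw [one_mul] at this
        rwa [show j' + x' + 2 * k' = 1 + (j + x' + 2 * k') by omega]
    · rw [← pow_succ'] at hUT
      refine ⟨j, x + 1, k, by omega, hUT, fun j' hj x' hx k' hk => ?_⟩
      rcases le_or_gt x' x with h | h
      · exact keep j' hj x' h k' hk
      · have := glue j' hj x le_rfl k' hk
        rw [← pow_succ'] at this
        obtain rfl : x' = x + 1 := by omega
        rwa [show j' + (x + 1) + 2 * k' = 1 + (j' + x + 2 * k') by omega]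
    · rw [one_mul] at hUT
      refine ⟨j, x, k + 1, by omega, hUT, fun j' hj x' hx k' hk => ?_⟩
      rcases le_or_gt k' k with h | h
      · exact keep j' hj x' hx k' h
      · have := glue j' hj x' hx k le_rfl
        rw [one_mul] at this
        rwa [show j' + x' + 2 * k' = 2 + (j' + x' + 2 * k) by omega]

/-- An involutive isometry of a minus space fixes an elliptic subspace unless `d` is odd and `l` even. -/
theorem involution_fixes_elliptic {g : Module.End F (ι → F)} (hQ : (polarBilin Q).Nondegenerate)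
    (hgQ : ∀ v, Q (g v) = Q v) (hgg : ∀ v, g (g v) = v) {d : ℕ}
    (hV : HasType Q (⊤ : Submodule F (ι → F)) d (-1)) {l : ℕ} (hl : 1 ≤ l) (hld : l < d)
    (hcond : Even d ∨ Odd l) :
    ∃ W : Submodule F (ι → F), (Nd Q W ∧ HasType Q W l (-1)) ∧ ∀ w ∈ W, g w ∈ W := by
  obtain ⟨j, x, k, hsum, hT, hsub⟩ := exists_pieces hgQ hgg d ⊤ (nd_top hQ) (fun _ _ => trivial) hV.1
  have hxo : Odd x := by
    rcases Nat.even_or_odd x with he | ho
    · have := (hV.unique hT).2
      rw [he.neg_one_pow] at this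
      exact absurd this (by norm_num)
    · exact ho
  obtain ⟨a, ha⟩ := hxo
  obtain ⟨j', x', k', hj, hx, hk, hx'o, hsum'⟩ : ∃ j' x' k', j' ≤ j ∧ x' ≤ x ∧ k' ≤ k ∧ Odd x' ∧
      j' + x' + 2 * k' = l := by
    rcases Nat.eq_zero_or_pos j with rfl | hj0
    · have hl' : Odd l := hcond.resolve_left fun ⟨t, ht⟩ => by omega
      obtain ⟨t, rfl⟩ := hl'
      exact ⟨0, min (2 * t + 1) x, (2 * t + 1 - min (2 * t + 1) x) / 2, le_rfl, min_le_right _ _, by omega,
        ⟨min t a, by omega⟩, by omega⟩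
    · rcases le_or_gt l x with hlx | hlx
      · rcases Nat.even_or_odd' l with ⟨t, rfl | rfl⟩
        · exact ⟨1, 2 * t - 1, 0, hj0, by omega, by omega, ⟨t - 1, by omega⟩, by omega⟩
        · exact ⟨0, 2 * t + 1, 0, by omega, hlx, by omega, ⟨t, rfl⟩, by omega⟩
      · exact ⟨l - x - 2 * min k ((l - x) / 2), x, min k ((l - x) / 2), by omega, le_rfl, min_le_left _ _,
          ⟨a, ha⟩, by omega⟩
  obtain ⟨W, -, hWN, hWi, hWT⟩ := hsub j' hj x' hx k' hk
  rw [hx'o.neg_one_pow, hsum'] at hWT
  exact ⟨W, ⟨hWN, hWT⟩, hWi⟩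

end CharTwo

end CfsgLib.Derangements.Sub
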