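import Mathlib
import Cfsg.Agent.Lib.Derangements.SubspaceElliptic
import Cfsg.Agent.Lib.Derangements.SubspaceEllipticTwo
import Cfsg.Agent.Lib.Derangements.SubspaceEllipticChar
import Cfsg.Agent.Lib.Derangements.SubspaceEvenOddMain

/-!
Elements of prime order fixing non-degenerate subspaces of given type: from the group to endomorphisms.
-/

set_option autoImplicit false
set_option linter.unusedSectionVars false
set_option linter.style.haveILetI false

namespace CfsgLib.Derangements.Sub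

open Module QuadraticMap CfsgLib.Derangements
open scoped Matrix

universe u

variable {F : Type u} [Field F] [Fintype F] {ι : Type} [Fintype ι] [DecidableEq ι] {Q : QuadraticForm F (ι → F)}

/-- Elliptic subspaces in the vocabulary of the statements. -/
theorem spec_elliptic_iff {f : (ι → F) → F} (hf : ⇑Q = f) (l : ℕ) (W : Submodule F (ι → F)) :
    (finrank F W = 2 * l ∧ Cfsg.Geo.IsNondegenerateOn (QuadraticMap.polar f) W ∧ ¬ Cfsg.Geo.IsPlusTypeOn f W) ↔
      Nd Q W ∧ HasType Q W l (-1) := by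
  subst hf
  rw [← nd_iff_isNondegenerateOn]
  constructor
  · rintro ⟨h1, h2, h3⟩
    obtain ⟨ε, hε, hT⟩ := exists_hasType h2 h1
    rcases hε with rfl | rfl
    · exact absurd ((isPlusTypeOn_iff h2 (Or.inl rfl) hT).2 rfl) h3
    · exact ⟨h2, hT⟩
  · rintro ⟨h2, hT⟩
    exact ⟨hT.1, h2, fun h => absurd ((isPlusTypeOn_iff h2 (Or.inr rfl) hT).1 h) (by norm_num)⟩

omit [Fintype F] in
theorem allFixP_iff {f : (ι → F) → F} (hf : ⇑Q = f) {p p' : Submodule F (ι → F) → Prop} (hp : ∀ W, p' W ↔ p W) (r : ℕ) :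
    (∀ x : GL ι F, x ∈ Cfsg.Geo.omegaGL f →
      (∃ z : F, ((x ^ r : GL ι F) : Matrix ι ι F) = z • (1 : Matrix ι ι F)) →
      (∀ z : F, (x : Matrix ι ι F) ≠ z • (1 : Matrix ι ι F)) →
      ∃ W : Submodule F (ι → F), p' W ∧ W.map (Matrix.toLin' (x : Matrix ι ι F)) ≤ W) ↔ AllFixP Q p r := by
  simp only [hp, map_le_iff_invariant]
  subst hf
  rfl

/-- For odd `r` it is enough to look at isometries of order `r`. -/
theorem allFixP_odd {r : ℕ} (hr : Odd r) (hQ : (polarBilin Q).Nondegenerate) (hι : 5 ≤ Fintype.card ι)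
    (p : Submodule F (ι → F) → Prop) :
    AllFixP Q p r ↔ ∀ g : Module.End F (ι → F), g ^ r = 1 → (∀ v, Q (g v) = Q v) → g ≠ 1 →
      ∃ W : Submodule F (ι → F), p W ∧ ∀ w ∈ W, g w ∈ W := by
  haveI : Nonempty ι := Fintype.card_pos_iff.1 (by omega)
  constructor
  · intro H g hg hgQ hg1
    obtain ⟨x, hx, hxr, hx1, hxg⟩ := exists_matrix hQ (Or.inr (by omega)) hr hg hgQ
    obtain ⟨W, hW, hWi⟩ := H x hx ⟨1, by rw [hxr, one_smul]; rfl⟩ fun z hz => by
      have hgz : g = z • 1 := by rw [← hxg, hz, map_smul, Matrix.toLin'_one]; rfl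
      haveI : Nontrivial (ι → F) := Module.nontrivial_of_finrank_pos (R := F) (by
        rw [Module.finrank_fintype_fun_eq_card]; omega)
      obtain ⟨v, hv⟩ := CfsgLib.Classes.exists_anisotropic_vector Q hQ
      have h1 := hgQ v
      rw [hgz, LinearMap.smul_apply, Module.End.one_apply, QuadraticMap.map_smul, smul_eq_mul] at h1
      have hz2 : z * z = 1 := mul_right_cancel₀ hv (h1.trans (one_mul _).symm)
      obtain ⟨k, rfl⟩ := hr
      have hzr : z ^ (2 * k + 1) = z := by rw [pow_succ, pow_mul, pow_two, hz2, one_pow, one_mul]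
      rw [hgz, smul_pow, one_pow, hzr] at hg
      exact hg1 (hgz.trans hg)
    exact ⟨W, hW, fun w hw => hxg ▸ hWi w hw⟩
  · intro H x hx hz hns
    obtain ⟨g, hg, hgQ, hg1, hiff⟩ := exists_end hQ hr hx hz hns
    obtain ⟨W, hW, hWi⟩ := H g hg hgQ hg1
    exact ⟨W, hW, map_le_iff_invariant.1 ((hiff W).2 hWi)⟩

/-- Primes prime to `2 q`. -/
theorem ee_other {r h : ℕ} {η : ℤ} [hr : Fact r.Prime] (P : Params F r h η) (hrodd : Odd r)
    (hQ : (polarBilin Q).Nondegenerate) {d : ℕ} (hd : 3 ≤ d) {εV : ℤ} (hεV : εV = 1 ∨ εV = -1)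
    (hT : HasType Q (⊤ : Submodule F (ι → F)) d εV) {l : ℕ} (hl : 1 ≤ l) (hld : l < d) {ε : ℤ}
    (hε : ε = 1 ∨ ε = -1) (hdvd : r ∣ Nat.card {W : Submodule F (ι → F) // Nd Q W ∧ HasType Q W l ε}) :
    AllFixP Q (fun W => Nd Q W ∧ HasType Q W l ε) r ↔
      (d % h = 0 ∧ εV ≠ η ^ (d / h)) ∨
      (h ≤ l ∧ ((0 < l % h ∧ (l % h < d % h ∨ (l % h = d % h ∧ ε = εV * η ^ (d / h + l / h)))) ∨
        (l % h = 0 ∧ ε = η ^ (l / h)))) := by
  have hn : finrank F (ι → F) = 2 * d := (hasType_top_iff.1 hT).1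
  rw [Module.finrank_fintype_fun_eq_card] at hn
  rw [allFixP_odd hrodd hQ (by omega), forall_ee_iff P hQ hεV hT hε,
    room_ee_arith P.pm hεV hε P.pos hl hld (fun hex => not_dvd_card_ee P hQ (by omega) hεV hT hl hε hex hdvd)]

/-- The residue arithmetic of the statements. -/
theorem div_add_sub (d l : ℕ) {h : ℕ} (hh : 0 < h) (he : l % h = d % h) :
    (2 * d + 2 * l - 2 * (2 * (d % h))) / (2 * h) = d / h + l / h := by
  have h1 := Nat.div_add_mod d h
  have h2 := Nat.div_add_mod l h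
  refine Nat.div_eq_of_eq_mul_left (by omega) ?_
  rw [add_mul, mul_comm (d / h), mul_comm (l / h), mul_assoc, mul_assoc]
  omega

end CfsgLib.Derangements.Sub
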